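import Mathlib
import Cfsg.Agent.Lib.Classical.OrthMatrix
import Cfsg.Agent.Lib.Classical.QuadOrders

/-!
The subgroup generated by the reflections of one square class has index two in even dimension.
-/

set_option autoImplicit false

namespace Cfsg.Lib.Classical.ClassClosure

open Module Reflections Spinor

variable {F V : Type*} [Field F] [Finite F] [AddCommGroup V] [Module F V] [FiniteDimensional F V] {Q : QuadraticForm F V}
  (c : F)

local notation "β" => QuadraticMap.polarBilin Q

/-- `Q v` is in the square class of `c`. -/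
def InClass (Q : QuadraticForm F V) (v : V) : Prop := ∃ t, t ≠ 0 ∧ Q v = c * t ^ 2

/-- The subgroup generated by reflections of the class. -/
noncomputable def classGroup (Q : QuadraticForm F V) : Subgroup (Witt.quadIso Q) :=
  Subgroup.closure {g | ∃ v, InClass c Q v ∧ g = refl Q v}

variable (hB : (QuadraticMap.polarBilin Q).Nondegenerate) (h2 : (2 : F) ≠ 0) (hc : c ≠ 0)

include hc in
omit [Finite F] [FiniteDimensional F V] in
lemma ne_zero_of_inClass {v : V} (h : InClass c Q v) : Q v ≠ 0 := by
  obtain ⟨t, ht, e⟩ := h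
  rw [e]
  exact mul_ne_zero hc (pow_ne_zero 2 ht)

include hc in
omit [FiniteDimensional F V] in
lemma inClass_iff {v : V} (hv : Q v ≠ 0) : InClass c Q v ↔ (IsSquare (Q v) ↔ IsSquare c) := by
  classical
  haveI := Fintype.ofFinite F
  constructor
  · rintro ⟨t, ht, e⟩
    rw [e]
    exact ⟨fun ⟨r, hr⟩ => ⟨r / t, by field_simp; linear_combination hr⟩, fun ⟨r, hr⟩ => ⟨r * t, by rw [hr]; ring⟩⟩
  · intro h
    obtain ⟨t, ht, e⟩ := exists_mul_sq hc hv h.symm
    exact ⟨t, ht, by rw [e]; ring⟩

include hB h2 hc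

lemma pair_plane [Finite V] {w w' : V} (hw : Q w ≠ 0) (hw' : Q w' ≠ 0) (nw : ¬ InClass c Q w) (nw' : ¬ InClass c Q w')
    (hnd : 4 * Q w * Q w' - β w w' ^ 2 ≠ 0) : refl Q w * refl Q w' ∈ classGroup c Q := by
  classical
  haveI := Fintype.ofFinite F
  have hex := OrthMatrix.hex_of_two_ne (V := V) h2
  have h4 : (4 : F) ≠ 0 := by rw [show (4 : F) = 2 * 2 by norm_num]; exact mul_ne_zero h2 h2
  set w'' := w' - (β w w' / (2 * Q w)) • w with hw''
  have hQ : Q w'' ≠ 0 := by
    have : Q w'' = (4 * Q w * Q w' - β w w' ^ 2) / (4 * Q w) := by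
      rw [hw'', sub_eq_add_neg, ← neg_smul, Witt.quad_add, Witt.quad_smul, map_smul, Witt.polar_symm' Q w' w, smul_eq_mul]
      field_simp
      ring
    rw [this]
    refine div_ne_zero hnd (mul_ne_zero ?_ hw)
    rw [show (4 : F) = 2 * 2 by norm_num]
    exact mul_ne_zero h2 h2
  have horth : β w w'' = 0 := by
    rw [hw'', map_sub, map_smul, Witt.polar_self', smul_eq_mul]
    field_simp
    ring
  obtain ⟨s, t, hv⟩ : ∃ s t : F, Q (s • w + t • w'') = c := by
    open Polynomial in
    obtain ⟨s, t, hst⟩ := FiniteField.exists_root_sum_quadratic (R := F) (f := C (Q w) * X ^ 2) (g := C (Q w'') * X ^ 2 - C c)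
      (by rw [degree_C_mul hw, degree_X_pow]; rfl)
      (by rw [degree_sub_C (by rw [degree_C_mul hQ, degree_X_pow]; norm_num), degree_C_mul hQ, degree_X_pow]; rfl)
      (FiniteField.odd_card_of_char_ne_two fun h => h2 (by haveI := ringChar.of_eq h; exact CharTwo.two_eq_zero))
    simp only [Polynomial.eval_pow, Polynomial.eval_X, Polynomial.eval_sub, Polynomial.eval_mul, Polynomial.eval_C] at hst
    refine ⟨s, t, ?_⟩
    rw [Witt.quad_add, Witt.quad_smul, Witt.quad_smul, map_smul, map_smul, LinearMap.smul_apply, horth, smul_zero, smul_zero]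
    linear_combination hst
  set v := s • w + t • w'' with hvdef
  have hvc : InClass c Q v := ⟨1, one_ne_zero, by rw [hv]; ring⟩
  have hv0 : Q v ≠ 0 := ne_zero_of_inClass c hc hvc
  let P := Submodule.span F ({w, w'} : Set V)
  have hwP : w ∈ P := Submodule.subset_span (by simp)
  have hw'P : w' ∈ P := Submodule.subset_span (by simp)
  have hvP : v ∈ P := P.add_mem (P.smul_mem _ hwP) (P.smul_mem _ (P.sub_mem hw'P (P.smul_mem _ hwP)))
  set g := refl Q w * refl Q w' * refl Q v with hg
  have hmov : movSp Q g ≤ P := by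
    have hr : ∀ (u y : V), u ∈ P → (refl Q u).1 y - y ∈ P := fun u y hu => by
      rw [refl_apply, sub_sub_cancel_left]
      exact P.neg_mem (P.smul_mem _ hu)
    rintro x ⟨y, rfl⟩
    show (refl Q w).1 ((refl Q w').1 ((refl Q v).1 y)) - y ∈ P
    have := P.add_mem (P.add_mem (hr w ((refl Q w').1 ((refl Q v).1 y)) hwP) (hr w' ((refl Q v).1 y) hw'P)) (hr v y hvP)
    rwa [sub_add_sub_cancel, sub_add_sub_cancel] at this
  have hle : rk Q g ≤ 2 := (Submodule.finrank_mono hmov).trans ((finrank_span_le_card _).trans (by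
    simpa using Finset.card_le_two))
  have hd : delta hB hex g = -1 := by
    rw [hg, map_mul, map_mul, delta_refl hB hex hw, delta_refl hB hex hw', delta_refl hB hex hv0]; decide
  have hrk : rk Q g = 1 := by
    change (-1 : ℤˣ) ^ rk Q g = -1 at hd
    rcases Nat.lt_or_ge (rk Q g) 3 with h | h
    · interval_cases hk : rk Q g <;> simp_all
    · omega
  obtain ⟨x, hxm, hx⟩ := not_totally_of_rk_one hB hrk
  have hgx : g = refl Q x := by
    have h := rk_eq_zero (g := refl Q x * g) (by have := rk_mul_of_mem hB g hx hxm; omega)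
    rw [← mul_one (refl Q x), ← h, ← mul_assoc, refl_mul_self, one_mul]
  have hxc : InClass c Q x := by
    rw [inClass_iff c hc hx, ← theta_refl h2 hx, ← hgx, hg, map_mul, map_mul]
    have hww : theta (refl Q w) = theta (refl Q w') := by
      have a1 := theta_refl (Q := Q) h2 hw
      have a2 := theta_refl (Q := Q) h2 hw'
      rw [inClass_iff c hc hw] at nw
      rw [inClass_iff c hc hw'] at nw'
      rcases Int.units_eq_one_or (theta (refl Q w)) with e | e <;> rcases Int.units_eq_one_or (theta (refl Q w')) with e' | e' <;>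
        rw [e, e'] <;> rw [e] at a1 <;> rw [e'] at a2 <;> simp at a1 a2 <;> exfalso <;> tauto
    rw [hww, Int.units_mul_self, one_mul, theta_refl h2 hv0, hv]
  have : refl Q w * refl Q w' = refl Q x * refl Q v := by
    rw [← hgx, hg, mul_assoc _ (refl Q v), refl_mul_self, mul_one]
  rw [this]
  exact mul_mem (Subgroup.subset_closure ⟨x, hxc, rfl⟩) (Subgroup.subset_closure ⟨v, hvc, rfl⟩)

lemma pair_mem [Finite V] (hn : finrank F V = 2 ∨ (4 ≤ finrank F V ∧ (5 ≤ Nat.card F ∨ 6 ≤ finrank F V))) {w w' : V}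
    (hw : Q w ≠ 0) (hw' : Q w' ≠ 0) (nw : ¬ InClass c Q w) (nw' : ¬ InClass c Q w') :
    refl Q w * refl Q w' ∈ classGroup c Q := by
  classical
  haveI := Fintype.ofFinite F
  by_cases hnd : 4 * Q w * Q w' - β w w' ^ 2 ≠ 0
  · exact pair_plane c hB h2 hc hw hw' nw nw' hnd
  push Not at hnd
  obtain ⟨d, hd, hdeq⟩ : ∃ d, d ≠ 0 ∧ Q w = d := ⟨_, hw, rfl⟩
  have hbb : β w w' ≠ 0 := fun h0 => by
    rw [h0] at hnd
    refine mul_ne_zero (mul_ne_zero ?_ hw) hw' (show 4 * Q w * Q w' = 0 by linear_combination hnd)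
    rw [show (4 : F) = 2 * 2 by norm_num]
    exact mul_ne_zero h2 h2
  set u := (2 * d / β w w') • w' with hu
  have ht : 2 * d / β w w' ≠ 0 := div_ne_zero (mul_ne_zero h2 hd) hbb
  have hru : refl Q u = refl Q w' := refl_smul Q ht
  have hQu : Q u = d := by
    rw [hu, Witt.quad_smul]
    field_simp
    linear_combination hnd - 4 * Q w' * hdeq
  have hwu : β w u = 2 * d := by rw [hu, map_smul, smul_eq_mul]; field_simp
  rw [← hru]
  clear_value u
  obtain ⟨r, hr⟩ : ∃ r, r = u - w := ⟨_, rfl⟩
  by_cases hr0 : r = 0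
  · rw [show u = w from sub_eq_zero.1 (hr.symm.trans hr0), refl_mul_self]; exact one_mem _
  have hQr : Q r = 0 := by
    rw [hr, sub_eq_add_neg, Witt.quad_add, QuadraticMap.map_neg, map_neg, Witt.polar_symm' Q u w, hwu, hQu, hdeq]
    ring
  have hwr : β w r = 0 := by rw [hr, map_sub, hwu, Witt.polar_self', hdeq, sub_self]
  obtain ⟨y, hy⟩ : ∃ y, β r y ≠ 0 := by
    by_contra! h0
    exact hr0 (hB.1 r h0)
  obtain ⟨y1, hy1⟩ : ∃ y1, y1 = (β r y)⁻¹ • (y - (β w y / (2 * d)) • w) := ⟨_, rfl⟩
  have hrw : β r w = 0 := by rw [Witt.polar_symm', hwr]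
  have hry : β r y1 = 1 := by rw [hy1, map_smul, map_sub, map_smul, hrw, smul_zero, sub_zero, smul_eq_mul, inv_mul_cancel₀ hy]
  have hwy : β w y1 = 0 := by
    rw [hy1, map_smul, map_sub, map_smul, Witt.polar_self', hdeq, smul_eq_mul, smul_eq_mul]
    field_simp
    ring
  obtain ⟨s, hs⟩ : ∃ s, s = y1 - Q y1 • r := ⟨_, rfl⟩
  have hrr : β r r = 0 := by rw [Witt.polar_self', hQr, mul_zero]
  have hrs : β r s = 1 := by rw [hs, map_sub, map_smul, hrr, smul_zero, sub_zero, hry]
  have hws : β w s = 0 := by rw [hs, map_sub, map_smul, hwy, hwr, smul_zero, sub_zero]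
  have hQs : Q s = 0 := by
    rw [hs, sub_eq_add_neg, ← neg_smul, Witt.quad_add, Witt.quad_smul, hQr, map_smul, Witt.polar_symm' Q y1 r, hry, smul_eq_mul]
    ring
  have huw : u = w + r := by rw [hr]; abel
  obtain ⟨z, hQz, hwz, huz⟩ : ∃ z, Q z = d ∧ β w z = 0 ∧ β u z ^ 2 ≠ (2 * d) ^ 2 := by
    rcases hn with h | ⟨-, h⟩
    · exfalso
      have hind : LinearIndependent F ![w, r] := LinearIndependent.pair_iff.2 fun a b e => by
        have h1 := congrArg (β w) e
        simp [map_add, map_smul, hwr, Witt.polar_self', hdeq, h2, hd] at h1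
        rw [h1, zero_smul, zero_add] at e
        exact ⟨h1, (smul_eq_zero.1 e).resolve_right hr0⟩
      have hspan := hind.span_eq_top_of_card_eq_finrank (by simpa using h.symm)
      obtain ⟨a, b, hab⟩ : ∃ a b : F, a • w + b • r = s := by
        have : s ∈ Submodule.span F ({w, r} : Set V) := by
          rw [Matrix.range_cons_cons_empty] at hspan; rw [hspan]; trivial
        exact Submodule.mem_span_pair.1 this
      have := congrArg (β r) hab
      simp [map_add, map_smul, hrw, hrr, hrs] at this
    rcases h with hq | hn6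
    · obtain ⟨e, -, he⟩ := Finset.exists_mem_notMem_of_card_lt_card (s := ({0, 2 * d, -(2 * d)} : Finset F)) (t := Finset.univ)
        (lt_of_le_of_lt Finset.card_le_three (by rw [Finset.card_univ, ← Nat.card_eq_fintype_card]; omega))
      simp only [Finset.mem_insert, Finset.mem_singleton, not_or] at he
      refine ⟨(d / e) • r + e • s, ?_, ?_, fun h => ?_⟩
      · rw [Witt.quad_add, Witt.quad_smul, Witt.quad_smul, hQr, hQs, map_smul, map_smul, LinearMap.smul_apply, hrs, smul_eq_mul, smul_eq_mul]
        field_simp [he.1]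
        ring
      · rw [map_add, map_smul, map_smul, hwr, hws, smul_zero, smul_zero, add_zero]
      · simp [huw, map_add, map_smul, LinearMap.add_apply, hwr, hws, hrr, hrs] at h
        rcases sq_eq_sq_iff_eq_or_eq_neg.1 h with e' | e'
        · exact he.2.1 e'
        · exact he.2.2 e'
    · let T : V →ₗ[F] F × F × F := (β w).prod ((β r).prod (β s))
      let U := LinearMap.ker T
      have hU : ∀ {x}, x ∈ U ↔ β w x = 0 ∧ β r x = 0 ∧ β s x = 0 := fun {x} => by
        show T x = 0 ↔ _
        simp [T]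
      have hsr : β s r = 1 := by rw [Witt.polar_symm', hrs]
      have hss : β s s = 0 := by rw [Witt.polar_self', hQs, mul_zero]
      have hsw : β s w = 0 := by rw [Witt.polar_symm', hws]
      have hBU : (QuadraticMap.polarBilin (Q.comp U.subtype)).Nondegenerate := by
        refine QuadOrders.nondeg_of_left (fun a b => Witt.polar_symm' _ a b) fun x hx => Subtype.ext (hB.1 _ fun y => ?_)
        obtain ⟨hx1, hx2, hx3⟩ := hU.1 x.2
        have hy' : y - (β w y / (2 * d)) • w - β s y • r - β r y • s ∈ U := hU.2 ⟨by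
          simp only [map_sub, map_smul, Witt.polar_self', hdeq, hwr, hws, smul_eq_mul]; field_simp; ring, by
          simp [map_sub, map_smul, hrw, hrr, hrs], by
          simp [map_sub, map_smul, hsw, hsr, hss]⟩
        have h1 := hx ⟨_, hy'⟩
        simp only [QuadraticMap.polarBilin_apply_apply, QuadraticMap.polar, QuadraticMap.comp_apply, Submodule.coe_subtype,
          Submodule.coe_add] at h1
        rw [← QuadraticMap.polar, ← QuadraticMap.polarBilin_apply_apply] at h1
        simp only [map_sub, map_smul, Witt.polar_symm' Q (x : V) w, Witt.polar_symm' Q (x : V) r, Witt.polar_symm' Q (x : V) s,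
          hx1, hx2, hx3, smul_zero, sub_zero] at h1
        exact h1
      have hdim : 2 ≤ finrank F U := by
        have h1 := T.finrank_range_add_finrank_ker
        have h3 := (LinearMap.range T).finrank_le
        rw [Module.finrank_prod, Module.finrank_prod, finrank_self] at h3
        show 2 ≤ finrank F (LinearMap.ker T)
        omega
      obtain ⟨z, hz⟩ := exists_value hBU h2 hdim d
      obtain ⟨hz1, hz2, hz3⟩ := hU.1 z.2
      refine ⟨z.1, hz, hz1, ?_⟩
      rw [huw, map_add, LinearMap.add_apply, hz1, hz2]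
      simpa using fun h => pow_ne_zero 2 (mul_ne_zero h2 hd) h.symm
  have nz : ¬ InClass c Q z := by
    rw [inClass_iff c hc (by rw [hQz]; exact hd), hQz, ← hdeq, ← inClass_iff c hc hw]; exact nw
  have nu : ¬ InClass c Q u := by
    rw [inClass_iff c hc (by rw [hQu]; exact hd), hQu, ← hdeq, ← inClass_iff c hc hw]; exact nw
  have hQu0 : Q u ≠ 0 := by rw [hQu]; exact hd
  have hQz0 : Q z ≠ 0 := by rw [hQz]; exact hd
  have p1 := pair_plane c hB h2 hc hw hQz0 nw nz (by
    rw [hwz, hQz, hdeq, show 4 * d * d - (0 : F) ^ 2 = (2 * d) ^ 2 by ring]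
    exact pow_ne_zero 2 (mul_ne_zero h2 hd))
  have p2 := pair_plane c hB h2 hc hQz0 hQu0 nz nu (by
    rw [Witt.polar_symm' Q z u, hQz, hQu, show 4 * d * d = (2 * d) ^ 2 by ring, sub_ne_zero]
    exact huz.symm)
  have := mul_mem p1 p2
  rwa [mul_assoc, ← mul_assoc (refl Q z), refl_mul_self, one_mul] at this

theorem index_two [Finite V] (hn : finrank F V = 2 ∨ (4 ≤ finrank F V ∧ (5 ≤ Nat.card F ∨ 6 ≤ finrank F V))) :
    (classGroup c Q).index = 2 := by
  classical
  haveI := Fintype.ofFinite F
  have hex := OrthMatrix.hex_of_two_ne (V := V) h2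
  obtain ⟨d, hd, hdc⟩ : ∃ d : F, d ≠ 0 ∧ ¬ (IsSquare d ↔ IsSquare c) := by
    obtain ⟨e, he⟩ := FiniteField.exists_nonsquare (F := F) fun h => h2 (by haveI := ringChar.of_eq h; exact CharTwo.two_eq_zero)
    by_cases hs : IsSquare c
    · exact ⟨e, fun h => he (h ▸ IsSquare.zero), by tauto⟩
    · exact ⟨1, one_ne_zero, by simp [hs]⟩
  obtain ⟨w, hQw⟩ := exists_value hB h2 (by omega) d
  have hw : Q w ≠ 0 := by rw [hQw]; exact hd
  have nw : ¬ InClass c Q w := by rw [inClass_iff c hc hw, hQw]; exact hdc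
  have hgen : ∀ g, g ∈ classGroup c Q ∨ refl Q w * g ∈ classGroup c Q := by
    intro g
    induction g using induction_refl hB hex with
    | h1 => exact Or.inl (one_mem _)
    | h v g hv ih =>
      by_cases hvc : InClass c Q v
      · rcases ih with h | h
        · exact Or.inl (mul_mem (Subgroup.subset_closure ⟨v, hvc, rfl⟩) h)
        · refine Or.inr ?_
          have hconj : InClass c Q ((refl Q w).1 v) := by
            obtain ⟨t, ht, e⟩ := hvc
            exact ⟨t, ht, by rw [(refl Q w).2, e]⟩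
          have h1 : refl Q ((refl Q w).1 v) ∈ classGroup c Q := Subgroup.subset_closure ⟨_, hconj, rfl⟩
          have := mul_mem h1 h
          rwa [← conj_refl, refl_inv, mul_assoc, mul_assoc, ← mul_assoc (refl Q w) (refl Q w), refl_mul_self, one_mul] at this
      · have hp := pair_mem c hB h2 hc hn hw hv nw hvc
        rcases ih with h | h
        · exact Or.inr (by rw [← mul_assoc]; exact mul_mem hp h)
        · refine Or.inl ?_
          have := mul_mem (inv_mem hp) h
          rwa [mul_inv_rev, refl_inv, refl_inv, mul_assoc, ← mul_assoc (refl Q w) (refl Q w), refl_mul_self, one_mul] at this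
  have hnot : refl Q w ∉ classGroup c Q := by
    intro hmem
    obtain ⟨v0, hv0⟩ := exists_value hB h2 (show 2 ≤ finrank F V by omega) c
    set p := phi hB hex (refl Q v0) with hp
    have hp2 : p * p = 1 := by rw [hp, ← map_mul, refl_mul_self, map_one]
    have hv00 : Q v0 ≠ 0 := by rw [hv0]; exact hc
    have hsub : classGroup c Q ≤ (Subgroup.zpowers p).comap (phi hB hex) := (Subgroup.closure_le _).2 (by
      rintro g ⟨v, hv, rfl⟩
      have hv' := ne_zero_of_inClass c hc hv
      show phi hB hex (refl Q v) ∈ Subgroup.zpowers p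
      rw [abelian_same hB (phi hB hex) hv' hv00 (by rw [hv0]; exact (inClass_iff c hc hv').1 hv)]
      exact Subgroup.mem_zpowers _)
    obtain ⟨i, hi⟩ := hsub hmem
    simp only [Subgroup.mem_zpowers_iff] at hi
    have hmul : p ^ i = 1 ∨ p ^ i = p := by
      rcases Int.even_or_odd i with ⟨j, rfl⟩ | ⟨j, rfl⟩
      · left; rw [← two_mul, zpow_mul, zpow_two, hp2, one_zpow]
      · right; rw [zpow_add, zpow_mul, zpow_two, hp2, one_zpow, one_mul, zpow_one]
    have e1 : (phi hB hex (refl Q w)).1 = -1 := delta_refl hB hex hw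
    rcases hmul with h | h <;> rw [h] at hi
    · rw [← hi] at e1; simp at e1
    · have e2 : theta (refl Q v0) = theta (refl Q w) := congrArg Prod.snd hi
      have a1 := theta_refl (Q := Q) h2 hv00
      have a2 := theta_refl (Q := Q) h2 hw
      rw [e2, a2, hQw, hv0] at a1
      exact hdc a1
  rw [Subgroup.index_eq_two_iff']
  refine ⟨refl Q w, fun g => ?_⟩
  rcases hgen g with h | h
  · exact Or.inr ⟨h, fun h' => hnot (by have := mul_mem h' (inv_mem h); rwa [mul_inv_cancel_right] at this)⟩
  · exact Or.inl ⟨h, fun h' => hnot (by have := mul_mem h (inv_mem h'); rwa [mul_inv_cancel_right] at this)⟩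

end Cfsg.Lib.Classical.ClassClosure
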