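import Mathlib

/-!
Common nonzero zeros of two quadratic forms on a space of dimension at least five, and of one
quadratic form in dimension three, over a finite field.
-/

set_option autoImplicit false

namespace Cfsg.Lib.Classical

open Module MvPolynomial

variable {F V : Type*} [Field F] [Finite F] [AddCommGroup V] [Module F V] [FiniteDimensional F V]

/-- Two quadratic forms have a common nonzero zero on a subspace of dimension at least five. -/
theorem exists_common_zero (β γ : LinearMap.BilinForm F V) (W : Submodule F V)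
    (hW : 5 ≤ finrank F W) : ∃ p ∈ W, p ≠ 0 ∧ β p p = 0 ∧ γ p p = 0 := by
  classical
  have := Fintype.ofFinite F
  obtain ⟨p₀, hp₀⟩ := CharP.exists F
  have : Fact p₀.Prime := ⟨CharP.char_is_prime F p₀⟩
  let b := Module.finBasis F W
  let poly : LinearMap.BilinForm F V → MvPolynomial (Fin (finrank F W)) F := fun δ =>
    ∑ i, ∑ j, C (δ (b i : V) (b j : V)) * (X i * X j)
  have heval : ∀ (δ : LinearMap.BilinForm F V) (x : Fin (finrank F W) → F),
      MvPolynomial.eval x (poly δ) = δ (∑ i, x i • (b i : V)) (∑ i, x i • (b i : V)) := by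
    intro δ x
    simp only [poly, map_sum, map_mul, eval_C, eval_X, map_smul, LinearMap.sum_apply,
      LinearMap.smul_apply, smul_eq_mul]
    simp only [Finset.mul_sum]
    rw [Finset.sum_comm]
    exact Finset.sum_congr rfl fun i _ => Finset.sum_congr rfl fun j _ => by ring
  have hdeg : ∀ δ, (poly δ).totalDegree ≤ 2 := by
    intro δ
    refine totalDegree_finsetSum_le fun i _ => totalDegree_finsetSum_le fun j _ => ?_
    refine (totalDegree_mul _ _).trans ?_
    rw [totalDegree_C, zero_add]
    exact (totalDegree_mul _ _).trans (by simp [totalDegree_X])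
  have hdiv := char_dvd_card_solutions_of_add_lt p₀ (f₁ := poly β) (f₂ := poly γ) (by
    rw [Fintype.card_fin]
    have := hdeg β
    have := hdeg γ
    omega)
  have hone : 1 < Fintype.card { x : Fin (finrank F W) → F //
      MvPolynomial.eval x (poly β) = 0 ∧ MvPolynomial.eval x (poly γ) = 0 } := by
    have hne : Nonempty { x : Fin (finrank F W) → F //
        MvPolynomial.eval x (poly β) = 0 ∧ MvPolynomial.eval x (poly γ) = 0 } :=
      ⟨⟨0, by rw [heval, heval]; simp⟩⟩
    have hpos := Fintype.card_pos_iff.2 hne
    have h2 := Nat.le_of_dvd hpos hdiv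
    have := (Fact.out : p₀.Prime).two_le
    omega
  obtain ⟨x, hx⟩ := Fintype.exists_ne_of_one_lt_card hone
    ⟨0, by rw [heval, heval]; simp⟩
  obtain ⟨x, hxβ, hxγ⟩ := x
  rw [heval] at hxβ hxγ
  refine ⟨∑ i, x i • (b i : V), Submodule.sum_mem _ fun i _ => W.smul_mem _ (b i).2, fun h0 => hx ?_,
    hxβ, hxγ⟩
  have hli : LinearIndependent F fun i => (b i : V) :=
    b.linearIndependent.map' W.subtype (Submodule.ker_subtype W)
  exact Subtype.ext (funext (Fintype.linearIndependent_iff.1 hli x h0))

end Cfsg.Lib.Classical
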