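import Cfsg.Agent.Lib.Classical.Transvection

set_option autoImplicit false

namespace Cfsg.Lib.Classical.CyclicGen

open Matrix Fin.NatCast
open scoped commutatorElement

variable {K : Type*} [Field K] {n : ℕ}

local notation "𝕀" => Fin (n + 1)
local notation "𝕊" => Matrix.SpecialLinearGroup (Fin (n + 1)) K

/-- the signs of the cyclic monomial matrix -/
def sgn (i : Fin (n + 1)) : K := if i.val = n then (-1) ^ n else 1

theorem sgn_ne (i : Fin (n + 1)) : sgn (K := K) i ≠ 0 := by
  unfold sgn; split <;> simp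

theorem val_succ (i : Fin (n + 1)) : (i + 1).val = if i.val = n then 0 else i.val + 1 := by
  have := i.isLt
  rcases Nat.eq_zero_or_pos n with hn | hn
  · subst hn
    have := (i + 1).isLt
    rw [if_pos (by omega)]; omega
  rw [Fin.val_add, Fin.val_one', Nat.add_mod_mod]
  split_ifs with h
  · rw [h, Nat.mod_self]
  · exact Nat.mod_eq_of_lt (by omega)

theorem monomial_apply (i j : Fin (n + 1)) :
    (if j.val = i.val + 1 then (1 : K) else if i.val = n ∧ j.val = 0 then (-1) ^ n else 0) =
      if j = i + 1 then sgn i else 0 := by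
  have := j.isLt
  simp only [Fin.ext_iff, val_succ, sgn]
  split_ifs <;> first | rfl | (exfalso; omega)

variable {w : Matrix.SpecialLinearGroup (Fin (n + 1)) K}

theorem monomial_shift (hw : (w : Matrix 𝕀 𝕀 K) = Matrix.of (fun i j =>
      if j.val = i.val + 1 then 1 else if i.val = n ∧ j.val = 0 then (-1) ^ n else 0))
    {a b : Fin (n + 1)} (hab : a ≠ b) (c : K) :
    w * SpecialLinearGroup.transvection (fun h => hab (add_right_cancel h) : a + 1 ≠ b + 1) c =
      SpecialLinearGroup.transvection hab (c * sgn a / sgn b) * w := by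
  refine Subtype.ext ?_
  show (w : Matrix 𝕀 𝕀 K) * Matrix.transvection (a + 1) (b + 1) c =
    Matrix.transvection a b (c * sgn a / sgn b) * (w : Matrix 𝕀 𝕀 K)
  have hL : ∀ (M : Matrix 𝕀 𝕀 K) (i j : 𝕀), ((w : Matrix 𝕀 𝕀 K) * M) i j = sgn i * M (i + 1) j := by
    intro M i j
    rw [hw]; simp only [Matrix.mul_apply, Matrix.of_apply, monomial_apply]; simp
  have hR : ∀ (M : Matrix 𝕀 𝕀 K) (i j : 𝕀), (M * (w : Matrix 𝕀 𝕀 K)) i (j + 1) = M i j * sgn j := by
    intro M i j
    rw [hw]; simp only [Matrix.mul_apply, Matrix.of_apply, monomial_apply, add_right_cancel_iff]; simp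
  ext i j
  obtain ⟨j, rfl⟩ : ∃ j', j = j' + 1 := ⟨j - 1, (sub_add_cancel j 1).symm⟩
  rw [hL, hR]
  simp only [Matrix.transvection, Matrix.add_apply, Matrix.one_apply, Matrix.single_apply, add_right_cancel_iff]
  by_cases hij : i = j
  · subst hij
    have : ¬ (a = i ∧ b = i) := fun e => hab (e.1.trans e.2.symm)
    simp [this]
  · by_cases hc : a = i ∧ b = j
    · obtain ⟨rfl, rfl⟩ := hc
      simp [hij]
      field_simp [sgn_ne b]
    · simp [hij, hc]

theorem comm_transvection {a b d : Fin (n + 1)} (hab : a ≠ b) (hbd : b ≠ d) (had : a ≠ d) (c : K) :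
    ⁅SpecialLinearGroup.transvection hab c, SpecialLinearGroup.transvection hbd (1 : K)⁆ =
      SpecialLinearGroup.transvection had c := by
  rw [commutatorElement_def, mul_inv_eq_iff_eq_mul, mul_inv_eq_iff_eq_mul]
  refine Subtype.ext ?_
  show Matrix.transvection a b c * Matrix.transvection b d 1 =
    Matrix.transvection a d c * Matrix.transvection b d 1 * Matrix.transvection a b c
  simp only [Matrix.transvection, mul_add, add_mul, mul_one, one_mul]
  simp [Matrix.single_mul_single_same, Matrix.single_mul_single_of_ne, hab, hbd, had, Ne.symm hab, Ne.symm hbd, Ne.symm had]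
  abel

theorem eq_top (hn : 1 ≤ n) (hw : (w : Matrix 𝕀 𝕀 K) = Matrix.of (fun i j =>
      if j.val = i.val + 1 then 1 else if i.val = n ∧ j.val = 0 then (-1) ^ n else 0))
    (H : Subgroup 𝕊) (hwH : w ∈ H)
    (hx : ∀ (h01 : (0 : 𝕀) ≠ 1) (c : K), SpecialLinearGroup.transvection h01 c ∈ H) : H = ⊤ := by
  have hcast : ∀ m : ℕ, 1 ≤ m → m ≤ n → (m : 𝕀) ≠ 0 := fun m h1 h2 h => by
    have := congrArg Fin.val h
    rw [Fin.val_natCast, Nat.mod_eq_of_lt (by omega), Fin.val_zero] at this
    omega
  have hstep : ∀ m : ℕ, ∀ (h : (m : 𝕀) ≠ (m : 𝕀) + 1) (c : K), SpecialLinearGroup.transvection h c ∈ H := by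
    intro m
    induction m with
    | zero =>
      intro h c
      have h01 : (0 : 𝕀) ≠ 1 := by simpa using h
      convert hx h01 c using 2
      · simp
      · simp
    | succ m ih =>
      intro h c
      have hm : (m : 𝕀) ≠ (m : 𝕀) + 1 := fun e => h (by
        rw [Nat.cast_succ]; exact congrArg (· + 1) e)
      have e := monomial_shift hw hm c
      have hmem := mul_mem (mul_mem (inv_mem hwH) (ih hm (c * sgn (m : 𝕀) / sgn ((m : 𝕀) + 1)))) hwH
      rw [mul_assoc, ← e, inv_mul_cancel_left] at hmem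
      convert hmem using 2
      · simp
      · simp
  have hall : ∀ m : ℕ, 1 ≤ m → m ≤ n → ∀ (a : 𝕀) (h : a ≠ a + (m : 𝕀)) (c : K),
      SpecialLinearGroup.transvection h c ∈ H := by
    intro m hm
    induction m, hm using Nat.le_induction with
    | base =>
      intro _ a h c
      have e : ((a.val : ℕ) : 𝕀) = a := Fin.cast_val_eq_self a
      have h' : ((a.val : ℕ) : 𝕀) ≠ ((a.val : ℕ) : 𝕀) + 1 := by rw [e]; simpa using h
      convert hstep a.val h' c using 2
      · exact e.symm
      · simp
    | succ m hm ih =>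
      intro hmn a h c
      have hab : a ≠ a + (m : 𝕀) := fun e => hcast m hm (by omega) (left_eq_add.1 e)
      have hbd : a + (m : 𝕀) ≠ a + ((m + 1 : ℕ) : 𝕀) := fun e => by
        have := add_left_cancel e
        rw [Nat.cast_succ] at this
        exact hcast 1 le_rfl hn (by simpa using left_eq_add.1 this)
      have h1 := ih (by omega) a hab c
      have h2 : SpecialLinearGroup.transvection hbd (1 : K) ∈ H := by
        have e : ((((a + (m : 𝕀)).val : ℕ)) : 𝕀) = a + (m : 𝕀) := Fin.cast_val_eq_self _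
        have h' : (((a + (m : 𝕀)).val : ℕ) : 𝕀) ≠ (((a + (m : 𝕀)).val : ℕ) : 𝕀) + 1 := by
          rw [e]; rw [Nat.cast_succ, ← add_assoc] at hbd; exact hbd
        convert hstep (a + (m : 𝕀)).val h' 1 using 2
        · exact e.symm
        · rw [e, Nat.cast_succ, add_assoc]
      have hc := mul_mem (mul_mem (mul_mem h1 h2) (inv_mem h1)) (inv_mem h2)
      rw [← commutatorElement_def, comm_transvection hab hbd h] at hc
      exact hc
  have hgl := ker_det_le_of_transvection_mem (H.map SpecialLinearGroup.toGL) fun i j hij c g hg => by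
    refine ⟨SpecialLinearGroup.transvection hij c, ?_, Units.ext hg.symm⟩
    obtain ⟨m, hm⟩ : ∃ m : 𝕀, j = i + m := ⟨j - i, by abel⟩
    have hm0 : m ≠ 0 := fun e => hij (by rw [hm, e, add_zero])
    have hm' : j = i + ((m.val : ℕ) : 𝕀) := by rw [Fin.cast_val_eq_self]; exact hm
    have hh : i ≠ i + ((m.val : ℕ) : 𝕀) := hm' ▸ hij
    have := hall m.val (Nat.one_le_iff_ne_zero.2 fun e => hm0 (Fin.ext e)) (by have := m.isLt; omega) i hh c
    have key : ∀ j' (h' : i ≠ j'), j' = j → SpecialLinearGroup.transvection h' c ∈ H →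
        SpecialLinearGroup.transvection hij c ∈ H := fun j' h' e hh => by subst e; exact hh
    exact key _ hh hm'.symm this
  refine eq_top_iff.2 fun g _ => ?_
  obtain ⟨g', hg', e⟩ := Subgroup.mem_map.1 (hgl (x := SpecialLinearGroup.toGL g)
    (by rw [MonoidHom.mem_ker]; exact Units.ext g.2))
  have : g' = g := Subtype.ext (congrArg Units.val e)
  rwa [← this]

end Cfsg.Lib.Classical.CyclicGen
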