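import Mathlib
import Cfsg.Agent.Lib.Classical.Similitude

/-! Diagonal forms over finite fields of odd characteristic. -/

set_option autoImplicit false

namespace Cfsg.Agent.DiagForm

open scoped Matrix

variable {F : Type*} [Field F] [Fintype F]

/-- Sum of weighted squares. -/
def ws {n : ℕ} (w : Fin n → F) (v : Fin n → F) : F := ∑ i, w i * v i ^ 2

theorem to_normal (h2 : (2 : F) ≠ 0) : ∀ (n : ℕ) (w : Fin (n + 1) → F), (∀ i, w i ≠ 0) →
    ∃ g : (Fin (n + 1) → F) ≃ₗ[F] (Fin (n + 1) → F), ∀ v, ws w (g v) = ws (Fin.cons (∏ i, w i) 1) v := by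
  intro n
  induction n with
  | zero =>
    intro w _
    refine ⟨LinearEquiv.refl _ _, fun v => ?_⟩
    simp [ws]
  | succ n ih =>
    intro w hw
    obtain ⟨g', hg'⟩ := ih (Fin.tail w) (fun i => hw _)
    set a := w 0 with ha
    set b := ∏ i, Fin.tail w i with hb
    have ha0 : a ≠ 0 := hw 0
    have hb0 : b ≠ 0 := Finset.prod_ne_zero_iff.2 fun i _ => hw _
    obtain ⟨x, y, hxy⟩ := Similitude.exists_value (0 : F) (b / a) a⁻¹ (by
      rw [show (4 : F) = 2 * 2 by norm_num]
      simp [h2, ha0, hb0])
    have hxy' : a * x ^ 2 + b * y ^ 2 = 1 := by field_simp at hxy; linear_combination hxy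
    let P : (Fin (n + 2) → F) ≃ₗ[F] (Fin (n + 2) → F) :=
      { toFun := fun u => Fin.cons (u 1 * x - u 0 * b * y)
          (Fin.cons (u 1 * y + u 0 * a * x) fun i => u i.succ.succ)
        map_add' := fun u u' => by
          funext i; induction i using Fin.cases with
          | zero => simp; ring
          | succ i => induction i using Fin.cases <;> simp <;> ring
        map_smul' := fun c u => by
          funext i; induction i using Fin.cases with
          | zero => simp; ring
          | succ i => induction i using Fin.cases <;> simp <;> ring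
        invFun := fun z => Fin.cons (x * z 1 - y * z 0)
          (Fin.cons (a * x * z 0 + b * y * z 1) fun i => z i.succ.succ)
        left_inv := fun u => by
          funext i; induction i using Fin.cases with
          | zero => simp; linear_combination u 0 * hxy'
          | succ i => induction i using Fin.cases with
            | zero => simp; linear_combination u 1 * hxy'
            | succ i => simp
        right_inv := fun z => by
          funext i; induction i using Fin.cases with
          | zero => simp; linear_combination z 0 * hxy'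
          | succ i => induction i using Fin.cases with
            | zero => simp; linear_combination z 1 * hxy'
            | succ i => simp }
    let T : (Fin (n + 2) → F) ≃ₗ[F] (Fin (n + 2) → F) :=
      { toFun := fun z => Fin.cons (z 0) (g' (Fin.tail z))
        map_add' := fun z z' => by
          funext i; induction i using Fin.cases with
          | zero => simp
          | succ i =>
            have : Fin.tail (z + z') = Fin.tail z + Fin.tail z' := rfl
            simp [this]
        map_smul' := fun c z => by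
          funext i; induction i using Fin.cases with
          | zero => simp
          | succ i =>
            have : Fin.tail (c • z) = c • Fin.tail z := rfl
            simp [this]
        invFun := fun z => Fin.cons (z 0) (g'.symm (Fin.tail z))
        left_inv := fun z => by simp
        right_inv := fun z => by simp }
    refine ⟨P.trans T, fun v => ?_⟩
    have hsum : ∀ z : Fin (n + 2) → F, ws w z = a * z 0 ^ 2 + ws (Fin.tail w) (Fin.tail z) := fun z => by
      simp only [ws, Fin.sum_univ_succ, ← ha, Fin.tail]
    rw [hsum]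
    show a * (P v) 0 ^ 2 + ws (Fin.tail w) (Fin.tail (Fin.cons (α := fun _ => F) ((P v) 0) (g' (Fin.tail (P v))))) = _
    rw [Fin.tail_cons, hg']
    have hp : ∏ i, w i = a * b := by rw [Fin.prod_univ_succ]; rfl
    simp only [ws, Fin.sum_univ_succ, hp, Fin.cons_zero, Fin.cons_succ, Fin.tail, P, LinearEquiv.coe_mk,
      LinearMap.coe_mk, AddHom.coe_mk, Pi.one_apply, one_mul, Fin.succ_zero_eq_one]
    linear_combination (v 1 ^ 2 + a * b * v 0 ^ 2) * hxy'

theorem equiv_of_square (h2 : (2 : F) ≠ 0) {n : ℕ} (w w' : Fin n → F) (hw : ∀ i, w i ≠ 0) (hw' : ∀ i, w' i ≠ 0)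
    (hsq : IsSquare ((∏ i, w i) * ∏ i, w' i)) :
    ∃ g : (Fin n → F) ≃ₗ[F] (Fin n → F), ∀ v, ws w' (g v) = ws w v := by
  cases n with
  | zero => exact ⟨LinearEquiv.refl _ _, fun v => by simp [ws]⟩
  | succ n =>
    obtain ⟨g, hg⟩ := to_normal h2 n w hw
    obtain ⟨g', hg'⟩ := to_normal h2 n w' hw'
    obtain ⟨s, hs⟩ := hsq
    have hp : (∏ i, w i) ≠ 0 := Finset.prod_ne_zero_iff.2 fun i _ => hw i
    have hp' : (∏ i, w' i) ≠ 0 := Finset.prod_ne_zero_iff.2 fun i _ => hw' i
    have hs0 : s ≠ 0 := by rintro rfl; simp [hp, hp'] at hs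
    let D : (Fin (n + 1) → F) ≃ₗ[F] (Fin (n + 1) → F) :=
      LinearEquiv.piCongrRight fun i => LinearEquiv.smulOfUnit (Units.mk0 (Fin.cons (α := fun _ => F) (s / ∏ i, w' i) 1 i) (by
        induction i using Fin.cases <;> simp [hs0, hp']))
    refine ⟨g.symm.trans (D.trans g'), fun v => ?_⟩
    show ws w' (g' (D (g.symm v))) = ws w v
    conv_rhs => rw [← g.apply_symm_apply v]
    rw [hg', hg]
    simp only [ws, Fin.sum_univ_succ, Fin.cons_zero, Fin.cons_succ, Pi.one_apply, one_mul, D,
      LinearEquiv.piCongrRight_apply]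
    simp [LinearEquiv.smulOfUnit, Units.smul_def]
    field_simp
    linear_combination -(g.symm v 0) ^ 2 * hs

omit [Fintype F] in
/-- Gram determinant under a change of variables. -/
theorem gram_det {n : ℕ} (Q₁ Q₂ : (Fin n → F) → F) (B₁ B₂ : LinearMap.BilinForm F (Fin n → F))
    (hB₁ : ∀ x y, B₁ x y = QuadraticMap.polar Q₁ x y) (hB₂ : ∀ x y, B₂ x y = QuadraticMap.polar Q₂ x y)
    (g : (Fin n → F) ≃ₗ[F] (Fin n → F)) (hg : ∀ v, Q₂ (g v) = Q₁ v) :
    (Matrix.of (fun i j : Fin n => QuadraticMap.polar Q₁ (Pi.single i 1) (Pi.single j 1))).det =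
      LinearMap.det (g : (Fin n → F) →ₗ[F] (Fin n → F)) ^ 2 *
        (Matrix.of (fun i j : Fin n => QuadraticMap.polar Q₂ (Pi.single i 1) (Pi.single j 1))).det := by
  have e1 : Matrix.of (fun i j : Fin n => QuadraticMap.polar Q₁ (Pi.single i 1) (Pi.single j 1)) =
      LinearMap.BilinForm.toMatrix' B₁ := by
    ext i j; simp [LinearMap.BilinForm.toMatrix'_apply, hB₁]
  have e2 : Matrix.of (fun i j : Fin n => QuadraticMap.polar Q₂ (Pi.single i 1) (Pi.single j 1)) =
      LinearMap.BilinForm.toMatrix' B₂ := by
    ext i j; simp [LinearMap.BilinForm.toMatrix'_apply, hB₂]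
  have e3 : B₁ = B₂.comp (g : (Fin n → F) →ₗ[F] _) (g : (Fin n → F) →ₗ[F] _) := by
    refine LinearMap.ext fun x => LinearMap.ext fun y => ?_
    show B₁ x y = B₂ (g x) (g y)
    rw [hB₁, hB₂]
    simp [QuadraticMap.polar, ← hg, map_add]
  rw [e1, e2, e3, LinearMap.BilinForm.toMatrix'_comp, Matrix.det_mul, Matrix.det_mul, Matrix.det_transpose,
    LinearMap.det_toMatrix']
  ring

end Cfsg.Agent.DiagForm
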