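import Mathlib
import Cfsg.Prelude.Def_Classical

/-! Discriminants of quadratic forms on column vectors. -/

set_option autoImplicit false

namespace Cfsg.Lib.Classical.Discriminant

open Module
open scoped Matrix

variable {F : Type*} [Field F] {κ : Type} [Fintype κ] [DecidableEq κ]

theorem isSquare_basis {ι : Type*} [Fintype ι] [DecidableEq ι] (B : LinearMap.BilinForm F (κ → F))
    (b : Basis ι F (κ → F)) :
    IsSquare (LinearMap.BilinForm.toMatrix b B).det ↔ IsSquare (LinearMap.BilinForm.toMatrix (Pi.basisFun F κ) B).det := by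
  classical
  let e : ι ≃ κ := b.indexEquiv (Pi.basisFun F κ)
  let c := b.reindex e
  have h1 : (LinearMap.BilinForm.toMatrix b B).det = (LinearMap.BilinForm.toMatrix c B).det := by
    rw [show LinearMap.BilinForm.toMatrix c B = (LinearMap.BilinForm.toMatrix b B).submatrix e.symm e.symm from
      Matrix.ext fun i j => by simp [LinearMap.BilinForm.toMatrix_apply, c], Matrix.det_submatrix_equiv_self]
  have e3 := congrArg Matrix.det (LinearMap.BilinForm.toMatrix_mul_basis_toMatrix (b := Pi.basisFun F κ) c B)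
  rw [Matrix.det_mul, Matrix.det_mul, Matrix.det_transpose] at e3
  set d := ((Pi.basisFun F κ).toMatrix ⇑c).det
  have hd : d ≠ 0 := by
    intro h0
    have := congrArg Matrix.det ((Pi.basisFun F κ).toMatrix_mul_toMatrix_flip c)
    rw [Matrix.det_mul, Matrix.det_one, show ((Pi.basisFun F κ).toMatrix ⇑c).det = 0 from h0, zero_mul] at this
    exact zero_ne_one this
  rw [h1, ← e3]
  constructor
  · rintro ⟨s, hs⟩
    exact ⟨s / d, by field_simp; linear_combination hs⟩
  · rintro ⟨s, hs⟩
    exact ⟨d * s, by rw [hs]; ring⟩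

/-- Gram matrix of the hyperbolic form. -/
theorem gram_plus (m : ℕ) (i j : Fin m ⊕ Fin m) :
    QuadraticMap.polar (Cfsg.quadFormPlus m F) (Pi.single i 1) (Pi.single j 1) =
      Matrix.fromBlocks (0 : Matrix (Fin m) (Fin m) F) (1 : Matrix (Fin m) (Fin m) F) (1 : Matrix (Fin m) (Fin m) F) (0 : Matrix (Fin m) (Fin m) F) i j := by
  rcases i with i | i <;> rcases j with j | j <;>
    simp [QuadraticMap.polar, Cfsg.quadFormPlus, Pi.single_apply, add_mul, mul_add, Finset.sum_add_distrib,
      Finset.sum_ite_eq', ite_mul, mul_ite, Matrix.one_apply, eq_comm]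

theorem det_hyp (m : ℕ) : (Matrix.fromBlocks (0 : Matrix (Fin m) (Fin m) F) (1 : Matrix (Fin m) (Fin m) F) (1 : Matrix (Fin m) (Fin m) F) (0 : Matrix (Fin m) (Fin m) F)).det = (-1) ^ m := by
  have h := congrArg Matrix.det (show Matrix.fromBlocks (0 : Matrix (Fin m) (Fin m) F) (1 : Matrix (Fin m) (Fin m) F) (1 : Matrix (Fin m) (Fin m) F) (0 : Matrix (Fin m) (Fin m) F) *
      Matrix.fromBlocks (1 : Matrix (Fin m) (Fin m) F) (0 : Matrix (Fin m) (Fin m) F) (1 : Matrix (Fin m) (Fin m) F) (1 : Matrix (Fin m) (Fin m) F) =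
      Matrix.fromBlocks (1 : Matrix (Fin m) (Fin m) F) (1 : Matrix (Fin m) (Fin m) F) (1 : Matrix (Fin m) (Fin m) F) (0 : Matrix (Fin m) (Fin m) F) by simp [Matrix.fromBlocks_multiply])
  rw [Matrix.det_mul, Matrix.det_fromBlocks_zero₁₂, Matrix.det_fromBlocks_one₁₁] at h
  simpa [Matrix.det_neg] using h

/-- When `(-1)^m` is a square. -/
theorem isSquare_neg_one_pow [Fintype F] {q : ℕ} (hF : Fintype.card F = q) (hq : Odd q) (m : ℕ) :
    IsSquare ((-1 : F) ^ m) ↔ Even (m * (q - 1) / 2) := by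
  obtain ⟨t, rfl⟩ := hq
  rw [show m * (2 * t + 1 - 1) / 2 = m * t by
    rw [Nat.add_sub_cancel, show m * (2 * t) = 2 * (m * t) by ring, Nat.mul_div_cancel_left _ two_pos], Nat.even_mul]
  rcases Nat.even_or_odd m with he | ho
  · simp [he.neg_one_pow, he]
  · rw [ho.neg_one_pow, FiniteField.isSquare_neg_one_iff, hF]
    simp only [Nat.not_even_iff_odd.2 ho, false_or, Nat.even_iff]
    omega

end Cfsg.Lib.Classical.Discriminant
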