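import Mathlib
import Cfsg.Prelude.Def_GeometricClasses

/-!
Quadratic subfields of a matrix algebra in odd characteristic: a square root of a nonsquare, and their normalisers.
-/

set_option autoImplicit false

namespace Cfsg.Lib.Classical.FieldSubalgebraTwo

open Matrix Module
open scoped MatrixGroups

variable {ι : Type} [Fintype ι] [DecidableEq ι] {F : Type*} [Field F]

lemma scalar_inj [Nonempty ι] {a : F} (h : a • (1 : Matrix ι ι F) = 0) : a = 0 := by
  simpa using congrFun (congrFun h (Classical.arbitrary ι)) (Classical.arbitrary ι)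

/-- A generator `J` with `J * J = ν`, `ν` a nonsquare. -/
theorem exists_gen [Nonempty ι] (h2 : (2 : F) ≠ 0) {K : Subalgebra F (Matrix ι ι F)}
    (hK : Cfsg.Geo.IsFieldSubalgebra 2 K) :
    ∃ (J : Matrix ι ι F) (ν : F), J ∈ K ∧ J * J = ν • (1 : Matrix ι ι F) ∧ (∀ t : F, t * t ≠ ν) ∧
      (∀ a b : F, a • (1 : Matrix ι ι F) + b • J = 0 → a = 0 ∧ b = 0) ∧
      ∀ k ∈ K, ∃ a b : F, k = a • (1 : Matrix ι ι F) + b • J := by
  obtain ⟨k, hk, hks⟩ : ∃ k ∈ K, k ∉ Submodule.span F {(1 : Matrix ι ι F)} := by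
    by_contra hc
    push Not at hc
    have h := Submodule.finrank_mono (s := Subalgebra.toSubmodule K) hc
    have h' : finrank F (Subalgebra.toSubmodule K) = 2 := hK.finrank_eq
    rw [h', finrank_span_singleton one_ne_zero] at h
    omega
  have hli : LinearIndependent F ![(1 : Matrix ι ι F), k] := by
    rw [LinearIndependent.pair_iff' one_ne_zero]
    exact fun a ha => hks (ha ▸ Submodule.smul_mem _ a (Submodule.mem_span_singleton_self 1))
  have hsp : Submodule.span F (Set.range ![(1 : Matrix ι ι F), k]) = Subalgebra.toSubmodule K := by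
    refine Submodule.eq_of_le_of_finrank_eq ?_ ?_
    · rw [Submodule.span_le]
      rintro x ⟨i, rfl⟩
      fin_cases i
      · exact K.one_mem
      · exact hk
    · rw [finrank_span_eq_card hli, Fintype.card_fin]
      exact hK.finrank_eq.symm
  have hrep : ∀ x ∈ K, ∃ a b : F, x = a • (1 : Matrix ι ι F) + b • k := fun x hx => by
    have hx' : x ∈ Submodule.span F (Set.range ![(1 : Matrix ι ι F), k]) := hsp ▸ hx
    obtain ⟨c, hc⟩ := (Submodule.mem_span_range_iff_exists_fun F).1 hx'
    exact ⟨c 0, c 1, by rw [← hc, Fin.sum_univ_two]; rfl⟩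
  obtain ⟨a, b, hkk⟩ := hrep (k * k) (K.mul_mem hk hk)
  set J := k - (b / 2) • (1 : Matrix ι ι F) with hJ
  have hJK : J ∈ K := K.sub_mem hk (K.smul_mem K.one_mem _)
  have hJJ : J * J = (a + b * b / 4) • (1 : Matrix ι ι F) := by
    rw [hJ]
    simp only [mul_sub, sub_mul, mul_smul_comm, smul_mul_assoc, mul_one, one_mul, hkk]
    have h4 : (4 : F) ≠ 0 := by
      rw [show (4 : F) = 2 * 2 by norm_num]
      exact mul_ne_zero h2 h2
    match_scalars <;> field_simp <;> ring
  have hJs : J ∉ Submodule.span F {(1 : Matrix ι ι F)} := by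
    intro h
    apply hks
    have := Submodule.add_mem _ h
      (Submodule.smul_mem _ (b / 2) (Submodule.mem_span_singleton_self (1 : Matrix ι ι F)))
    rwa [hJ, sub_add_cancel] at this
  refine ⟨J, _, hJK, hJJ, fun t ht => ?_, fun c d hcd => ?_, fun x hx => ?_⟩
  · have h0 : (J - t • 1) * (J + t • 1) = 0 := by
      simp only [mul_add, sub_mul, mul_smul_comm, smul_mul_assoc, mul_one, one_mul, hJJ, ← ht]
      module
    by_cases h1 : J - t • (1 : Matrix ι ι F) = 0
    · exact hJs (sub_eq_zero.1 h1 ▸ Submodule.smul_mem _ t (Submodule.mem_span_singleton_self 1))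
    · obtain ⟨y, hy, hy1⟩ := hK.inv _ (K.sub_mem hJK (K.smul_mem K.one_mem t)) h1
      have h3 : J + t • (1 : Matrix ι ι F) = 0 := by
        have h5 := congrArg (y * ·) h0
        simp only [mul_zero, ← mul_assoc] at h5
        rwa [hK.comm y hy _ (K.sub_mem hJK (K.smul_mem K.one_mem t)), hy1, one_mul] at h5
      refine hJs ?_
      rw [eq_neg_of_add_eq_zero_left h3, ← neg_smul]
      exact Submodule.smul_mem _ _ (Submodule.mem_span_singleton_self 1)
  · by_cases hd : d = 0
    · subst hd
      exact ⟨scalar_inj (by rw [zero_smul, add_zero] at hcd; exact hcd), rfl⟩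
    · refine absurd ?_ hJs
      rw [← inv_smul_smul₀ hd J, show d • J = (-c) • (1 : Matrix ι ι F) by
        linear_combination (norm := module) hcd, smul_smul]
      exact Submodule.smul_mem _ _ (Submodule.mem_span_singleton_self 1)
  · obtain ⟨c, d, rfl⟩ := hrep x hx
    exact ⟨c + d * (b / 2), d, by rw [hJ]; module⟩

/-- The elements normalising the subfield commute or anticommute with the generator. -/
theorem normalizer_gen (h2 : (2 : F) ≠ 0) {K : Subalgebra F (Matrix ι ι F)} {J : Matrix ι ι F}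
    {ν : F} (hJK : J ∈ K) (hJJ : J * J = ν • (1 : Matrix ι ι F)) (hν : ∀ t : F, t * t ≠ ν)
    (hind : ∀ a b : F, a • (1 : Matrix ι ι F) + b • J = 0 → a = 0 ∧ b = 0)
    (hrep : ∀ k ∈ K, ∃ a b : F, k = a • (1 : Matrix ι ι F) + b • J) (g : GL ι F) :
    g ∈ Cfsg.Geo.subalgebraNormalizer K ↔
      (g : Matrix ι ι F) * J = J * g ∨ (g : Matrix ι ι F) * J = -(J * g) := by
  constructor
  · intro hg
    obtain ⟨a, b, hab⟩ := hrep _ ((hg J).1 hJK)
    have hsq := congrArg (fun x => x * x) hab
    have e : (g : Matrix ι ι F) * J * ((g⁻¹ : GL ι F) : Matrix ι ι F) *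
        ((g : Matrix ι ι F) * J * ((g⁻¹ : GL ι F) : Matrix ι ι F)) = ν • (1 : Matrix ι ι F) := by
      simp [mul_assoc, ← mul_assoc J J, hJJ]
    simp only [e, add_mul, mul_add, smul_mul_assoc, mul_smul_comm, one_mul, mul_one, hJJ] at hsq
    obtain ⟨h1, h3⟩ := hind (a * a + b * b * ν - ν) (2 * a * b)
      (by linear_combination (norm := module) -hsq)
    have hb : b ≠ 0 := by
      rintro rfl
      exact hν a (by linear_combination h1)
    have ha : a = 0 := by
      simpa [h2, hb] using h3
    subst ha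
    have hb1 : b * b = 1 := by
      have : (b * b - 1) * ν = 0 := by linear_combination h1
      exact sub_eq_zero.1 ((mul_eq_zero.1 this).resolve_right fun h => hν 0 (by simp [h]))
    simp only [zero_smul, zero_add] at hab
    have h4 : (g : Matrix ι ι F) * J = b • (J * (g : Matrix ι ι F)) := by
      rw [← smul_mul_assoc, ← hab]
      simp [mul_assoc]
    rcases mul_self_eq_one_iff.1 hb1 with rfl | rfl
    · exact Or.inl (by rw [h4, one_smul])
    · exact Or.inr (by rw [h4, neg_one_smul])
  · intro hg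
    have key : ∀ g : GL ι F, ((g : Matrix ι ι F) * J = J * g ∨ (g : Matrix ι ι F) * J = -(J * g)) →
        ∀ k ∈ K, (g : Matrix ι ι F) * k * ((g⁻¹ : GL ι F) : Matrix ι ι F) ∈ K := by
      intro g hg k hk
      obtain ⟨a, b, rfl⟩ := hrep k hk
      simp only [mul_add, add_mul, mul_smul_comm, smul_mul_assoc, mul_one, Units.mul_inv]
      refine K.add_mem (K.smul_mem K.one_mem _) (K.smul_mem ?_ _)
      rcases hg with h | h <;> rw [h]
      · simpa [mul_assoc] using hJK
      · simpa [mul_assoc] using hJK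
    refine fun k => ⟨key g hg k, fun h => ?_⟩
    have hg' : ((g⁻¹ : GL ι F) : Matrix ι ι F) * J = J * (g⁻¹ : GL ι F) ∨
        ((g⁻¹ : GL ι F) : Matrix ι ι F) * J = -(J * (g⁻¹ : GL ι F)) := by
      rcases hg with h | h
      · left
        have := congrArg (fun x => ((g⁻¹ : GL ι F) : Matrix ι ι F) * x * (g⁻¹ : GL ι F)) h
        simpa [mul_assoc] using this.symm
      · right
        have := congrArg (fun x => ((g⁻¹ : GL ι F) : Matrix ι ι F) * x * (g⁻¹ : GL ι F)) h
        simp [mul_assoc] at this
        rw [Matrix.coe_units_inv, this, neg_neg]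
    simpa [mul_assoc] using key g⁻¹ hg' _ h

end Cfsg.Lib.Classical.FieldSubalgebraTwo
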