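import Mathlib
import Cfsg.Prelude.Def_GeometricClasses

/-!
Forms given as functions, as Mathlib bilinear forms.
-/

set_option autoImplicit false

namespace Cfsg.Lib.Classical

variable {ι : Type} [Fintype ι] [DecidableEq ι] {F : Type*} [Field F]

omit [Fintype ι] [DecidableEq ι] in
/-- A `Geo.IsBilinearForm` as a `BilinForm`. -/
def biForm {f : (ι → F) → (ι → F) → F} (hf : Cfsg.Geo.IsBilinearForm f) :
    LinearMap.BilinForm F (ι → F) :=
  LinearMap.mk₂ F f hf.add_left (fun c x v => hf.smul_left c x v) hf.add_right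
    (fun c v x => hf.smul_right c v x)

omit [Fintype ι] [DecidableEq ι] in
@[simp] lemma biForm_apply {f : (ι → F) → (ι → F) → F} (hf : Cfsg.Geo.IsBilinearForm f)
    (x y : ι → F) : biForm hf x y = f x y := rfl

omit [Fintype ι] [DecidableEq ι] in
lemma biForm_isAlt {f : (ι → F) → (ι → F) → F} (hf : Cfsg.Geo.IsSymplecticForm f) :
    (biForm hf.bilinear).IsAlt := fun v => hf.alternating v

omit [Fintype ι] [DecidableEq ι] in
lemma biForm_nondegenerate {f : (ι → F) → (ι → F) → F} (hf : Cfsg.Geo.IsBilinearForm f)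
    (hn : Cfsg.Geo.IsNondegenerateForm f) : (biForm hf).Nondegenerate := by
  refine ⟨fun v hv => ?_, fun v hv => ?_⟩ <;> by_contra h0
  · obtain ⟨x, hx⟩ := (hn v h0).2
    exact hx (hv x)
  · obtain ⟨x, hx⟩ := (hn v h0).1
    exact hx (hv x)

lemma mem_similarityGroup {f : (ι → F) → (ι → F) → F}
    {g : Matrix.GeneralLinearGroup ι F} :
    g ∈ Cfsg.Geo.similarityGroup f ↔ ∃ c : Fˣ, ∀ u v,
      f (Matrix.mulVec (g : Matrix ι ι F) u) (Matrix.mulVec (g : Matrix ι ι F) v)
        = (c : F) * f u v := Iff.rfl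

end Cfsg.Lib.Classical
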