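import Mathlib
import Cfsg.Agent.Lib.Classical.Witt

/-!
Singular vectors of a nondegenerate quadratic form over a finite field, any characteristic: they span,
and one exists with prescribed orthogonality and outside a given subspace.
-/

set_option autoImplicit false

namespace Cfsg.Lib.Classical.SingularVectors

open Module MvPolynomial

variable {F V : Type*} [Field F] [Finite F] [AddCommGroup V] [Module F V] [FiniteDimensional F V]
  (Q : QuadraticForm F V)

local notation "β" => QuadraticMap.polarBilin Q

/-- A quadratic form in dimension at least three has a nonzero zero. -/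
theorem exists_zero (W : Submodule F V) (hW : 3 ≤ finrank F W) : ∃ p ∈ W, p ≠ 0 ∧ Q p = 0 := by
  classical
  have := Fintype.ofFinite F
  obtain ⟨B, hBq⟩ := LinearMap.BilinMap.toQuadraticMap_surjective Q
  obtain ⟨p₀, hp₀⟩ := CharP.exists F
  have : Fact p₀.Prime := ⟨CharP.char_is_prime F p₀⟩
  let b := Module.finBasis F W
  let poly : MvPolynomial (Fin (finrank F W)) F :=
    ∑ i, ∑ j, C (B (b i : V) (b j : V)) * (X i * X j)
  have heval : ∀ x : Fin (finrank F W) → F,
      MvPolynomial.eval x poly = B (∑ i, x i • (b i : V)) (∑ i, x i • (b i : V)) := by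
    intro x
    simp only [poly, map_sum, map_mul, eval_C, eval_X, map_smul, LinearMap.sum_apply,
      LinearMap.smul_apply, smul_eq_mul]
    simp only [Finset.mul_sum]
    rw [Finset.sum_comm]
    exact Finset.sum_congr rfl fun i _ => Finset.sum_congr rfl fun j _ => by ring
  have hdeg : poly.totalDegree ≤ 2 := by
    refine totalDegree_finsetSum_le fun i _ => totalDegree_finsetSum_le fun j _ => ?_
    refine (totalDegree_mul _ _).trans ?_
    rw [totalDegree_C, zero_add]
    exact (totalDegree_mul _ _).trans (by simp [totalDegree_X])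
  have hdiv := char_dvd_card_solutions p₀ (f := poly) (by rw [Fintype.card_fin]; omega)
  have hone : 1 < Fintype.card { x : Fin (finrank F W) → F // MvPolynomial.eval x poly = 0 } := by
    have hne : Nonempty { x : Fin (finrank F W) → F // MvPolynomial.eval x poly = 0 } :=
      ⟨⟨0, by rw [heval]; simp⟩⟩
    have := Nat.le_of_dvd (Fintype.card_pos_iff.2 hne) hdiv
    have := (Fact.out : p₀.Prime).two_le
    omega
  obtain ⟨⟨x, hx⟩, hx0⟩ := Fintype.exists_ne_of_one_lt_card hone ⟨0, by rw [heval]; simp⟩
  rw [heval] at hx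
  refine ⟨∑ i, x i • (b i : V), Submodule.sum_mem _ fun i _ => W.smul_mem _ (b i).2,
    fun h0 => hx0 ?_, by rw [← hBq]; simpa using hx⟩
  have hli : LinearIndependent F fun i => (b i : V) :=
    b.linearIndependent.map' W.subtype (Submodule.ker_subtype W)
  exact Subtype.ext (funext (Fintype.linearIndependent_iff.1 hli x h0))

omit [Finite F] [FiniteDimensional F V] in
lemma refl' : (β).IsRefl := fun x y h => by rwa [Witt.polar_symm']

/-- The singular vectors of a subspace with small radical span it. -/
theorem span_singular {U : Submodule F V}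
    (hU : finrank F ↥(U ⊓ LinearMap.BilinForm.orthogonal β U) + 3 ≤ finrank F U) :
    Submodule.span F {x | x ∈ U ∧ Q x = 0} = U := by
  set K := Submodule.span F {x | x ∈ U ∧ Q x = 0} with hK
  refine le_antisymm (Submodule.span_le.2 fun x hx => hx.1) fun x hx => ?_
  obtain ⟨C, hC⟩ := Submodule.exists_isCompl ((U ⊓ LinearMap.BilinForm.orthogonal β U).comap U.subtype)
  have hd := Submodule.finrank_add_eq_of_isCompl hC
  rw [LinearEquiv.finrank_eq (Submodule.comapSubtypeEquivOfLe inf_le_left)] at hd
  have hC' : finrank F (C.map U.subtype) = finrank F C :=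
    (LinearEquiv.finrank_eq (Submodule.equivMapOfInjective _ U.injective_subtype C)).symm
  obtain ⟨s, hs, hs0, hss⟩ := exists_zero Q (C.map U.subtype) (by omega)
  obtain ⟨c, hc, rfl⟩ := hs
  change Q (c : V) = 0 at hss
  have hnotrad : (c : V) ∉ U ⊓ LinearMap.BilinForm.orthogonal β U := fun h => hs0 (by
    rw [Submodule.disjoint_def.1 hC.disjoint c h hc, map_zero])
  obtain ⟨t, ht, htc⟩ : ∃ t ∈ U, β t (c : V) ≠ 0 := by
    by_contra hcon
    push Not at hcon
    exact hnotrad ⟨c.2, LinearMap.BilinForm.mem_orthogonal_iff.2 hcon⟩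
  have hsK : (c : V) ∈ K := Submodule.subset_span ⟨c.2, hss⟩
  have key : ∀ y ∈ U, β y (c : V) ≠ 0 → y ∈ K := by
    intro y hy hne
    have h1 : Q (y + (-(Q y) / β y (c : V)) • (c : V)) = 0 := by
      rw [Witt.quad_add, Witt.quad_smul, map_smul, hss, smul_eq_mul, div_mul_cancel₀ _ hne]
      ring
    have h2 := K.sub_mem (Submodule.subset_span
      (show y + (-(Q y) / β y (c : V)) • (c : V) ∈ {x | x ∈ U ∧ Q x = 0} from
        ⟨U.add_mem hy (U.smul_mem _ c.2), h1⟩)) (K.smul_mem (-(Q y) / β y (c : V)) hsK)
    rwa [add_sub_cancel_right] at h2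
  by_cases hne : β x (c : V) = 0
  · have := K.sub_mem (key (x + t) (U.add_mem hx ht) (by simpa [hne] using htc)) (key t ht htc)
    rwa [add_sub_cancel_right] at this
  · exact key x hx hne

variable (hB : (QuadraticMap.polarBilin Q).Nondegenerate)
include hB

/-- A singular vector orthogonal to a family, with value one at a vector outside its span. -/
theorem exists_sing {k : ℕ} (r : Fin k → V) (hn : 2 * k + 3 ≤ finrank F V) {v : V}
    (hv : v ∉ Submodule.span F (Set.range r)) :
    ∃ p, Q p = 0 ∧ (∀ i, β p (r i) = 0) ∧ β p v = 1 := by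
  set R := Submodule.span F (Set.range r) with hR
  set U := LinearMap.BilinForm.orthogonal β R with hU
  have hRU : LinearMap.BilinForm.orthogonal β U = R := LinearMap.BilinForm.orthogonal_orthogonal hB (refl' Q) R
  have hspan : Submodule.span F {x | x ∈ U ∧ Q x = 0} = U := by
    refine span_singular Q ?_
    have h1 := Submodule.finrank_mono (inf_le_right : U ⊓ LinearMap.BilinForm.orthogonal β U ≤ _)
    have h2 : finrank F U = finrank F V - finrank F R := by
      rw [hU, LinearMap.BilinForm.finrank_orthogonal hB]
    have h3 : finrank F R ≤ k := by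
      have := finrank_range_le_card (R := F) r
      rw [Set.finrank] at this
      simpa using this
    rw [hRU] at h1 ⊢
    omega
  by_contra! hcon
  apply hv
  rw [← hRU, LinearMap.BilinForm.mem_orthogonal_iff]
  intro y hy
  change β y v = 0
  rw [← hspan] at hy
  induction hy using Submodule.span_induction with
  | mem p hp =>
    obtain ⟨hpU, hpp⟩ := hp
    by_contra h
    refine hcon ((β p v)⁻¹ • p) (by rw [Witt.quad_smul, hpp, mul_zero]) (fun i => ?_)
      (by rw [map_smul, LinearMap.smul_apply, smul_eq_mul, inv_mul_cancel₀ h])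
    have h1 : β (r i) p = 0 :=
      LinearMap.BilinForm.mem_orthogonal_iff.1 hpU _ (Submodule.subset_span (Set.mem_range_self i))
    rw [map_smul, LinearMap.smul_apply, Witt.polar_symm' Q p (r i), h1, smul_zero]
  | zero => simp
  | add a b _ _ ha hb => simp only [map_add, LinearMap.add_apply, ha, hb, add_zero]
  | smul c a _ ha => simp only [map_smul, LinearMap.smul_apply, ha, smul_zero]

/-- The same, outside a given subspace. -/
theorem exists_sing_avoid {k : ℕ} (r : Fin k → V) (hn : 2 * (k + 1) + 3 ≤ finrank F V) {v : V}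
    (hv : v ∉ Submodule.span F (Set.range r)) {l : ℕ} (s : Fin l → V) (hl : l + k + 1 < finrank F V) :
    ∃ p, Q p = 0 ∧ (∀ i, β p (r i) = 0) ∧ β p v = 1 ∧ p ∉ Submodule.span F (Set.range s) := by
  set S := Submodule.span F (Set.range s) with hS
  obtain ⟨z, hzS, hzr⟩ : ∃ z ∈ LinearMap.BilinForm.orthogonal β S, z ∉ Submodule.span F (Set.range (Fin.cons v r : Fin (k + 1) → V)) := by
    by_contra hcon
    push Not at hcon
    have h1 := Submodule.finrank_mono (show LinearMap.BilinForm.orthogonal β S ≤ _ from hcon)
    rw [LinearMap.BilinForm.finrank_orthogonal hB] at h1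
    have h2 := finrank_range_le_card (R := F) s
    have h3 := finrank_range_le_card (R := F) (Fin.cons v r : Fin (k + 1) → V)
    rw [Set.finrank] at h2 h3
    simp only [Fintype.card_fin] at h2 h3
    rw [← hS] at h2
    omega
  have hv' : v ∉ Submodule.span F (Set.range (Fin.cons (v + z) r : Fin (k + 1) → V)) := by
    rw [Fin.range_cons, Submodule.mem_span_insert]
    rintro ⟨a, w, hw, hav⟩
    by_cases ha : a = 0
    · exact hv (by rw [hav, ha, zero_smul, zero_add]; exact hw)
    · apply hzr
      rw [Fin.range_cons, Submodule.mem_span_insert]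
      refine ⟨a⁻¹ * (1 - a), (-a⁻¹) • w, Submodule.smul_mem _ _ hw, ?_⟩
      rw [← inv_smul_smul₀ ha z]
      have : a • z = (1 - a) • v - w := by linear_combination (norm := module) -hav
      rw [this]
      module
  obtain ⟨p, hp, hpr, hpv⟩ := exists_sing Q hB _ hn hv'
  refine ⟨p, hp, fun i => by simpa using hpr i.succ, hpv, fun hpS => ?_⟩
  have h0 := hpr 0
  rw [Fin.cons_zero, map_add, hpv] at h0
  have h1 : β p z = 0 := LinearMap.BilinForm.mem_orthogonal_iff.1 hzS p hpS
  rw [h1, add_zero] at h0
  exact one_ne_zero h0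

end Cfsg.Lib.Classical.SingularVectors
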