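import Mathlib
import Cfsg.Agent.Lib.Classical.FrameCount
import Cfsg.Agent.Lib.Classical.SingularVectors
import Cfsg.Agent.Lib.Classical.Similitude

/-! Standard bases of nondegenerate quadratic spaces over finite fields. -/

set_option autoImplicit false

namespace Cfsg.Agent.WittBasis

open Module Cfsg.Lib.Classical

variable {F V : Type*} [Field F] [Finite F] [AddCommGroup V] [Module F V] [FiniteDimensional F V]
  {Q : QuadraticForm F V}

local notation "β" => QuadraticMap.polarBilin Q

omit [Finite F] [FiniteDimensional F V] in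
theorem exists_pair {W : Submodule F V} (hW : FrameCount.NdOn β W) {e : V} (he : e ∈ W) (he0 : e ≠ 0) (hQ : Q e = 0) :
    ∃ f, FrameCount.IsPair β 1 W e f ∧ Q e = 0 ∧ Q f = 0 := by
  obtain ⟨z, hz, hne⟩ := hW e he he0
  obtain ⟨z', hz', h1⟩ : ∃ z' ∈ W, β e z' = 1 :=
    ⟨(β e z)⁻¹ • z, W.smul_mem _ hz, by rw [map_smul, smul_eq_mul, inv_mul_cancel₀ hne]⟩
  have hee : β e e = 0 := by rw [Witt.polar_self', hQ, mul_zero]
  have hf : Q (z' + (-Q z') • e) = 0 := by
    rw [Witt.quad_add, Witt.quad_smul, hQ, map_smul, smul_eq_mul, Witt.polar_symm', h1]; ring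
  have hef : β e (z' + (-Q z') • e) = 1 := by rw [map_add, map_smul, h1, hee, smul_zero, add_zero]
  exact ⟨_, ⟨he, W.add_mem hz' (W.smul_mem _ he), hee, by rw [Witt.polar_self', hf, mul_zero], hef,
    by rw [Witt.polar_symm', hef]⟩, hQ, hf⟩

theorem exists_frame : ∀ (m : ℕ) (W : Submodule F V), FrameCount.NdOn β W → 2 * m + 1 ≤ finrank F W →
    ∃ (p : FrameCount.Frames β 1 (fun v => Q v = 0) W m) (R : Submodule F V), R ≤ W ∧ FrameCount.NdOn β R ∧
      finrank F R + 2 * m = finrank F W ∧ ∀ x, ∀ v ∈ R, β (p.1 x) v = 0 := by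
  intro m
  induction m with
  | zero =>
    intro W hW _
    exact ⟨⟨fun x => Sum.elim Fin.elim0 Fin.elim0 x, fun x => x.elim (fun i => i.elim0) (fun i => i.elim0),
      fun x => x.elim (fun i => i.elim0) (fun i => i.elim0)⟩, W, le_rfl, hW, by omega,
      fun x => x.elim (fun i => i.elim0) (fun i => i.elim0)⟩
  | succ m ih =>
    intro W hW hd
    obtain ⟨e, he, he0, hQe⟩ := SingularVectors.exists_zero Q W (by omega)
    obtain ⟨f, hp, hP⟩ := exists_pair hW he he0 hQe
    have hfr := hp.finrank_eq one_ne_zero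
    obtain ⟨p, R, hRle, hR, hRd, hperp⟩ :=
      ih _ (hp.ndOn one_ne_zero (SingularVectors.refl' Q) hW) (by omega)
    refine ⟨(FrameCount.succEquiv (SingularVectors.refl' Q) W m).symm ⟨⟨(e, f), hp, hP⟩, p⟩, R,
      hRle.trans (fun x hx => (FrameCount.mem_perp2.1 hx).1), hR, by omega, ?_⟩
    intro x v hv
    have hv' := FrameCount.mem_perp2.1 (hRle hv)
    show β (Sum.elim (Fin.cons e fun i => p.1 (Sum.inl i)) (Fin.cons f fun i => p.1 (Sum.inr i)) x) v = 0
    rcases x with i | i
    · induction i using Fin.cases with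
      | zero => exact hv'.2.1
      | succ i => exact hperp _ v hv
    · induction i using Fin.cases with
      | zero => exact hv'.2.2
      | succ i => exact hperp _ v hv

/-- The odd-dimensional case. -/
theorem exists_basis_odd (hQ : (β).Nondegenerate) {m : ℕ} (hV : finrank F V = 2 * m + 1) :
    ∃ (p : FrameCount.Frames β 1 (fun v => Q v = 0) ⊤ m) (x : V) (b : Basis (Unit ⊕ (Fin m ⊕ Fin m)) F V),
      Q x ≠ 0 ∧ (∀ k, β x (p.1 k) = 0) ∧ ⇑b = Sum.elim (fun _ => x) p.1 := by
  obtain ⟨p, R, -, hR, hRd, hperp⟩ := exists_frame m ⊤ (FrameCount.ndOn_top hQ) (by rw [finrank_top, hV])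
  rw [finrank_top, hV] at hRd
  have hR1 : finrank F R = 1 := by omega
  obtain ⟨x, hx0, hxs⟩ := finrank_eq_one_iff'.1 hR1
  have hxx : β (x : V) x ≠ 0 := by
    intro h
    obtain ⟨z, hz, hne⟩ := hR x x.2 (fun e => hx0 (Subtype.ext e))
    obtain ⟨c, hc⟩ := hxs ⟨z, hz⟩
    have hc' : z = c • (x : V) := (congrArg Subtype.val hc).symm
    apply hne
    rw [hc', map_smul, h, smul_zero]
  have hxp : ∀ k, β (x : V) (p.1 k) = 0 := fun k => by rw [Witt.polar_symm']; exact hperp k x x.2
  have hLI : LinearIndependent F (Sum.elim (fun _ : Unit => (x : V)) p.1) := by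
    rw [Fintype.linearIndependent_iff]
    intro c hc
    simp only [Fintype.sum_sum_type, Fintype.sum_unique, Sum.elim_inl, Sum.elim_inr, Finset.univ_unique,
      Finset.sum_singleton] at hc
    have h0 : c (.inl ()) = 0 := by
      have h := congrArg (β (x : V)) hc
      rw [map_add, map_add, map_sum, map_sum, map_zero, map_smul, smul_eq_mul] at h
      simp only [map_smul, hxp, smul_zero, Finset.sum_const_zero, add_zero] at h
      exact (mul_eq_zero.1 h).resolve_right hxx
    simp only [h0, zero_smul, zero_add] at hc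
    have hp := Fintype.linearIndependent_iff.1 (FrameCount.linearIndependent_frame one_ne_zero p) (fun k => c (.inr k))
      (by rw [Fintype.sum_sum_type]; exact hc)
    rintro (⟨⟩ | k)
    exacts [h0, hp k]
  refine ⟨p, x, basisOfLinearIndependentOfCardEqFinrank' _ hLI (by rw [hV]; simp; ring), fun h => hxx ?_, hxp,
    coe_basisOfLinearIndependentOfCardEqFinrank' _ hLI _⟩
  rw [Witt.polar_self', h, mul_zero]

/-- The even-dimensional case. -/
theorem exists_basis_even (hQ : (β).Nondegenerate) {k : ℕ} (hV : finrank F V = 2 * (k + 1)) :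
    (∃ (p : FrameCount.Frames β 1 (fun v => Q v = 0) ⊤ (k + 1)) (b : Basis (Fin (k + 1) ⊕ Fin (k + 1)) F V), ⇑b = p.1) ∨
    ∃ (p : FrameCount.Frames β 1 (fun v => Q v = 0) ⊤ k) (x y : V) (b : Basis ((Fin k ⊕ Fin k) ⊕ Fin 2) F V),
      (∀ t : F, t ^ 2 + t + Q y ≠ 0) ∧ Q x = 1 ∧ β x y = 1 ∧ (∀ i, β (p.1 i) x = 0 ∧ β (p.1 i) y = 0) ∧
      ⇑b = Sum.elim p.1 ![x, y] := by
  classical
  have := Fintype.ofFinite F
  obtain ⟨p, R, -, hR, hRd, hperp⟩ := exists_frame k ⊤ (FrameCount.ndOn_top hQ) (by rw [finrank_top, hV]; omega)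
  rw [finrank_top, hV] at hRd
  have hR2 : finrank F R = 2 := by omega
  by_cases hsing : ∃ e ∈ R, e ≠ 0 ∧ Q e = 0
  · left
    obtain ⟨e, he, he0, hQe⟩ := hsing
    obtain ⟨f, hp, hP⟩ := exists_pair hR he he0 hQe
    have hpt : FrameCount.IsPair β 1 (⊤ : Submodule F V) e f :=
      ⟨Submodule.mem_top, Submodule.mem_top, hp.ee, hp.ff, hp.ef, hp.fe⟩
    let p' : FrameCount.Frames β 1 (fun v => Q v = 0) (FrameCount.perp2 β ⊤ e f) k :=
      ⟨p.1, fun x => ⟨FrameCount.mem_perp2.2 ⟨Submodule.mem_top,
        by rw [Witt.polar_symm']; exact hperp x e he, by rw [Witt.polar_symm']; exact hperp x f hp.memF⟩, (p.2.1 x).2⟩, p.2.2⟩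
    let q := (FrameCount.succEquiv (SingularVectors.refl' Q) ⊤ k).symm ⟨⟨(e, f), hpt, hP⟩, p'⟩
    have hLI := FrameCount.linearIndependent_frame one_ne_zero q
    exact ⟨q, basisOfLinearIndependentOfCardEqFinrank' _ hLI (by rw [hV]; simp; ring),
      coe_basisOfLinearIndependentOfCardEqFinrank' _ hLI _⟩
  · right
    push Not at hsing
    -- an element of value one
    obtain ⟨u, v, huv⟩ : ∃ u v : R, LinearIndependent F ![u, v] :=
      let b := Module.finBasisOfFinrankEq F R hR2
      ⟨b 0, b 1, by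
        have : ![b 0, b 1] = ⇑b := by funext i; fin_cases i <;> rfl
        rw [this]; exact b.linearIndependent⟩
    have hpair : ∀ a c : F, a • (u : V) + c • (v : V) = 0 → a = 0 ∧ c = 0 := fun a c h => by
      have := LinearIndependent.pair_iff.1 huv a c (Subtype.ext (by simpa using h))
      exact this
    have hu0 : (u : V) ≠ 0 := fun h => one_ne_zero (hpair 1 0 (by simp [h])).1
    have hQu : Q u ≠ 0 := hsing u u.2 hu0
    have hD : 4 * (Q v / Q u) - (β u v / Q u) ^ 2 ≠ 0 := by
      intro h
      have h1 : β u v ^ 2 = 4 * Q v * Q u := by field_simp at h; linear_combination -h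
      -- a vector of `R` orthogonal to `R`
      set z := (β u v) • (u : V) - (2 * Q u) • (v : V) with hz
      have hzR : z ∈ R := R.sub_mem (R.smul_mem _ u.2) (R.smul_mem _ v.2)
      have hzu : β z u = 0 := by
        rw [hz, map_sub, map_smul, map_smul, LinearMap.sub_apply, LinearMap.smul_apply, LinearMap.smul_apply,
          Witt.polar_self', Witt.polar_symm' Q (v : V) u, smul_eq_mul, smul_eq_mul]
        ring
      have hzv : β z v = 0 := by
        rw [hz, map_sub, map_smul, map_smul, LinearMap.sub_apply, LinearMap.smul_apply, LinearMap.smul_apply,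
          Witt.polar_self', smul_eq_mul, smul_eq_mul]
        linear_combination h1
      have hall : ∀ w ∈ R, β z w = 0 := by
        intro w hw
        have hs : Submodule.span F (Set.range ![u, v]) = ⊤ :=
          huv.span_eq_top_of_card_eq_finrank' (by simp [hR2])
        have hmem : (⟨w, hw⟩ : R) ∈ Submodule.span F (Set.range ![u, v]) := hs ▸ Submodule.mem_top
        rw [Matrix.range_cons_cons_empty, Submodule.mem_span_pair] at hmem
        obtain ⟨a, c, hac⟩ := hmem
        have hw' : w = a • (u : V) + c • (v : V) := (congrArg Subtype.val hac).symm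
        rw [hw', map_add, map_smul, map_smul, hzu, hzv, smul_zero, smul_zero, add_zero]
      by_cases hz0 : z = 0
      · have h2 := hpair (β u v) (-(2 * Q u)) (by rw [neg_smul, ← sub_eq_add_neg]; exact hz0)
        have huu : β (u : V) u = 0 := by rw [Witt.polar_self', neg_eq_zero.1 h2.2]
        obtain ⟨w, hw, hne⟩ := hR u u.2 hu0
        have hs : Submodule.span F (Set.range ![u, v]) = ⊤ :=
          huv.span_eq_top_of_card_eq_finrank' (by simp [hR2])
        have hmem : (⟨w, hw⟩ : R) ∈ Submodule.span F (Set.range ![u, v]) := hs ▸ Submodule.mem_top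
        rw [Matrix.range_cons_cons_empty, Submodule.mem_span_pair] at hmem
        obtain ⟨a, c, hac⟩ := hmem
        have hw' : w = a • (u : V) + c • (v : V) := (congrArg Subtype.val hac).symm
        exact hne (by rw [hw', map_add, map_smul, map_smul, huu, h2.1, smul_zero, smul_zero, add_zero])
      · obtain ⟨w, hw, hne⟩ := hR z hzR hz0
        exact hne (hall w hw)
    obtain ⟨s, t, hst⟩ := Cfsg.Agent.Similitude.exists_value (β u v / Q u) (Q v / Q u) (Q u)⁻¹ hD
    obtain ⟨x, hxR, hQx⟩ : ∃ x ∈ R, Q x = 1 := by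
      refine ⟨s • (u : V) + t • (v : V), R.add_mem (R.smul_mem _ u.2) (R.smul_mem _ v.2), ?_⟩
      rw [Witt.quad_add, Witt.quad_smul, Witt.quad_smul, map_smul, map_smul, LinearMap.smul_apply, smul_eq_mul, smul_eq_mul]
      field_simp at hst
      linear_combination hst
    have hx0 : x ≠ 0 := fun h => by simp [h] at hQx
    obtain ⟨y₀, hy₀R, hy₀⟩ : ∃ y ∈ R, ∀ c : F, y ≠ c • x := by
      by_contra! hcon
      have hle : R ≤ Submodule.span F {x} := fun y hy => by
        obtain ⟨c, hc⟩ := hcon y hy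
        exact Submodule.mem_span_singleton.2 ⟨c, hc.symm⟩
      have := Submodule.finrank_mono hle
      rw [finrank_span_singleton hx0, hR2] at this
      omega
    obtain ⟨y, hyR, hxy, hy⟩ : ∃ y ∈ R, β x y = 1 ∧ ∀ c : F, y ≠ c • x := by
      by_cases h : β x y₀ = 0
      · have hxx : β x x ≠ 0 := by
          intro hxx
          have hLI : LinearIndependent F ![(⟨x, hxR⟩ : R), ⟨y₀, hy₀R⟩] := by
            rw [LinearIndependent.pair_iff' (fun e => hx0 (congrArg Subtype.val e))]
            exact fun c hc => hy₀ c (congrArg Subtype.val hc).symm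
          have hs := hLI.span_eq_top_of_card_eq_finrank' (by simp [hR2])
          obtain ⟨w, hw, hne⟩ := hR x hxR hx0
          have hmem : (⟨w, hw⟩ : R) ∈ Submodule.span F (Set.range ![(⟨x, hxR⟩ : R), ⟨y₀, hy₀R⟩]) := hs ▸ Submodule.mem_top
          rw [Matrix.range_cons_cons_empty, Submodule.mem_span_pair] at hmem
          obtain ⟨a, c, hac⟩ := hmem
          have hw' : w = a • x + c • y₀ := (congrArg Subtype.val hac).symm
          exact hne (by rw [hw', map_add, map_smul, map_smul, hxx, h, smul_zero, smul_zero, add_zero])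
        refine ⟨y₀ + (β x x)⁻¹ • x, R.add_mem hy₀R (R.smul_mem _ hxR), by
          rw [map_add, map_smul, h, smul_eq_mul, inv_mul_cancel₀ hxx, zero_add], fun c hc => hy₀ (c - (β x x)⁻¹) ?_⟩
        rw [sub_smul, ← hc, add_sub_cancel_right]
      · refine ⟨(β x y₀)⁻¹ • y₀, R.smul_mem _ hy₀R, by rw [map_smul, smul_eq_mul, inv_mul_cancel₀ h], fun c hc =>
          hy₀ (β x y₀ * c) ?_⟩
        rw [mul_smul, ← hc, smul_inv_smul₀ h]
    have hne : ∀ t : F, t ^ 2 + t + Q y ≠ 0 := by
      intro t ht
      refine hsing (t • x + y) (R.add_mem (R.smul_mem _ hxR) hyR) (fun e => hy (-t) ?_) ?_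
      · rw [neg_smul]; exact eq_neg_of_add_eq_zero_right e
      · rw [Witt.quad_add, Witt.quad_smul, map_smul, LinearMap.smul_apply, hQx, hxy, smul_eq_mul]
        linear_combination ht
    have hLI : LinearIndependent F (Sum.elim p.1 ![x, y]) := by
      refine (FrameCount.linearIndependent_frame one_ne_zero p).sum_type
        ((LinearIndependent.pair_iff' hx0).2 fun c hc => hy c hc.symm) ?_
      rw [Submodule.disjoint_def]
      intro w hw1 hw2
      have hwR : w ∈ R := Submodule.span_le.2 (by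
        rw [Matrix.range_cons_cons_empty]
        rintro z (rfl | rfl)
        exacts [hxR, hyR]) hw2
      by_contra hw0
      obtain ⟨z, hz, hne⟩ := hR w hwR hw0
      apply hne
      have hle : Submodule.span F (Set.range p.1) ≤ LinearMap.ker ((QuadraticMap.polarBilin Q).flip z) := by
        rw [Submodule.span_le]
        rintro _ ⟨i, rfl⟩
        exact hperp i z hz
      exact hle hw1
    exact ⟨p, x, y, basisOfLinearIndependentOfCardEqFinrank' _ hLI (by rw [hV]; simp; ring), hne, hQx, hxy,
      fun i => ⟨hperp i x hxR, hperp i y hyR⟩, coe_basisOfLinearIndependentOfCardEqFinrank' _ hLI _⟩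

end Cfsg.Agent.WittBasis
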