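import Mathlib
import Cfsg.Prelude.Def_Classical
import Cfsg.Prelude.Def_LieClassical
import Cfsg.Agent.Lib.Classical.SympEmbed
import Cfsg.Agent.Lib.Classical.WittBasis
import Cfsg.Agent.Lib.Classical.SingularDim

/-! The unitary group as a subgroup of an orthogonal group over the subfield. -/

set_option autoImplicit false

namespace Cfsg.Agent.GUOrth

open Module Matrix

section coords

variable {F V : Type*} [Field F] [AddCommGroup V] [Module F V]

theorem quad_sum_zero {ι : Type*} (Q : QuadraticForm F V) (e : ι → V) (h0 : ∀ i, Q (e i) = 0)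
    (hp : ∀ i j, QuadraticMap.polar ⇑Q (e i) (e j) = 0) (c : ι → F) (s : Finset ι) :
    Q (∑ i ∈ s, c i • e i) = 0 ∧ ∀ j, QuadraticMap.polar ⇑Q (∑ i ∈ s, c i • e i) (e j) = 0 := by
  classical
  induction s using Finset.induction_on with
  | empty => simp [QuadraticMap.polar_zero_left]
  | @insert a s ha ih =>
    rw [Finset.sum_insert ha]
    refine ⟨?_, fun j => ?_⟩
    · rw [QuadraticMap.map_add ⇑Q, QuadraticMap.map_smul, h0, ih.1, QuadraticMap.polar_smul_left,
        QuadraticMap.polar_comm, ih.2]
      simp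
    · rw [QuadraticMap.polar_add_left, QuadraticMap.polar_smul_left, hp, ih.2]
      simp

theorem quad_hyp {k : ℕ} (Q : QuadraticForm F V) (p : Fin k ⊕ Fin k → V) (h0 : ∀ x, Q (p x) = 0)
    (hp : ∀ x y, QuadraticMap.polarBilin Q (p x) (p y) = Cfsg.Lib.Classical.FrameCount.gram 1 x y)
    (v : Fin k ⊕ Fin k → F) : Q (∑ x, v x • p x) = Cfsg.quadFormPlus k F v := by
  classical
  rw [Fintype.sum_sum_type, QuadraticMap.map_add ⇑Q,
    (quad_sum_zero Q (fun i => p (.inl i)) (fun i => h0 _) (fun i j => hp (.inl i) (.inl j)) _ _).1,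
    (quad_sum_zero Q (fun i => p (.inr i)) (fun i => h0 _) (fun i j => hp (.inr i) (.inr j)) _ _).1,
    zero_add, zero_add, ← QuadraticMap.polarBilin_apply_apply, Cfsg.quadFormPlus]
  simp only [map_sum, map_smul, LinearMap.sum_apply, LinearMap.smul_apply, hp, smul_eq_mul,
    Cfsg.Lib.Classical.FrameCount.gram, mul_ite, mul_one, mul_zero, Finset.sum_ite_eq, Finset.mem_univ, if_true,
    Finset.sum_ite_eq']
  exact Finset.sum_congr rfl fun i _ => by ring

end coords

variable {K F : Type*} [Field K] [Fintype K] [Field F] [Fintype F] [Algebra F K] {q : ℕ}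
  (hK : Fintype.card K = q ^ 2) (hF : Fintype.card F = q)
include hK hF

theorem trace_eq (x : K) : algebraMap F K (Algebra.trace F K x) = x + x ^ q := by
  rw [FiniteField.algebraMap_trace_eq_sum_pow, SympEmbed.finrank_two (F := F) hK hF, Nat.card_eq_fintype_card, hF,
    Finset.sum_range_succ, Finset.sum_range_one, pow_zero, pow_one, pow_one]

theorem pow_add_q (x y : K) : (x + y) ^ q = x ^ q + y ^ q := by
  have := map_add (FiniteField.frobeniusAlgHom F K) x y
  simpa [FiniteField.coe_frobeniusAlgHom, hF] using this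

theorem herm_swap {m : ℕ} (u v : Fin m → K) : Cfsg.hermForm m K q v u = Cfsg.hermForm m K q u v ^ q := by
  have hs := map_sum (FiniteField.frobeniusAlgHom F K) (fun i => u i * v i ^ q) Finset.univ
  simp only [FiniteField.coe_frobeniusAlgHom, hF] at hs
  rw [Cfsg.hermForm, Cfsg.hermForm, hs]
  exact Finset.sum_congr rfl fun i _ => by rw [mul_pow, ← pow_mul, ← pow_two, ← hK, FiniteField.pow_card, mul_comm]

theorem exists_quad (m : ℕ) : ∃ Q : QuadraticForm F (Fin m → K),
    (∀ v, algebraMap F K (Q v) = Cfsg.hermForm m K q v v) ∧ (QuadraticMap.polarBilin Q).Nondegenerate := by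
  classical
  obtain ⟨θ, hθ⟩ := Algebra.trace_surjective F K 1
  let B : LinearMap.BilinForm F (Fin m → K) := LinearMap.mk₂ F
    (fun u v => Algebra.trace F K (θ * Cfsg.hermForm m K q u v))
    (fun u u' v => by simp [Cfsg.hermForm, add_mul, Finset.sum_add_distrib, mul_add, map_add])
    (fun c u v => by
      rw [← map_smul]
      congr 1
      simp only [Cfsg.hermForm, Finset.mul_sum, Pi.smul_apply, Finset.smul_sum]
      exact Finset.sum_congr rfl fun i _ => by rw [Algebra.smul_def, Algebra.smul_def]; ring)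
    (fun u v v' => by simp [Cfsg.hermForm, pow_add_q hK hF, mul_add, Finset.sum_add_distrib, map_add])
    (fun c u v => by
      rw [← map_smul]
      congr 1
      simp only [Cfsg.hermForm, Finset.mul_sum, Pi.smul_apply, Finset.smul_sum]
      refine Finset.sum_congr rfl fun i _ => ?_
      rw [Algebra.smul_def, Algebra.smul_def, mul_pow, ← map_pow, ← hF, FiniteField.pow_card]
      ring)
  have hQ : ∀ v, algebraMap F K (LinearMap.BilinMap.toQuadraticMap B v) = Cfsg.hermForm m K q v v := by
    intro v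
    obtain ⟨c, hc⟩ := SympEmbed.mem_range_of_pow_eq (F := F) hF (herm_swap hK hF v v).symm
    show algebraMap F K (Algebra.trace F K (θ * Cfsg.hermForm m K q v v)) = _
    rw [← hc, mul_comm, ← Algebra.smul_def, map_smul, hθ, smul_eq_mul, mul_one]
  refine ⟨_, hQ, ?_⟩
  have hpol : ∀ u v, QuadraticMap.polarBilin (LinearMap.BilinMap.toQuadraticMap B) u v =
      Algebra.trace F K (Cfsg.hermForm m K q u v) := by
    intro u v
    apply (algebraMap F K).injective
    rw [trace_eq hK hF, ← herm_swap hK hF u v, QuadraticMap.polarBilin_apply_apply, QuadraticMap.polar,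
      map_sub, map_sub, hQ, hQ, hQ]
    simp [Cfsg.hermForm, pow_add_q hK hF, add_mul, mul_add, Finset.sum_add_distrib]
    ring
  have hq : q ≠ 0 := by rw [← hF]; exact Fintype.card_ne_zero
  have hleft : ∀ u, (∀ v, QuadraticMap.polarBilin (LinearMap.BilinMap.toQuadraticMap B) u v = 0) → u = 0 := by
    intro u hu
    funext i
    by_contra hi
    obtain ⟨y, hy⟩ := Algebra.trace_surjective F K 1
    obtain ⟨z, hz⟩ := Finite.injective_iff_surjective.1 (FiniteField.frobeniusAlgHom F K).injective (y / u i)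
    have hz' : z ^ q = y / u i := by simpa [FiniteField.coe_frobeniusAlgHom, hF] using hz
    have h := hu (Pi.single i z)
    rw [hpol, Cfsg.hermForm, Finset.sum_eq_single i (fun j _ hj => by simp [hj, zero_pow hq]) (by simp),
      Pi.single_eq_same, hz', mul_div_cancel₀ _ hi, hy] at h
    exact one_ne_zero h
  exact ⟨hleft, fun v hv => hleft v fun u => by
    rw [QuadraticMap.polarBilin_apply_apply, QuadraticMap.polar_comm]; exact hv u⟩

/-- Coordinates making the hermitian norm hyperbolic, in even dimension. -/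
theorem coords_plus (m : ℕ) (hm : Even m) :
    ∃ Ψ : (Fin m ⊕ Fin m → F) ≃ₗ[F] (Fin m → K),
      ∀ v, Cfsg.hermForm m K q (Ψ v) (Ψ v) = algebraMap F K (Cfsg.quadFormPlus m F v) := by
  classical
  have hrk := SympEmbed.finrank_two (F := F) hK hF
  obtain ⟨Q, hQ, hnd⟩ := exists_quad hK hF m
  rcases Nat.eq_zero_or_pos m with rfl | hpos
  · refine ⟨LinearEquiv.ofSubsingleton _ _, fun v => ?_⟩
    simp [Cfsg.hermForm, Cfsg.quadFormPlus]
  obtain ⟨k, rfl⟩ : ∃ k, m = k + 1 := ⟨m - 1, by omega⟩
  have hV : finrank F (Fin (k + 1) → K) = 2 * (k + 1) := by rw [Module.finrank_pi_fintype]; simp [hrk, mul_comm]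
  rcases WittBasis.exists_basis_even hnd hV with ⟨p, b, hb⟩ | ⟨p, x, y, b, hne, hx, hxy, hpxy, hb⟩
  · refine ⟨b.equivFun.symm, fun v => ?_⟩
    rw [← hQ, Basis.equivFun_symm_apply, hb, quad_hyp Q p.1 (fun i => (p.2.1 i).2) p.2.2]
  · exfalso
    -- a totally singular subspace of dimension `k + 1`
    obtain ⟨l, hl⟩ := hm
    obtain ⟨lam, hlam⟩ := FiniteField.norm_surjective F K (-1)
    have hlam' : lam * lam ^ q = -1 := by
      have h := congrArg (algebraMap F K) hlam
      rw [FiniteField.algebraMap_norm_eq_pow_sum, map_neg, map_one, hrk, Nat.card_eq_fintype_card, hF,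
        Finset.sum_range_succ, Finset.sum_range_one, pow_zero, pow_one, pow_add, pow_one] at h
      exact h
    let σ : Fin l ⊕ Fin l ≃ Fin (k + 1) := finSumFinEquiv.trans (finCongr hl.symm)
    let L : (Fin l → K) →ₗ[F] (Fin (k + 1) → K) :=
      { toFun := fun z i => Sum.elim z (fun j => lam * z j) (σ.symm i)
        map_add' := fun z z' => by
          funext i
          simp only [Pi.add_apply]
          rcases σ.symm i with j | j <;> simp [mul_add]
        map_smul' := fun c z => by
          funext i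
          simp only [RingHom.id_apply, Pi.smul_apply]
          rcases σ.symm i with j | j <;> simp }
    have hL : Function.Injective L := fun z z' h => funext fun j => by
      simpa [L] using congrFun h (σ (.inl j))
    have hLQ : ∀ z, Q (L z) = 0 := by
      intro z
      apply (algebraMap F K).injective
      rw [hQ, map_zero, Cfsg.hermForm, ← Equiv.sum_comp σ, Fintype.sum_sum_type, ← Finset.sum_add_distrib]
      refine Finset.sum_eq_zero fun j _ => ?_
      simp only [L, LinearMap.coe_mk, AddHom.coe_mk, Equiv.symm_apply_apply, Sum.elim_inl, Sum.elim_inr, mul_pow]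
      linear_combination (z j * z j ^ q) * hlam'
    let Ψe : ((Fin k ⊕ Fin k) ⊕ Fin 2 → F) ≃ₗ[F] (Fin (k + 1) → K) := b.equivFun.symm
    have hform : ∀ v, Q (Ψe v) = Cfsg.quadFormMinus k F 1 (Q y) v := by
      intro v
      have hperp : ∀ c : Fin k ⊕ Fin k → F, ∀ w, (∀ i, QuadraticMap.polarBilin Q (p.1 i) w = 0) →
          QuadraticMap.polarBilin Q (∑ i, c i • p.1 i) w = 0 := fun c w hw => by
        simp [map_sum, LinearMap.sum_apply, -QuadraticMap.polarBilin_apply_apply, hw]
      simp only [Ψe, Basis.equivFun_symm_apply, hb]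
      rw [Fintype.sum_sum_type]
      simp only [Sum.elim_inl, Sum.elim_inr, Fin.sum_univ_two, Matrix.cons_val_zero, Matrix.cons_val_one]
      have h1 : QuadraticMap.polar (⇑Q) (∑ i, v (.inl i) • p.1 i) (v (.inr 0) • x + v (.inr 1) • y) = 0 := by
        rw [QuadraticMap.polar_add_right, QuadraticMap.polar_smul_right, QuadraticMap.polar_smul_right,
          show QuadraticMap.polar (⇑Q) (∑ i, v (.inl i) • p.1 i) x = 0 from hperp _ x fun i => (hpxy i).1,
          show QuadraticMap.polar (⇑Q) (∑ i, v (.inl i) • p.1 i) y = 0 from hperp _ y fun i => (hpxy i).2,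
          smul_zero, smul_zero, add_zero]
      have h2 : Q (v (.inr 0) • x + v (.inr 1) • y) = v (.inr 0) ^ 2 + 1 * v (.inr 0) * v (.inr 1) + Q y * v (.inr 1) ^ 2 := by
        rw [QuadraticMap.map_add ⇑Q, QuadraticMap.map_smul, QuadraticMap.map_smul, QuadraticMap.polar_smul_left,
          QuadraticMap.polar_smul_right, show QuadraticMap.polar (⇑Q) x y = 1 from hxy, hx]
        simp only [smul_eq_mul]
        ring
      rw [QuadraticMap.map_add ⇑Q, h1, add_zero, h2, quad_hyp Q p.1 (fun i => (p.2.1 i).2) p.2.2]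
      rfl
    have hab : ∀ z₁ z₂ : F, z₁ ^ 2 + 1 * z₁ * z₂ + Q y * z₂ ^ 2 = 0 → z₁ = 0 ∧ z₂ = 0 := by
      intro z₁ z₂ hz
      by_cases hz2 : z₂ = 0
      · subst hz2
        exact ⟨by simpa using hz, rfl⟩
      · refine absurd ?_ (hne (z₁ / z₂))
        field_simp
        linear_combination hz
    have hU := SingularDim.finrank_le_minus hab ((LinearMap.range L).map Ψe.symm.toLinearMap) (by
      rintro _ ⟨_, ⟨z, rfl⟩, rfl⟩
      rw [← hform, LinearEquiv.coe_coe, Ψe.apply_symm_apply, hLQ])
    rw [LinearEquiv.finrank_map_eq, LinearMap.finrank_range_of_inj hL, Module.finrank_pi_fintype] at hU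
    simp [hrk] at hU
    omega

/-- Coordinates making the hermitian norm elliptic, in odd dimension. -/
theorem coords_minus (k : ℕ) (hk : Even k) (a b : F)
    (hab : ∀ z₁ z₂ : F, z₁ ^ 2 + a * z₁ * z₂ + b * z₂ ^ 2 = 0 → z₁ = 0 ∧ z₂ = 0) :
    ∃ Ψ : ((Fin k ⊕ Fin k) ⊕ Fin 2 → F) ≃ₗ[F] (Fin (k + 1) → K),
      ∀ v, Cfsg.hermForm (k + 1) K q (Ψ v) (Ψ v) = algebraMap F K (Cfsg.quadFormMinus k F a b v) := by
  classical
  have hrk := SympEmbed.finrank_two (F := F) hK hF
  obtain ⟨Ψ', hΨ'⟩ := coords_plus (K := K) hK hF k hk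
  -- a root of `X² - a X + b`
  obtain ⟨ρ, hρ, hρF⟩ : ∃ ρ : K, ρ * ρ - algebraMap F K a * ρ + algebraMap F K b = 0 ∧
      ∀ c : F, algebraMap F K c ≠ ρ := by
    let f : Polynomial F := Polynomial.X ^ 2 - (Polynomial.C a * Polynomial.X - Polynomial.C b)
    have hf2 : f.natDegree = 2 := by
      simp only [f]; compute_degree!
    have hirr : Irreducible f := by
      refine (Polynomial.irreducible_iff_roots_eq_zero_of_degree_le_three (by omega) (by omega)).2 ?_
      refine Multiset.eq_zero_of_forall_notMem fun c hc => ?_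
      have hf0 : f ≠ 0 := fun h => by simp [h] at hf2
      have he : f.eval c = 0 := (Polynomial.mem_roots hf0).1 hc
      simp only [f, Polynomial.eval_sub, Polynomial.eval_pow, Polynomial.eval_X, Polynomial.eval_mul, Polynomial.eval_C] at he
      exact one_ne_zero (hab (-c) 1 (by linear_combination he)).2
    have := Fact.mk hirr
    have hd : finrank F (AdjoinRoot f) ∣ finrank F K := by
      rw [(AdjoinRoot.powerBasis hirr.ne_zero).finrank, AdjoinRoot.powerBasis_dim, hf2, hrk]
    obtain ⟨ψ⟩ := FiniteField.nonempty_algHom_of_finrank_dvd (L := K) hd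
    refine ⟨ψ (AdjoinRoot.root f), ?_, fun c hc => ?_⟩
    · have h : Polynomial.aeval (ψ (AdjoinRoot.root f)) f = 0 := by
        rw [Polynomial.aeval_algHom_apply, AdjoinRoot.aeval_eq, AdjoinRoot.mk_self, map_zero]
      simp only [f, map_sub, map_pow, map_mul, Polynomial.aeval_X, Polynomial.aeval_C] at h
      linear_combination h
    · have h : Polynomial.aeval (algebraMap F K c) f = 0 := by
        rw [hc, Polynomial.aeval_algHom_apply, AdjoinRoot.aeval_eq, AdjoinRoot.mk_self, map_zero]
      rw [Polynomial.aeval_algebraMap_apply, map_eq_zero] at h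
      simp only [f, map_sub, map_pow, map_mul, Polynomial.aeval_X, Polynomial.aeval_C, Algebra.algebraMap_self,
        RingHom.id_apply] at h
      exact one_ne_zero (hab (-c) 1 (by linear_combination h)).2
  have hconj : ρ + ρ ^ q = algebraMap F K a ∧ ρ * ρ ^ q = algebraMap F K b := by
    have hσ := congrArg (FiniteField.frobeniusAlgHom F K) hρ
    simp only [map_add, map_sub, map_mul, AlgHom.commutes, map_zero] at hσ
    simp only [FiniteField.coe_frobeniusAlgHom, hF] at hσ
    have hne : ρ - ρ ^ q ≠ 0 := fun h => by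
      obtain ⟨c, hc⟩ := SympEmbed.mem_range_of_pow_eq (F := F) hF (sub_eq_zero.1 h).symm
      exact hρF c hc
    have h1 : ρ + ρ ^ q = algebraMap F K a := sub_eq_zero.1 ((mul_eq_zero.1
      (show (ρ - ρ ^ q) * (ρ + ρ ^ q - algebraMap F K a) = 0 by linear_combination hρ - hσ)).resolve_left hne)
    exact ⟨h1, by linear_combination ρ * h1 - hρ⟩
  let last : ((Fin k ⊕ Fin k) ⊕ Fin 2 → F) → K := fun v =>
    algebraMap F K (v (.inr 0)) + algebraMap F K (v (.inr 1)) * ρ
  let Ψ : ((Fin k ⊕ Fin k) ⊕ Fin 2 → F) →ₗ[F] (Fin (k + 1) → K) :=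
    { toFun := fun v => Fin.snoc (Ψ' (fun x => v (.inl x))) (last v)
      map_add' := fun v w => by
        funext i
        induction i using Fin.lastCases with
        | last => simp [last]; ring
        | cast i =>
          have : (fun x => (v + w) (Sum.inl x)) = (fun x => v (Sum.inl x)) + fun x => w (Sum.inl x) := rfl
          simp only [Fin.snoc_castSucc, Pi.add_apply]
          show Ψ' (fun x => (v + w) (Sum.inl x)) i = _
          rw [this, map_add]; rfl
      map_smul' := fun c v => by
        funext i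
        induction i using Fin.lastCases with
        | last => simp [last, Algebra.smul_def]; ring
        | cast i =>
          have : (fun x => (c • v) (Sum.inl x)) = c • fun x => v (Sum.inl x) := rfl
          simp only [Fin.snoc_castSucc, Pi.smul_apply, RingHom.id_apply]
          show Ψ' (fun x => (c • v) (Sum.inl x)) i = _
          rw [this, map_smul]; rfl }
  have hinj : Function.Injective Ψ := by
    rw [injective_iff_map_eq_zero]
    intro v hv
    have hA : Ψ' (fun x => v (.inl x)) = 0 := funext fun i => by simpa [Ψ] using congrFun hv i.castSucc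
    have hB : last v = 0 := by simpa [Ψ] using congrFun hv (Fin.last k)
    have h1 : v (.inr 1) = 0 := by
      by_contra h
      refine hρF (-(v (.inr 0)) / v (.inr 1)) ?_
      have h' : algebraMap F K (v (.inr 1)) ≠ 0 := (map_ne_zero _).2 h
      rw [map_div₀, map_neg, div_eq_iff h']
      linear_combination -hB
    have h0 : v (.inr 0) = 0 := by simpa [last, h1] using hB
    funext x
    rcases x with x | x
    · exact congrFun ((map_eq_zero_iff _ Ψ'.injective).1 hA) x
    · fin_cases x
      exacts [h0, h1]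
  refine ⟨Ψ.linearEquivOfInjective hinj (by
    rw [Module.finrank_pi, Module.finrank_pi_fintype]; simp [hrk]; ring), fun v => ?_⟩
  have hpow : ∀ c : F, algebraMap F K c ^ q = algebraMap F K c := fun c => by
    rw [← map_pow, ← hF, FiniteField.pow_card]
  show Cfsg.hermForm (k + 1) K q (Ψ v) (Ψ v) = _
  have h := hΨ' (fun x => v (.inl x))
  simp only [Cfsg.hermForm, Cfsg.quadFormPlus] at h
  simp only [Cfsg.hermForm, Cfsg.quadFormMinus, Ψ, LinearMap.coe_mk, AddHom.coe_mk, Fin.sum_univ_castSucc,
    Fin.snoc_castSucc, Fin.snoc_last, h, map_add, last, pow_add_q hK hF, mul_pow, hpow, map_mul, map_pow]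
  linear_combination (algebraMap F K (v (.inr 0)) * algebraMap F K (v (.inr 1))) * hconj.1 +
    algebraMap F K (v (.inr 1)) ^ 2 * hconj.2

/-- The induced embedding. -/
theorem exists_embed {ι : Type} [Fintype ι] [DecidableEq ι] (m : ℕ) (f : (ι → F) → F)
    (Ψ : (ι → F) ≃ₗ[F] (Fin m → K)) (hΨ : ∀ v, Cfsg.hermForm m K q (Ψ v) (Ψ v) = algebraMap F K (f v)) :
    ∃ φ : ↥(Cfsg.GU m K q) →* ↥(Cfsg.isometryGroup F f), Function.Injective φ := by
  let T : ↥(Cfsg.GU m K q) → ((ι → F) →ₗ[F] (ι → F)) := fun g =>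
    Ψ.symm.toLinearMap ∘ₗ ((Matrix.mulVecLin ((g : GL (Fin m) K) : Matrix (Fin m) (Fin m) K)).restrictScalars F) ∘ₗ
      Ψ.toLinearMap
  let M : ↥(Cfsg.GU m K q) →* Matrix ι ι F :=
    { toFun := fun g => LinearMap.toMatrix' (T g)
      map_one' := by
        have : T 1 = LinearMap.id := LinearMap.ext fun v => by simp [T]
        rw [this, LinearMap.toMatrix'_id]
      map_mul' := fun g h => by
        rw [← LinearMap.toMatrix'_comp]
        congr 1
        exact LinearMap.ext fun v => by simp [T, Matrix.mulVec_mulVec] }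
  refine ⟨MonoidHom.codRestrict M.toHomUnits _ fun g u _ => ?_, fun g h e => ?_⟩
  · apply (algebraMap F K).injective
    show algebraMap F K (f ((M g) *ᵥ u)) = algebraMap F K (f u)
    rw [← hΨ, ← hΨ]
    have : Ψ (M g *ᵥ u) = ((g : GL (Fin m) K) : Matrix (Fin m) (Fin m) K) *ᵥ Ψ u := by
      show Ψ (LinearMap.toMatrix' (T g) *ᵥ u) = _
      rw [LinearMap.toMatrix'_mulVec]
      simp [T]
    rw [this]
    exact g.2 (Ψ u) (Ψ u)
  · have e' : T g = T h := LinearMap.toMatrix'.injective (congrArg (fun z : ↥(Cfsg.isometryGroup F f) =>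
      ((z : GL ι F) : Matrix ι ι F)) e)
    apply Subtype.ext
    apply Units.ext
    refine Matrix.mulVec_injective (funext fun w => ?_)
    have := congrArg Ψ (LinearMap.congr_fun e' (Ψ.symm w))
    simpa [T] using this

end Cfsg.Agent.GUOrth
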