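import Mathlib
import Cfsg.Agent.Lib.Classical.Witt
import Cfsg.Agent.Lib.Classical.SymplecticMatrix
import Cfsg.Agent.Lib.Classical.ClassicalOrders

/-!
Independent totally isotropic families: counting, transitivity, orders of stabilisers.
-/

set_option autoImplicit false

namespace Cfsg.Lib.Classical.IsotropicFrames

open Module
open scoped Matrix

/-- Preimages under an equivariant surjection from a group. -/
theorem count_pre {G X : Type*} [Group G] [Finite G] [Finite X] (o : G → X) (hs : Function.Surjective o)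
    (heq : ∀ k g h, o g = o h → o (k * g) = o (k * h)) (p : X → Prop) :
    Nat.card {g : G // p (o g)} * Nat.card X = Nat.card G * Nat.card {x : X // p x} := by
  classical
  have := Fintype.ofFinite X
  have hc : ∀ x : X, Nat.card {g // o g = x} = Nat.card {g // o g = o 1} := by
    intro x
    obtain ⟨k, hk⟩ := hs x
    refine Nat.card_congr
      { toFun := fun g => ⟨k⁻¹ * g.1, ?_⟩
        invFun := fun g => ⟨k * g.1, ?_⟩
        left_inv := fun g => Subtype.ext (mul_inv_cancel_left _ _)
        right_inv := fun g => Subtype.ext (inv_mul_cancel_left _ _) }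
    · rw [heq k⁻¹ g.1 k (g.2.trans hk.symm), inv_mul_cancel]
    · rw [heq k g.1 1 g.2, mul_one, hk]
  have h1 : Nat.card {g : G // p (o g)} = Nat.card {x : X // p x} * Nat.card {g // o g = o 1} := by
    rw [Nat.card_congr (Equiv.sigmaSubtypeFiberEquivSubtype o (p := fun g => p (o g)) (q := p) fun _ => Iff.rfl).symm,
      Nat.card_sigma, Finset.sum_congr rfl fun x _ => hc x.1, Finset.sum_const, Finset.card_univ, smul_eq_mul,
      ← Nat.card_eq_fintype_card]
  have h2 : Nat.card G = Nat.card X * Nat.card {g // o g = o 1} := by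
    rw [Nat.card_congr (Equiv.sigmaFiberEquiv o).symm, Nat.card_sigma, Finset.sum_congr rfl fun x _ => hc x,
      Finset.sum_const, Finset.card_univ, smul_eq_mul, ← Nat.card_eq_fintype_card]
  rw [h1, h2]
  ring

section frames

variable {F V : Type*} [Field F] [AddCommGroup V] [Module F V]

/-- Independent families whose members are pairwise related. -/
def Fr (F : Type*) {V : Type*} [Field F] [AddCommGroup V] [Module F V] (R : V → V → Prop) (k : ℕ) : Type _ :=
  {e : Fin k → V // LinearIndependent F e ∧ ∀ i j, R (e i) (e j)}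

instance [Finite V] (R : V → V → Prop) (k : ℕ) : Finite (Fr F R k) := Subtype.finite

/-- The recursion for the number of related families. -/
theorem card_fr [Finite V] (R : V → V → Prop) (N : ℕ → ℕ) : ∀ k : ℕ,
    (∀ j < k, ∀ e : Fr F R j, Nat.card {v : V // v ∉ Submodule.span F (Set.range e.1) ∧ R v v ∧ ∀ i, R (e.1 i) v ∧ R v (e.1 i)} = N j) →
    Nat.card (Fr F R k) = ∏ j ∈ Finset.range k, N j := by
  classical
  intro k
  induction k with
  | zero =>
    intro _
    haveI : Unique (Fr F R 0) := ⟨⟨⟨Fin.elim0, linearIndependent_empty_type, fun i => i.elim0⟩⟩, fun e => Subtype.ext (funext fun i => i.elim0)⟩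
    simp
  | succ k ih =>
    intro h
    have := Fintype.ofFinite (Fr F R k)
    have e : Fr F R (k + 1) ≃ Σ e : Fr F R k, {v : V // v ∉ Submodule.span F (Set.range e.1) ∧ R v v ∧ ∀ i, R (e.1 i) v ∧ R v (e.1 i)} :=
      { toFun := fun x => ⟨⟨Fin.init x.1, (linearIndependent_finSucc'.1 x.2.1).1, fun i j => x.2.2 _ _⟩,
          x.1 (Fin.last k), (linearIndependent_finSucc'.1 x.2.1).2, x.2.2 _ _, fun i => ⟨x.2.2 _ _, x.2.2 _ _⟩⟩
        invFun := fun p => ⟨Fin.snoc p.1.1 p.2.1,
          linearIndependent_finSucc'.2 ⟨by rw [Fin.init_snoc]; exact p.1.2.1, by rw [Fin.init_snoc, Fin.snoc_last]; exact p.2.2.1⟩,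
          Fin.lastCases (Fin.lastCases (by rw [Fin.snoc_last]; exact p.2.2.2.1) fun j => by rw [Fin.snoc_last, Fin.snoc_castSucc]; exact (p.2.2.2.2 j).2)
            fun i => Fin.lastCases (by rw [Fin.snoc_last, Fin.snoc_castSucc]; exact (p.2.2.2.2 i).1) fun j => by rw [Fin.snoc_castSucc, Fin.snoc_castSucc]; exact p.1.2.2 i j⟩
        left_inv := fun x => Subtype.ext (Fin.snoc_init_self x.1)
        right_inv := fun p => by
          obtain ⟨⟨e, he⟩, v, hv⟩ := p
          refine Sigma.subtype_ext (Subtype.ext ?_) ?_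
          · simp
          · simp }
    rw [Nat.card_congr e, Nat.card_sigma, Finset.sum_congr rfl fun x _ => h k (Nat.lt_succ_self k) x, Finset.sum_const,
      Finset.card_univ, smul_eq_mul, ← Nat.card_eq_fintype_card, ih (fun j hj => h j (hj.trans (Nat.lt_succ_self k))),
      Finset.prod_range_succ]

/-- An injective map sending a finite set into itself fixes membership. -/
lemma mem_iff_map_mem {α : Type*} [Finite α] {S : Set α} {f : α → α} (hf : Function.Injective f) (h : Set.MapsTo f S S) (x : α) :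
    x ∈ S ↔ f x ∈ S := by
  refine ⟨fun hx => h hx, fun hx => ?_⟩
  have he : f '' S = S := Set.eq_of_subset_of_ncard_le h.image_subset (Set.ncard_image_of_injective S hf).ge (Set.toFinite S)
  rw [← he] at hx
  obtain ⟨y, hy, hxy⟩ := hx
  exact hf hxy ▸ hy

/-- Bases of a subspace inside it, as related families. -/
theorem card_fr_in [Fintype F] [FiniteDimensional F V] {q k : ℕ} (hF : Fintype.card F = q) (R : V → V → Prop) (W : Submodule F V)
    (hW : finrank F W = k) (hR : ∀ u ∈ W, ∀ v ∈ W, R u v) :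
    Nat.card {x : Fr F R k // ∀ i, x.1 i ∈ W} = ∏ i : Fin k, (q ^ k - q ^ (i : ℕ)) := by
  classical
  have : Finite V := Module.finite_of_finite F
  have : Fintype W := Fintype.ofFinite _
  have h := card_linearIndependent (K := F) (V := W) (k := k) hW.ge
  rw [hW, hF] at h
  rw [← h]
  exact Nat.card_congr
    { toFun := fun x => ⟨fun i => ⟨x.1.1 i, x.2 i⟩, LinearIndependent.of_comp W.subtype x.1.2.1⟩
      invFun := fun s => ⟨⟨fun i => (s.1 i : V), s.2.map' W.subtype (Submodule.ker_subtype W), fun i j => hR _ (s.1 i).2 _ (s.1 j).2⟩,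
        fun i => (s.1 i).2⟩
      left_inv := fun x => rfl
      right_inv := fun s => rfl }

end frames

section symplectic

variable {F : Type*} [Field F] [Fintype F] {q m : ℕ}

/-- The symplectic orthogonality relation. -/
def RSp (F : Type*) [Field F] (m : ℕ) (u v : Fin m ⊕ Fin m → F) : Prop := Cfsg.sympForm m F u v = 0

lemma card_ext (hF : Fintype.card F = q) {k : ℕ} (e : Fr F (RSp F m) k) :
    Nat.card {v : Fin m ⊕ Fin m → F // v ∉ Submodule.span F (Set.range e.1) ∧ RSp F m v v ∧ ∀ i, RSp F m (e.1 i) v ∧ RSp F m v (e.1 i)} =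
      q ^ (2 * m - k) - q ^ k := by
  classical
  set B := sympBilin F m
  have hA : B.IsAlt := sympBilin_isAlt F m
  set W := Submodule.span F (Set.range e.1)
  have hWk : finrank F W = k := by rw [finrank_span_eq_card e.2.1, Fintype.card_fin]
  have hmem : ∀ v, v ∈ B.orthogonal W ↔ ∀ i, B (e.1 i) v = 0 := fun v => by
    refine ⟨fun h i => h _ (Submodule.subset_span ⟨i, rfl⟩), fun h w hw => ?_⟩
    show B w v = 0
    induction hw using Submodule.span_induction with
    | mem x hx => obtain ⟨i, rfl⟩ := hx; exact h i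
    | zero => simp
    | add x y _ _ hx hy => simp [hx, hy]
    | smul a x _ hx => simp [hx]
  have hle : W ≤ B.orthogonal W := Submodule.span_le.2 (by
    rintro _ ⟨i, rfl⟩
    exact (hmem _).2 fun j => by rw [sympBilin_apply]; exact e.2.2 j i)
  have hdim : finrank F (B.orthogonal W) = 2 * m - k := by
    rw [LinearMap.BilinForm.finrank_orthogonal (sympBilin_nondegenerate F m), hWk]
    simp [two_mul]
  rw [Nat.card_congr (Equiv.subtypeEquivRight (q := fun v => v ∈ (B.orthogonal W : Set (Fin m ⊕ Fin m → F)) \ (W : Set (Fin m ⊕ Fin m → F))) fun v => by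
    simp only [Set.mem_sdiff, SetLike.mem_coe, hmem, RSp, ← sympBilin_apply]
    exact ⟨fun h => ⟨fun i => (h.2.2 i).1, h.1⟩, fun h => ⟨h.2, hA v, fun i => ⟨h.1 i, hA.isRefl _ _ (h.1 i)⟩⟩⟩),
    Nat.card_coe_set_eq, Set.ncard_sdiff (SetLike.coe_subset_coe.2 hle), ← Nat.card_coe_set_eq, ← Nat.card_coe_set_eq]
  show Nat.card (B.orthogonal W : Submodule F (Fin m ⊕ Fin m → F)) - Nat.card W = _
  rw [Module.natCard_eq_pow_finrank (K := F) (V := ↥(B.orthogonal W)), Module.natCard_eq_pow_finrank (K := F) (V := W), hdim, hWk, Nat.card_eq_fintype_card, hF]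

theorem card_fr_sp (hF : Fintype.card F = q) (k : ℕ) :
    Nat.card (Fr F (RSp F m) k) = ∏ j ∈ Finset.range k, (q ^ (2 * m - j) - q ^ j) :=
  card_fr _ _ k fun _ _ e => card_ext hF e

lemma spToMat_injective (g : Matrix.symplecticGroup (Fin m) F) :
    Function.Injective fun v => Cfsg.spToMat m F g *ᵥ v := fun v w h => by
  have h' := congrArg (fun x => Cfsg.spToMat m F g⁻¹ *ᵥ x) h
  simp only [Matrix.mulVec_mulVec, ← map_mul, inv_mul_cancel, map_one, Matrix.one_mulVec] at h'
  exact h'

lemma sympForm_spToMat (g : Matrix.symplecticGroup (Fin m) F) (u v : Fin m ⊕ Fin m → F) :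
    Cfsg.sympForm m F (Cfsg.spToMat m F g *ᵥ u) (Cfsg.spToMat m F g *ᵥ v) = Cfsg.sympForm m F u v := by
  have h := (mem_symplecticGroup_iff_spGL (spToGL g)).1 (by rw [coe_spToGL]; exact g.2)
  have := h u v
  simpa using this

/-- Stabiliser counts in the symplectic group via the orbit of an isotropic family. -/
theorem count_sp (hF : Fintype.card F = q) {k : ℕ} (e₀ : Fr F (RSp F m) k) (p : (Fin k → Fin m ⊕ Fin m → F) → Prop) :
    Nat.card {g : Matrix.symplecticGroup (Fin m) F // p fun i => Cfsg.spToMat m F g *ᵥ e₀.1 i} *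
        ∏ j ∈ Finset.range k, (q ^ (2 * m - j) - q ^ j) =
      (q ^ (m ^ 2) * ∏ i ∈ Finset.range m, (q ^ (2 * (i + 1)) - 1)) * Nat.card {x : Fr F (RSp F m) k // p x.1} := by
  classical
  let o : Matrix.symplecticGroup (Fin m) F → Fr F (RSp F m) k := fun g => ⟨fun i => Cfsg.spToMat m F g *ᵥ e₀.1 i,
    e₀.2.1.map' (Matrix.mulVecLin (Cfsg.spToMat m F g)) (LinearMap.ker_eq_bot.2 (spToMat_injective g)),
    fun i j => by show Cfsg.sympForm m F _ _ = 0; rw [sympForm_spToMat]; exact e₀.2.2 i j⟩
  have hs : Function.Surjective o := by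
    intro x
    obtain ⟨g, hg, hge⟩ := Witt.alt_witt (sympBilin_nondegenerate F m) (sympBilin_isAlt F m) e₀.1 x.1 e₀.2.1 x.2.1
      (fun i j => by rw [sympBilin_apply, sympBilin_apply, e₀.2.2 i j, x.2.2 i j])
    have hmem : (glEquiv _ F).symm g ∈ Cfsg.spGL m F :=
      mem_spGL_iff.2 fun u v => by rw [glEquiv_symm_mulVec, glEquiv_symm_mulVec]; exact hg u v
    refine ⟨⟨(((glEquiv _ F).symm g : GL _ F) : Matrix _ _ F), (mem_symplecticGroup_iff_spGL _).2 hmem⟩, Subtype.ext (funext fun i => ?_)⟩
    show (((glEquiv _ F).symm g : GL _ F) : Matrix _ _ F) *ᵥ e₀.1 i = x.1 i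
    rw [glEquiv_symm_mulVec, hge]
  have heq : ∀ a g h, o g = o h → o (a * g) = o (a * h) := fun a g h e => Subtype.ext (funext fun i => by
    have := congrFun (congrArg Subtype.val e) i
    show Cfsg.spToMat m F (a * g) *ᵥ _ = Cfsg.spToMat m F (a * h) *ᵥ _
    rw [map_mul, map_mul, ← Matrix.mulVec_mulVec, ← Matrix.mulVec_mulVec]
    exact congrArg _ this)
  rw [← card_fr_sp hF, ← ClassicalOrders.card_sp hF m]
  exact count_pre o hs heq fun x => p x.1

/-- The order identity for symplectic parabolics. -/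
lemma sp_order_split (q : ℕ) : ∀ k j : ℕ, q ^ ((j + k) ^ 2) * ∏ i ∈ Finset.range (j + k), (q ^ (2 * (i + 1)) - 1) =
    (∏ i ∈ Finset.range k, (q ^ (2 * (j + k) - i) - q ^ i)) *
      (q ^ (k * (k + 1) / 2 + 2 * k * j) * (q ^ (j ^ 2) * ∏ i ∈ Finset.range j, (q ^ (2 * (i + 1)) - 1))) := by
  intro k
  induction k with
  | zero => intro j; simp
  | succ k ih =>
    intro j
    rw [show j + (k + 1) = j + 1 + k by ring, ih (j + 1), Finset.prod_range_succ, Finset.prod_range_succ,
      show 2 * (j + 1 + k) - k = k + 2 * (j + 1) by omega,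
      show q ^ (k + 2 * (j + 1)) - q ^ k = q ^ k * (q ^ (2 * (j + 1)) - 1) by rw [Nat.mul_sub, mul_one, ← pow_add],
      show (k + 1) * (k + 1 + 1) / 2 = k * (k + 1) / 2 + (k + 1) by
        rw [← Nat.add_mul_div_left _ _ two_pos]; congr 1; ring]
    ring

lemma prod_ne_zero (q : ℕ) (hq : 1 < q) {k : ℕ} (hk : k ≤ m) : 0 < ∏ i ∈ Finset.range k, (q ^ (2 * m - i) - q ^ i) :=
  Finset.prod_pos fun i hi => Nat.sub_pos_of_lt (Nat.pow_lt_pow_right hq (by have := Finset.mem_range.1 hi; omega))

end symplectic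

end Cfsg.Lib.Classical.IsotropicFrames
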