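import Mathlib
import Cfsg.Agent.Lib.Classical.SymplecticMatrix
import Cfsg.Agent.Lib.Classical.SubspaceStab

/-!
The set of centres of full transvection root groups inside a subgroup of `GL`, and orthogonals.
-/

set_option autoImplicit false

namespace Cfsg.Lib.Classical

open Matrix
open scoped MatrixGroups

section abstract

variable {F V : Type*} [Field F] [AddCommGroup V] [Module F V] [FiniteDimensional F V]
  {B : LinearMap.BilinForm F V}

lemma finrank_perp (hA : B.IsAlt) (hB : B.Nondegenerate) (U : Submodule F V) :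
    Module.finrank F U + Module.finrank F (perp B U) = Module.finrank F V := by
  rw [perp_eq_orthogonal, LinearMap.BilinForm.finrank_orthogonal hB]
  have := U.finrank_le
  omega

lemma perp_perp (hA : B.IsAlt) (hB : B.Nondegenerate) (U : Submodule F V) :
    perp B (perp B U) = U := by
  rw [perp_eq_orthogonal, perp_eq_orthogonal]
  exact LinearMap.BilinForm.orthogonal_orthogonal hB hA.isRefl U

omit [FiniteDimensional F V] in
lemma perp_antitone {U U' : Submodule F V} (h : U ≤ U') : perp B U' ≤ perp B U :=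
  fun _ hx u hu => hx u (h hu)

omit [FiniteDimensional F V] in
lemma le_or_le_of_subset_union {P U U' : Submodule F V} (h : ∀ x ∈ P, x ∈ U ∨ x ∈ U') :
    P ≤ U ∨ P ≤ U' := by
  by_contra! hc
  obtain ⟨p, hp, hpU⟩ := SetLike.not_le_iff_exists.1 hc.1
  obtain ⟨q, hq, hqU⟩ := SetLike.not_le_iff_exists.1 hc.2
  have hpU' : p ∈ U' := (h p hp).resolve_left hpU
  have hqU' : q ∈ U := (h q hq).resolve_right hqU
  rcases h (p + q) (P.add_mem hp hq) with h1 | h1
  · exact hpU ((U.add_mem_iff_left hqU').1 h1)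
  · exact hqU ((U'.add_mem_iff_right hpU').1 h1)

end abstract

variable {ι : Type*} [Fintype ι] [DecidableEq ι] {F : Type*} [Field F]
variable {B : LinearMap.BilinForm F (ι → F)} {hA : B.IsAlt} {M : Subgroup (GL ι F)}

/-- The centres whose whole transvection group lies in `M`. -/
def sCentre (B : LinearMap.BilinForm F (ι → F)) (hA : B.IsAlt) (M : Subgroup (GL ι F)) :
    Set (ι → F) :=
  {v | ∀ c, sTGL B hA v c ∈ M}

lemma mem_sCentre {v : ι → F} : v ∈ sCentre B hA M ↔ ∀ c, sTGL B hA v c ∈ M := Iff.rfl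

lemma sCentre_zero : (0 : ι → F) ∈ sCentre B hA M := fun c => by
  rw [sTGL_zero_left]
  exact one_mem M

lemma sCentre_smul {v : ι → F} (hv : v ∈ sCentre B hA M) (a : F) :
    a • v ∈ sCentre B hA M := fun c => by
  rw [sTGL_smul]
  exact hv _

lemma sCentre_map {g : GL ι F} (hg : g ∈ M)
    (hgi : ∀ x y, B ((g : Matrix ι ι F) *ᵥ x) ((g : Matrix ι ι F) *ᵥ y) = B x y) {v : ι → F}
    (hv : v ∈ sCentre B hA M) : (g : Matrix ι ι F) *ᵥ v ∈ sCentre B hA M := fun c => by
  rw [← conj_sTGL_iso B hA g hgi]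
  exact mul_mem (mul_mem hg (hv c)) (inv_mem hg)

lemma sCentre_pencil {a b : ι → F} (ha : a ∈ sCentre B hA M) (hb : b ∈ sCentre B hA M)
    (hne : B a b ≠ 0) (t : F) : a + t • b ∈ sCentre B hA M := by
  have h := sCentre_map (hb (t / B a b)) (fun x y => sTGL_isometry B hA _ _ x y) ha
  rwa [sTGL_mulVec, div_mul_cancel₀ _ hne] at h

/-- Inside a nondegenerate `U ⊆ X`, the `U`-component of a member of `X` may be changed. -/
lemma sCentre_change {U : Submodule F (ι → F)} (hU : NondegOn B U)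
    (hUX : ∀ u ∈ U, u ∈ sCentre B hA M) {a a' r : ι → F} (ha : a ∈ U) (ha' : a' ∈ U)
    (ha0 : a ≠ 0) (ha'0 : a' ≠ 0) (hr : ∀ u ∈ U, B r u = 0)
    (hx : a + r ∈ sCentre B hA M) : a' + r ∈ sCentre B hA M := by
  have step : ∀ p q : ι → F, p ∈ U → q ∈ U → B p q ≠ 0 → p + r ∈ sCentre B hA M →
      q + r ∈ sCentre B hA M := by
    intro p q hp hq hne hpr
    have hd : q - p ∈ U := U.sub_mem hq hp
    have h1 : B (p + r) (q - p) = B p q := by simp [hr q hq, hr p hp, alt_self hA]
    have h := sCentre_pencil hpr (hUX _ hd) (by rw [h1]; exact hne) 1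
    rwa [one_smul, add_comm p r, add_assoc, add_sub_cancel, add_comm] at h
  obtain ⟨z, hz, hz1, hz2⟩ := hU.exists_two ha ha' ha0 ha'0
  exact step z a' hz ha' (by rwa [alt_swap hA a' z, neg_ne_zero]) (step a z ha hz hz1 hx)

theorem iso_mem_of_sCentre_univ (hB : B.Nondegenerate) (h : ∀ v, v ∈ sCentre B hA M)
    (g : GL ι F)
    (hg : ∀ x y, B ((g : Matrix ι ι F) *ᵥ x) ((g : Matrix ι ι F) *ᵥ y) = B x y) : g ∈ M :=
  iso_mem_of_sTGL_mem B hA hB M (fun v c => h v c) g hg

end Cfsg.Lib.Classical
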