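import Mathlib
import Cfsg.Agent.Lib.Classical.Parabolic
import Cfsg.Agent.Lib.Classical.SymplecticMatrix

/-!
A subgroup of `SL` properly containing the symplectic similitudes is `SL`.
-/

set_option autoImplicit false

namespace Cfsg.Lib.Classical

open Matrix
open scoped MatrixGroups

section general

variable {F V W : Type*} [Field F] [AddCommGroup V] [Module F V] [AddCommGroup W] [Module F W]

/-- Two linear maps, one injective, that are pointwise proportional are proportional. -/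
lemma exists_smul_of_proportional (A B : V →ₗ[F] W) (hA : Function.Injective A)
    (h : ∀ v, ∃ c : F, B v = c • A v) : ∃ c : F, ∀ v, B v = c • A v := by
  choose l hl using h
  by_cases h0 : ∀ v : V, v = 0
  · exact ⟨0, fun v => by simp [h0 v]⟩
  push Not at h0
  obtain ⟨v₀, hv₀⟩ := h0
  refine ⟨l v₀, fun v => ?_⟩
  by_cases hdep : ∃ a : F, v = a • v₀
  · obtain ⟨a, rfl⟩ := hdep
    rw [map_smul, map_smul, hl v₀, smul_comm]
  have h1 := hl (v + v₀)
  rw [map_add, map_add, hl v, hl v₀, smul_add] at h1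
  have h2 : A ((l v - l (v + v₀)) • v + (l v₀ - l (v + v₀)) • v₀) = 0 := by
    rw [map_add, map_smul, map_smul, sub_smul, sub_smul]
    rw [← sub_eq_zero] at h1
    rw [← h1]
    abel
  have h3 : (l v - l (v + v₀)) • v + (l v₀ - l (v + v₀)) • v₀ = 0 := hA (h2.trans (map_zero A).symm)
  have ha : l v - l (v + v₀) = 0 := by
    by_contra hne
    refine hdep ⟨-((l v - l (v + v₀))⁻¹ * (l v₀ - l (v + v₀))), ?_⟩
    have := congrArg ((l v - l (v + v₀))⁻¹ • ·) h3
    simp only [smul_add, smul_zero, smul_smul, inv_mul_cancel₀ hne, one_smul] at this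
    rw [neg_smul]
    exact eq_neg_of_add_eq_zero_left this
  rw [ha, zero_smul, zero_add, smul_eq_zero] at h3
  have hb := h3.resolve_right hv₀
  rw [hl v, sub_eq_zero.1 ha, ← sub_eq_zero.1 hb]

end general

variable {ι : Type*} [Fintype ι] [DecidableEq ι] {F : Type*} [Field F]
variable (B : LinearMap.BilinForm F (ι → F))

/-- `rightVec` as a linear map. -/
def rightVecLin : (ι → F) →ₗ[F] (ι → F) where
  toFun := rightVec B
  map_add' x y := by ext i; simp [rightVec]
  map_smul' c x := by ext i; simp [rightVec]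

omit [Fintype ι] in
@[simp] lemma rightVecLin_apply (v : ι → F) : rightVecLin B v = rightVec B v := rfl

lemma rightVecLin_injective (hA : B.IsAlt) (hB : B.Nondegenerate) :
    Function.Injective (rightVecLin B) := by
  rw [injective_iff_map_eq_zero]
  intro v hv
  refine hB.1 v fun x => ?_
  rw [alt_swap hA x v, ← rightVec_dot]
  rw [rightVecLin_apply] at hv
  simp [hv]

lemma exists_rightVec (hA : B.IsAlt) (hB : B.Nondegenerate) (ψ : ι → F) :
    ∃ b, rightVec B b = ψ :=
  LinearMap.injective_iff_surjective.1 (rightVecLin_injective B hA hB) ψ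

lemma exists_sep (hA : B.IsAlt) (hB : B.Nondegenerate) {a b : ι → F}
    (hb : b ∉ Submodule.span F {a}) : ∃ z, B a z = 0 ∧ B b z = 1 := by
  obtain ⟨ψ, h0, h1⟩ := exists_dot_of_notMem_span a hb
  obtain ⟨z, rfl⟩ := exists_rightVec B hA hB ψ
  exact ⟨z, by rwa [← rightVec_dot], by rwa [← rightVec_dot]⟩

/-- Transitivity of the isometry group on independent orthogonal pairs. -/
lemma exists_move_orth_pair (hA : B.IsAlt) (hB : B.Nondegenerate) {a b a' b' : ι → F}
    (ha : a ≠ 0) (hb : b ∉ Submodule.span F {a}) (hab : B a b = 0)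
    (ha' : a' ≠ 0) (hb' : b' ∉ Submodule.span F {a'}) (hab' : B a' b' = 0) :
    ∃ h ∈ isoGroup B, h a = a' ∧ h b = b' := by
  obtain ⟨g, hg, hga⟩ := exists_move_vec B hA ⊤ (nondegOn_top hB) Submodule.mem_top
    Submodule.mem_top ha ha'
  have hgi := tvClosure_le_isoGroup B hA ⊤ hg
  have h1 : B a' (g b) = 0 := by rw [← hga, hgi, hab]
  have h2 : g b ∉ Submodule.span F {a'} := by
    intro hc
    obtain ⟨c, hc⟩ := Submodule.mem_span_singleton.1 hc
    refine hb (Submodule.mem_span_singleton.2 ⟨c, g.injective ?_⟩)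
    rw [map_smul, hga, hc]
  have key : ∀ p q : ι → F, B a' p = 0 → B a' q = 0 → B p q ≠ 0 →
      ∃ h ∈ isoGroup B, h a' = a' ∧ h p = q := by
    intro p q hp hq hne
    obtain ⟨h, hh, hpq, hf⟩ :=
      exists_move_of_ne B hA ⊤ (u := p) (v := q) Submodule.mem_top Submodule.mem_top hne
    exact ⟨h, tvClosure_le_isoGroup B hA ⊤ hh, hf a' (by simp [hp, hq]), hpq⟩
  obtain ⟨z₁, hz₁, hz₁'⟩ := exists_sep B hA hB h2
  obtain ⟨z₂, hz₂, hz₂'⟩ := exists_sep B hA hB hb'
  have hz : ∃ z, B a' z = 0 ∧ B (g b) z ≠ 0 ∧ B b' z ≠ 0 := by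
    by_cases e1 : B b' z₁ = 0
    · by_cases e2 : B (g b) z₂ = 0
      · exact ⟨z₁ + z₂, by simp [hz₁, hz₂], by simp [e2, hz₁'], by simp [e1, hz₂']⟩
      · exact ⟨z₂, hz₂, e2, by simp [hz₂']⟩
    · exact ⟨z₁, hz₁, by simp [hz₁'], e1⟩
  obtain ⟨z, hza, hzg, hzb⟩ := hz
  obtain ⟨p, hp, hpa, hpz⟩ := key _ z h1 hza hzg
  obtain ⟨q, hq, hqa, hqz⟩ := key z b' hza hab' (by rwa [alt_swap hA b' z, neg_ne_zero])
  exact ⟨q * p * g, mul_mem (mul_mem hq hp) hgi, by simp [LinearEquiv.mul_apply, hga, hpa, hqa],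
    by simp [LinearEquiv.mul_apply, hpz, hqz]⟩

/-- The key step: isometries plus one element that is not a similitude generate `SL`. -/
theorem ker_det_le_of_not_similitude (hA : B.IsAlt) (hB : B.Nondegenerate) (H : Subgroup (GL ι F))
    (hH : ∀ h : GL ι F,
      (∀ x y, B ((h : Matrix ι ι F) *ᵥ x) ((h : Matrix ι ι F) *ᵥ y) = B x y) → h ∈ H)
    (g : GL ι F) (hg : g ∈ H)
    (hgn : ¬ ∃ c : Fˣ, ∀ x y,
      B ((g : Matrix ι ι F) *ᵥ x) ((g : Matrix ι ι F) *ᵥ y) = (c : F) * B x y) :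
    (Matrix.GeneralLinearGroup.det : GL ι F →* Fˣ).ker ≤ H := by
  have hpair : ∃ a b : ι → F, a ≠ 0 ∧ b ∉ Submodule.span F {a} ∧ B a b = 0 ∧
      ∀ hz : rightVec B b ⬝ᵥ a = 0, tvGL a (rightVec B b) hz ∈ H := by
    by_contra hcon
    push Not at hcon
    apply hgn
    let Aop : (ι → F) →ₗ[F] (ι → F) :=
      (rightVecLin B).comp (Matrix.mulVecLin (g : Matrix ι ι F))
    let Bop : (ι → F) →ₗ[F] (ι → F) :=
      (Matrix.vecMulLinear ((g⁻¹ : GL ι F) : Matrix ι ι F)).comp (rightVecLin B)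
    have hAinj : Function.Injective Aop := fun x y hxy =>
      (mulVec_inj g).1 (rightVecLin_injective B hA hB hxy)
    have hprop : ∀ v, ∃ c : F, Bop v = c • Aop v := by
      intro v
      obtain ⟨b, hb⟩ := exists_rightVec B hA hB (Bop v)
      by_cases hv : v = 0
      · exact ⟨0, by simp [hv]⟩
      by_cases hbs : b ∈ Submodule.span F {(g : Matrix ι ι F) *ᵥ v}
      · obtain ⟨c, rfl⟩ := Submodule.mem_span_singleton.1 hbs
        refine ⟨c, ?_⟩
        rw [← hb]
        exact map_smul (rightVecLin B) c _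
      have h0 : rightVec B b ⬝ᵥ ((g : Matrix ι ι F) *ᵥ v) = 0 := by
        rw [hb]
        change (rightVec B v ᵥ* _) ⬝ᵥ _ = 0
        rw [← dotProduct_mulVec, inv_mulVec_mulVec, rightVec_dot, alt_self hA]
      obtain ⟨hz, hno⟩ := hcon _ b (mulVec_ne_zero g hv) hbs (by rwa [← rightVec_dot])
      refine absurd ?_ hno
      have h1 : rightVec B v ⬝ᵥ v = 0 := by rw [rightVec_dot, alt_self hA]
      have key : tvGL ((g : Matrix ι ι F) *ᵥ v) (rightVec B b) hz =
          g * sTGL B hA v 1 * g⁻¹ := by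
        refine Units.ext ?_
        rw [Units.val_mul, Units.val_mul, coe_tvGL, coe_sTGL, one_smul, conj_tv, hb]
        rfl
      rw [key]
      exact H.mul_mem (H.mul_mem hg (hH _ fun x y => sTGL_isometry B hA v 1 x y)) (H.inv_mem hg)
    obtain ⟨c, hc⟩ := exists_smul_of_proportional Aop Bop hAinj hprop
    have hrel : ∀ x v, B x v = c * B ((g : Matrix ι ι F) *ᵥ x) ((g : Matrix ι ι F) *ᵥ v) := by
      intro x v
      have h := congrArg (fun ψ => ψ ⬝ᵥ ((g : Matrix ι ι F) *ᵥ x)) (hc v)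
      change (rightVec B v ᵥ* _) ⬝ᵥ _ = (c • rightVec B _) ⬝ᵥ _ at h
      rw [← dotProduct_mulVec, inv_mulVec_mulVec, rightVec_dot, smul_dotProduct, rightVec_dot] at h
      exact h
    rcases eq_or_ne c 0 with rfl | hc0
    · have hall : ∀ v : ι → F, v = 0 := fun v => hB.1 v fun y => by simpa using hrel v y
      exact ⟨1, fun x y => by simp [hall x]⟩
    exact ⟨(Units.mk0 c hc0)⁻¹, fun x y => by
      rw [Units.val_inv_eq_inv_val, Units.val_mk0, hrel x y, inv_mul_cancel_left₀ hc0]⟩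
  obtain ⟨a, b, ha, hb, hab, hmem⟩ := hpair
  refine ker_det_le_of_tvGL_mem H fun v φ hz hv _ => ?_
  obtain ⟨w, rfl⟩ := exists_rightVec B hA hB φ
  by_cases hw : w ∈ Submodule.span F {v}
  · obtain ⟨c, rfl⟩ := Submodule.mem_span_singleton.1 hw
    have hv' : rightVec B (c • v) = c • rightVec B v := map_smul (rightVecLin B) c v
    have : tvGL v (rightVec B (c • v)) hz = sTGL B hA v c := by
      refine Units.ext ?_
      rw [coe_tvGL, coe_sTGL, hv']
    rw [this]
    exact hH _ fun x y => sTGL_isometry B hA v c x y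
  obtain ⟨e, he, hea, heb⟩ := exists_move_orth_pair B hA hB ha hb hab hv hw
    (by rwa [← rightVec_dot])
  set k := (glEquiv ι F).symm e with hk
  have hk' : ∀ x, (k : Matrix ι ι F) *ᵥ x = e x := glEquiv_symm_mulVec e
  have hz0 : rightVec B b ⬝ᵥ a = 0 := by rw [rightVec_dot, hab]
  have hkH : k ∈ H := hH k fun x y => by rw [hk', hk']; exact he x y
  have key : tvGL v (rightVec B w) hz = k * tvGL a (rightVec B b) hz0 * k⁻¹ := by
    refine gl_ext fun x => ?_
    have : B (((k⁻¹ : GL ι F) : Matrix ι ι F) *ᵥ x) b = B x w := by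
      rw [← he, heb, ← hk', mulVec_inv_mulVec]
    rw [Units.val_mul, Units.val_mul, ← mulVec_mulVec, ← mulVec_mulVec, coe_tvGL, coe_tvGL,
      tv_mulVec, tv_mulVec, rightVec_dot, rightVec_dot, this, mulVec_add, mulVec_smul,
      mulVec_inv_mulVec, hk', hea]
  rw [key]
  exact mul_mem (mul_mem hkH (hmem hz0)) (inv_mem hkH)

/-- In dimension at least three some element of `SL` is not a similitude. -/
lemma exists_not_similitude (hA : B.IsAlt) (hB : B.Nondegenerate) (hn : 3 ≤ Fintype.card ι) :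
    ∃ g : GL ι F, Matrix.GeneralLinearGroup.det g = 1 ∧ ¬ ∃ c : Fˣ, ∀ x y,
      B ((g : Matrix ι ι F) *ᵥ x) ((g : Matrix ι ι F) *ᵥ y) = (c : F) * B x y := by
  have : Nonempty ι := Fintype.card_pos_iff.1 (by omega)
  obtain ⟨a, ha⟩ := exists_ne (0 : ι → F)
  obtain ⟨w, -, hw⟩ := nondegOn_top hB a Submodule.mem_top ha
  have hne : Submodule.span F ({a, w} : Set (ι → F)) ≠ ⊤ := by
    classical
    intro h
    have h2 : Module.finrank F (Submodule.span F ({a, w} : Set (ι → F))) ≤ 2 := by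
      have h3 := finrank_span_finset_le_card (R := F) ({a, w} : Finset (ι → F))
      rw [Finset.coe_insert, Finset.coe_singleton] at h3
      exact h3.trans Finset.card_le_two
    rw [h, finrank_top, Module.finrank_fintype_fun_eq_card] at h2
    omega
  obtain ⟨b₀, -, hb₀⟩ := SetLike.exists_of_lt (lt_top_iff_ne_top.2 hne)
  set b := b₀ - ((B a b₀) / B a w) • w with hbdef
  have hab : B a b = 0 := by
    rw [hbdef, map_sub, map_smul, smul_eq_mul, div_mul_cancel₀ _ hw, sub_self]
  have hb : b ∉ Submodule.span F {a} := by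
    intro hc
    apply hb₀
    have h1 : b₀ = b + ((B a b₀) / B a w) • w := by rw [hbdef]; abel
    rw [h1]
    exact Submodule.add_mem _ (Submodule.span_mono (by simp) hc)
      (Submodule.smul_mem _ _ (Submodule.subset_span (by simp)))
  have hz : rightVec B b ⬝ᵥ a = 0 := by rw [rightVec_dot, hab]
  refine ⟨tvGL a (rightVec B b) hz, tvGL_mem_ker_det _ _ hz, ?_⟩
  rintro ⟨c, hc⟩
  simp only [coe_tvGL, tv_mulVec, rightVec_dot] at hc
  obtain ⟨z, hz1, hz2⟩ := exists_sep B hA hB hb
  have hba : a ∉ Submodule.span F {b} := by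
    intro hc'
    obtain ⟨t, ht⟩ := Submodule.mem_span_singleton.1 hc'
    rcases eq_or_ne t 0 with rfl | ht0
    · exact ha (by simpa using ht.symm)
    · refine hb (Submodule.mem_span_singleton.2 ⟨t⁻¹, ?_⟩)
      rw [← ht, smul_smul, inv_mul_cancel₀ ht0, one_smul]
  obtain ⟨u, hu1, hu2⟩ := exists_sep B hA hB hba
  have hub : B u b = 0 := by rw [alt_swap hA b u, hu1, neg_zero]
  have hzb : B z b = -1 := by rw [alt_swap hA b z, hz2]
  have e1 := hc a u
  simp [hub, hab, hu2] at e1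
  have e2 := hc z u
  simp [hub, hzb, hu2, ← e1] at e2

end Cfsg.Lib.Classical
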