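import Mathlib
import Cfsg.Agent.Lib.Classical.SymplecticCentre
import Cfsg.Agent.Lib.Classical.SymplecticInSL

/-!
A pair of complementary Lagrangian subspaces in a symplectic space in odd characteristic: the
short root elements of their stabiliser, and generation of the isometry group by the stabiliser
and one further isometry.
-/

set_option autoImplicit false

namespace Cfsg.Lib.Classical

open Matrix Module
open scoped MatrixGroups

section quad

variable {F V : Type*} [Field F] [Finite F] [AddCommGroup V] [Module F V] [FiniteDimensional F V]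

/-- Three variables suffice for a zero of a quadratic form. -/
lemma exists_quad_zero (h2 : (2 : F) ≠ 0) (β : LinearMap.BilinForm F V) (W : Submodule F V)
    (hW : 3 ≤ finrank F W) : ∃ p ∈ W, p ≠ 0 ∧ β p p = 0 := by
  by_contra! hcon
  have step : ∀ U : Submodule F V, ∀ v : V, v ∈ U → 2 ≤ finrank F U →
      ∃ U' : Submodule F V, U' ≤ U ∧ finrank F U ≤ finrank F U' + 1 ∧
        ∀ x ∈ U', β v x + β x v = 0 := by
    intro U v _ _
    refine ⟨U ⊓ LinearMap.ker (β v + β.flip v), inf_le_left, ?_, fun x hx => ?_⟩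
    · have h1 := Submodule.finrank_sup_add_finrank_inf_eq U (LinearMap.ker (β v + β.flip v))
      have h2 := (U ⊔ LinearMap.ker (β v + β.flip v)).finrank_le
      have h3 := LinearMap.finrank_range_add_finrank_ker (β v + β.flip v)
      have h4 := (LinearMap.range (β v + β.flip v)).finrank_le
      rw [finrank_self] at h4
      omega
    · simpa using hx.2
  obtain ⟨e₁, he₁, he₁0⟩ := W.exists_mem_ne_zero_of_ne_bot fun h => by
    rw [h, finrank_bot] at hW
    omega
  obtain ⟨U₁, hU₁W, hU₁d, hU₁⟩ := step W e₁ he₁ (by omega)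
  obtain ⟨e₂, he₂, he₂0⟩ := U₁.exists_mem_ne_zero_of_ne_bot fun h => by
    rw [h, finrank_bot] at hU₁d
    omega
  obtain ⟨U₂, hU₂U, hU₂d, hU₂⟩ := step U₁ e₂ he₂ (by omega)
  obtain ⟨e₃, he₃, he₃0⟩ := U₂.exists_mem_ne_zero_of_ne_bot fun h => by
    rw [h, finrank_bot] at hU₂d
    omega
  have ha := hcon e₁ he₁ he₁0
  have hb := hcon e₂ (hU₁W he₂) he₂0
  have hc := hcon e₃ (hU₁W (hU₂U he₃)) he₃0
  have := Fintype.ofFinite F
  have hodd : Fintype.card F % 2 = 1 := FiniteField.odd_card_of_char_ne_two fun h => h2 (by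
    have := ringChar.Nat.cast_ringChar (R := F)
    rwa [h, Nat.cast_ofNat] at this)
  obtain ⟨x, y, hxy⟩ := FiniteField.exists_root_sum_quadratic
    (f := Polynomial.C (β e₁ e₁) * Polynomial.X ^ 2)
    (g := Polynomial.C (β e₂ e₂) * Polynomial.X ^ 2 + Polynomial.C (β e₃ e₃))
    (Polynomial.degree_C_mul_X_pow 2 ha)
    (by
      rw [Polynomial.degree_add_eq_left_of_degree_lt]
      · exact Polynomial.degree_C_mul_X_pow 2 hb
      · rw [Polynomial.degree_C_mul_X_pow 2 hb]
        exact Polynomial.degree_C_le.trans_lt (by decide))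
    hodd
  simp only [Polynomial.eval_add, Polynomial.eval_mul, Polynomial.eval_C, Polynomial.eval_pow,
    Polynomial.eval_X] at hxy
  have h12 := hU₁ e₂ he₂
  have h13 := hU₁ e₃ (hU₂U he₃)
  have h23 := hU₂ e₃ he₃
  have hp : x • e₁ + y • e₂ + e₃ ≠ 0 := fun h => by
    have he : e₃ = -(x • e₁ + y • e₂) := eq_neg_of_add_eq_zero_right h
    have h33 : β e₃ e₃ + β e₃ e₃ = 0 := by
      calc β e₃ e₃ + β e₃ e₃
          = β e₃ (-(x • e₁ + y • e₂)) + β (-(x • e₁ + y • e₂)) e₃ := by rw [← he]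
        _ = 0 := by
          simp only [map_neg, map_add, map_smul, LinearMap.neg_apply, LinearMap.add_apply,
            LinearMap.smul_apply, smul_eq_mul]
          linear_combination -x * h13 - y * h23
    exact hc (by
      have : (2 : F) * β e₃ e₃ = 0 := by linear_combination h33
      exact (mul_eq_zero.1 this).resolve_left h2)
  refine hcon _ (W.add_mem (W.add_mem (W.smul_mem x he₁) (W.smul_mem y (hU₁W he₂)))
    (hU₁W (hU₂U he₃))) hp ?_
  simp only [map_add, map_smul, LinearMap.add_apply, LinearMap.smul_apply, smul_eq_mul]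
  linear_combination hxy + (x * y) * h12 + x * h13 + y * h23

/-- The zeros of a quadratic form span a subspace of codimension at most two. -/
lemma exists_span_zero (h2 : (2 : F) ≠ 0) (β : LinearMap.BilinForm F V) (A : Submodule F V) :
    ∃ K : Submodule F V, K ≤ A ∧ finrank F A ≤ finrank F K + 2 ∧
      K = Submodule.span F {p | p ∈ A ∧ β p p = 0} := by
  refine ⟨Submodule.span F {p | p ∈ A ∧ β p p = 0}, Submodule.span_le.2 fun p hp => hp.1, ?_, rfl⟩
  set K := Submodule.span F {p | p ∈ A ∧ β p p = 0}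
  obtain ⟨U, hU⟩ := Submodule.exists_isCompl (K.comap A.subtype)
  by_contra hlt
  have hK : finrank F (K.comap A.subtype) ≤ finrank F K := by
    rw [LinearEquiv.finrank_eq (Submodule.comapSubtypeEquivOfLe
      (Submodule.span_le.2 fun p hp => hp.1 : K ≤ A))]
  have hs := Submodule.finrank_add_eq_of_isCompl hU
  have hd : finrank F (U.map A.subtype) = finrank F U :=
    (LinearEquiv.finrank_eq (Submodule.equivMapOfInjective _ A.injective_subtype U)).symm
  obtain ⟨p, hp, hp0, hpp⟩ := exists_quad_zero h2 β (U.map A.subtype) (by omega)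
  obtain ⟨u, hu, rfl⟩ := hp
  have h1 : u ∈ K.comap A.subtype := Submodule.subset_span ⟨u.2, hpp⟩
  exact hp0 (by rw [Submodule.disjoint_def.1 hU.disjoint u h1 hu, map_zero])

end quad

variable {ι : Type} [Fintype ι] [DecidableEq ι] {F : Type*} [Field F]
  {B : LinearMap.BilinForm F (ι → F)}

/-- `A` and `A'` are complementary Lagrangian subspaces of dimension `m`. -/
structure IsPol (B : LinearMap.BilinForm F (ι → F)) (A A' : Submodule F (ι → F)) (m : ℕ) :
    Prop where
  alt : B.IsAlt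
  nondeg : B.Nondegenerate
  iso : ∀ u ∈ A, ∀ v ∈ A, B u v = 0
  iso' : ∀ u ∈ A', ∀ v ∈ A', B u v = 0
  compl : IsCompl A A'
  dim : finrank F A = m
  dim' : finrank F A' = m

namespace IsPol

variable {A A' : Submodule F (ι → F)} {m : ℕ}

lemma symm (P : IsPol B A A' m) : IsPol B A' A m :=
  ⟨P.alt, P.nondeg, P.iso', P.iso, P.compl.symm, P.dim', P.dim⟩

lemma decomp (P : IsPol B A A' m) (x : ι → F) : ∃ a ∈ A, ∃ b ∈ A', a + b = x :=
  Submodule.mem_sup.1 (P.compl.sup_eq_top ▸ Submodule.mem_top)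

lemma eq_zero_of_orth' (P : IsPol B A A' m) {a : ι → F} (ha : a ∈ A)
    (h : ∀ b ∈ A', B a b = 0) : a = 0 := by
  refine P.nondeg.1 a fun z => ?_
  obtain ⟨u, hu, b, hb, rfl⟩ := P.decomp z
  rw [map_add, P.iso a ha u hu, h b hb, add_zero]

omit [Fintype ι] [DecidableEq ι] in
lemma _root_.Cfsg.Lib.Classical.exists_functional {k : ℕ} {r : Fin k → ι → F}
    (hr : LinearIndependent F r) (a : Fin k → F) :
    ∃ L : (ι → F) →ₗ[F] F, ∀ i, L (r i) = a i := by
  let b := Basis.span hr
  obtain ⟨L, hL⟩ := LinearMap.exists_extend (b.constr F a)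
  refine ⟨L, fun i => ?_⟩
  have := LinearMap.congr_fun hL (b i)
  rw [LinearMap.comp_apply, Basis.constr_basis] at this
  rwa [show ((Submodule.span F (Set.range r)).subtype (b i)) = r i by
    simp [b, Basis.span_apply]] at this

/-- Values on an independent family in `A` may be prescribed by a vector of `A'`. -/
lemma exists_dual (P : IsPol B A A' m) {k : ℕ} {r : Fin k → ι → F} (hr : LinearIndependent F r)
    (hrA : ∀ i, r i ∈ A) (a : Fin k → F) : ∃ θ ∈ A', ∀ i, B (r i) θ = a i := by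
  obtain ⟨L, hL⟩ := exists_functional hr a
  obtain ⟨w, hw⟩ := exists_rightVec B P.alt P.nondeg fun i => L (Pi.single i 1)
  have hwv : ∀ x, B x w = L x := fun x => by
    rw [← rightVec_dot, hw]
    conv_rhs => rw [pi_eq_sum_univ' x]
    simp [dotProduct, map_sum, mul_comm]
  obtain ⟨u, hu, b, hb, rfl⟩ := P.decomp w
  refine ⟨b, hb, fun i => ?_⟩
  have := hwv (r i)
  rwa [map_add, P.iso _ (hrA i) u hu, zero_add, hL] at this

end IsPol

/-- The short root element `x ↦ x + B(x,p) q + B(x,q) p`. -/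
noncomputable def rootE (B : LinearMap.BilinForm F (ι → F)) (hA : B.IsAlt) (p q : ι → F) :
    GL ι F :=
  sTGL B hA (p + q) 1 * sTGL B hA p (-1) * sTGL B hA q (-1)

variable (hA : B.IsAlt)

lemma rootE_mulVec {p q : ι → F} (h : B p q = 0) (x : ι → F) :
    (rootE B hA p q : Matrix ι ι F) *ᵥ x = x + B x p • q + B x q • p := by
  have h' : B q p = 0 := by rw [alt_swap hA p q, h, neg_zero]
  rw [rootE, Units.val_mul, Units.val_mul, ← mulVec_mulVec, ← mulVec_mulVec]
  simp only [sTGL_mulVec, map_add, map_smul, LinearMap.add_apply, LinearMap.smul_apply, h, h',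
    alt_self hA, smul_eq_mul, mul_zero, add_zero]
  module

lemma rootE_isometry (p q : ι → F) (x y : ι → F) :
    B ((rootE B hA p q : Matrix ι ι F) *ᵥ x) ((rootE B hA p q : Matrix ι ι F) *ᵥ y) = B x y := by
  simp only [rootE, Units.val_mul, ← mulVec_mulVec, sTGL_isometry]

lemma rootE_comm {p q : ι → F} (h : B p q = 0) : rootE B hA p q = rootE B hA q p := by
  refine gl_ext fun x => ?_
  rw [rootE_mulVec hA h, rootE_mulVec hA (by rw [alt_swap hA p q, h, neg_zero])]
  abel

lemma conj_rootE (g : GL ι F)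
    (hg : ∀ x y, B ((g : Matrix ι ι F) *ᵥ x) ((g : Matrix ι ι F) *ᵥ y) = B x y) (p q : ι → F) :
    g * rootE B hA p q * g⁻¹ =
      rootE B hA ((g : Matrix ι ι F) *ᵥ p) ((g : Matrix ι ι F) *ᵥ q) := by
  rw [rootE, rootE, ← mulVec_add, ← conj_sTGL_iso B hA g hg, ← conj_sTGL_iso B hA g hg,
    ← conj_sTGL_iso B hA g hg]
  group

/-- The Heisenberg relation. -/
lemma rootE_mul {c d e : ι → F} (hd : B c d = 0) (he : B c e = 0) :
    rootE B hA c d * rootE B hA c e = sTGL B hA c (B e d) * rootE B hA c (d + e) := by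
  refine gl_ext fun x => ?_
  have hde : B c (d + e) = 0 := by rw [map_add, hd, he, add_zero]
  simp only [Units.val_mul, ← mulVec_mulVec, rootE_mulVec hA hd, rootE_mulVec hA he,
    rootE_mulVec hA hde, sTGL_mulVec, map_add, map_smul, LinearMap.add_apply,
    LinearMap.smul_apply, alt_self hA, smul_eq_mul, alt_swap hA c d, alt_swap hA c e, hd, he,
    neg_zero, mul_zero, add_zero]
  module

lemma rootE_zero (c : ι → F) : rootE B hA c 0 = 1 := by
  refine gl_ext fun x => ?_
  rw [rootE_mulVec hA (map_zero _), map_zero, Units.val_one, one_mulVec, smul_zero, zero_smul,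
    add_zero, add_zero]

lemma rootE_shift {c d : ι → F} (hd : B c d = 0) (t : F) :
    rootE B hA c (d + t • c) = sTGL B hA c (2 * t) * rootE B hA c d := by
  refine gl_ext fun x => ?_
  have h : B c (d + t • c) = 0 := by rw [map_add, map_smul, hd, alt_self hA, smul_zero, add_zero]
  simp only [Units.val_mul, ← mulVec_mulVec, rootE_mulVec hA h, rootE_mulVec hA hd, sTGL_mulVec,
    map_add, map_smul, LinearMap.add_apply, LinearMap.smul_apply, alt_self hA, smul_eq_mul,
    alt_swap hA c d, hd, neg_zero, mul_zero, add_zero]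
  module

/-- `rootE (p+q) ν = rootE p ν * rootE q ν` for isotropic positions. -/
lemma rootE_add_left {p q ν : ι → F} (hpq : B p q = 0) (hp : B p ν = 0) (hq : B q ν = 0) :
    rootE B hA (p + q) ν = rootE B hA p ν * rootE B hA q ν := by
  refine gl_ext fun x => ?_
  have h : B (p + q) ν = 0 := by rw [map_add, LinearMap.add_apply, hp, hq, add_zero]
  simp only [Units.val_mul, ← mulVec_mulVec, rootE_mulVec hA h, rootE_mulVec hA hp,
    rootE_mulVec hA hq, map_add, map_smul, LinearMap.add_apply, LinearMap.smul_apply,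
    alt_self hA, smul_eq_mul, alt_swap hA p q, alt_swap hA p ν, alt_swap hA q ν, hpq, hp, hq,
    neg_zero, mul_zero, add_zero]
  module

variable {A A' : Submodule F (ι → F)} {m : ℕ}

/-- A nontrivial isometry fixing `A'` pointwise and every vector modulo `A'`. -/
def IsUElt (B : LinearMap.BilinForm F (ι → F)) (A' : Submodule F (ι → F)) (k : GL ι F) : Prop :=
  (∀ x y, B ((k : Matrix ι ι F) *ᵥ x) ((k : Matrix ι ι F) *ᵥ y) = B x y) ∧
    (∀ b ∈ A', (k : Matrix ι ι F) *ᵥ b = b) ∧
    (∀ x, (k : Matrix ι ι F) *ᵥ x - x ∈ A') ∧ k ≠ 1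

variable (P : IsPol B A A' m) {M : Subgroup (GL ι F)}

include P

omit M in
lemma rootE_stab_left {p q : ι → F} (hp : p ∈ A) (hpq : B p q = 0) :
    ∀ x ∈ A, (rootE B P.alt p q : Matrix ι ι F) *ᵥ x ∈ A := fun x hx => by
  rw [rootE_mulVec P.alt hpq, P.iso x hx p hp, zero_smul, add_zero]
  exact A.add_mem hx (A.smul_mem _ hp)

/-- Centres of `A'` from one element of `U_{A'}`. -/
lemma exists_centre_of_uElt (h2 : (2 : F) ≠ 0) (hm : 2 ≤ m)
    (hM : ∀ p ∈ A, ∀ q ∈ A', B p q = 0 → rootE B P.alt p q ∈ M) {k : GL ι F}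
    (hk : IsUElt B A' k) (hkM : k ∈ M) :
    ∃ θ ∈ A', θ ≠ 0 ∧ ∃ c : F, c ≠ 0 ∧ sTGL B P.alt θ c ∈ M := by
  obtain ⟨hki, hkfix, hkmod, hk1⟩ := hk
  set K : (ι → F) → (ι → F) := fun x => (k : Matrix ι ι F) *ᵥ x - x with hKdef
  have hsym : ∀ x y, B (K x) y = B (K y) x := by
    intro x y
    have h := hki x y
    have e : ∀ z, (k : Matrix ι ι F) *ᵥ z = z + K z := fun z => by simp [hKdef]
    rw [e x, e y] at h
    have hxy : B (K x) (K y) = 0 := P.iso' _ (hkmod x) _ (hkmod y)
    simp only [map_add, LinearMap.add_apply, hxy] at h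
    rw [alt_swap P.alt x (K y)]
    linear_combination h
  obtain ⟨u, hu, huu⟩ : ∃ u ∈ A, B (K u) u ≠ 0 := by
    by_contra! hcon
    refine hk1 (gl_ext fun x => ?_)
    obtain ⟨a, ha, b, hb, rfl⟩ := P.decomp x
    rw [Units.val_one, one_mulVec, mulVec_add, hkfix b hb]
    congr 1
    have hKa : K a = 0 := by
      refine P.symm.eq_zero_of_orth' (hkmod a) fun y hy => ?_
      have h1 := hcon (a + y) (A.add_mem ha hy)
      have hlin : K (a + y) = K a + K y := by simp only [hKdef, mulVec_add]; abel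
      simp only [hlin, map_add, LinearMap.add_apply, hcon a ha, hcon y hy, hsym y a] at h1
      have h3 : (2 : F) * B (K a) y = 0 := by linear_combination h1
      exact (mul_eq_zero.1 h3).resolve_left h2
    exact sub_eq_zero.1 hKa
  obtain ⟨θ, hθ, hθ0, huθ⟩ : ∃ θ ∈ A', θ ≠ 0 ∧ B u θ = 0 := by
    by_contra! hcon
    have hinj : Function.Injective ((B u).comp A'.subtype) := by
      rw [← LinearMap.ker_eq_bot, LinearMap.ker_eq_bot']
      intro z hz
      by_contra h0
      exact hcon z z.2 (by simpa using h0) hz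
    have := LinearMap.finrank_le_finrank_of_injective hinj
    rw [P.dim', finrank_self] at this
    omega
  set h₁ := rootE B P.alt u θ with hh₁
  set h₂ := rootE B P.alt u (-θ) with hh₂
  have huθ' : B u (-θ) = 0 := by rw [map_neg, huθ, neg_zero]
  have hh₁M : h₁ ∈ M := hM u hu θ hθ huθ
  have hh₂M : h₂ ∈ M := hM u hu (-θ) (A'.neg_mem hθ) huθ'
  have hmem : h₁ * k * h₁⁻¹ * (h₂ * k * h₂⁻¹) * (k * k)⁻¹ ∈ M :=
    mul_mem (mul_mem (mul_mem (mul_mem hh₁M hkM) (inv_mem hh₁M))
      (mul_mem (mul_mem hh₂M hkM) (inv_mem hh₂M))) (inv_mem (mul_mem hkM hkM))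
  refine ⟨θ, hθ, hθ0, -2 * B (K u) u, mul_ne_zero (neg_ne_zero.2 h2) huu, ?_⟩
  convert hmem using 1
  rw [eq_mul_inv_iff_mul_eq]
  refine gl_ext fun x => ?_
  have e : ∀ z, (k : Matrix ι ι F) *ᵥ z = z + K z := fun z => by simp [hKdef]
  have hθu : B θ u = 0 := by rw [alt_swap P.alt u θ, huθ, neg_zero]
  have hinv : ∀ (t : F), (rootE B P.alt u (t • θ))⁻¹ = rootE B P.alt u ((-t) • θ) := by
    intro t
    refine inv_eq_of_mul_eq_one_right ?_
    rw [rootE_mul P.alt (by rw [map_smul, huθ, smul_zero]) (by rw [map_smul, huθ, smul_zero]),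
      map_smul, map_smul, LinearMap.smul_apply, alt_self P.alt, smul_zero, smul_zero, sTGL_zero,
      one_mul, ← add_smul, add_neg_cancel, zero_smul, rootE_zero]
  have hi1 : h₁⁻¹ = rootE B P.alt u (-θ) := by
    have := hinv 1
    rwa [one_smul, neg_one_smul] at this
  have hi2 : h₂⁻¹ = rootE B P.alt u θ := by
    have := hinv (-1)
    rwa [neg_one_smul, neg_neg, one_smul] at this
  have hKlin : ∀ (s : F) y z, K (y + s • z) = K y + s • K z := fun s y z => by
    simp only [hKdef, mulVec_add, mulVec_smul, smul_sub]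
    abel
  have hK0 : ∀ b ∈ A', K b = 0 := fun b hb => by simp [hKdef, hkfix b hb]
  have conj : ∀ (t : F) y, ((rootE B P.alt u (t • θ) * k * rootE B P.alt u ((-t) • θ) : GL ι F) :
      Matrix ι ι F) *ᵥ y = y + K y + (t * B (K y) u) • θ - (t * B y θ) • K u
        - (t * t * B y θ * B (K u) u) • θ := by
    intro t y
    have hθθ : B θ θ = 0 := alt_self P.alt θ
    have hKθ : ∀ z, B (K z) θ = 0 := fun z => P.iso' _ (hkmod z) θ hθ
    have hKy : K (y + B y u • (-t) • θ + (-t * B y θ) • u) =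
        K y + (-t * B y θ) • K u := by
      rw [hKlin, smul_smul, hKlin, hK0 θ hθ, smul_zero, add_zero]
    simp only [Units.val_mul, ← mulVec_mulVec,
      rootE_mulVec P.alt (show B u ((-t) • θ) = 0 by rw [map_smul, huθ, smul_zero]),
      rootE_mulVec P.alt (show B u (t • θ) = 0 by rw [map_smul, huθ, smul_zero]), map_smul,
      smul_eq_mul, e, hKy, map_add, LinearMap.add_apply, LinearMap.smul_apply, hθu, huθ, hθθ,
      alt_self P.alt, hKθ]
    module
  have e1 := conj 1
  have e2 := conj (-1)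
  simp only [one_smul, neg_one_smul, neg_neg] at e1 e2
  rw [Units.val_mul _ (k * k), Units.val_mul, ← mulVec_mulVec, ← mulVec_mulVec, sTGL_mulVec,
    Units.val_mul (h₁ * k * h₁⁻¹), ← mulVec_mulVec, hi1, hi2]
  rw [show (((h₂ * k * rootE B P.alt u θ : GL ι F)) : Matrix ι ι F) *ᵥ x = _ from e2 x,
    show ∀ y, (((h₁ * k * rootE B P.alt u (-θ) : GL ι F)) : Matrix ι ι F) *ᵥ y = _ from e1]
  have hKK : ∀ z, K (K z) = 0 := fun z => hK0 _ (hkmod z)
  simp only [e, map_add, map_sub, map_smul, LinearMap.add_apply, LinearMap.sub_apply,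
    LinearMap.smul_apply, smul_eq_mul, hθu]
  have hKA : ∀ y, ∀ w ∈ A', K (y + w) = K y := fun y w hw => by
    rw [show y + w = y + (1 : F) • w by rw [one_smul], hKlin, hK0 w hw, smul_zero, add_zero]
  have hKθ : ∀ z, B (K z) θ = 0 := fun z => P.iso' _ (hkmod z) θ hθ
  have hθθ : B θ θ = 0 := alt_self P.alt θ
  have hlong : K (x + K x + (-1 * B (K x) u) • θ - (-1 * B x θ) • K u -
      (-1 * -1 * B x θ * B (K u) u) • θ) = K x := by
    rw [show x + K x + (-1 * B (K x) u) • θ - (-1 * B x θ) • K u -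
      (-1 * -1 * B x θ * B (K u) u) • θ = x + (K x + ((-1 * B (K x) u) • θ - (-1 * B x θ) • K u -
      (-1 * -1 * B x θ * B (K u) u) • θ)) by abel]
    exact hKA x _ (A'.add_mem (hkmod x) (A'.sub_mem (A'.sub_mem (A'.smul_mem _ hθ)
      (A'.smul_mem _ (hkmod u))) (A'.smul_mem _ hθ)))
  rw [hlong, hKA x _ (hkmod x)]
  simp only [hKθ, hθθ]
  module

end Cfsg.Lib.Classical
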