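import Mathlib
import Cfsg.Agent.Lib.Classical.LagrangianPair
import Cfsg.Agent.Lib.Classical.SubspaceStab

/-!
The stabiliser of a pair of complementary Lagrangian subspaces and one further isometry generate
the isometry group (odd characteristic).
-/

set_option autoImplicit false

namespace Cfsg.Lib.Classical

open Matrix Module
open scoped MatrixGroups

variable {ι : Type} [Fintype ι] [DecidableEq ι] {F : Type*} [Field F]
  {B : LinearMap.BilinForm F (ι → F)} {A A' : Submodule F (ι → F)} {m : ℕ}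
  {M : Subgroup (GL ι F)}

/-- `g` maps both subspaces into themselves. -/
def Pres (A A' : Submodule F (ι → F)) : Subgroup (GL ι F) :=
  Cfsg.Geo.subspaceStabilizer A ⊓ Cfsg.Geo.subspaceStabilizer A'

variable (P : IsPol B A A' m)

include P

lemma rootE_mem_pres {p q : ι → F} (hp : p ∈ A) (hq : q ∈ A') (h : B p q = 0) :
    rootE B P.alt p q ∈ Pres A A' := by
  refine ⟨map_eq_of_maps_to (rootE_stab_left P hp h), map_eq_of_maps_to fun x hx => ?_⟩
  rw [rootE_comm P.alt h]
  exact rootE_stab_left P.symm hq (by rw [alt_swap P.alt p q, h, neg_zero]) x hx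

lemma exists_indep_in_ker {k : ℕ} (L : (ι → F) →ₗ[F] (Fin k → F)) (S : Submodule F (ι → F))
    (hS : finrank F S + k < m) : ∃ x ∈ A, L x = 0 ∧ x ∉ S := by
  by_contra! hcon
  have h1 := Submodule.finrank_mono (show A ⊓ LinearMap.ker L ≤ S from fun x hx => hcon x hx.1 hx.2)
  have h2 := Submodule.finrank_sup_add_finrank_inf_eq A (LinearMap.ker L)
  have h3 := (A ⊔ LinearMap.ker L).finrank_le
  have h4 := LinearMap.finrank_range_add_finrank_ker L
  have h5 := (LinearMap.range L).finrank_le
  rw [Module.finrank_fintype_fun_eq_card, Fintype.card_fin] at h5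
  rw [P.dim] at h2
  omega

lemma indep_one {x : ι → F} (hx : x ≠ 0) : LinearIndependent F ![x] := by
  rw [Fintype.linearIndependent_iff]
  intro c hc i
  fin_cases i
  simpa [hx] using hc

omit P

/-- `M` contains a nontrivial transvection with centre in `A`. -/
def HasCentre (B : LinearMap.BilinForm F (ι → F)) (hA : B.IsAlt) (A : Submodule F (ι → F))
    (M : Subgroup (GL ι F)) : Prop :=
  ∃ θ ∈ A, θ ≠ 0 ∧ ∃ c : F, c ≠ 0 ∧ sTGL B hA θ c ∈ M

variable (hM : ∀ p ∈ A, ∀ q ∈ A', B p q = 0 → rootE B P.alt p q ∈ M) (h2 : (2 : F) ≠ 0)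
  (hm : 5 ≤ m)

include P hM

lemma hM_symm : ∀ p ∈ A', ∀ q ∈ A, B p q = 0 → rootE B P.symm.alt p q ∈ M := fun p hp q hq h => by
  rw [rootE_comm P.alt h]
  exact hM q hq p hp (by rw [alt_swap P.alt p q, h, neg_zero])

/-- One transvection with centre in `A'` gives all. -/
lemma sTGL_mem_of_hasCentre [Finite F] (h2 : (2 : F) ≠ 0) (hm : 5 ≤ m)
    (h : HasCentre B P.alt A' M) : ∀ θ ∈ A', θ ∈ sCentre B P.alt M := by
  obtain ⟨θ₀, hθ₀, hθ₀0, c₀, hc₀, hT⟩ := h
  have step : ∀ a b, a ∈ A' → b ∈ A' → LinearIndependent F ![a, b] → sTGL B P.alt a c₀ ∈ M →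
      sTGL B P.alt b c₀ ∈ M := by
    intro a b ha hb hli hMa
    obtain ⟨u, hu, huv⟩ := P.symm.exists_dual hli (by intro i; fin_cases i <;> assumption) ![1, 1]
    have h1 : B a u = 1 := huv 0
    have h1' : B b u = 1 := huv 1
    have hub : B u (b - a) = 0 := by
      rw [map_sub, alt_swap P.alt b u, alt_swap P.alt a u, h1, h1', sub_self]
    have hh := hM u hu (b - a) (A'.sub_mem hb ha) hub
    have hha : (rootE B P.alt u (b - a) : Matrix ι ι F) *ᵥ a = b := by
      rw [rootE_mulVec P.alt hub, h1, one_smul, P.iso' a ha (b - a) (A'.sub_mem hb ha), zero_smul,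
        add_zero, add_sub_cancel]
    have := mul_mem (mul_mem hh hMa) (inv_mem hh)
    rwa [conj_sTGL_iso B P.alt _ (fun x y => rootE_isometry P.alt _ _ x y), hha] at this
  have all : ∀ θ ∈ A', θ ≠ 0 → sTGL B P.alt θ c₀ ∈ M := by
    intro θ hθ hθ0
    obtain ⟨w, hw, -, hwn⟩ := exists_indep_in_ker P.symm (0 : (ι → F) →ₗ[F] (Fin 0 → F))
      (Submodule.span F {θ₀} ⊔ Submodule.span F {θ}) (by
        have h1 := Submodule.finrank_add_le_finrank_add_finrank (Submodule.span F {θ₀})
          (Submodule.span F {θ})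
        rw [finrank_span_singleton hθ₀0, finrank_span_singleton hθ0] at h1
        omega)
    refine step w θ hw hθ ?_ (step θ₀ w hθ₀ hw ?_ hT)
    · refine LinearIndependent.pair_symm_iff.1 ((LinearIndependent.pair_iff' hθ0).2 fun c e => hwn ?_)
      exact Submodule.mem_sup_right (Submodule.mem_span_singleton.2 ⟨c, e⟩)
    · refine (LinearIndependent.pair_iff' hθ₀0).2 fun c e => hwn ?_
      exact Submodule.mem_sup_left (Submodule.mem_span_singleton.2 ⟨c, e⟩)
  intro θ hθ c
  by_cases hθ0 : θ = 0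
  · rw [hθ0, sTGL_zero_left]; exact one_mem M
  have sq : ∀ x : F, sTGL B P.alt θ (x * x * c₀) ∈ M := by
    intro x
    rw [← sTGL_smul]
    by_cases hx : x = 0
    · rw [hx, zero_smul, sTGL_zero_left]; exact one_mem M
    · exact all _ (A'.smul_mem x hθ) (smul_ne_zero hx hθ0)
  have := Fintype.ofFinite F
  have hodd : Fintype.card F % 2 = 1 := FiniteField.odd_card_of_char_ne_two fun h => h2 (by
    have := ringChar.Nat.cast_ringChar (R := F)
    rwa [h, Nat.cast_ofNat] at this)
  obtain ⟨x, y, hxy⟩ := FiniteField.exists_root_sum_quadratic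
    (f := (Polynomial.X ^ 2 : Polynomial F))
    (g := Polynomial.X ^ 2 - Polynomial.C (c / c₀))
    (Polynomial.degree_X_pow 2)
    (by
      rw [Polynomial.degree_sub_eq_left_of_degree_lt, Polynomial.degree_X_pow]
      · rfl
      · rw [Polynomial.degree_X_pow]
        exact Polynomial.degree_C_le.trans_lt (by decide))
    hodd
  simp only [Polynomial.eval_sub, Polynomial.eval_pow, Polynomial.eval_X, Polynomial.eval_C] at hxy
  have hc : c = x * x * c₀ + y * y * c₀ := by
    have h1 : c / c₀ * c₀ = c := div_mul_cancel₀ _ hc₀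
    linear_combination -h1 - c₀ * hxy
  rw [hc, ← sTGL_mul]
  exact mul_mem (sq x) (sq y)

/-- A mixed product of two transvections gives a centre. -/
lemma hasCentre_of_mixed (h2 : (2 : F) ≠ 0) (hm : 5 ≤ m) {p q : ι → F} (hp : p ∈ A) (hq : q ∈ A')
    (hq0 : q ≠ 0) (hpq : B p q = 0) {a b : F} (hab : a + b ≠ 0)
    (hk : sTGL B P.alt q a * sTGL B P.alt (p + q) b ∈ M) : HasCentre B P.alt A' M := by
  obtain ⟨ν, hν, hνp, hνq⟩ := exists_indep_in_ker P.symm
    (LinearMap.pi fun _ : Fin 1 => B p) (Submodule.span F {q})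
    (by rw [finrank_span_singleton hq0]; omega)
  have hpν : B p ν = 0 := congrFun hνp 0
  have hli : LinearIndependent F ![q, ν] := (LinearIndependent.pair_iff' hq0).2 fun c e =>
    hνq (Submodule.mem_span_singleton.2 ⟨c, e⟩)
  obtain ⟨u, hu, huv⟩ := P.symm.exists_dual hli (by intro i; fin_cases i <;> assumption) ![1, 0]
  have hqu : B q u = 1 := huv 0
  have hνu : B ν u = 0 := huv 1
  have huν : B u ν = 0 := by rw [alt_swap P.alt ν u, hνu, neg_zero]
  have hh := hM u hu ν hν huν
  have hhp : (rootE B P.alt u ν : Matrix ι ι F) *ᵥ p = p := by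
    rw [rootE_mulVec P.alt huν, hpν, P.iso p hp u hu, zero_smul, zero_smul, add_zero, add_zero]
  have hhq : (rootE B P.alt u ν : Matrix ι ι F) *ᵥ q = q + ν := by
    rw [rootE_mulVec P.alt huν, hqu, one_smul, P.iso' q hq ν hν, zero_smul, add_zero]
  have hk' := mul_mem (mul_mem hh hk) (inv_mem hh)
  have hconj : rootE B P.alt u ν * (sTGL B P.alt q a * sTGL B P.alt (p + q) b) *
      (rootE B P.alt u ν)⁻¹ = sTGL B P.alt (q + ν) a * sTGL B P.alt (p + (q + ν)) b := by
    have h1 := conj_sTGL_iso B P.alt (rootE B P.alt u ν) (fun x y => rootE_isometry P.alt _ _ x y)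
    have e1 := h1 q a
    have e2 := h1 (p + q) b
    rw [hhq] at e1
    rw [mulVec_add, hhp, hhq] at e2
    rw [← e1, ← e2]
    group
  rw [hconj] at hk'
  set k := sTGL B P.alt q a * sTGL B P.alt (p + q) b with hkdef
  set k' := sTGL B P.alt (q + ν) a * sTGL B P.alt (p + (q + ν)) b with hk'def
  have hbν : B p (b • ν) = 0 := by rw [map_smul, hpν, smul_zero]
  set R := rootE B P.alt p (b • ν) with hR
  set U := sTGL B P.alt (q + ν) (a + b) * sTGL B P.alt q (-(a + b)) with hU
  have hqν : B q ν = 0 := P.iso' q hq ν hν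
  have hUk : U * (R * k) = k' := by
    refine gl_ext fun x => ?_
    simp only [hU, hR, hkdef, hk'def, Units.val_mul, ← mulVec_mulVec, rootE_mulVec P.alt hbν,
      sTGL_mulVec, map_add, map_smul, LinearMap.add_apply, LinearMap.smul_apply, alt_self P.alt,
      smul_eq_mul, hpq, hpν, hqν, alt_swap P.alt p q, alt_swap P.alt p ν, alt_swap P.alt q ν,
      neg_zero, mul_zero, add_zero]
    module
  have hUM : U ∈ M := by
    have h1 : U = k' * (R * k)⁻¹ := by rw [← hUk, mul_inv_cancel_right]
    rw [h1]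
    exact mul_mem hk' (inv_mem (mul_mem (hM p hp _ (A'.smul_mem b hν) hbν) hk))
  have hUx : ∀ x, (U : Matrix ι ι F) *ᵥ x =
      x + ((a + b) * B x (q + ν)) • (q + ν) - ((a + b) * B x q) • q := by
    intro x
    simp only [hU, Units.val_mul, ← mulVec_mulVec, sTGL_mulVec, map_add, map_smul,
      LinearMap.add_apply, LinearMap.smul_apply, alt_self P.alt, smul_eq_mul, hqν, mul_zero,
      add_zero]
    module
  refine exists_centre_of_uElt P h2 (by omega) hM ⟨fun x y => ?_, fun y hy => ?_, fun x => ?_, ?_⟩ hUM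
  · rw [hU]; simp only [Units.val_mul, ← mulVec_mulVec, sTGL_isometry]
  · rw [hUx, P.iso' y hy q hq, P.iso' y hy _ (A'.add_mem hq hν)]
    simp
  · rw [hUx, show x + ((a + b) * B x (q + ν)) • (q + ν) - ((a + b) * B x q) • q - x =
      ((a + b) * B x (q + ν)) • (q + ν) - ((a + b) * B x q) • q by abel]
    exact A'.sub_mem (A'.smul_mem _ (A'.add_mem hq hν)) (A'.smul_mem _ hq)
  · intro h1
    obtain ⟨x, -, hxv⟩ := P.symm.exists_dual hli (by intro i; fin_cases i <;> assumption) ![-1, 1]
    have hxq : B x q = 1 := by rw [alt_swap P.alt q x, show B q x = -1 from hxv 0, neg_neg]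
    have hxν : B x ν = -1 := by rw [alt_swap P.alt ν x, show B ν x = 1 from hxv 1]
    have := hUx x
    rw [h1, Units.val_one, one_mulVec, map_add, hxq, hxν, add_neg_cancel, mul_zero, zero_smul,
      add_zero, mul_one] at this
    exact hq0 ((smul_eq_zero.1 (sub_eq_self.1 this.symm)).resolve_left hab)

/-- A root element `rootE c d ∈ M` on a singular point `c = p + q` with `d ∈ k c + A'`. -/
lemma hasCentre_of_half (h2 : (2 : F) ≠ 0) (hm : 5 ≤ m) {p q β : ι → F} (hp : p ∈ A)
    (hq : q ∈ A') (hp0 : p ≠ 0) (hq0 : q ≠ 0) (hpq : B p q = 0) (hβ : β ∈ A') (hpβ : B p β = 0)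
    {k : F} (hkβ : k ≠ 0 ∨ β ≠ 0) (hs : rootE B P.alt (p + q) (k • (p + q) + β) ∈ M) :
    HasCentre B P.alt A' M ∨ HasCentre B P.alt A M := by
  have hqp : B q p = 0 := by rw [alt_swap P.alt p q, hpq, neg_zero]
  have hcβ : B (p + q) β = 0 := by rw [map_add, LinearMap.add_apply, hpβ, P.iso' q hq β hβ, add_zero]
  by_cases hl : ∃ l : F, l • q = β
  · obtain ⟨l, rfl⟩ := hl
    have hq2 : rootE B P.alt q (l • q) = sTGL B P.alt q (2 * l) := by
      have := rootE_shift P.alt (c := q) (d := 0) (map_zero _) l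
      rwa [zero_add, rootE_zero, mul_one] at this
    by_cases hkl : (2 : F) * l + 2 * k = 0
    · have hkl' : l = -k := by
        have : (2 : F) * (l + k) = 0 := by linear_combination hkl
        exact eq_neg_of_add_eq_zero_left ((mul_eq_zero.1 this).resolve_left h2)
      have hk0 : k ≠ 0 := by
        rintro rfl
        rw [hkl', neg_zero, zero_smul] at hkβ
        simp at hkβ
      rw [hkl', neg_smul, smul_add, add_assoc, add_neg_cancel, add_zero, add_comm p q,
        rootE_add_left P.alt hqp (by rw [map_smul, hqp, smul_zero]) (by rw [map_smul,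
          alt_self P.alt, smul_zero]), rootE_comm P.alt (show B q (k • p) = 0 by
          rw [map_smul, hqp, smul_zero])] at hs
      have h3 : rootE B P.alt p (k • p) = sTGL B P.alt p (2 * k) := by
        have := rootE_shift P.alt (c := p) (d := 0) (map_zero _) k
        rwa [zero_add, rootE_zero, mul_one] at this
      rw [h3] at hs
      right
      refine ⟨p, hp, hp0, 2 * k, mul_ne_zero h2 hk0, ?_⟩
      have hR : rootE B P.alt (k • p) q ∈ M := hM _ (A.smul_mem k hp) q hq (by
        rw [map_smul, LinearMap.smul_apply, hpq, smul_zero])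
      simpa using mul_mem (inv_mem hR) hs
    · left
      refine hasCentre_of_mixed P hM h2 hm hp hq hq0 hpq hkl ?_
      rw [add_comm (k • (p + q)), rootE_shift P.alt hcβ, rootE_add_left P.alt hpq hpβ
        (by rw [map_smul, alt_self P.alt, smul_zero]), hq2] at hs
      have hR : rootE B P.alt p (l • q) ∈ M := hM p hp _ (A'.smul_mem l hq) hpβ
      have h3 : sTGL B P.alt q (2 * l) * sTGL B P.alt (p + q) (2 * k) =
          (rootE B P.alt p (l • q))⁻¹ *
            (sTGL B P.alt (p + q) (2 * k) * (rootE B P.alt p (l • q) * sTGL B P.alt q (2 * l))) := by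
        rw [eq_inv_mul_iff_mul_eq]
        refine gl_ext fun x => ?_
        simp only [Units.val_mul, ← mulVec_mulVec, rootE_mulVec P.alt hpβ, sTGL_mulVec, map_add,
          map_smul, LinearMap.add_apply, LinearMap.smul_apply, alt_self P.alt, smul_eq_mul, hpq,
          hqp, mul_zero, add_zero]
        module
      rw [h3]
      exact mul_mem (inv_mem hR) hs
  left
  push Not at hl
  have hli : LinearIndependent F ![q, β] := (LinearIndependent.pair_iff' hq0).2 hl
  obtain ⟨u, hu, huv⟩ := P.symm.exists_dual hli (by intro i; fin_cases i <;> assumption) ![0, -1]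
  have hqu : B q u = 0 := huv 0
  have hβu : B β u = -1 := huv 1
  obtain ⟨θ, hθ, hθ0, hθq⟩ := exists_indep_in_ker P.symm
    (LinearMap.pi ![B p, B u]) (Submodule.span F {q}) (by rw [finrank_span_singleton hq0]; omega)
  have hpθ : B p θ = 0 := congrFun hθ0 0
  have huθ : B u θ = 0 := congrFun hθ0 1
  have hcθ : B (p + q) θ = 0 := by rw [map_add, LinearMap.add_apply, hpθ, P.iso' q hq θ hθ, add_zero]
  set c := p + q with hc
  set d := k • c + β with hd
  set h := rootE B P.alt u θ with hh
  have hhc : (h : Matrix ι ι F) *ᵥ c = c := by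
    rw [hh, rootE_mulVec P.alt huθ, hcθ, zero_smul, add_zero, hc, map_add, LinearMap.add_apply,
      P.iso p hp u hu, hqu, add_zero, zero_smul, add_zero]
  have hhd : (h : Matrix ι ι F) *ᵥ d = d - θ := by
    rw [hd, mulVec_add, mulVec_smul, hhc, hh, rootE_mulVec P.alt huθ, hβu, P.iso' β hβ θ hθ,
      zero_smul, add_zero, neg_one_smul]
    abel
  have hcd : B c d = 0 := by rw [hd, map_add, map_smul, alt_self P.alt, hcβ, smul_zero, add_zero]
  have hdθ : B d θ = 0 := by
    rw [hd, map_add, map_smul, LinearMap.add_apply, LinearMap.smul_apply, hcθ, smul_zero,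
      P.iso' β hβ θ hθ, add_zero]
  have hh' : h ∈ M := hM u hu θ hθ huθ
  have hs' := mul_mem (mul_mem hh' hs) (inv_mem hh')
  rw [conj_rootE P.alt h (fun x y => rootE_isometry P.alt u θ x y), hhc, hhd] at hs'
  have hinv : (rootE B P.alt c d)⁻¹ = rootE B P.alt c (-d) := by
    refine inv_eq_of_mul_eq_one_right ?_
    rw [rootE_mul P.alt hcd (by rw [map_neg, hcd, neg_zero]), add_neg_cancel, rootE_zero, map_neg,
      LinearMap.neg_apply, alt_self P.alt, neg_zero, sTGL_zero, mul_one]
  have hθc : rootE B P.alt c (-θ) ∈ M := by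
    have h1 := mul_mem hs' (inv_mem hs)
    rw [hinv, rootE_mul P.alt (by rw [map_sub, hcd, hcθ, sub_zero]) (by rw [map_neg, hcd, neg_zero]),
      show d - θ + -d = -θ by abel] at h1
    have h0 : B (-d) (d - θ) = 0 := by
      rw [map_neg, LinearMap.neg_apply, map_sub, alt_self P.alt, hdθ, sub_zero, neg_zero]
    rwa [h0, sTGL_zero, one_mul] at h1
  rw [hc, rootE_add_left P.alt hpq (by rw [map_neg, hpθ, neg_zero])
    (by rw [map_neg, P.iso' q hq θ hθ, neg_zero])] at hθc
  have hU : rootE B P.alt q (-θ) ∈ M :=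
    (M.mul_mem_cancel_left (hM p hp _ (A'.neg_mem hθ) (by rw [map_neg, hpθ, neg_zero]))).1 hθc
  have hqθ : B q (-θ) = 0 := P.iso' q hq _ (A'.neg_mem hθ)
  refine exists_centre_of_uElt P h2 (by omega) hM ⟨fun x y => rootE_isometry P.alt _ _ x y,
    fun y hy => ?_, fun x => ?_, ?_⟩ hU
  · rw [rootE_mulVec P.alt hqθ, P.iso' y hy q hq, P.iso' y hy _ (A'.neg_mem hθ)]
    simp
  · rw [rootE_mulVec P.alt hqθ, add_assoc, add_sub_cancel_left]
    exact A'.add_mem (A'.smul_mem _ (A'.neg_mem hθ)) (A'.smul_mem _ hq)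
  · intro h1
    have hli' : LinearIndependent F ![q, θ] := (LinearIndependent.pair_iff' hq0).2 fun l e =>
      hθq (Submodule.mem_span_singleton.2 ⟨l, e⟩)
    obtain ⟨x, -, hxv⟩ := P.symm.exists_dual hli' (by intro i; fin_cases i <;> assumption) ![-1, 0]
    have hxq : B x q = 1 := by rw [alt_swap P.alt q x, show B q x = -1 from hxv 0, neg_neg]
    have hxθ : B x θ = 0 := by rw [alt_swap P.alt θ x, show B θ x = 0 from hxv 1, neg_zero]
    have h3 := rootE_mulVec P.alt hqθ x
    rw [h1, Units.val_one, one_mulVec, hxq, map_neg, hxθ, neg_zero, zero_smul, add_zero, one_smul,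
      left_eq_add, neg_eq_zero] at h3
    exact hθq (h3 ▸ Submodule.zero_mem _)

/-- A root element `rootE c d` in `M` but outside `Pres`, with `c` singular, gives a centre. -/
lemma hasCentre_of_root (h2 : (2 : F) ≠ 0) (hm : 5 ≤ m) {c d : ι → F} (hcd : B c d = 0)
    {p q : ι → F} (hp : p ∈ A) (hq : q ∈ A') (hpq : B p q = 0) (hc : p + q = c) (hc0 : c ≠ 0)
    (hs : rootE B P.alt c d ∈ M) (hn : rootE B P.alt c d ∉ Pres A A') :
    HasCentre B P.alt A' M ∨ HasCentre B P.alt A M := by
  have comm : ∀ e, B c e = 0 → rootE B P.alt c e ∈ M → B d e ≠ 0 →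
      sTGL B P.alt c (B e d - B d e) ∈ M := by
    intro e he heM _
    have h1 := mul_mem (mul_mem hs heM) (inv_mem (mul_mem heM hs))
    have h3 : rootE B P.alt c d * rootE B P.alt c e * (rootE B P.alt c e * rootE B P.alt c d)⁻¹ =
        sTGL B P.alt c (B e d - B d e) := by
      rw [mul_inv_eq_iff_eq_mul, rootE_mul P.alt hcd he, rootE_mul P.alt he hcd, add_comm e d,
        ← mul_assoc, sTGL_mul, sub_add_cancel]
    rwa [h3] at h1
  have hne : ∀ e, B d e ≠ 0 → B e d - B d e ≠ 0 := fun e he => by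
    rw [alt_swap P.alt d e, show -B d e - B d e = -(2 * B d e) by ring]
    exact neg_ne_zero.2 (mul_ne_zero h2 he)
  obtain ⟨α, hα, β, hβ, hab⟩ := P.decomp d
  have hfun : ∀ x ∈ A, ∀ y ∈ A', B (p + q) (x + y) = B p y + B q x := fun x hx y hy => by
    simp [P.iso p hp x hx, P.iso' q hq y hy, add_comm]
  have hpβ : B p β + B q α = 0 := by rw [← hfun α hα β hβ, hc, hab, hcd]
  by_cases hq0 : q = 0
  · subst hq0
    rw [add_zero] at hc
    subst hc
    rw [map_zero, LinearMap.zero_apply, add_zero] at hpβ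
    by_cases hαp : ∃ k : F, k • p = α
    · obtain ⟨k, rfl⟩ := hαp
      rw [← hab, add_comm, rootE_shift P.alt hpβ] at hs hn
      by_cases hk : k = 0
      · rw [hk, mul_zero, sTGL_zero, one_mul] at hn
        exact absurd (rootE_mem_pres P hp hβ hpβ) hn
      · exact Or.inr ⟨p, hp, hc0, 2 * k, mul_ne_zero h2 hk,
          (M.mul_mem_cancel_right (hM p hp β hβ hpβ)).1 hs⟩
    push Not at hαp
    obtain ⟨e, he, hev⟩ := P.exists_dual ((LinearIndependent.pair_iff' hc0).2 hαp)
      (by intro i; fin_cases i <;> assumption) ![0, 1]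
    have hpe : B p e = 0 := hev 0
    have hde : B d e = 1 := by
      rw [← hab, map_add, LinearMap.add_apply, show B α e = 1 from hev 1, P.iso' β hβ e he,
        add_zero]
    have hde' : B d e ≠ 0 := by rw [hde]; exact one_ne_zero
    exact Or.inr ⟨p, hp, hc0, _, hne e hde', comm e hpe (hM p hp e he hpe) hde'⟩
  by_cases hp0 : p = 0
  · subst hp0
    rw [zero_add] at hc
    subst hc
    rw [map_zero, LinearMap.zero_apply, zero_add] at hpβ
    by_cases hβq : ∃ k : F, k • q = β
    · obtain ⟨k, rfl⟩ := hβq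
      rw [← hab, rootE_shift P.alt hpβ] at hs hn
      have hR : rootE B P.alt q α ∈ M := hM_symm P hM q hq α hα hpβ
      by_cases hk : k = 0
      · rw [hk, mul_zero, sTGL_zero, one_mul, rootE_comm P.alt hpβ] at hn
        exact absurd (rootE_mem_pres P hα hq (by rw [alt_swap P.alt q α, hpβ, neg_zero])) hn
      · exact Or.inl ⟨q, hq, hc0, 2 * k, mul_ne_zero h2 hk, (M.mul_mem_cancel_right hR).1 hs⟩
    push Not at hβq
    obtain ⟨e, he, hev⟩ := P.symm.exists_dual ((LinearIndependent.pair_iff' hc0).2 hβq)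
      (by intro i; fin_cases i <;> assumption) ![0, 1]
    have hqe : B q e = 0 := hev 0
    have hde : B d e = 1 := by
      rw [← hab, map_add, LinearMap.add_apply, show B β e = 1 from hev 1, P.iso α hα e he,
        zero_add]
    have hde' : B d e ≠ 0 := by rw [hde]; exact one_ne_zero
    exact Or.inl ⟨q, hq, hc0, _, hne e hde', comm e hqe (hM_symm P hM q hq e he hqe) hde'⟩
  have hqp : B q p = 0 := by rw [alt_swap P.alt p q, hpq, neg_zero]
  by_cases hαp : ∃ k : F, k • p = α
  · obtain ⟨k, rfl⟩ := hαp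
    have hpβ0 : B p β = 0 := by rwa [map_smul, hqp, smul_zero, add_zero] at hpβ
    have hd : d = k • (p + q) + (β - k • q) := by rw [← hab]; module
    rw [hd, ← hc] at hs hn
    refine hasCentre_of_half P hM h2 hm hp hq hp0 hq0 hpq (A'.sub_mem hβ (A'.smul_mem k hq))
      (by rw [map_sub, map_smul, hpq, hpβ0, smul_zero, sub_zero]) ?_ hs
    by_contra! hcon
    apply hn
    rw [hcon.2, hcon.1, zero_smul, add_zero, rootE_zero]
    exact one_mem _
  by_cases hβq : ∃ k : F, k • q = β
  · obtain ⟨k, rfl⟩ := hβq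
    have hqα : B q α = 0 := by rwa [map_smul, hpq, smul_zero, zero_add] at hpβ
    have hd : d = k • (q + p) + (α - k • p) := by rw [← hab]; module
    rw [hd, ← hc, add_comm p q] at hs hn
    refine (hasCentre_of_half P.symm (hM_symm P hM) h2 hm hq hp hq0 hp0 hqp
      (A.sub_mem hα (A.smul_mem k hp))
      (by rw [map_sub, map_smul, hqp, hqα, smul_zero, sub_zero]) ?_ hs).symm
    by_contra! hcon
    apply hn
    rw [hcon.2, hcon.1, zero_smul, add_zero, rootE_zero]
    exact one_mem _
  push Not at hαp hβq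
  left
  obtain ⟨θ₀, hθ₀, hθv⟩ := P.exists_dual ((LinearIndependent.pair_iff' hp0).2 hαp)
    (by intro i; fin_cases i <;> assumption) ![0, 1]
  obtain ⟨θ, hθ, hpθ, hαθ, hθn⟩ : ∃ θ ∈ A', B p θ = 0 ∧ B α θ = 1 ∧
      θ ∉ Submodule.span F {q} ⊔ Submodule.span F {β} := by
    by_cases h0 : θ₀ ∈ Submodule.span F {q} ⊔ Submodule.span F {β}
    · obtain ⟨ν, hν, hν0, hνn⟩ := exists_indep_in_ker P.symm (LinearMap.pi ![B p, B α])
        (Submodule.span F {q} ⊔ Submodule.span F {β}) (by
          have h1 := Submodule.finrank_add_le_finrank_add_finrank (Submodule.span F {q})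
            (Submodule.span F {β})
          have h3 := finrank_span_le_card (R := F) ({q} : Set (ι → F))
          have h4 := finrank_span_le_card (R := F) ({β} : Set (ι → F))
          simp at h3 h4
          omega)
      refine ⟨θ₀ + ν, A'.add_mem hθ₀ hν, ?_, ?_, fun h => hνn ((Submodule.add_mem_iff_right _ h0).1 h)⟩
      · rw [map_add, show B p θ₀ = 0 from hθv 0, show B p ν = 0 from congrFun hν0 0, add_zero]
      · rw [map_add, show B α θ₀ = 1 from hθv 1, show B α ν = 0 from congrFun hν0 1, add_zero]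
    · exact ⟨θ₀, hθ₀, hθv 0, hθv 1, h0⟩
  have hli : LinearIndependent F ![q, β, θ] := by
    rw [Fintype.linearIndependent_iff]
    intro g hg
    rw [Fin.sum_univ_three] at hg
    simp only [Matrix.cons_val_zero, Matrix.cons_val_one, Matrix.cons_val_two, Matrix.tail_cons,
      Matrix.head_cons] at hg
    have hg2 : g 2 = 0 := by
      by_contra h0
      refine hθn ?_
      have : θ = (-(g 0) / g 2) • q + (-(g 1) / g 2) • β := by
        have h1 : g 2 • θ = (-(g 0)) • q + (-(g 1)) • β := by
          linear_combination (norm := module) hg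
        rw [div_eq_inv_mul, div_eq_inv_mul, ← smul_smul, ← smul_smul, ← smul_add, ← h1, smul_smul,
          inv_mul_cancel₀ h0, one_smul]
      rw [this]
      exact Submodule.add_mem_sup (Submodule.smul_mem _ _ (Submodule.mem_span_singleton_self q))
        (Submodule.smul_mem _ _ (Submodule.mem_span_singleton_self β))
    rw [hg2, zero_smul, add_zero] at hg
    have := LinearIndependent.pair_iff.1 ((LinearIndependent.pair_iff' hq0).2 hβq) _ _ hg
    intro i
    fin_cases i
    exacts [this.1, this.2, hg2]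
  obtain ⟨u, hu, huv⟩ := P.symm.exists_dual hli (by intro i; fin_cases i <;> assumption) ![0, 1, 0]
  have hqu : B q u = 0 := huv 0
  have hβu : B β u = 1 := huv 1
  have hθu : B θ u = 0 := huv 2
  have huθ : B u θ = 0 := by rw [alt_swap P.alt θ u, hθu, neg_zero]
  set h := rootE B P.alt u θ with hh
  have hhc : (h : Matrix ι ι F) *ᵥ c = c := by
    rw [← hc, hh, rootE_mulVec P.alt huθ]
    simp [P.iso p hp u hu, hqu, hpθ, P.iso' q hq θ hθ]
  have hhd : (h : Matrix ι ι F) *ᵥ d = d + θ + u := by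
    rw [← hab, hh, rootE_mulVec P.alt huθ]
    simp [P.iso α hα u hu, hβu, hαθ, P.iso' β hβ θ hθ]
  have hh' : h ∈ M := hM u hu θ hθ huθ
  have hs' := mul_mem (mul_mem hh' hs) (inv_mem hh')
  rw [conj_rootE P.alt h (fun x y => rootE_isometry P.alt u θ x y), hhc, hhd] at hs'
  have hde : B d (d + θ + u) = 2 := by
    rw [map_add, map_add, alt_self P.alt, ← hab]
    simp [P.iso α hα u hu, hβu, hαθ, P.iso' β hβ θ hθ]
    norm_num
  have hce : B c (d + θ + u) = 0 := by
    rw [map_add, map_add, hcd, ← hc]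
    simp [P.iso p hp u hu, hqu, hpθ, P.iso' q hq θ hθ]
  have hde' : B d (d + θ + u) ≠ 0 := by rw [hde]; exact h2
  have hT := comm _ hce hs' hde'
  rw [← hc] at hT
  exact hasCentre_of_mixed P hM h2 hm hp hq hq0 hpq (a := 0)
    (by rw [zero_add]; exact hne _ hde') (by rwa [sTGL_zero, one_mul])

end Cfsg.Lib.Classical
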