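import Mathlib
import Cfsg.Agent.Lib.Classical.LagrangianPairMax

/-!
Conclusion: an overgroup of the stabiliser of a pair of complementary Lagrangian subspaces that
contains a further isometry contains every symplectic transvection.
-/

set_option autoImplicit false

namespace Cfsg.Lib.Classical

open Matrix Module
open scoped MatrixGroups

variable {ι : Type} [Fintype ι] [DecidableEq ι] {F : Type*} [Field F]
  {B : LinearMap.BilinForm F (ι → F)} {A A' : Submodule F (ι → F)} {m : ℕ}
  {M : Subgroup (GL ι F)}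

variable (P : IsPol B A A' m)

include P

/-- An isometry exchanging the two subspaces. -/
lemma exists_swap : ∃ τ : GL ι F,
    (∀ x y, B ((τ : Matrix ι ι F) *ᵥ x) ((τ : Matrix ι ι F) *ᵥ y) = B x y) ∧
      (∀ x ∈ A, (τ : Matrix ι ι F) *ᵥ x ∈ A') ∧ ∀ x ∈ A', (τ : Matrix ι ι F) *ᵥ x ∈ A := by
  classical
  let bA := Module.finBasis F A
  let a : Fin (finrank F A) → ι → F := fun i => (bA i : ι → F)
  have hli : LinearIndependent F a :=
    bA.linearIndependent.map' A.subtype (Submodule.ker_subtype A)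
  choose b hb hbv using fun j => P.exists_dual hli (fun i => (bA i).2) (Pi.single j 1)
  have hab : ∀ i j, B (a i) (b j) = if i = j then 1 else 0 := fun i j => by
    rw [hbv j i, Pi.single_apply]
  have hba : ∀ i j, B (b j) (a i) = if i = j then -1 else 0 := fun i j => by
    rw [alt_swap P.alt (a i) (b j), hab]
    split_ifs <;> simp
  have haa : ∀ i j, B (a i) (a j) = 0 := fun i j => P.iso _ (bA i).2 _ (bA j).2
  have hbb : ∀ i j, B (b i) (b j) = 0 := fun i j => P.iso' _ (hb i) _ (hb j)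
  have hexp : ∀ x, x = ∑ i, (B x (b i) • a i - B x (a i) • b i) := by
    intro x
    refine sub_eq_zero.1 (P.nondeg.1 _ fun z => ?_)
    set y := x - ∑ i, (B x (b i) • a i - B x (a i) • b i) with hy
    have hya : ∀ j, B y (a j) = 0 := fun j => by
      simp [hy, map_sub, map_sum, LinearMap.sub_apply, LinearMap.sum_apply, haa, hba]
    have hyb : ∀ j, B y (b j) = 0 := fun j => by
      simp [hy, map_sub, map_sum, LinearMap.sub_apply, LinearMap.sum_apply, hbb, hab]
    obtain ⟨u, hu, w, hw, rfl⟩ := P.decomp z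
    have h1 : B y u = 0 := by
      have := congrArg (Subtype.val : A → ι → F) (bA.sum_repr ⟨u, hu⟩)
      rw [Submodule.coe_sum] at this
      simp only [Submodule.coe_smul] at this
      rw [← this, map_sum]
      exact Finset.sum_eq_zero fun i _ => by rw [map_smul, hya i, smul_zero]
    have h3 : B y w = 0 := by
      have hsp : w = ∑ i, B (a i) w • b i := by
        refine sub_eq_zero.1 (P.symm.eq_zero_of_orth'
          (A'.sub_mem hw (Submodule.sum_mem _ fun i _ => A'.smul_mem _ (hb i))) fun u hu => ?_)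
        have := congrArg (Subtype.val : A → ι → F) (bA.sum_repr ⟨u, hu⟩)
        rw [Submodule.coe_sum] at this
        simp only [Submodule.coe_smul] at this
        rw [← this, map_sum]
        refine Finset.sum_eq_zero fun j _ => ?_
        have hj : B (w - ∑ i, B (a i) w • b i) (a j) = 0 := by
          simp [map_sub, map_sum, LinearMap.sub_apply, LinearMap.sum_apply, hba,
            alt_swap P.alt (a j) w]
        rw [map_smul, hj, smul_zero]
      rw [hsp, map_sum]
      exact Finset.sum_eq_zero fun i _ => by rw [map_smul, hyb i, smul_zero]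
    rw [map_add, h1, h3, add_zero]
  let T : (ι → F) →ₗ[F] (ι → F) :=
    ∑ i, ((B.flip (b i)).smulRight (b i) + (B.flip (a i)).smulRight (a i))
  have hT : ∀ x, T x = ∑ i, (B x (b i) • b i + B x (a i) • a i) := fun x => by simp [T]
  have hTi : ∀ x y, B (T x) (T y) = B x y := by
    intro x y
    conv_rhs => rw [hexp x]
    rw [hT, hT]
    simp only [map_sum, map_add, map_sub, map_smul, LinearMap.sum_apply, LinearMap.add_apply,
      LinearMap.sub_apply, LinearMap.smul_apply, smul_eq_mul, haa, hbb, hab, hba, mul_zero,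
      add_zero, zero_add, mul_ite, mul_one, mul_neg, Finset.sum_ite_eq, Finset.sum_ite_eq',
      Finset.mem_univ, if_true, Finset.sum_add_distrib]
    simp only [Finset.sum_const_zero, mul_zero, zero_mul, add_zero, zero_add]
    try rw [← Finset.sum_add_distrib]
    refine Finset.sum_congr rfl fun i _ => ?_
    rw [alt_swap P.alt y (a i), alt_swap P.alt y (b i)]
    ring
  have hinj : Function.Injective T := by
    rw [← LinearMap.ker_eq_bot, LinearMap.ker_eq_bot']
    intro x hx
    exact P.nondeg.1 x fun y => by rw [← hTi, hx, map_zero, LinearMap.zero_apply]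
  refine ⟨(glEquiv ι F).symm (LinearEquiv.ofInjectiveEndo T hinj), fun x y => ?_, fun x hx => ?_,
    fun x hx => ?_⟩
  · rw [glEquiv_symm_mulVec, glEquiv_symm_mulVec]
    exact hTi x y
  · rw [glEquiv_symm_mulVec]
    change T x ∈ A'
    rw [hT]
    exact Submodule.sum_mem _ fun i _ => A'.add_mem (A'.smul_mem _ (hb i))
      (by rw [P.iso x hx _ (bA i).2, zero_smul]; exact A'.zero_mem)
  · rw [glEquiv_symm_mulVec]
    change T x ∈ A
    rw [hT]
    exact Submodule.sum_mem _ fun i _ => A.add_mem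
      (by rw [P.iso' x hx _ (hb i), zero_smul]; exact A.zero_mem) (A.smul_mem _ (bA i).2)

/-- A Lagrangian subspace invariant under all short root elements is one of the pair. -/
lemma eq_or_eq_of_root_invariant (hm : 5 ≤ m) {L : Submodule F (ι → F)} (hL : finrank F L = m)
    (hinv : ∀ p ∈ A, ∀ q ∈ A', B p q = 0 →
      ∀ x ∈ L, (rootE B P.alt p q : Matrix ι ι F) *ᵥ x ∈ L) : L = A ∨ L = A' := by
  have key : ∀ {A A' : Submodule F (ι → F)}, IsPol B A A' m →
      (∀ p ∈ A, ∀ q ∈ A', B p q = 0 → ∀ x ∈ L, (rootE B P.alt p q : Matrix ι ι F) *ᵥ x ∈ L) →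
      ∀ a ∈ A, ∀ b ∈ A', a ≠ 0 → b ≠ 0 → a + b ∈ L → ∃ K : Submodule F (ι → F),
        K ≤ A ⊓ L ∧ m ≤ finrank F K + 1 := by
    intro A A' Q hi a ha b hb ha0 hb0 hab
    let K := A ⊓ LinearMap.ker (B b)
    have hK : m ≤ finrank F K + 1 := by
      have h1 := Submodule.finrank_sup_add_finrank_inf_eq A (LinearMap.ker (B b))
      have h2 := (A ⊔ LinearMap.ker (B b)).finrank_le
      have h3 := LinearMap.finrank_range_add_finrank_ker (B b)
      have h4 := (LinearMap.range (B b)).finrank_le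
      rw [finrank_self] at h4
      rw [Q.dim] at h1
      change m ≤ finrank F ↥(A ⊓ LinearMap.ker (B b)) + 1
      omega
    refine ⟨K, le_inf inf_le_left ?_, hK⟩
    have step : ∀ p ∈ K, (∀ t : F, t • a ≠ p) → p ∈ L := by
      rintro p ⟨hpA, hpb⟩ hpn
      obtain ⟨q, hq, hqv⟩ := Q.exists_dual ((LinearIndependent.pair_iff' ha0).2 hpn)
        (by intro i; fin_cases i <;> assumption) ![1, 0]
      have haq : B a q = 1 := hqv 0
      have hpq : B p q = 0 := hqv 1
      have hbp : B b p = 0 := hpb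
      have := hi p hpA q hq hpq _ hab
      rw [rootE_mulVec P.alt hpq, map_add, LinearMap.add_apply, LinearMap.add_apply,
        Q.iso a ha p hpA, hbp, haq, Q.iso' b hb q hq, add_zero, add_zero, zero_smul, add_zero,
        one_smul, L.add_mem_iff_right hab] at this
      exact this
    intro p hp
    by_cases h : ∀ t : F, t • a ≠ p
    · exact step p hp h
    push Not at h
    obtain ⟨t, rfl⟩ := h
    obtain ⟨p₀, hp₀, hp₀n⟩ : ∃ p₀ ∈ K, p₀ ∉ Submodule.span F {a} := by
      by_contra! hcon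
      have := Submodule.finrank_mono (show K ≤ Submodule.span F {a} from hcon)
      rw [finrank_span_singleton ha0] at this
      omega
    have h1 := step p₀ hp₀ fun s e => hp₀n (Submodule.mem_span_singleton.2 ⟨s, e⟩)
    have h2 := step (t • a + p₀) (K.add_mem hp hp₀) fun s e => hp₀n
      (Submodule.mem_span_singleton.2 ⟨s - t, by rw [sub_smul, e, add_sub_cancel_left]⟩)
    exact (L.add_mem_iff_left h1).1 h2
  by_cases hmix : ∃ a ∈ A, ∃ b ∈ A', a ≠ 0 ∧ b ≠ 0 ∧ a + b ∈ L
  · exfalso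
    obtain ⟨a, ha, b, hb, ha0, hb0, hab⟩ := hmix
    obtain ⟨K, hK, hKd⟩ := key P hinv a ha b hb ha0 hb0 hab
    obtain ⟨K', hK', hKd'⟩ := key P.symm (fun p hp q hq h x hx => by
      rw [rootE_comm P.alt h]
      exact hinv q hq p hp (by rw [alt_swap P.alt p q, h, neg_zero]) x hx) b hb a ha hb0 ha0
      (by rwa [add_comm])
    have h1 := Submodule.finrank_sup_add_finrank_inf_eq K K'
    have h2 : K ⊓ K' = ⊥ := le_bot_iff.1 ((inf_le_inf (hK.trans inf_le_left)
      (hK'.trans inf_le_left)).trans P.compl.inf_eq_bot.le)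
    rw [h2, finrank_bot] at h1
    have h3 := Submodule.finrank_mono (sup_le (hK.trans inf_le_right) (hK'.trans inf_le_right))
    omega
  push Not at hmix
  rcases le_or_le_of_subset_union (U := A) (U' := A') (P := L) (fun x hx => by
    obtain ⟨a, ha, b, hb, rfl⟩ := P.decomp x
    by_cases hb0 : b = 0
    · left; rwa [hb0, add_zero]
    by_cases ha0 : a = 0
    · right; rwa [ha0, zero_add]
    exact absurd hx (hmix a ha b hb ha0 hb0)) with h | h
  · exact Or.inl (Submodule.eq_of_le_of_finrank_eq h (by rw [hL, P.dim]))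
  · exact Or.inr (Submodule.eq_of_le_of_finrank_eq h (by rw [hL, P.dim']))

/-- Some short root element with a singular point is moved out of `Pres` by `g`, or `g` permutes
the pair. -/
lemma exists_bad_root [Finite F] (h2 : (2 : F) ≠ 0) (hm : 7 ≤ m) (g : GL ι F)
    (hgi : ∀ x y, B ((g : Matrix ι ι F) *ᵥ x) ((g : Matrix ι ι F) *ᵥ y) = B x y)
    (hgn : ¬ ((g ∈ Pres A A') ∨
      ((∀ x ∈ A, (g : Matrix ι ι F) *ᵥ x ∈ A') ∧ ∀ x ∈ A', (g : Matrix ι ι F) *ᵥ x ∈ A))) :
    ∃ p q, B p q = 0 ∧ p ≠ 0 ∧ ((p ∈ A ∧ q ∈ A') ∨ (p ∈ A' ∧ q ∈ A)) ∧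
      (∃ a ∈ A, ∃ b ∈ A', B a b = 0 ∧ a + b = (g : Matrix ι ι F) *ᵥ p) ∧
      rootE B P.alt ((g : Matrix ι ι F) *ᵥ p) ((g : Matrix ι ι F) *ᵥ q) ∉ Pres A A' := by
  by_contra hcon
  push Not at hcon
  set πA := A.projectionOnto A' P.compl
  set πA' := A'.projectionOnto A P.compl.symm
  let gl : (ι → F) →ₗ[F] (ι → F) := Matrix.mulVecLin (g : Matrix ι ι F)
  let β : LinearMap.BilinForm F (ι → F) :=
    B.compl₁₂ (A.subtype.comp (πA.comp gl)) (A'.subtype.comp (πA'.comp gl))
  have hβ : ∀ p a b, a ∈ A → b ∈ A' → a + b = (g : Matrix ι ι F) *ᵥ p → β p p = B a b := by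
    intro p a b ha hb hab
    have e1 : (πA (gl p) : ι → F) = a := by
      have : gl p = a + b := hab.symm
      rw [this, map_add, Submodule.projectionOnto_apply_of_mem_left P.compl ha,
        (Submodule.projectionOnto_apply_eq_zero_iff P.compl).2 hb, add_zero]
    have e2 : (πA' (gl p) : ι → F) = b := by
      have : gl p = a + b := hab.symm
      rw [this, map_add, (Submodule.projectionOnto_apply_eq_zero_iff P.compl.symm).2 ha,
        Submodule.projectionOnto_apply_of_mem_left P.compl.symm hb, zero_add]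
    simp [β, e1, e2]
  -- the roots sent into `Pres`
  let G : (ι → F) → (ι → F) → Prop := fun p q =>
    rootE B P.alt ((g : Matrix ι ι F) *ᵥ p) ((g : Matrix ι ι F) *ᵥ q) ∈ Pres A A'
  have hzero : ∀ p, β p p = 0 → ∀ q, B p q = 0 → ((p ∈ A ∧ q ∈ A') ∨ (p ∈ A' ∧ q ∈ A)) → G p q := by
    intro p hp q hpq hor
    by_cases hp0 : p = 0
    · change rootE B P.alt _ _ ∈ _
      rw [hp0, mulVec_zero, rootE_comm P.alt (by simp), rootE_zero]
      exact one_mem _
    obtain ⟨a, ha, b, hb, hab⟩ := P.decomp ((g : Matrix ι ι F) *ᵥ p)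
    exact hcon p q hpq hp0 hor ⟨a, ha, b, hb, by rw [← hβ p a b ha hb hab, hp], hab⟩
  have hcomm : ∀ p q, B p q = 0 → G p q → G q p := fun p q h hG => by
    change rootE B P.alt _ _ ∈ _
    rwa [rootE_comm P.alt (by rw [hgi, alt_swap P.alt p q, h, neg_zero])]
  have hadd : ∀ c d e, B c d = 0 → B c e = 0 → B d e = 0 → G c d → G c e → G c (d + e) := by
    intro c d e hd he hde h1 h1'
    change rootE B P.alt _ _ ∈ _
    have h3 := mul_mem h1 h1'
    rw [rootE_mul P.alt (by rw [hgi, hd]) (by rw [hgi, he]), hgi, alt_swap P.alt d e, hde,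
      neg_zero, sTGL_zero, one_mul, ← mulVec_add] at h3
    exact h3
  -- spans of singular vectors give roots in `Pres`
  have hspan : ∀ {A A' : Submodule F (ι → F)}, IsPol B A A' m →
      (∀ p ∈ A, ∀ q ∈ A', β p p = 0 → B p q = 0 → G p q) → ∀ q ∈ A',
      ∃ K : Submodule F (ι → F), K ≤ A ∧ m ≤ finrank F K + 3 ∧ ∀ k ∈ K, B k q = 0 ∧ G k q := by
    intro A A' Q hz q hq
    obtain ⟨K, hKA, hKd, hKs⟩ := exists_span_zero h2 β (A ⊓ LinearMap.ker (B.flip q))
    refine ⟨K, hKA.trans inf_le_left, ?_, fun k hk => ⟨(hKA hk).2, ?_⟩⟩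
    · have h1 := Submodule.finrank_sup_add_finrank_inf_eq A (LinearMap.ker (B.flip q))
      have h3 := (A ⊔ LinearMap.ker (B.flip q)).finrank_le
      have h4 := LinearMap.finrank_range_add_finrank_ker (B.flip q)
      have h5 := (LinearMap.range (B.flip q)).finrank_le
      rw [finrank_self] at h5
      rw [Q.dim] at h1
      omega
    · rw [hKs] at hk
      have : ∀ x ∈ Submodule.span F {p | p ∈ A ⊓ LinearMap.ker (B.flip q) ∧ β p p = 0},
          x ∈ A ⊓ LinearMap.ker (B.flip q) ∧ G x q := by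
        intro x hx
        induction hx using Submodule.closure_induction with
        | zero => exact ⟨Submodule.zero_mem _, hz 0 A.zero_mem q hq (map_zero _) (by simp)⟩
        | add x y _ _ hx hy =>
          refine ⟨Submodule.add_mem _ hx.1 hy.1, ?_⟩
          have hxq : B x q = 0 := hx.1.2
          have hyq : B y q = 0 := hy.1.2
          exact hcomm q (x + y) (by rw [map_add, alt_swap P.alt x q, alt_swap P.alt y q, hxq, hyq]; simp)
            (hadd q x y (by rw [alt_swap P.alt x q, hxq, neg_zero])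
              (by rw [alt_swap P.alt y q, hyq, neg_zero]) (Q.iso x hx.1.1 y hy.1.1)
              (hcomm x q hxq hx.2) (hcomm y q hyq hy.2))
        | smul_mem t x hx =>
          refine ⟨Submodule.smul_mem _ t hx.1, hz _ (A.smul_mem t hx.1.1) q hq ?_ ?_⟩
          · simp [show β x x = 0 from hx.2]
          · rw [map_smul, LinearMap.smul_apply, show B x q = 0 from hx.1.2, smul_zero]
      exact (this k hk).2
  have all : ∀ p ∈ A, ∀ q ∈ A', B p q = 0 → G p q := by
    intro p hp φ hφ hpφ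
    obtain ⟨K, hKA, hKd, hKG⟩ := hspan P (fun p hp q hq h h' => hzero p h q h' (Or.inl ⟨hp, hq⟩)) φ hφ
    obtain ⟨L, hLA, hLd, hLG⟩ := hspan P.symm
      (fun p hp q hq h h' => hzero p h q h' (Or.inr ⟨hp, hq⟩)) p hp
    obtain ⟨k, hk, ψ, hψ, hkψ⟩ : ∃ k ∈ K, ∃ ψ ∈ L, B k ψ = 1 := by
      by_contra! hno
      let R : (ι → F) →ₗ[F] (K →ₗ[F] F) := (B.compl₁₂ K.subtype LinearMap.id).flip
      have hle : L ≤ A' ⊓ LinearMap.ker R := fun ψ hψ => ⟨hLA hψ, by
        refine LinearMap.ext fun k => ?_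
        change B (k : ι → F) ψ = 0
        by_contra h0
        exact hno ((B (k : ι → F) ψ)⁻¹ • (k : ι → F)) (K.smul_mem _ k.2) ψ hψ (by
          rw [map_smul, LinearMap.smul_apply, smul_eq_mul, inv_mul_cancel₀ h0])⟩
      have hsurj : LinearMap.range (R.comp A'.subtype) = ⊤ := by
        refine LinearMap.range_eq_top.2 fun f => ?_
        obtain ⟨L', hL'⟩ := LinearMap.exists_extend f
        obtain ⟨w, hw⟩ := exists_rightVec B P.alt P.nondeg fun i => L' (Pi.single i 1)
        obtain ⟨u, hu, b, hb, hub⟩ := P.decomp w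
        refine ⟨⟨b, hb⟩, LinearMap.ext fun k => ?_⟩
        change B (k : ι → F) b = f k
        have h1 : B (k : ι → F) w = L' (k : ι → F) := by
          rw [← rightVec_dot, hw]
          conv_rhs => rw [pi_eq_sum_univ' (k : ι → F)]
          simp [dotProduct, map_sum, mul_comm]
        rw [← hub, map_add, P.iso _ (hKA k.2) u hu, zero_add] at h1
        rw [h1, ← hL']
        rfl
      have h1 := LinearMap.finrank_range_add_finrank_ker (R.comp A'.subtype)
      rw [hsurj, finrank_top, P.dim', Module.finrank_linearMap, finrank_self, mul_one] at h1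
      have h3 : finrank F (LinearMap.ker (R.comp A'.subtype)) =
          finrank F ↥(A' ⊓ LinearMap.ker R) := by
        rw [LinearMap.ker_comp]
        exact LinearEquiv.finrank_eq
          ((Submodule.equivMapOfInjective A'.subtype A'.injective_subtype _).trans
            (LinearEquiv.ofEq _ _ (Submodule.map_comap_subtype _ _)))
      have h4 := Submodule.finrank_mono hle
      omega
    obtain ⟨hψp, hψG⟩ := hLG ψ hψ
    obtain ⟨hkφ, hkG⟩ := hKG k hk
    have hpψ : B p ψ = 0 := by rw [alt_swap P.alt ψ p, hψp, neg_zero]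
    have hh : rootE B P.alt ((g : Matrix ι ι F) *ᵥ p) ((g : Matrix ι ι F) *ᵥ ψ) ∈ Pres A A' :=
      hcomm ψ p hψp hψG
    have h1 := mul_mem (mul_mem hh hkG) (inv_mem hh)
    rw [conj_rootE P.alt _ (fun x y => rootE_isometry P.alt _ _ x y),
      rootE_mulVec P.alt (by rw [hgi, hpψ]), rootE_mulVec P.alt (by rw [hgi, hpψ]), hgi, hgi, hgi,
      hgi, P.iso k (hKA hk) p hp, hkψ, alt_swap P.alt p φ, hpφ, P.iso' φ hφ ψ (hLA hψ), neg_zero,
      zero_smul, zero_smul, add_zero, add_zero, add_zero, one_smul, ← mulVec_add] at h1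
    have h3 : G φ (k + p) := hcomm (k + p) φ (by rw [map_add, LinearMap.add_apply, hkφ, hpφ, add_zero]) h1
    change rootE B P.alt _ _ ∈ _ at h3
    rw [mulVec_add] at h3
    have h4 := rootE_mul P.alt (c := (g : Matrix ι ι F) *ᵥ φ) (d := (g : Matrix ι ι F) *ᵥ k)
      (e := (g : Matrix ι ι F) *ᵥ p) (by rw [hgi, alt_swap P.alt k φ, hkφ, neg_zero])
      (by rw [hgi, alt_swap P.alt p φ, hpφ, neg_zero])
    rw [hgi p k, P.iso p hp k (hKA hk), sTGL_zero, one_mul] at h4
    rw [← h4] at h3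
    exact hcomm φ p (by rw [alt_swap P.alt p φ, hpφ, neg_zero])
      ((Subgroup.mul_mem_cancel_left _ (hcomm k φ hkφ hkG)).1 h3)
  -- so `g` permutes the pair
  have hginv : ∀ {L : Submodule F (ι → F)}, (∀ h ∈ Pres A A', h ∈ Cfsg.Geo.subspaceStabilizer L) →
      finrank F L = m → L.comap gl = A ∨ L.comap gl = A' := by
    intro L hL hLd
    have hinj : Function.Injective gl := fun x y hxy => (mulVec_inj g).1 hxy
    have hsurj : Function.Surjective gl := LinearMap.injective_iff_surjective.1 hinj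
    refine eq_or_eq_of_root_invariant P (by omega) ?_ fun p hp q hq hpq x hx => ?_
    · rw [LinearEquiv.finrank_eq (Submodule.equivMapOfInjective gl hinj (L.comap gl)),
        Submodule.map_comap_eq_of_surjective hsurj, hLd]
    · change (g : Matrix ι ι F) *ᵥ ((rootE B P.alt p q : Matrix ι ι F) *ᵥ x) ∈ L
      have h1 : (rootE B P.alt ((g : Matrix ι ι F) *ᵥ p) ((g : Matrix ι ι F) *ᵥ q) : Matrix ι ι F) *ᵥ
          ((g : Matrix ι ι F) *ᵥ x) ∈ L := ((hL _ (all p hp q hq hpq)) ((g : Matrix ι ι F) *ᵥ x)).1 hx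
      rw [rootE_mulVec P.alt (by rw [hgi, hpq]), hgi, hgi, ← mulVec_smul, ← mulVec_smul,
        ← mulVec_add, ← mulVec_add] at h1
      rwa [rootE_mulVec P.alt hpq]
  have hne : A.comap gl ≠ A'.comap gl := by
    intro e
    have hinj : Function.Injective gl := fun x y hxy => (mulVec_inj g).1 hxy
    have hsurj : Function.Surjective gl := LinearMap.injective_iff_surjective.1 hinj
    have := congrArg (Submodule.map gl) e
    rw [Submodule.map_comap_eq_of_surjective hsurj, Submodule.map_comap_eq_of_surjective hsurj] at this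
    have hA0 : A = ⊥ := by
      have := P.compl.inf_eq_bot
      rwa [← ‹A = A'›, inf_idem] at this
    have hd := P.dim
    rw [hA0, finrank_bot] at hd
    omega
  apply hgn
  have maps : ∀ {L L' : Submodule F (ι → F)}, L.comap gl = L' →
      ∀ x ∈ L', (g : Matrix ι ι F) *ᵥ x ∈ L := fun h x hx => by
    rw [← h] at hx; exact hx
  rcases hginv (fun h hh => hh.1) P.dim with h1 | h1 <;>
    rcases hginv (fun h hh => hh.2) P.dim' with h3 | h3
  · exact absurd (h1.trans h3.symm) hne
  · exact Or.inl ⟨map_eq_of_maps_to (maps h1), map_eq_of_maps_to (maps h3)⟩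
  · exact Or.inr ⟨maps h3, maps h1⟩
  · exact absurd (h1.trans h3.symm) hne

/-- The main statement. -/
theorem sTGL_mem_of_gt_pair [Finite F] (h2 : (2 : F) ≠ 0) (hm : 7 ≤ m)
    (hM : ∀ h : GL ι F,
      (∀ x y, B ((h : Matrix ι ι F) *ᵥ x) ((h : Matrix ι ι F) *ᵥ y) = B x y) →
      ((h ∈ Pres A A') ∨
        ((∀ x ∈ A, (h : Matrix ι ι F) *ᵥ x ∈ A') ∧ ∀ x ∈ A', (h : Matrix ι ι F) *ᵥ x ∈ A)) →
      h ∈ M)
    (g : GL ι F) (hgi : ∀ x y, B ((g : Matrix ι ι F) *ᵥ x) ((g : Matrix ι ι F) *ᵥ y) = B x y)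
    (hg : g ∈ M)
    (hgn : ¬ ((g ∈ Pres A A') ∨
      ((∀ x ∈ A, (g : Matrix ι ι F) *ᵥ x ∈ A') ∧ ∀ x ∈ A', (g : Matrix ι ι F) *ᵥ x ∈ A)))
    (v : ι → F) : v ∈ sCentre B P.alt M := by
  have hR : ∀ p ∈ A, ∀ q ∈ A', B p q = 0 → rootE B P.alt p q ∈ M := fun p hp q hq h =>
    hM _ (fun x y => rootE_isometry P.alt p q x y) (Or.inl (rootE_mem_pres P hp hq h))
  obtain ⟨p, q, hpq, hp0, hor, ⟨a, ha, b, hb, hab, hsum⟩, hbad⟩ :=
    exists_bad_root P h2 hm g hgi hgn
  have hs : rootE B P.alt ((g : Matrix ι ι F) *ᵥ p) ((g : Matrix ι ι F) *ᵥ q) ∈ M := by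
    rw [← conj_rootE P.alt g hgi]
    refine mul_mem (mul_mem hg ?_) (inv_mem hg)
    rcases hor with ⟨hp, hq⟩ | ⟨hp, hq⟩
    · exact hR p hp q hq hpq
    · rw [rootE_comm P.alt hpq]
      exact hR q hq p hp (by rw [alt_swap P.alt p q, hpq, neg_zero])
  obtain ⟨τ, hτi, hτA, hτA'⟩ := exists_swap P
  have hτM : τ ∈ M := hM τ hτi (Or.inr ⟨hτA, hτA'⟩)
  have tmove : ∀ {A A' : Submodule F (ι → F)}, (∀ x ∈ A, (τ : Matrix ι ι F) *ᵥ x ∈ A') →
      HasCentre B P.alt A M → HasCentre B P.alt A' M := by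
    rintro A A' hmap ⟨θ, hθ, hθ0, c, hc, hT⟩
    refine ⟨_, hmap θ hθ, mulVec_ne_zero τ hθ0, c, hc, ?_⟩
    rw [← conj_sTGL_iso B P.alt τ hτi]
    exact mul_mem (mul_mem hτM hT) (inv_mem hτM)
  have hc : HasCentre B P.alt A' M ∨ HasCentre B P.alt A M :=
    hasCentre_of_root P hR h2 (by omega) (by rw [hgi, hpq]) ha hb hab hsum
      (mulVec_ne_zero g hp0) hs hbad
  have hA' : ∀ x ∈ A', x ∈ sCentre B P.alt M := by
    refine sTGL_mem_of_hasCentre P hR h2 (by omega) ?_
    rcases hc with h | h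
    · exact h
    · exact tmove hτA h
  have hA : ∀ x ∈ A, x ∈ sCentre B P.alt M := by
    refine sTGL_mem_of_hasCentre P.symm (hM_symm P hR) h2 (by omega) ?_
    rcases hc with h | h
    · exact tmove hτA' h
    · exact h
  obtain ⟨x, hx, y, hy, rfl⟩ := P.decomp v
  by_cases hy0 : y = 0
  · rw [hy0, add_zero]; exact hA x hx
  by_cases hxy : B x y = 0
  · by_cases hx0 : x = 0
    · rw [hx0, zero_add]; exact hA' y hy
    obtain ⟨b₀, hb₀, hb₀v⟩ := P.exists_dual (indep_one P hx0)
      (by intro i; fin_cases i; exact hx) ![1]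
    have hxb : B x b₀ = 1 := hb₀v 0
    have h1 := sCentre_pencil (hA x hx) (hA' b₀ hb₀) (by rw [hxb]; exact one_ne_zero) 1
    rw [one_smul] at h1
    have h3 := sCentre_pencil h1 (hA' (y - b₀) (A'.sub_mem hy hb₀)) (by
      rw [map_add, LinearMap.add_apply, map_sub, map_sub, hxy, hxb, alt_self P.alt,
        P.iso' b₀ hb₀ y hy]
      simp) 1
    rwa [one_smul, add_assoc, add_sub_cancel] at h3
  · simpa using sCentre_pencil (hA x hx) (hA' y hy) hxy 1

end Cfsg.Lib.Classical
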