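import Mathlib

/-!
Counting totally isotropic lines by incidences.
-/

set_option autoImplicit false

namespace Cfsg.Lib.Classical.LineCount

open Module

variable {F V : Type*} [Field F] [Fintype F] [AddCommGroup V] [Module F V] [Finite V] {R : V → V → Prop}
  (hspan : ∀ u w, R u u → R w w → R u w → ∀ x ∈ Submodule.span F ({u, w} : Set V), ∀ y ∈ Submodule.span F ({u, w} : Set V), R x y)

include hspan

theorem per_vertex {v : V} (hv : v ≠ 0) (hvv : R v v) :
    Nat.card {W : Submodule F V // finrank F W = 2 ∧ v ∈ W ∧ ∀ x ∈ W, ∀ y ∈ W, R x y} * (Fintype.card F ^ 2 - Fintype.card F)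
      + Fintype.card F = Nat.card {w : V // R w w ∧ R v w} := by
  classical
  have : FiniteDimensional F V := Module.Finite.of_finite
  have := Fintype.ofFinite V
  have : Fintype {W : Submodule F V // finrank F W = 2 ∧ v ∈ W ∧ ∀ x ∈ W, ∀ y ∈ W, R x y} :=
    @Fintype.ofFinite _ (@Subtype.finite _ (Finite.of_injective _ SetLike.coe_injective) _)
  set L := Submodule.span F ({v} : Set V)
  have hLsp : L ≤ Submodule.span F ({v, v} : Set V) := Submodule.span_mono (by simp)
  have hL : ∀ w ∈ L, R w w ∧ R v w := fun w hw =>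
    ⟨hspan v v hvv hvv hvv w (hLsp hw) w (hLsp hw), hspan v v hvv hvv hvv v (Submodule.subset_span (by simp)) w (hLsp hw)⟩
  have hsplit : Nat.card {w : V // R w w ∧ R v w} =
      Nat.card L + Nat.card {w : V // (R w w ∧ R v w) ∧ w ∉ L} := by
    rw [← Nat.card_sum]
    refine Nat.card_congr
      { toFun := fun w => if h : w.1 ∈ L then Sum.inl ⟨w.1, h⟩ else Sum.inr ⟨w.1, w.2, h⟩
        invFun := Sum.elim (fun w => ⟨w.1, hL _ w.2⟩) (fun w => ⟨w.1, w.2.1⟩)
        left_inv := fun w => by simp only; split_ifs <;> rfl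
        right_inv := fun w => by rcases w with ⟨w, h⟩ | ⟨w, h⟩ <;> simp [h] }
  have hdim : ∀ w, w ∉ L → finrank F (Submodule.span F ({v, w} : Set V)) = 2 := fun w hw => by
    have hi : LinearIndependent F ![v, w] := LinearIndependent.pair_iff.2 fun s t hst => by
      by_cases ht : t = 0
      · rw [ht, zero_smul, add_zero] at hst
        exact ⟨(smul_eq_zero.1 hst).resolve_right hv, ht⟩
      · refine absurd (Submodule.mem_span_singleton.2 ⟨-(t⁻¹ * s), ?_⟩) hw
        rw [neg_smul, mul_smul, eq_neg_of_add_eq_zero_left hst]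
        simp [ht]
    have := finrank_span_eq_card hi
    rwa [Matrix.range_cons, Matrix.range_cons, Matrix.range_empty, Set.union_empty, ← Set.insert_eq, Fintype.card_fin] at this
  have hfib : Nat.card {w : V // (R w w ∧ R v w) ∧ w ∉ L} =
      Nat.card (Σ W : {W : Submodule F V // finrank F W = 2 ∧ v ∈ W ∧ ∀ x ∈ W, ∀ y ∈ W, R x y}, {x : W.1 // (x : V) ∉ L}) := by
    refine Nat.card_congr
      { toFun := fun w => ⟨⟨Submodule.span F {v, w.1}, hdim _ w.2.2, Submodule.subset_span (by simp),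
          hspan v w.1 hvv w.2.1.1 w.2.1.2⟩, ⟨⟨w.1, Submodule.subset_span (by simp)⟩, w.2.2⟩⟩
        invFun := fun s => ⟨s.2.1.1, ⟨s.1.2.2.2 _ s.2.1.2 _ s.2.1.2, s.1.2.2.2 _ s.1.2.2.1 _ s.2.1.2⟩, s.2.2⟩
        left_inv := fun w => rfl
        right_inv := fun s => ?_ }
    obtain ⟨⟨W, hW2, hvW, hWR⟩, ⟨⟨w, hw⟩, hwL⟩⟩ := s
    have e : Submodule.span F {v, w} = W := Submodule.eq_of_le_of_finrank_eq
      (Submodule.span_le.2 (by rintro x (rfl | rfl) <;> assumption)) (by rw [hdim w hwL, hW2])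
    subst e
    rfl
  have hone : ∀ W : {W : Submodule F V // finrank F W = 2 ∧ v ∈ W ∧ ∀ x ∈ W, ∀ y ∈ W, R x y},
      Nat.card {x : W.1 // (x : V) ∉ L} = Fintype.card F ^ 2 - Fintype.card F := fun W => by
    have hle : L ≤ W.1 := Submodule.span_le.2 (Set.singleton_subset_iff.2 W.2.2.1)
    have h1 : Nat.card {x : W.1 // (x : V) ∈ L} = Fintype.card F := by
      rw [show Nat.card {x : W.1 // (x : V) ∈ L} = Nat.card L from Nat.card_congr (Submodule.comapSubtypeEquivOfLe hle).toEquiv, Module.natCard_eq_pow_finrank (K := F) (V := L),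
        finrank_span_singleton hv, pow_one, Nat.card_eq_fintype_card]
    rw [Nat.card_eq_fintype_card, Fintype.card_subtype_compl (fun x : W.1 => (x : V) ∈ L), ← Nat.card_eq_fintype_card,
      ← Nat.card_eq_fintype_card, h1, Module.natCard_eq_pow_finrank (K := F), W.2.1, Nat.card_eq_fintype_card]
  rw [hsplit, hfib, Nat.card_sigma, Finset.sum_congr rfl (fun W _ => hone W), Finset.sum_const, Finset.card_univ, smul_eq_mul,
    ← Nat.card_eq_fintype_card, Module.natCard_eq_pow_finrank (K := F) (V := L), finrank_span_singleton hv, pow_one, Nat.card_eq_fintype_card (α := F), add_comm]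
  simp only [Nat.card_eq_fintype_card]

omit hspan in
theorem global {c : ℕ} (hc : ∀ v : V, v ≠ 0 → R v v →
      Nat.card {W : Submodule F V // finrank F W = 2 ∧ v ∈ W ∧ ∀ x ∈ W, ∀ y ∈ W, R x y} = c) :
    Nat.card {W : Submodule F V // finrank F W = 2 ∧ ∀ x ∈ W, ∀ y ∈ W, R x y} * (Fintype.card F ^ 2 - 1) =
      Nat.card {v : V // v ≠ 0 ∧ R v v} * c := by
  classical
  have : FiniteDimensional F V := Module.Finite.of_finite
  have := Fintype.ofFinite V
  have : Finite (Submodule F V) := Finite.of_injective _ SetLike.coe_injective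
  have := Fintype.ofFinite (Submodule F V)
  have h := Nat.card_congr
    (show (Σ v : {v : V // v ≠ 0 ∧ R v v}, {W : Submodule F V // finrank F W = 2 ∧ v.1 ∈ W ∧ ∀ x ∈ W, ∀ y ∈ W, R x y}) ≃
      (Σ W : {W : Submodule F V // finrank F W = 2 ∧ ∀ x ∈ W, ∀ y ∈ W, R x y}, {x : W.1 // x ≠ 0}) from
    { toFun := fun s => ⟨⟨s.2.1, s.2.2.1, s.2.2.2.2⟩, ⟨⟨s.1.1, s.2.2.2.1⟩, fun h => s.1.2.1 (congrArg Subtype.val h)⟩⟩
      invFun := fun s => ⟨⟨s.2.1.1, fun h => s.2.2 (Subtype.ext h), s.1.2.2 _ s.2.1.2 _ s.2.1.2⟩, ⟨s.1.1, s.1.2.1, s.2.1.2, s.1.2.2⟩⟩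
      left_inv := fun s => rfl
      right_inv := fun s => rfl })
  have hW : ∀ W : {W : Submodule F V // finrank F W = 2 ∧ ∀ x ∈ W, ∀ y ∈ W, R x y},
      Nat.card {x : W.1 // x ≠ 0} = Fintype.card F ^ 2 - 1 := fun W => by
    rw [Nat.card_eq_fintype_card, Fintype.card_subtype_compl, Fintype.card_subtype_eq, ← Nat.card_eq_fintype_card,
      Module.natCard_eq_pow_finrank (K := F) (V := W.1), W.2.1, Nat.card_eq_fintype_card]
  have hV : ∀ v : {v : V // v ≠ 0 ∧ R v v},
      Nat.card {W : Submodule F V // finrank F W = 2 ∧ v.1 ∈ W ∧ ∀ x ∈ W, ∀ y ∈ W, R x y} = c := fun v => hc v.1 v.2.1 v.2.2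
  rw [Nat.card_sigma, Nat.card_sigma] at h
  simp only [hW, hV, Finset.sum_const, Finset.card_univ, smul_eq_mul, ← Nat.card_eq_fintype_card] at h
  simp only [← Nat.card_eq_fintype_card]
  exact h.symm

end Cfsg.Lib.Classical.LineCount
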