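import Mathlib
import Cfsg.Prelude.Def_Classical

/-!
A perfect central cover of a commutator subgroup gives an isomorphism of the central quotients.
-/

set_option autoImplicit false

namespace Cfsg.Lib.Classical.LowRankIso

open scoped commutatorElement

variable {P O : Type*} [Group P] [Group O]

lemma range_le (hperf : commutator P = ⊤) (ψ : P →* O) : ψ.range ≤ commutator O := by
  rw [MonoidHom.range_eq_map, ← hperf, commutator_def, Subgroup.map_commutator]
  exact Subgroup.commutator_mono le_top le_top

theorem nonempty_iso (hperf : commutator P = ⊤) (ψ : P →* O) (hker : ψ.ker ≤ Subgroup.center P)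
    (hle : commutator O ≤ ψ.range) :
    Nonempty ((↥(commutator O) ⧸ Subgroup.center ↥(commutator O)) ≃* P ⧸ Subgroup.center P) := by
  let ψ' : P →* commutator O := ψ.codRestrict _ fun x => range_le hperf ψ ⟨x, rfl⟩
  have hs : Function.Surjective ψ' := fun ⟨y, hy⟩ => by
    obtain ⟨x, rfl⟩ := hle hy
    exact ⟨x, rfl⟩
  let χ : P →* ↥(commutator O) ⧸ Subgroup.center ↥(commutator O) := (QuotientGroup.mk' _).comp ψ'
  have hk : χ.ker = Subgroup.center P := by
    ext g
    rw [MonoidHom.mem_ker, MonoidHom.comp_apply, QuotientGroup.mk'_apply, QuotientGroup.eq_one_iff]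
    constructor
    · intro hg
      have hmem : ∀ x, ⁅g, x⁆ ∈ Subgroup.center P := fun x => hker (by
        rw [MonoidHom.mem_ker, map_commutatorElement, commutatorElement_eq_one_iff_mul_comm]
        exact (congrArg Subtype.val (Subgroup.mem_center_iff.1 hg (ψ' x))).symm)
      let δ : P →* Subgroup.center P := MonoidHom.mk' (fun x => ⟨⁅g, x⁆, hmem x⟩) fun x y => Subtype.ext (by
        show ⁅g, x * y⁆ = ⁅g, x⁆ * ⁅g, y⁆
        have h := Subgroup.mem_center_iff.1 (hmem y) x
        calc ⁅g, x * y⁆ = ⁅g, x⁆ * (x * ⁅g, y⁆ * x⁻¹) := by simp only [commutatorElement_def]; group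
          _ = _ := by rw [h, mul_inv_cancel_right])
      haveI : IsMulCommutative (Subgroup.center P) := inferInstance
      have hd : commutator P ≤ δ.ker := by
        rw [commutator_def, Subgroup.commutator_le]
        intro a _ b _
        rw [MonoidHom.mem_ker, map_commutatorElement, commutatorElement_eq_one_iff_mul_comm]
        exact Subtype.ext (Subgroup.mem_center_iff.1 (δ b).2 (δ a).1)
      refine Subgroup.mem_center_iff.2 fun x => ?_
      have hx : x ∈ δ.ker := hd (hperf ▸ Subgroup.mem_top x)
      exact (commutatorElement_eq_one_iff_mul_comm.1 (congrArg Subtype.val hx)).symm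
    · intro hg
      refine Subgroup.mem_center_iff.2 fun z => ?_
      obtain ⟨x, rfl⟩ := hs z
      rw [← map_mul, ← map_mul, Subgroup.mem_center_iff.1 hg x]
  exact ⟨(QuotientGroup.quotientKerEquivOfSurjective χ ((QuotientGroup.mk'_surjective _).comp hs)).symm.trans
    (QuotientGroup.quotientMulEquivOfEq hk)⟩

/-- A subgroup with the expected number of elements contains the commutator subgroup. -/
theorem le_range_of_card [Finite O] (hperf : commutator P = ⊤) (ψ : P →* O)
    (hcard : Nat.card ψ.range = Nat.card (commutator O)) : commutator O ≤ ψ.range :=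
  (Subgroup.eq_of_le_of_card_ge (range_le hperf ψ) hcard.ge).ge

end Cfsg.Lib.Classical.LowRankIso
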