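import Mathlib
import Cfsg.Prelude.Def_GeometricClasses
import Cfsg.Agent.Lib.Classical.OrthMatrix
import Cfsg.Agent.Lib.Classical.OmegaCentre
import Cfsg.Agent.Lib.Classical.QuadOrders
import Cfsg.Agent.Lib.Classical.PlusFamilies

/-!
Non-maximal stabilisers in `Omega` of a quadratic form.
-/

set_option autoImplicit false

namespace Cfsg.Lib.Classical.NotMax

open Module Reflections Spinor
open scoped Matrix MatrixGroups

variable {ι : Type} [Fintype ι] [DecidableEq ι] {F : Type*} [Field F]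

/-- The quadratic form of a `Geo.IsNondegenerateQuadraticForm`. -/
noncomputable def quadOf {f : (ι → F) → F} (h : Cfsg.Geo.IsNondegenerateQuadraticForm f) : QuadraticForm F (ι → F) :=
  QuadraticMap.ofPolar f (fun a x => by rw [h.smul, smul_eq_mul, pow_two]) h.polar_bilinear.add_left
    (fun a x y => by rw [h.polar_bilinear.smul_left, smul_eq_mul])

lemma quadOf_apply {f : (ι → F) → F} (h : Cfsg.Geo.IsNondegenerateQuadraticForm f) (v : ι → F) : quadOf h v = f v := rfl

lemma quadOf_nondeg {f : (ι → F) → F} (h : Cfsg.Geo.IsNondegenerateQuadraticForm f) :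
    (QuadraticMap.polarBilin (quadOf h)).Nondegenerate := by
  refine QuadOrders.nondeg_of_left (fun x y => Witt.polar_symm' _ x y) fun x hx => ?_
  by_contra h0
  obtain ⟨y, hy⟩ := (h.nondegenerate x h0).2
  exact hy (hx y)

variable {f : (ι → F) → F} {Q : QuadraticForm F (ι → F)} (h : ∀ v, Q v = f v)

lemma polar_eq (hf : ∀ v, Q v = f v) (x y : ι → F) : QuadraticMap.polar f x y = QuadraticMap.polarBilin Q x y := by
  simp [QuadraticMap.polar, ← hf]

/-- The reflection as an element of `GL`. -/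
noncomputable def reflGL (hf : ∀ v, Q v = f v) (v : ι → F) : GL ι F := ((OrthMatrix.eI hf).symm (refl Q v)).1

include h

lemma reflGL_mulVec (v x : ι → F) : (reflGL h v : Matrix ι ι F) *ᵥ x = x - ((Q v)⁻¹ * QuadraticMap.polarBilin Q v x) • v := by
  rw [reflGL, ← OrthMatrix.eI_apply h, MulEquiv.apply_symm_apply, refl_apply]

lemma exists_of_omega {g : GL ι F} (hg : g ∈ Cfsg.Geo.omegaGL f) :
    ∃ u : ↥(Witt.quadIso Q), u ∈ (_root_.commutator ↥(Witt.quadIso Q) : Subgroup ↥(Witt.quadIso Q)) ∧ ∀ x, u.1 x = (g : Matrix ι ι F) *ᵥ x := by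
  obtain ⟨g', hg', rfl⟩ := hg
  rw [OrthMatrix.omega_eq h] at hg'
  exact ⟨OrthMatrix.eI h g', hg', fun x => OrthMatrix.eI_apply h g' x⟩

lemma omega_isometry {g : GL ι F} (hg : g ∈ Cfsg.Geo.omegaGL f) (x : ι → F) : Q ((g : Matrix ι ι F) *ᵥ x) = Q x := by
  obtain ⟨u, -, hu⟩ := exists_of_omega h hg
  rw [← hu, u.2]

lemma omega_polar {g : GL ι F} (hg : g ∈ Cfsg.Geo.omegaGL f) (x y : ι → F) :
    QuadraticMap.polarBilin Q ((g : Matrix ι ι F) *ᵥ x) ((g : Matrix ι ι F) *ᵥ y) = QuadraticMap.polarBilin Q x y := by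
  obtain ⟨u, -, hu⟩ := exists_of_omega h hg
  rw [← hu, ← hu, polar_apply]

lemma pair_mem [Finite F] (hB : (QuadraticMap.polarBilin Q).Nondegenerate) {u v : ι → F} (hu : Q u ≠ 0) (e : Q u = Q v) :
    reflGL h u * reflGL h v ∈ Cfsg.Geo.omegaGL f := by
  refine ⟨(OrthMatrix.eI h).symm (refl Q u * refl Q v), ?_, by rw [map_mul]; rfl⟩
  rw [SetLike.mem_coe, OrthMatrix.omega_eq h, Subgroup.mem_comap, MulEquiv.coe_toMonoidHom, MulEquiv.apply_symm_apply]
  exact OmegaCentre.refl_mul_mem_commutator hB hu e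

/-- The two families of maximal totally singular subspaces are preserved by `Omega`. -/
theorem family_parity (hB : (QuadraticMap.polarBilin Q).Nondegenerate)
    (hex : (∃ c : F, c ≠ 0 ∧ c ≠ 1) ∨ finrank F (ι → F) ≠ 4) {m : ℕ} (hd : finrank F (ι → F) = 2 * m)
    {g : GL ι F} (hg : g ∈ Cfsg.Geo.omegaGL f) {A : Submodule F (ι → F)} (hA : PlusFamilies.TS Q A) (hAd : finrank F A = m) :
    Even (m - finrank F ↥(A ⊓ A.map (Matrix.toLin' (g : Matrix ι ι F)))) := by
  obtain ⟨u, hu, hue⟩ := exists_of_omega h hg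
  have hmap : Submodule.map (Matrix.toLin' (g : Matrix ι ι F)) A = A.map (u.1 : (ι → F) →ₗ[F] (ι → F)) :=
    congrArg (fun T => A.map T) (LinearMap.ext fun x => by simp [hue])
  rw [hmap]
  have key : ∀ u : Witt.quadIso Q, (-1 : ℤˣ) ^ (m - finrank F ↥(A ⊓ A.map (u.1 : (ι → F) →ₗ[F] (ι → F)))) = delta hB hex u := by
    intro u
    induction u using induction_refl hB hex with
    | h1 =>
      rw [map_one, show A.map ((1 : Witt.quadIso Q).1 : (ι → F) →ₗ[F] (ι → F)) = A from Submodule.map_id A, inf_idem, hAd, Nat.sub_self, pow_zero]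
    | h v u hv ih =>
      set W := A.map (u.1 : (ι → F) →ₗ[F] (ι → F)) with hW
      set X := A.map ((refl Q v * u).1 : (ι → F) →ₗ[F] (ι → F)) with hX
      have tsmap : ∀ u : Witt.quadIso Q, PlusFamilies.TS Q (A.map (u.1 : (ι → F) →ₗ[F] (ι → F))) := fun u => by
        rintro w ⟨a, ha, rfl⟩
        exact (u.2 a).trans (hA a ha)
      have dmap : ∀ u : Witt.quadIso Q, finrank F ↥(A.map (u.1 : (ι → F) →ₗ[F] (ι → F))) = m := fun u => by
        rw [LinearEquiv.finrank_map_eq u.1, hAd]
      have hWX : X = W.map ((refl Q v).1 : (ι → F) →ₗ[F] (ι → F)) := by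
        rw [hX, hW, ← Submodule.map_comp]; rfl
      have hne : ((QuadraticMap.polarBilin Q v).comp W.subtype) ≠ 0 := fun h0 => by
        have hperp : LinearMap.BilinForm.orthogonal (QuadraticMap.polarBilin Q) W = W :=
          (Submodule.eq_of_le_of_finrank_eq (tsmap u).le_perp (by rw [dmap, PlusFamilies.finrank_perp hB hd, dmap]; omega)).symm
        refine hv ((tsmap u) v ?_)
        show v ∈ W
        rw [← hperp]
        intro w hw
        show QuadraticMap.polarBilin Q w v = 0
        rw [Witt.polar_symm']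
        exact LinearMap.congr_fun h0 ⟨w, hw⟩
      have hker := Module.Dual.finrank_ker_add_one_of_ne_zero hne
      have hinf : finrank F ↥(W ⊓ X) + 1 = m := by
        have e : W ⊓ X = W ⊓ LinearMap.ker (QuadraticMap.polarBilin Q v) := by
          refine le_antisymm (fun x hx => ⟨hx.1, ?_⟩) (fun x hx => ⟨hx.1, ?_⟩)
          · exact hWX.symm ▸ (⟨x, hx.1, refl_fix Q hx.2⟩ : x ∈ W.map ((refl Q v).1 : (ι → F) →ₗ[F] (ι → F)))
          · obtain ⟨w, hw, hwx⟩ := (hWX ▸ hx.2 : x ∈ W.map ((refl Q v).1 : (ι → F) →ₗ[F] (ι → F)))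
            change (refl Q v).1 w = x at hwx
            show QuadraticMap.polarBilin Q v x = 0
            have h1 : QuadraticMap.polarBilin Q v ((refl Q v).1 ((refl Q v).1 x)) = QuadraticMap.polarBilin Q v x := by
              rw [show (refl Q v).1 ((refl Q v).1 x) = x from Reflections.reflMap_invol Q v x]
            have hxw : (refl Q v).1 x = w := by rw [← hwx]; exact Reflections.reflMap_invol Q v w
            rw [refl_apply] at hxw
            by_contra hne'
            have hvW : ((Q v)⁻¹ * QuadraticMap.polarBilin Q v x) • v ∈ W := by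
              have := W.sub_mem hx.1 hw
              rwa [← hxw, sub_sub_cancel] at this
            exact hv ((tsmap u) v ((W.smul_mem_iff (mul_ne_zero (inv_ne_zero hv) hne')).1 hvW))
        have h2 := (Submodule.comapSubtypeEquivOfLe (inf_le_left : W ⊓ LinearMap.ker (QuadraticMap.polarBilin Q v) ≤ W)).finrank_eq
        have h3 : Submodule.comap W.subtype (W ⊓ LinearMap.ker (QuadraticMap.polarBilin Q v)) = LinearMap.ker ((QuadraticMap.polarBilin Q v).comp W.subtype) := by
          ext; simp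
        rw [h3] at h2
        rw [e, ← h2]
        have := dmap u
        rw [← hW] at this
        omega
      have hev := PlusFamilies.parity hB hd 1 A W X hA hAd (tsmap u) (dmap u) (tsmap _) (dmap _) hinf
      rw [map_mul, delta_refl hB hex hv, ← ih]
      obtain ⟨s, hs⟩ := hev
      rcases Nat.even_or_odd (m - finrank F ↥(A ⊓ W)) with he | ho
      · have : Odd (m - finrank F ↥(A ⊓ X)) := by
          rw [Nat.odd_iff]; rw [Nat.even_iff] at he; omega
        rw [this.neg_one_pow, he.neg_one_pow, mul_one]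
      · have : Even (m - finrank F ↥(A ⊓ X)) := by
          rw [Nat.even_iff]; rw [Nat.odd_iff] at ho; omega
        rw [this.neg_one_pow, ho.neg_one_pow]; decide
  have h1 := key u
  rw [MonoidHom.mem_ker.1 (Abelianization.commutator_subset_ker (delta hB hex) hu), neg_one_pow_eq_one_iff_even (by decide)] at h1
  exact h1

/-- A Siegel element as a product of two reflections. -/
lemma eichler [Finite F] (hB : (QuadraticMap.polarBilin Q).Nondegenerate) {a b c : ι → F} (ha : Q a = 0) (hb : Q b = 0) (hc : Q c = 0)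
    (hab : QuadraticMap.polarBilin Q a b = 1) (hac : QuadraticMap.polarBilin Q a c = 0) (hbc : QuadraticMap.polarBilin Q b c = 0) :
    ∃ g : GL ι F, g ∈ Cfsg.Geo.omegaGL f ∧ (g : Matrix ι ι F) *ᵥ b = b - c ∧
      ∀ x, QuadraticMap.polarBilin Q a x = 0 → QuadraticMap.polarBilin Q c x = 0 →
        (g : Matrix ι ι F) *ᵥ x = x - QuadraticMap.polarBilin Q b x • c := by
  have hv : Q (a + b) = 1 := by rw [Witt.quad_add, ha, hb, hab]; ring
  have hv' : Q (a + b + c) = 1 := by rw [Witt.quad_add, hv, hc, map_add, LinearMap.add_apply, hac, hbc]; ring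
  have hself : ∀ z, Q z = 0 → QuadraticMap.polarBilin Q z z = 0 := fun z hz => by rw [Witt.polar_self', hz, mul_zero]
  have hba : QuadraticMap.polarBilin Q b a = 1 := by rw [Witt.polar_symm', hab]
  have hca : QuadraticMap.polarBilin Q c a = 0 := by rw [Witt.polar_symm', hac]
  have hcb : QuadraticMap.polarBilin Q c b = 0 := by rw [Witt.polar_symm', hbc]
  refine ⟨reflGL h (a + b) * reflGL h (a + b + c), pair_mem h hB (by rw [hv]; exact one_ne_zero) (hv.trans hv'.symm), ?_, fun x hxa hxc => ?_⟩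
  · rw [Units.val_mul, ← Matrix.mulVec_mulVec, reflGL_mulVec, reflGL_mulVec, hv, hv', inv_one, one_mul, one_mul]
    simp only [map_add, map_sub, map_smul, LinearMap.add_apply, hab, hba, hac, hca, hbc, hcb, hself a ha, hself b hb]
    module
  · rw [Units.val_mul, ← Matrix.mulVec_mulVec, reflGL_mulVec, reflGL_mulVec, hv, hv', inv_one, one_mul, one_mul]
    simp only [map_add, map_sub, map_smul, LinearMap.add_apply, hxa, hxc, hab, hba, hac, hbc, hca, hcb, hself a ha, hself b hb, hself c hc]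
    module

omit h

/-- A singular vector paired to `a` and orthogonal to the given subspace. -/
lemma exists_dual (hB : (QuadraticMap.polarBilin Q).Nondegenerate) {a : ι → F} (ha : Q a = 0) (S : Submodule F (ι → F)) (haS : a ∉ S)
    (hS : ∀ s ∈ S, QuadraticMap.polarBilin Q s a = 0) :
    ∃ b, Q b = 0 ∧ QuadraticMap.polarBilin Q a b = 1 ∧ ∀ s ∈ S, QuadraticMap.polarBilin Q b s = 0 := by
  obtain ⟨φ, hφa, hφ⟩ := Witt.exists_fun_of_not_mem S haS
  obtain ⟨y, hy⟩ := Witt.exists_polar hB φ
  refine ⟨y - Q y • a, ?_, ?_, fun s hs => ?_⟩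
  · rw [sub_eq_add_neg, ← neg_smul, Witt.quad_add, Witt.quad_smul, ha, map_smul, hy, hφa, smul_eq_mul]; ring
  · rw [map_sub, map_smul, Witt.polar_symm', hy, hφa, Witt.polar_self', ha]; simp
  · rw [map_sub, map_smul, LinearMap.sub_apply, LinearMap.smul_apply, hy, hφ s hs, Witt.polar_symm' Q a s, hS s hs]; simp

end Cfsg.Lib.Classical.NotMax

namespace Cfsg.Lib.Classical.NotMax

open Module
open scoped Matrix MatrixGroups

variable {ι : Type} [Fintype ι] [DecidableEq ι] {F : Type*} [Field F]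

lemma map_eq_of_stab {W : Submodule F (ι → F)} {g : GL ι F} (hg : g ∈ Cfsg.Geo.subspaceStabilizer W) :
    W.map (Matrix.toLin' (g : Matrix ι ι F)) = W := by
  refine le_antisymm (by rintro x ⟨w, hw, rfl⟩; rw [Matrix.toLin'_apply]; exact (hg w).1 hw) fun x hx => ?_
  refine ⟨((g⁻¹ : GL ι F) : Matrix ι ι F) *ᵥ x, (hg _).2 ?_, ?_⟩
  · show (g : Matrix ι ι F) *ᵥ _ ∈ W
    rw [Matrix.mulVec_mulVec, ← Units.val_mul, mul_inv_cancel, Units.val_one, Matrix.one_mulVec]; exact hx
  · rw [Matrix.toLin'_apply, Matrix.mulVec_mulVec, ← Units.val_mul, mul_inv_cancel, Units.val_one, Matrix.one_mulVec]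

lemma stab_of_map {W : Submodule F (ι → F)} {g : GL ι F} (hg : W.map (Matrix.toLin' (g : Matrix ι ι F)) = W) :
    g ∈ Cfsg.Geo.subspaceStabilizer W := by
  intro v
  refine ⟨fun hv => hg ▸ ⟨v, hv, by simp⟩, fun hv => ?_⟩
  have hv' : (g : Matrix ι ι F) *ᵥ v ∈ W.map (Matrix.toLin' (g : Matrix ι ι F)) := hg.symm ▸ hv
  obtain ⟨w, hw, e⟩ := hv'
  rw [Matrix.toLin'_apply] at e
  have := congrArg (fun z => ((g⁻¹ : GL ι F) : Matrix ι ι F) *ᵥ z) e
  simp only [Matrix.mulVec_mulVec, ← Units.val_mul, inv_mul_cancel, Units.val_one, Matrix.one_mulVec] at this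
  exact this ▸ hw

end Cfsg.Lib.Classical.NotMax
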