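import Mathlib
import Cfsg.Agent.Lib.Classical.NotMax
import Cfsg.Agent.Lib.Classical.CommonZero
import Cfsg.Agent.Lib.Classical.SubspaceStab

/-!
Non-maximal stabilisers of plus planes and of small orthogonal blocks over the smallest fields.
-/

set_option autoImplicit false

namespace Cfsg.Lib.Classical.NotMaxOrth

open Module Reflections Spinor NotMax
open scoped Matrix MatrixGroups

variable {ι : Type} [Fintype ι] [DecidableEq ι] {F : Type*} [Field F] [Fintype F] {f : (ι → F) → F}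
  {Q : QuadraticForm F (ι → F)} (h : ∀ v, Q v = f v) (hB : (QuadraticMap.polarBilin Q).Nondegenerate)

local notation "β" => QuadraticMap.polarBilin Q

lemma three_eq_zero (hq : Fintype.card F = 3) : (3 : F) = 0 := by
  have : ((Fintype.card F : ℕ) : F) = 0 := Nat.cast_card_eq_zero F
  rw [hq] at this
  exact_mod_cast this

lemma eq_of_mul_eq_one (hq : Fintype.card F ≤ 3) {x y : F} (h : x * y = 1) : x = y := by
  classical
  have hx : x ≠ 0 := left_ne_zero_of_mul_eq_one h
  have h1 : x ^ 2 = 1 := by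
    have h2 : 1 < Fintype.card F := Fintype.one_lt_card
    have h3 := FiniteField.pow_card_sub_one_eq_one x hx
    have h4 : Fintype.card F = 2 ∨ Fintype.card F = 3 := by omega
    rcases h4 with e | e <;> rw [e] at h3
    · rw [show x = 1 by simpa using h3, one_pow]
    · exact h3
  exact mul_left_cancel₀ hx (by rw [h, ← pow_two, h1])

include hB in
lemma exists_singular (W : Submodule F (ι → F)) (hW : 5 ≤ finrank F W) : ∃ a ∈ W, a ≠ 0 ∧ Q a = 0 := by
  obtain ⟨B, hBq⟩ := LinearMap.BilinMap.toQuadraticMap_surjective Q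
  obtain ⟨a, ha, ha0, h1, -⟩ := exists_common_zero B B W hW
  exact ⟨a, ha, ha0, by rw [← hBq]; simpa using h1⟩

include h hB

/-- The stabiliser of a hyperbolic plane over a field of order at most three is not maximal. -/
theorem plane_between (hq : Fintype.card F ≤ 3) (hn : 7 ≤ finrank F (ι → F)) (W : Submodule F (ι → F)) (hdim : finrank F W = 2)
    (hW : Cfsg.Geo.IsNondegenerateOn (QuadraticMap.polar f) W) (hWp : Cfsg.Geo.IsPlusTypeOn f W) :
    ∃ K : Subgroup (GL ι F), Cfsg.Geo.subspaceStabilizer W ⊓ Cfsg.Geo.omegaGL f < K ∧ K < Cfsg.Geo.omegaGL f := by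
  classical
  obtain ⟨U, hUW, hUs, hUd⟩ := hWp
  obtain ⟨u, huU, hu0⟩ := Submodule.exists_mem_ne_zero_of_ne_bot (p := U) fun e => by
    rw [e, finrank_bot, hdim] at hUd; omega
  have hu : u ∈ W := hUW huU
  have hQu : Q u = 0 := (h u).trans (hUs u huU)
  have huu : β u u = 0 := by rw [Witt.polar_self', hQu, mul_zero]
  obtain ⟨y, hyW, huy⟩ := (hW u hu hu0).2
  rw [NotMax.polar_eq h] at huy
  obtain ⟨y', hy'⟩ : ∃ y', y' = (β u y)⁻¹ • y := ⟨_, rfl⟩
  have huy' : β u y' = 1 := by rw [hy', map_smul, smul_eq_mul, inv_mul_cancel₀ huy]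
  obtain ⟨w, hw'⟩ : ∃ w, w = y' - Q y' • u := ⟨_, rfl⟩
  have hw : w ∈ W := hw' ▸ W.sub_mem (hy' ▸ W.smul_mem _ hyW) (W.smul_mem _ hu)
  have huw : β u w = 1 := by rw [hw', map_sub, map_smul, huu, smul_zero, sub_zero, huy']
  have hwu : β w u = 1 := by rw [Witt.polar_symm', huw]
  have hQw : Q w = 0 := by
    rw [hw', sub_eq_add_neg, ← neg_smul, Witt.quad_add, Witt.quad_smul, hQu, map_smul, Witt.polar_symm' Q y' u, huy', smul_eq_mul]; ring
  have hww : β w w = 0 := by rw [Witt.polar_self', hQw, mul_zero]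
  have hspan : Submodule.span F {u, w} = W := by
    refine Submodule.eq_of_le_of_finrank_le (Submodule.span_le.2 (by simp [Set.insert_subset_iff, hu, hw])) ?_
    have hind : LinearIndependent F ![u, w] := LinearIndependent.pair_iff.2 fun s t e => by
      have h1 := congrArg (β u) e
      have h2 := congrArg (β w) e
      simp [map_add, map_smul, huu, huw, hwu, hww] at h1 h2
      exact ⟨h2, h1⟩
    rw [hdim, show Submodule.span F {u, w} = Submodule.span F (Set.range ![u, w]) by rw [Matrix.range_cons_cons_empty],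
      finrank_span_eq_card hind]
    simp
  set P := LinearMap.BilinForm.orthogonal β W with hP
  have hPd : finrank F P = finrank F (ι → F) - 2 := by rw [hP, LinearMap.BilinForm.finrank_orthogonal hB, hdim]
  obtain ⟨a, haP, ha0, hQa⟩ := exists_singular hB P (by omega)
  have hua : β u a = 0 := haP u hu
  have hwa : β w a = 0 := haP w hw
  have haW : a ∉ Submodule.span F ({u, w} : Set (ι → F)) := fun hmem => by
    obtain ⟨c, d, rfl⟩ := Submodule.mem_span_pair.1 hmem
    simp [map_add, map_smul, huu, huw, hwu, hww] at hua hwa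
    exact ha0 (by rw [hua, hwa]; simp)
  obtain ⟨b, hQb, hab, hbS⟩ := exists_dual hB hQa (Submodule.span F {u, w}) haW fun s hs => by
    obtain ⟨c, d, rfl⟩ := Submodule.mem_span_pair.1 hs
    simp [map_add, map_smul, hua, hwa]
  have hbu : β b u = 0 := hbS u (Submodule.subset_span (by simp))
  have hbw : β b w = 0 := hbS w (Submodule.subset_span (by simp))
  have hau : β a u = 0 := by rw [Witt.polar_symm', hua]
  have haw : β a w = 0 := by rw [Witt.polar_symm', hwa]
  have hub : β u b = 0 := by rw [Witt.polar_symm', hbu]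
  have hwb : β w b = 0 := by rw [Witt.polar_symm', hbw]
  have hba : β b a = 1 := by rw [Witt.polar_symm', hab]
  have haa : β a a = 0 := by rw [Witt.polar_self', hQa, mul_zero]
  have hbb : β b b = 0 := by rw [Witt.polar_self', hQb, mul_zero]
  obtain ⟨v1, hv1⟩ : ∃ v1, v1 = u + w := ⟨_, rfl⟩
  have hv1W : v1 ∈ W := hv1 ▸ W.add_mem hu hw
  have hQv1 : Q v1 = 1 := by rw [hv1, Witt.quad_add, hQu, hQw, huw]; ring
  have hchar : ∀ x ∈ W, Q x = 1 → x ∈ Submodule.span F ({v1} : Set (ι → F)) := fun x hx hQx => by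
    rw [← hspan] at hx
    obtain ⟨c, d, rfl⟩ := Submodule.mem_span_pair.1 hx
    rw [Witt.quad_add, Witt.quad_smul, Witt.quad_smul, hQu, hQw, map_smul, map_smul, LinearMap.smul_apply, huw] at hQx
    simp at hQx
    exact Submodule.mem_span_singleton.2 ⟨c, by rw [hv1, smul_add, eq_of_mul_eq_one hq (x := c) (y := d) (by linear_combination hQx)]⟩
  have hle : Cfsg.Geo.subspaceStabilizer W ⊓ Cfsg.Geo.omegaGL f ≤
      Cfsg.Geo.subspaceStabilizer (Submodule.span F {v1}) ⊓ Cfsg.Geo.omegaGL f := fun g ⟨hgW, hg⟩ =>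
    ⟨map_eq_of_maps_to fun x hx => by
      obtain ⟨c, rfl⟩ := Submodule.mem_span_singleton.1 hx
      rw [Matrix.mulVec_smul]
      exact Submodule.smul_mem _ c (hchar _ ((mem_subspaceStabilizer.1 hgW v1).1 hv1W) (by rw [omega_isometry h hg, hQv1])), hg⟩
  have hx : Q (a + b) = 1 := by rw [Witt.quad_add, hQa, hQb, hab]; ring
  refine ⟨Cfsg.Geo.subspaceStabilizer (Submodule.span F {v1}) ⊓ Cfsg.Geo.omegaGL f, lt_of_le_of_ne hle fun e => ?_,
    lt_of_le_of_ne inf_le_right fun e => ?_⟩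
  · obtain ⟨y, hy⟩ : ∃ y, y = a + (2 : F) • b + (u - w) := ⟨_, rfl⟩
    have hQy : Q y = 1 := by
      rw [hy, sub_eq_add_neg, Witt.quad_add, Witt.quad_add, Witt.quad_add, Witt.quad_smul, QuadraticMap.map_neg, hQa, hQb, hQu, hQw]
      simp only [map_add, map_neg, map_smul, LinearMap.add_apply, LinearMap.smul_apply, hab, hau, haw, hbu, hbw, huw, smul_eq_mul]
      ring
    have hyv : β y v1 = 0 := by
      simp only [hy, hv1, map_add, map_sub, map_smul, LinearMap.add_apply, LinearMap.sub_apply, LinearMap.smul_apply, hau, haw, hbu, hbw, huu, huw, hwu, hww, smul_eq_mul]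
      ring
    have hxv : β (a + b) v1 = 0 := by
      simp [hv1, map_add, hau, haw, hbu, hbw]
    have hmem : reflGL h (a + b) * reflGL h y ∈ Cfsg.Geo.subspaceStabilizer (Submodule.span F {v1}) ⊓ Cfsg.Geo.omegaGL f :=
      ⟨map_eq_of_maps_to fun x hxs => by
        obtain ⟨c, rfl⟩ := Submodule.mem_span_singleton.1 hxs
        rw [Units.val_mul, ← Matrix.mulVec_mulVec, reflGL_mulVec, reflGL_mulVec, map_smul, hyv]
        simp only [smul_zero, mul_zero, zero_smul, sub_zero, map_smul, hxv]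
        exact hxs, pair_mem h hB (by rw [hx]; exact one_ne_zero) (hx.trans hQy.symm)⟩
    have hW' := (mem_subspaceStabilizer.1 (e.symm ▸ hmem : reflGL h (a + b) * reflGL h y ∈ Cfsg.Geo.subspaceStabilizer W ⊓ Cfsg.Geo.omegaGL f).1 u).1 hu
    rw [Units.val_mul, ← Matrix.mulVec_mulVec, reflGL_mulVec, reflGL_mulVec, hx, hQy, inv_one, one_mul, one_mul, ← hspan] at hW'
    obtain ⟨c, d, hcd⟩ := Submodule.mem_span_pair.1 hW'
    have h1 := congrArg (β a) hcd
    simp only [hy, map_add, map_sub, map_smul, LinearMap.add_apply, LinearMap.sub_apply, LinearMap.smul_apply, hau, haw, hbu, hbw,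
      huu, huw, hwu, hww, hua, hub, hwa, hwb, haa, hbb, hab, hba, smul_eq_mul] at h1
    exact one_ne_zero (show (1 : F) = 0 by linear_combination h1)
  · have hQy : Q (u + b + a) = 1 := by
      rw [Witt.quad_add, Witt.quad_add, hQu, hQb, hQa, map_add, LinearMap.add_apply, hub, hba, hua]; ring
    have hmem : reflGL h (a + b) * reflGL h (u + b + a) ∈ Cfsg.Geo.omegaGL f :=
      pair_mem h hB (by rw [hx]; exact one_ne_zero) (hx.trans hQy.symm)
    have hst := (mem_subspaceStabilizer.1 (e.symm ▸ hmem : reflGL h (a + b) * reflGL h (u + b + a) ∈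
      Cfsg.Geo.subspaceStabilizer (Submodule.span F {v1}) ⊓ Cfsg.Geo.omegaGL f).1 v1).1 (Submodule.mem_span_singleton_self v1)
    rw [Units.val_mul, ← Matrix.mulVec_mulVec, reflGL_mulVec, reflGL_mulVec, hx, hQy, inv_one, one_mul, one_mul] at hst
    obtain ⟨c, hc⟩ := Submodule.mem_span_singleton.1 hst
    have h1 := congrArg (β a) hc
    simp only [hv1, map_add, map_sub, map_smul, LinearMap.add_apply, LinearMap.sub_apply, LinearMap.smul_apply, hau, haw, hbu, hbw,
      huu, huw, hwu, hww, hua, hub, hwa, hwb, haa, hbb, hab, hba, smul_eq_mul] at h1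
    exact one_ne_zero (show (1 : F) = 0 by linear_combination -h1)

omit h hB in
/-- The scalar multiples of a family. -/
def lineSet {κ : Type*} (e : κ → ι → F) : Set (ι → F) := {x | ∃ p, ∃ a : F, x = a • e p}

omit h hB in
lemma mem_lineStab {κ : Type*} [Finite κ] {e : κ → ι → F} {g : GL ι F} (hg : ∀ p, (g : Matrix ι ι F) *ᵥ e p ∈ lineSet e) :
    g ∈ Cfsg.stabilizing (Cfsg.glToMat ι F) (lineSet e) := by
  have hto : ∀ x ∈ lineSet e, (g : Matrix ι ι F) *ᵥ x ∈ lineSet e := by
    rintro x ⟨p, a, rfl⟩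
    obtain ⟨p', a', e'⟩ := hg p
    exact ⟨p', a * a', by rw [Matrix.mulVec_smul, e', smul_smul]⟩
  intro v
  refine ⟨hto v, fun hv => ?_⟩
  let T : lineSet e → lineSet e := fun x => ⟨_, hto x.1 x.2⟩
  have hinj : Function.Injective T := fun x y hxy => Subtype.ext
    (Matrix.mulVec_injective_iff_isUnit.2 g.isUnit (congrArg Subtype.val hxy))
  haveI : Finite (lineSet e) := (Set.toFinite _).to_subtype
  obtain ⟨x, hx⟩ := Finite.surjective_of_injective hinj ⟨_, hv⟩
  exact Matrix.mulVec_injective_iff_isUnit.2 g.isUnit (congrArg Subtype.val hx) ▸ x.2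

omit h hB in
lemma frame_char (hq : Fintype.card F = 3) {c : F} (hc : c ≠ 0) {k : ℕ} (hk : k ≤ 3) (a : Fin k → F) (he : ∑ j, a j * a j * c = c) :
    ∃ j, ∀ l, l ≠ j → a l = 0 := by
  have h3 := three_eq_zero hq
  have hval : ∀ x : F, x = 0 ∨ x * x = 1 := fun x => by
    by_cases hx : x = 0
    · exact Or.inl hx
    · exact Or.inr (by have := FiniteField.pow_card_sub_one_eq_one x hx; rw [hq] at this; rw [← pow_two]; exact this)
  rw [← Finset.sum_mul] at he
  have hs : ∑ j, a j * a j = 1 := mul_right_cancel₀ hc (he.trans (one_mul c).symm)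
  interval_cases k
  · simp at hs
  · exact ⟨0, fun l hl => absurd (Subsingleton.elim l 0) hl⟩
  · rw [Fin.sum_univ_two] at hs
    rcases hval (a 0) with e0 | e0
    · exact ⟨1, fun l hl => by fin_cases l; exacts [e0, absurd rfl hl]⟩
    · rcases hval (a 1) with e1 | e1
      · exact ⟨0, fun l hl => by fin_cases l; exacts [absurd rfl hl, e1]⟩
      · exact absurd (show (1 : F) = 0 by linear_combination hs - e0 - e1) one_ne_zero
  · rw [Fin.sum_univ_three] at hs
    rcases hval (a 0) with e0 | e0 <;> rcases hval (a 1) with e1 | e1 <;> rcases hval (a 2) with e2 | e2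
    · rw [e0, e1, e2] at hs; simp at hs
    · exact ⟨2, fun l hl => by fin_cases l; exacts [e0, e1, absurd rfl hl]⟩
    · exact ⟨1, fun l hl => by fin_cases l; exacts [e0, absurd rfl hl, e2]⟩
    · rw [e0] at hs; exact absurd (show (1 : F) = 0 by linear_combination hs - e1 - e2) one_ne_zero
    · exact ⟨0, fun l hl => by fin_cases l; exacts [absurd rfl hl, e1, e2]⟩
    · rw [e1] at hs; exact absurd (show (1 : F) = 0 by linear_combination hs - e0 - e2) one_ne_zero
    · rw [e2] at hs; exact absurd (show (1 : F) = 0 by linear_combination hs - e0 - e1) one_ne_zero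
    · exact absurd (show (1 : F) = 0 by linear_combination -hs + e0 + e1 + e2 + h3) one_ne_zero

/-- Blocks with a frame over the field of three elements. -/
theorem frames_between (hq : Fintype.card F = 3) (hn : 13 ≤ finrank F (ι → F)) {t k : ℕ} (hk2 : 2 ≤ k) (hk3 : k ≤ 3)
    (D : Fin t → Submodule F (ι → F)) (hD : Cfsg.Geo.IsOrthogonalMDecomposition f k D)
    (hfr : ∀ i, ∃ (e : Fin k → ι → F) (c : F), c ≠ 0 ∧ (∀ j, e j ∈ D i) ∧ (∀ j, Q (e j) = c) ∧ ∀ j l, j ≠ l → β (e j) (e l) = 0) :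
    ∃ K : Subgroup (GL ι F), Cfsg.Geo.decompositionStabilizer D ⊓ Cfsg.Geo.omegaGL f < K ∧ K < Cfsg.Geo.omegaGL f := by
  classical
  have h3 := three_eq_zero hq
  have h2 : (2 : F) ≠ 0 := fun h2 => one_ne_zero (show (1 : F) = 0 by linear_combination h3 - h2)
  have ht2 := hD.decomp.decomp.two_le
  let i0 : Fin t := ⟨0, by omega⟩
  obtain ⟨e0, c, hc, he0D, he0Q, he0o⟩ := hfr i0
  choose Φ hΦ using fun i => hD.isometric i0 i
  let e : Fin t × Fin k → ι → F := fun p => (Φ p.1 ⟨e0 p.2, he0D p.2⟩ : D p.1)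
  have heD : ∀ p, e p ∈ D p.1 := fun p => (Φ p.1 ⟨e0 p.2, he0D p.2⟩).2
  have heQ : ∀ p, Q (e p) = c := fun p => by
    rw [h, hΦ, ← h, he0Q]
  have horth : ∀ p r, p ≠ r → β (e p) (e r) = 0 := by
    rintro ⟨i, j⟩ ⟨i', j'⟩ hne
    by_cases hi : i = i'
    · subst hi
      have hjj : j ≠ j' := fun e => hne (by rw [e])
      have hadd : Q (e (i, j) + e (i, j')) = Q (e0 j + e0 j') := by
        rw [h, h]
        simp only [e]
        rw [← Submodule.coe_add, ← map_add, hΦ]
        rfl
      rw [Witt.quad_add, Witt.quad_add, heQ, heQ, he0Q, he0Q, he0o j j' hjj] at hadd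
      linear_combination hadd
    · rw [← NotMax.polar_eq h]
      exact hD.decomp.orthogonal i i' hi _ (heD (i, j)) _ (heD (i', j'))
  have hself : ∀ p, β (e p) (e p) = 2 * c := fun p => by rw [Witt.polar_self', heQ]
  have hne2 : (2 : F) * c ≠ 0 := mul_ne_zero h2 hc
  have hind : LinearIndependent F e := Fintype.linearIndependent_iff.2 fun g hg p => by
    have := congrArg (β (e p)) hg
    rw [map_sum, Finset.sum_eq_single p (fun r _ hr => by rw [map_smul, horth p r hr.symm, smul_zero])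
      (fun hp => absurd (Finset.mem_univ p) hp), map_smul, hself, map_zero, smul_eq_mul] at this
    exact (mul_eq_zero.1 this).resolve_right hne2
  have hspan : ∀ i, Submodule.span F (Set.range fun j => e (i, j)) = D i := fun i => by
    refine Submodule.eq_of_le_of_finrank_le (Submodule.span_le.2 (by rintro x ⟨j, rfl⟩; exact heD (i, j))) ?_
    have hi : LinearIndependent F fun j => e (i, j) := hind.comp (fun j => (i, j)) (fun a b hab => (Prod.ext_iff.1 hab).2)
    rw [hD.decomp.decomp.finrank_eq, finrank_span_eq_card hi, Fintype.card_fin]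
  have ht : 5 ≤ t := by
    have htop : (⊤ : Submodule F (ι → F)) ≤ Submodule.span F (Set.range e) := by
      rw [← hD.decomp.decomp.iSup_eq_top]
      refine iSup_le fun i => ?_
      rw [← hspan i]
      exact Submodule.span_mono (by rintro x ⟨j, rfl⟩; exact ⟨_, rfl⟩)
    have h1 := Submodule.finrank_mono htop
    rw [finrank_top, finrank_span_eq_card hind] at h1
    simp at h1
    have : t * k ≤ t * 3 := Nat.mul_le_mul_left t hk3
    rw [Module.finrank_fintype_fun_eq_card] at hn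
    omega
  have hne : ∀ p, e p ≠ 0 := fun p h0 => by
    have := heQ p; rw [h0, map_zero] at this; exact hc this.symm
  have hnotline : ∀ x p r, p ≠ r → β (e p) x ≠ 0 → β (e r) x ≠ 0 → x ∉ lineSet e := by
    rintro x p r hpr h1 h2' ⟨s, a, rfl⟩
    rcases eq_or_ne p s with rfl | hps
    · rw [map_smul, horth r p hpr.symm, smul_zero] at h2'; exact h2' rfl
    · rw [map_smul, horth p s hps, smul_zero] at h1; exact h1 rfl
  set K := Cfsg.stabilizing (Cfsg.glToMat ι F) (lineSet e) with hK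
  have hle : Cfsg.Geo.decompositionStabilizer D ⊓ Cfsg.Geo.omegaGL f ≤ K ⊓ Cfsg.Geo.omegaGL f := by
    rintro g ⟨⟨σ, hσ⟩, hg⟩
    refine ⟨mem_lineStab fun p => ?_, hg⟩
    have hmem : (g : Matrix ι ι F) *ᵥ e p ∈ D (σ p.1) := by
      rw [← hσ p.1]
      exact ⟨e p, heD p, Matrix.toLin'_apply _ _⟩
    rw [← hspan (σ p.1), Submodule.mem_span_range_iff_exists_fun] at hmem
    obtain ⟨a, ha⟩ := hmem
    have hQg : Q ((g : Matrix ι ι F) *ᵥ e p) = c := by rw [omega_isometry h hg, heQ]
    have hsum : ∀ s : Finset (Fin k), Q (∑ j ∈ s, a j • e (σ p.1, j)) = ∑ j ∈ s, a j * a j * c := by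
      intro s
      induction s using Finset.induction_on with
      | empty => simp
      | insert j s hj ih =>
        rw [Finset.sum_insert hj, Finset.sum_insert hj, Witt.quad_add, Witt.quad_smul, heQ, ih, map_sum]
        refine add_eq_left.2 (Finset.sum_eq_zero fun l hl => ?_)
        rw [map_smul, map_smul, LinearMap.smul_apply, horth _ _ (by simp; exact fun e => hj (e ▸ hl)), smul_zero, smul_zero]
    obtain ⟨j, hj⟩ := frame_char hq hc hk3 a (by rw [← hsum, ha, hQg])
    refine ⟨(σ p.1, j), a j, ?_⟩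
    rw [← ha]
    exact Finset.sum_eq_single j (fun l _ hl => by rw [hj l hl, zero_smul]) (fun hh => absurd (Finset.mem_univ j) hh)
  let j0 : Fin k := ⟨0, by omega⟩
  let j1 : Fin k := ⟨1, by omega⟩
  let p : Fin 4 → Fin t × Fin k := fun l => (⟨l, by omega⟩, j0)
  have hp : ∀ {l l' : Fin 4}, l ≠ l' → p l ≠ p l' := fun hl e => hl (by simpa [p, Fin.ext_iff] using e)
  have hQd : ∀ {l l' : Fin 4}, l ≠ l' → Q (e (p l) - e (p l')) = 2 * c := fun hl => by
    rw [sub_eq_add_neg, Witt.quad_add, QuadraticMap.map_neg, heQ, heQ, map_neg, horth _ _ (hp hl)]; ring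
  have hswap : ∀ {l l' : Fin 4}, l ≠ l' → ((reflGL h (e (p l) - e (p l')) : GL ι F) : Matrix ι ι F) *ᵥ e (p l) = e (p l') ∧
      ((reflGL h (e (p l) - e (p l')) : GL ι F) : Matrix ι ι F) *ᵥ e (p l') = e (p l) ∧
      ∀ r, r ≠ p l → r ≠ p l' → ((reflGL h (e (p l) - e (p l')) : GL ι F) : Matrix ι ι F) *ᵥ e r = e r := fun {l l'} hl => by
    refine ⟨?_, ?_, fun r hr hr' => ?_⟩ <;> rw [reflGL_mulVec, hQd hl, map_sub, LinearMap.sub_apply]
    · rw [hself, horth _ _ (hp hl).symm, sub_zero, inv_mul_cancel₀ hne2, one_smul]; abel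
    · rw [hself, horth _ _ (hp hl), zero_sub, mul_neg, inv_mul_cancel₀ hne2, neg_smul, one_smul]; abel
    · rw [horth _ _ hr.symm, horth _ _ hr'.symm, sub_zero, mul_zero, zero_smul, sub_zero]
  refine ⟨K ⊓ Cfsg.Geo.omegaGL f, lt_of_le_of_ne hle fun eq => ?_, lt_of_le_of_ne inf_le_right fun eq => ?_⟩
  · obtain ⟨s01, s10, s0⟩ := hswap (l := 0) (l' := 1) (by decide)
    obtain ⟨s12, s21, s1⟩ := hswap (l := 1) (l' := 2) (by decide)
    set g := reflGL h (e (p 0) - e (p 1)) * reflGL h (e (p 1) - e (p 2)) with hgdef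
    have hg : g ∈ Cfsg.Geo.omegaGL f := pair_mem h hB (by rw [hQd (by decide)]; exact hne2) (by rw [hQd (by decide), hQd (by decide)])
    have hgline : g ∈ K := mem_lineStab fun r => by
      rw [hgdef, Units.val_mul, ← Matrix.mulVec_mulVec]
      obtain ⟨r', hr'⟩ : ∃ r', ((reflGL h (e (p 1) - e (p 2)) : GL ι F) : Matrix ι ι F) *ᵥ e r = e r' := by
        rcases eq_or_ne r (p 1) with rfl | h1
        · exact ⟨_, s12⟩
        rcases eq_or_ne r (p 2) with rfl | h2'
        · exact ⟨_, s21⟩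
        exact ⟨r, s1 r h1 h2'⟩
      rw [hr']
      obtain ⟨r'', hr''⟩ : ∃ r'', ((reflGL h (e (p 0) - e (p 1)) : GL ι F) : Matrix ι ι F) *ᵥ e r' = e r'' := by
        rcases eq_or_ne r' (p 0) with rfl | h1
        · exact ⟨_, s01⟩
        rcases eq_or_ne r' (p 1) with rfl | h2'
        · exact ⟨_, s10⟩
        exact ⟨r', s0 r' h1 h2'⟩
      exact ⟨r'', 1, by rw [hr'', one_smul]⟩
    obtain ⟨σ, hσ⟩ := ((eq.symm ▸ ⟨hgline, hg⟩ : g ∈ Cfsg.Geo.decompositionStabilizer D ⊓ Cfsg.Geo.omegaGL f)).1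
    have hr : ∀ l : Fin 4, ((p 0).1, j1) ≠ p l := fun l e => by simp [p, j0, j1, Fin.ext_iff] at e
    have f1 : (g : Matrix ι ι F) *ᵥ e ((p 0).1, j1) = e ((p 0).1, j1) := by
      rw [hgdef, Units.val_mul, ← Matrix.mulVec_mulVec, s1 _ (hr 1) (hr 2), s0 _ (hr 0) (hr 1)]
    have f2 : (g : Matrix ι ι F) *ᵥ e (p 0) = e (p 1) := by
      rw [hgdef, Units.val_mul, ← Matrix.mulVec_mulVec, s1 _ (hp (by decide)) (hp (by decide)), s01]
    have m1 : e ((p 0).1, j1) ∈ D (σ (p 0).1) := by
      rw [← hσ (p 0).1]; exact ⟨_, heD ((p 0).1, j1), by rw [Matrix.toLin'_apply, f1]⟩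
    have m2 : e (p 1) ∈ D (σ (p 0).1) := by
      rw [← hσ (p 0).1]; exact ⟨_, heD (p 0), by rw [Matrix.toLin'_apply, f2]⟩
    have huniq : ∀ r i, e r ∈ D i → r.1 = i := fun r i hri => by
      by_contra hne'
      have hd := hD.decomp.decomp.indep.pairwiseDisjoint hne'
      exact hne r (Submodule.disjoint_def.1 hd _ (heD r) hri)
    have := (huniq _ _ m1).trans (huniq _ _ m2).symm
    simp [p, Fin.ext_iff] at this
  · obtain ⟨v, hv⟩ : ∃ v, v = e (p 0) + e (p 1) + e (p 2) + e (p 3) := ⟨_, rfl⟩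
    have hQv : Q v = c := by
      rw [hv, Witt.quad_add, Witt.quad_add, Witt.quad_add, heQ, heQ, heQ, heQ]
      simp only [map_add, LinearMap.add_apply]
      rw [horth _ _ (hp (by decide : (0 : Fin 4) ≠ 1)), horth _ _ (hp (by decide : (0 : Fin 4) ≠ 2)), horth _ _ (hp (by decide : (1 : Fin 4) ≠ 2)),
        horth _ _ (hp (by decide : (0 : Fin 4) ≠ 3)), horth _ _ (hp (by decide : (1 : Fin 4) ≠ 3)), horth _ _ (hp (by decide : (2 : Fin 4) ≠ 3))]
      linear_combination c * h3
    have hmem : reflGL h v * reflGL h (e (p 0)) ∈ Cfsg.Geo.omegaGL f := pair_mem h hB (by rw [hQv]; exact hc) (hQv.trans (heQ _).symm)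
    have hline := (eq.symm ▸ hmem : reflGL h v * reflGL h (e (p 0)) ∈ K ⊓ Cfsg.Geo.omegaGL f).1
    have hin : ((reflGL h v * reflGL h (e (p 0)) : GL ι F) : Matrix ι ι F) *ᵥ e (p 0) ∈ lineSet e :=
      (hline (e (p 0))).1 ⟨p 0, 1, (one_smul _ _).symm⟩
    have hval : ((reflGL h v * reflGL h (e (p 0)) : GL ι F) : Matrix ι ι F) *ᵥ e (p 0) = (2 : F) • v - e (p 0) := by
      have hv0 : β v (e (p 0)) = 2 * c := by
        rw [hv]
        simp only [map_add, LinearMap.add_apply, hself]
        rw [horth _ _ (hp (by decide : (1 : Fin 4) ≠ 0)), horth _ _ (hp (by decide : (2 : Fin 4) ≠ 0)), horth _ _ (hp (by decide : (3 : Fin 4) ≠ 0))]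
        ring
      rw [Units.val_mul, ← Matrix.mulVec_mulVec, reflGL_mulVec, reflGL_mulVec, heQ, hQv, hself,
        show c⁻¹ * (2 * c) = 2 by field_simp, map_sub, map_smul, hv0, smul_eq_mul,
        show c⁻¹ * (2 * c - 2 * (2 * c)) = -2 by field_simp; ring, two_smul, neg_smul, two_smul]
      abel
    rw [hval] at hin
    refine hnotline _ (p 1) (p 2) (hp (by decide)) ?_ ?_ hin
    · rw [map_sub, map_smul, hv]
      simp only [map_add, hself]
      rw [horth _ _ (hp (by decide : (1 : Fin 4) ≠ 0)), horth _ _ (hp (by decide : (1 : Fin 4) ≠ 2)), horth _ _ (hp (by decide : (1 : Fin 4) ≠ 3))]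
      simpa using mul_ne_zero h2 hne2
    · rw [map_sub, map_smul, hv]
      simp only [map_add, hself]
      rw [horth _ _ (hp (by decide : (2 : Fin 4) ≠ 0)), horth _ _ (hp (by decide : (2 : Fin 4) ≠ 1)), horth _ _ (hp (by decide : (2 : Fin 4) ≠ 3))]
      simpa using mul_ne_zero h2 hne2

omit h in
lemma nondeg_restrict (W : Submodule F (ι → F)) (hf : ∀ v, Q v = f v) (hW : Cfsg.Geo.IsNondegenerateOn (QuadraticMap.polar f) W) :
    (QuadraticMap.polarBilin (Q.comp W.subtype)).Nondegenerate := by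
  refine QuadOrders.nondeg_of_left (fun a b => Witt.polar_symm' _ a b) fun x hx => ?_
  by_contra h0
  obtain ⟨y, hy, hne⟩ := (hW x.1 x.2 (fun e => h0 (Subtype.ext e))).2
  refine hne ?_
  have := hx ⟨y, hy⟩
  simp only [QuadraticMap.polarBilin_apply_apply, QuadraticMap.polar, QuadraticMap.comp_apply, Submodule.coe_subtype, Submodule.coe_add] at this
  simpa [QuadraticMap.polar, ← hf] using this

/-- Two orthogonal anisotropic vectors in a nondegenerate block, and the third one if there is room. -/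
lemma exists_step (h2 : (2 : F) ≠ 0) (W : Submodule F (ι → F)) (hW : Cfsg.Geo.IsNondegenerateOn (QuadraticMap.polar f) W)
    (hd : 2 ≤ finrank F W) :
    ∃ v ∈ W, Q v = 1 ∧ finrank F ↥(W ⊓ LinearMap.ker (β v)) + 1 = finrank F W ∧
      Cfsg.Geo.IsNondegenerateOn (QuadraticMap.polar f) (W ⊓ LinearMap.ker (β v)) := by
  obtain ⟨⟨v, hv⟩, hQv⟩ := exists_value (nondeg_restrict hB W h hW) h2 hd 1
  change Q v = 1 at hQv
  have hvv : β v v = 2 := by rw [Witt.polar_self', hQv, mul_one]
  have hproj : ∀ y ∈ W, y - (β v y / 2) • v ∈ W ⊓ LinearMap.ker (β v) := fun y hy =>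
    ⟨W.sub_mem hy (W.smul_mem _ hv), by show β v _ = 0; rw [map_sub, map_smul, hvv, smul_eq_mul, div_mul_cancel₀ _ h2, sub_self]⟩
  refine ⟨v, hv, hQv, ?_, fun x hx hx0 => ?_⟩
  · have hne : (β v).comp W.subtype ≠ 0 := fun h0 => h2 (by rw [← hvv]; exact LinearMap.congr_fun h0 ⟨v, hv⟩)
    have h1 := Module.Dual.finrank_ker_add_one_of_ne_zero hne
    have h2' := (Submodule.comapSubtypeEquivOfLe (inf_le_left : W ⊓ LinearMap.ker (β v) ≤ W)).finrank_eq
    have h3 : Submodule.comap W.subtype (W ⊓ LinearMap.ker (β v)) = LinearMap.ker ((β v).comp W.subtype) := by ext; simp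
    rw [h3] at h2'
    omega
  · obtain ⟨y, hy, hne⟩ := (hW x hx.1 hx0).2
    rw [NotMax.polar_eq h] at hne
    have hxv : β x v = 0 := by rw [Witt.polar_symm']; exact hx.2
    have hne' : β x (y - (β v y / 2) • v) ≠ 0 := by rwa [map_sub, map_smul, hxv, smul_zero, sub_zero]
    refine ⟨⟨_, hproj y hy, ?_⟩, ⟨_, hproj y hy, ?_⟩⟩
    · rw [NotMax.polar_eq h, Witt.polar_symm']; exact hne'
    · rw [NotMax.polar_eq h]; exact hne'

lemma value_dim_one (hq : Fintype.card F = 3) {P : Submodule F (ι → F)} (hP : finrank F P = 1)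
    (hnd : Cfsg.Geo.IsNondegenerateOn (QuadraticMap.polar f) P) : ∃ v ∈ P, Q v = 1 ∨ Q v = -1 := by
  obtain ⟨v, hv, hv0⟩ := Submodule.exists_mem_ne_zero_of_ne_bot (p := P) fun e => by rw [e, finrank_bot] at hP; omega
  refine ⟨v, hv, ?_⟩
  have hQ : Q v ≠ 0 := fun h0 => by
    obtain ⟨y, hy, hne⟩ := (hnd v hv hv0).2
    have hspan : Submodule.span F {v} = P := Submodule.eq_of_le_of_finrank_le (by simpa using hv) (by rw [hP, finrank_span_singleton hv0])
    rw [← hspan] at hy
    obtain ⟨a, rfl⟩ := Submodule.mem_span_singleton.1 hy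
    rw [NotMax.polar_eq h, map_smul, Witt.polar_self', h0] at hne
    simp at hne
  have := FiniteField.pow_card_sub_one_eq_one (Q v) hQ
  rw [hq] at this
  exact mul_self_eq_one_iff.1 (by rw [← pow_two]; exact this)

theorem exists_frame_three (hq : Fintype.card F = 3) (W : Submodule F (ι → F)) (hW : Cfsg.Geo.IsNondegenerateOn (QuadraticMap.polar f) W)
    (hd : finrank F W = 3) :
    ∃ (e : Fin 3 → ι → F) (c : F), c ≠ 0 ∧ (∀ j, e j ∈ W) ∧ (∀ j, Q (e j) = c) ∧ ∀ j l, j ≠ l → β (e j) (e l) = 0 := by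
  have h3 := three_eq_zero hq
  have h2 : (2 : F) ≠ 0 := fun h2 => one_ne_zero (show (1 : F) = 0 by linear_combination h3 - h2)
  obtain ⟨v, hv, hQv, hd1, hW1⟩ := exists_step h hB h2 W hW (by omega)
  obtain ⟨w, hw, hQw, hd2, hW2⟩ := exists_step h hB h2 _ hW1 (by omega)
  obtain ⟨z, hz, hQz⟩ := value_dim_one h hB hq (by omega) hW2
  have hvw : β v w = 0 := hw.2
  have hvz : β v z = 0 := hz.1.2
  have hwz : β w z = 0 := hz.2
  have hwv : β w v = 0 := by rw [Witt.polar_symm', hvw]
  have hzv : β z v = 0 := by rw [Witt.polar_symm', hvz]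
  have hzw : β z w = 0 := by rw [Witt.polar_symm', hwz]
  rcases hQz with e | e
  · refine ⟨![v, w, z], 1, one_ne_zero, fun j => by fin_cases j; exacts [hv, hw.1, hz.1.1],
      fun j => by fin_cases j; exacts [hQv, hQw, e], fun j l hjl => ?_⟩
    fin_cases j <;> fin_cases l <;> first | exact absurd rfl hjl | simpa
  · refine ⟨![v + w, v - w, z], -1, neg_ne_zero.2 one_ne_zero, fun j => by fin_cases j; exacts [W.add_mem hv hw.1, W.sub_mem hv hw.1, hz.1.1],
      fun j => ?_, fun j l hjl => ?_⟩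
    · fin_cases j
      · show Q (v + w) = -1
        rw [Witt.quad_add, hQv, hQw, hvw]; linear_combination h3
      · show Q (v - w) = -1
        rw [sub_eq_add_neg, Witt.quad_add, QuadraticMap.map_neg, hQv, hQw, map_neg, hvw]; linear_combination h3
      · exact e
    · fin_cases j <;> fin_cases l <;> first | exact absurd rfl hjl |
        simp [map_add, map_sub, Witt.polar_self', hQv, hQw, hvw, hwv, hvz, hzv, hwz, hzw]

theorem exists_frame_two (hq : Fintype.card F = 3) (W : Submodule F (ι → F)) (hW : Cfsg.Geo.IsNondegenerateOn (QuadraticMap.polar f) W)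
    (hd : finrank F W = 2) (hminus : ¬ Cfsg.Geo.IsPlusTypeOn f W) :
    ∃ (e : Fin 2 → ι → F) (c : F), c ≠ 0 ∧ (∀ j, e j ∈ W) ∧ (∀ j, Q (e j) = c) ∧ ∀ j l, j ≠ l → β (e j) (e l) = 0 := by
  have h3 := three_eq_zero hq
  have h2 : (2 : F) ≠ 0 := fun h2 => one_ne_zero (show (1 : F) = 0 by linear_combination h3 - h2)
  obtain ⟨v, hv, hQv, hd1, hW1⟩ := exists_step h hB h2 W hW (by omega)
  obtain ⟨w, hw, hQw⟩ := value_dim_one h hB hq (by omega) hW1
  have hvw : β v w = 0 := hw.2
  have hwv : β w v = 0 := by rw [Witt.polar_symm', hvw]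
  rcases hQw with e | e
  · refine ⟨![v, w], 1, one_ne_zero, fun j => by fin_cases j; exacts [hv, hw.1], fun j => by fin_cases j; exacts [hQv, e], fun j l hjl => ?_⟩
    fin_cases j <;> fin_cases l <;> first | exact absurd rfl hjl | simpa
  · refine absurd ⟨Submodule.span F {v + w}, by simpa using W.add_mem hv hw.1, ?_, ?_⟩ hminus
    · intro x hx
      obtain ⟨a, rfl⟩ := Submodule.mem_span_singleton.1 hx
      rw [← h, Witt.quad_smul, Witt.quad_add, hQv, e, hvw]; ring
    · rw [hd, finrank_span_singleton]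
      intro h0
      have := congrArg (β v) h0
      simp [map_add, Witt.polar_self', hQv, hvw, h2] at this

end Cfsg.Lib.Classical.NotMaxOrth
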