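import Mathlib
import Cfsg.Agent.Lib.Classical.ClassicalOrders

/-! The orthogonal group of plus type in dimension four over two elements. -/

set_option autoImplicit false
set_option maxRecDepth 20000
set_option maxHeartbeats 1000000

namespace Cfsg.Lib.Classical.OPlusFour

open Matrix

abbrev M4 := Matrix (Fin 2 ⊕ Fin 2) (Fin 2 ⊕ Fin 2) (ZMod 2)

/-- The three nonzero vectors. -/
def vec : Fin 3 → Fin 2 → ZMod 2 := ![![1, 0], ![0, 1], ![1, 1]]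

/-- The entries of the two by two matrix of a permutation of the nonzero vectors. -/
def g (σ : Equiv.Perm (Fin 3)) (i j : Fin 2) : ZMod 2 := vec (σ j.castSucc) i

/-- Left multiplication. -/
def Lm (σ : Equiv.Perm (Fin 3)) : M4 := Matrix.of fun r c =>
  match r, c with
  | .inl 0, .inl 0 => g σ 0 0
  | .inl 0, .inr 1 => g σ 0 1
  | .inl 1, .inl 1 => g σ 0 0
  | .inl 1, .inr 0 => g σ 0 1
  | .inr 1, .inl 0 => g σ 1 0
  | .inr 1, .inr 1 => g σ 1 1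
  | .inr 0, .inl 1 => g σ 1 0
  | .inr 0, .inr 0 => g σ 1 1
  | _, _ => 0

/-- Right multiplication. -/
def Rm (σ : Equiv.Perm (Fin 3)) : M4 := Matrix.of fun r c =>
  match r, c with
  | .inl 0, .inl 0 => g σ 0 0
  | .inl 0, .inl 1 => g σ 0 1
  | .inl 1, .inl 0 => g σ 1 0
  | .inl 1, .inl 1 => g σ 1 1
  | .inr 1, .inr 1 => g σ 0 0
  | .inr 1, .inr 0 => g σ 0 1
  | .inr 0, .inr 1 => g σ 1 0
  | .inr 0, .inr 0 => g σ 1 1
  | _, _ => 0

/-- Transposition. -/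
def Tm : M4 := Matrix.of fun r c =>
  match r, c with
  | .inl 0, .inl 0 => 1
  | .inr 0, .inr 0 => 1
  | .inl 1, .inr 1 => 1
  | .inr 1, .inl 1 => 1
  | _, _ => 0

theorem L_mul : ∀ σ τ, Lm (σ * τ) = Lm σ * Lm τ := by decide +kernel
theorem R_mul : ∀ σ τ, Rm (σ * τ) = Rm σ * Rm τ := by decide +kernel
theorem LR : ∀ σ τ, Lm σ * Rm τ = Rm τ * Lm σ := by decide +kernel
theorem L_one : Lm 1 = 1 := by decide +kernel
theorem R_one : Rm 1 = 1 := by decide +kernel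
theorem L_eq_R : ∀ σ τ, Lm σ = Rm τ → σ = 1 := by decide +kernel
theorem L_inj : ∀ σ τ, Lm σ = Lm τ → σ = τ := by decide +kernel
theorem R_inj : ∀ σ τ, Rm σ = Rm τ → σ = τ := by decide +kernel
theorem T_sq : Tm * Tm = 1 := by decide +kernel
theorem T_conj : ∀ σ, Tm * Lm σ * Tm = Rm σ := by decide +kernel
theorem L_form : ∀ σ (v : Fin 2 ⊕ Fin 2 → ZMod 2), Cfsg.quadFormPlus 2 (ZMod 2) (Lm σ *ᵥ v) = Cfsg.quadFormPlus 2 (ZMod 2) v := by
  unfold Cfsg.quadFormPlus; decide +kernel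
theorem R_form : ∀ σ (v : Fin 2 ⊕ Fin 2 → ZMod 2), Cfsg.quadFormPlus 2 (ZMod 2) (Rm σ *ᵥ v) = Cfsg.quadFormPlus 2 (ZMod 2) v := by
  unfold Cfsg.quadFormPlus; decide +kernel
theorem T_form : ∀ v : Fin 2 ⊕ Fin 2 → ZMod 2, Cfsg.quadFormPlus 2 (ZMod 2) (Tm *ᵥ v) = Cfsg.quadFormPlus 2 (ZMod 2) v := by
  unfold Cfsg.quadFormPlus; decide +kernel

/-- A matrix hom into the isometry group. -/
def toIso (M : Equiv.Perm (Fin 3) → M4) (h1 : M 1 = 1) (hm : ∀ σ τ, M (σ * τ) = M σ * M τ)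
    (hf : ∀ σ (v : Fin 2 ⊕ Fin 2 → ZMod 2), Cfsg.quadFormPlus 2 (ZMod 2) (M σ *ᵥ v) = Cfsg.quadFormPlus 2 (ZMod 2) v) :
    Equiv.Perm (Fin 3) →* Cfsg.isometryGroup (ZMod 2) (Cfsg.quadFormPlus 2 (ZMod 2)) :=
  ({ toFun := M, map_one' := h1, map_mul' := hm } : Equiv.Perm (Fin 3) →* M4).toHomUnits.codRestrict _ (fun σ v _ => hf σ v)

theorem main :
    Nat.card ↥(Cfsg.isometryGroup (ZMod 2) (Cfsg.quadFormPlus 2 (ZMod 2))) = 72 ∧
    ∃ (A B : Subgroup ↥(Cfsg.isometryGroup (ZMod 2) (Cfsg.quadFormPlus 2 (ZMod 2)))),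
      Nonempty (↥A ≃* Equiv.Perm (Fin 3)) ∧ Nonempty (↥B ≃* Equiv.Perm (Fin 3)) ∧ A ⊓ B = ⊥ ∧ (∀ a ∈ A, ∀ b ∈ B, a * b = b * a) ∧
      (A ⊔ B).index = 2 ∧ ∃ g : ↥(Cfsg.isometryGroup (ZMod 2) (Cfsg.quadFormPlus 2 (ZMod 2))), A.map (MulAut.conj g).toMonoidHom = B := by
  classical
  let φ := toIso Lm L_one L_mul L_form
  let ψ := toIso Rm R_one R_mul R_form
  have hφ : Function.Injective φ := fun σ τ e => L_inj σ τ (congrArg (fun x => ((x.1 : GL _ (ZMod 2)) : M4)) e)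
  have hψ : Function.Injective ψ := fun σ τ e => R_inj σ τ (congrArg (fun x => ((x.1 : GL _ (ZMod 2)) : M4)) e)
  have hcomm : ∀ σ τ, Commute (φ σ) (ψ τ) := fun σ τ => Subtype.ext (Units.ext (LR σ τ))
  let χ : Equiv.Perm (Fin 3) × Equiv.Perm (Fin 3) →* Cfsg.isometryGroup (ZMod 2) (Cfsg.quadFormPlus 2 (ZMod 2)) :=
    φ.noncommCoprod ψ hcomm
  have hinf : φ.range ⊓ ψ.range = ⊥ := by
    rw [eq_bot_iff]
    rintro _ ⟨⟨σ, rfl⟩, ⟨τ, e⟩⟩
    rw [Subgroup.mem_bot, L_eq_R σ τ (congrArg (fun x => ((x.1 : GL _ (ZMod 2)) : M4)) e.symm), map_one]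
  have hcard : Nat.card ↥(Cfsg.isometryGroup (ZMod 2) (Cfsg.quadFormPlus 2 (ZMod 2))) = 72 := by
    rw [ClassicalOrders.card_plus (ZMod.card 2) 2 (by norm_num)]; decide
  refine ⟨hcard, φ.range, ψ.range, ⟨(MonoidHom.ofInjective hφ).symm⟩, ⟨(MonoidHom.ofInjective hψ).symm⟩, hinf, ?_, ?_, ?_⟩
  · rintro _ ⟨σ, rfl⟩ _ ⟨τ, rfl⟩; exact hcomm σ τ
  · have hr : φ.range ⊔ ψ.range = χ.range := (MonoidHom.noncommCoprod_range φ ψ hcomm).symm
    have hχ : Function.Injective χ := MonoidHom.noncommCoprod_injective φ ψ hcomm |>.2 ⟨hφ, hψ, disjoint_iff.2 hinf⟩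
    have h := (φ.range ⊔ ψ.range).card_mul_index
    rw [hcard, hr, ← Nat.card_congr (MonoidHom.ofInjective hχ).toEquiv, Nat.card_prod, Nat.card_perm, Nat.card_fin] at h
    rw [hr]
    simp [Nat.factorial] at h
    omega
  · let t : Cfsg.isometryGroup (ZMod 2) (Cfsg.quadFormPlus 2 (ZMod 2)) := ⟨⟨Tm, Tm, T_sq, T_sq⟩, fun v _ => T_form v⟩
    refine ⟨t, ?_⟩
    rw [MonoidHom.map_range]
    congr 1
    exact MonoidHom.ext fun σ => Subtype.ext (Units.ext (T_conj σ))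

end Cfsg.Lib.Classical.OPlusFour
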