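import Mathlib

/-!
Symmetric bilinear forms over finite fields of odd characteristic: normal form of orthogonal bases.
-/

set_option autoImplicit false

namespace Cfsg.Lib.Classical.SymmForm

open Module

variable {F V : Type*} [Field F] [AddCommGroup V] [Module F V]

/-- An orthogonal family with prescribed values. -/
def IsFam {ι : Type*} (B : LinearMap.BilinForm F V) (v : ι → V) (d : ι → F) : Prop :=
  (∀ i j, i ≠ j → B (v i) (v j) = 0) ∧ ∀ i, B (v i) (v i) = d i

lemma char_ne_two (h2 : (2 : F) ≠ 0) : ringChar F ≠ 2 := fun h => h2 (by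
  have := ringChar.Nat.cast_ringChar (R := F); rw [h] at this; simpa using this)

lemma class_of [Finite F] (h2 : (2 : F) ≠ 0) {α : F} (hα : ¬ IsSquare α) {x : F} (hx : x ≠ 0) :
    ∃ s : F, s ≠ 0 ∧ (x * s ^ 2 = 1 ∨ x * s ^ 2 = α) := by
  have : Fintype F := Fintype.ofFinite F
  have hα0 : α ≠ 0 := fun h => hα (h ▸ IsSquare.zero)
  by_cases hs : IsSquare x
  · obtain ⟨r, rfl⟩ := hs
    have hr : r ≠ 0 := fun h => hx (by simp [h])
    exact ⟨r⁻¹, inv_ne_zero hr, Or.inl (by field_simp)⟩
  · have hodd := char_ne_two h2
    have h1 : IsSquare (x / α) := by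
      rw [FiniteField.isSquare_iff hodd (div_ne_zero hx hα0), div_pow]
      have ha := FiniteField.pow_dichotomy hodd hα0
      have hb := FiniteField.pow_dichotomy hodd hx
      rcases ha with ha | ha
      · exact absurd ((FiniteField.isSquare_iff hodd hα0).2 ha) hα
      rcases hb with hb | hb
      · exact absurd ((FiniteField.isSquare_iff hodd hx).2 hb) hs
      rw [ha, hb, div_self (by simp)]
    obtain ⟨r, hr⟩ := h1
    have hr0 : r ≠ 0 := fun h => (div_ne_zero hx hα0) (by simp [hr, h])
    refine ⟨r⁻¹, inv_ne_zero hr0, Or.inr ?_⟩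
    rw [div_eq_iff hα0] at hr
    rw [hr]; field_simp

lemma exists_sq_add_sq [Finite F] (h2 : (2 : F) ≠ 0) (x : F) : ∃ a b : F, a ^ 2 + b ^ 2 = x := by
  have : Fintype F := Fintype.ofFinite F
  have hodd : Fintype.card F % 2 = 1 := FiniteField.odd_card_of_char_ne_two (char_ne_two h2)
  obtain ⟨a, b, h⟩ := FiniteField.exists_root_sum_quadratic (f := (Polynomial.X ^ 2 : Polynomial F))
    (g := Polynomial.X ^ 2 - Polynomial.C x) (by simp) (Polynomial.degree_X_pow_sub_C two_pos x) hodd
  exact ⟨a, b, by simp at h; linear_combination h⟩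

/-- Pairs of non-square values can be traded for ones. -/
lemma reduce [Finite F] (h2 : (2 : F) ≠ 0) {n : ℕ} (B : LinearMap.BilinForm F V) (hS : LinearMap.IsSymm B)
    {α : F} (hα : ¬ IsSquare α) : ∀ (S : Finset (Fin (n + 1))) (v : Fin (n + 1) → V),
      IsFam B v (fun i => if i ∈ S then α else 1) →
      ∃ w, IsFam B w (fun i => if i = Fin.last n ∧ Odd S.card then α else 1) := by
  intro S
  induction S using Finset.strongInduction with
  | _ S ih =>
    intro v hv
    rcases lt_or_ge S.card 2 with hlt | hge
    · rcases Nat.le_one_iff_eq_zero_or_eq_one.1 (Nat.le_of_lt_succ hlt) with h0 | h1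
      · exact ⟨v, hv.1, fun i => by simp [hv.2, Finset.card_eq_zero.1 h0]⟩
      · obtain ⟨j, rfl⟩ := Finset.card_eq_one.1 h1
        let σ := Equiv.swap j (Fin.last n)
        refine ⟨v ∘ σ, fun a b hab => hv.1 _ _ (σ.injective.ne hab), fun a => ?_⟩
        simp only [Function.comp, hv.2, Finset.mem_singleton, Finset.card_singleton, odd_one, and_true]
        simp [σ, Equiv.swap_apply_eq_iff]
    · obtain ⟨i, hi, j, hj, hij⟩ := Finset.one_lt_card.1 hge
      have hα0 : α ≠ 0 := fun h => hα (h ▸ IsSquare.zero)
      obtain ⟨a, b, hab⟩ := exists_sq_add_sq h2 α⁻¹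
      let v' : Fin (n + 1) → V := Function.update (Function.update v i (a • v i + b • v j)) j (a • v j - b • v i)
      have hi' : v' i = a • v i + b • v j := by simp [v', hij]
      have hj' : v' j = a • v j - b • v i := by simp [v']
      have ho : ∀ k, k ≠ i → k ≠ j → v' k = v k := fun k h1 h2 => by simp [v', h1, h2]
      have hvi : B (v i) (v i) = α := by simp [hv.2, hi]
      have hvj : B (v j) (v j) = α := by simp [hv.2, hj]
      have hsym : ∀ x y, B x y = B y x := fun x y => by simpa using hS.eq x y
      have hone : α * (a ^ 2 + b ^ 2) = 1 := by rw [hab, mul_inv_cancel₀ hα0]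
      have key : IsFam B v' (fun k => if k ∈ (S.erase i).erase j then α else 1) := by
        have hoff : ∀ k, k ≠ i → k ≠ j → B (v' i) (v k) = 0 ∧ B (v' j) (v k) = 0 := fun k h1 h2 => by
          simp [hi', hj', hv.1 i k (Ne.symm h1), hv.1 j k (Ne.symm h2)]
        have hijz : B (v' i) (v' j) = 0 := by
          simp [hi', hj', hvi, hvj, hv.1 i j hij, hv.1 j i hij.symm]
          ring
        refine ⟨fun k l hkl => ?_, fun k => ?_⟩
        · by_cases hki : k = i
          · subst hki
            by_cases hlj : l = j
            · exact hlj ▸ hijz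
            · rw [ho l hkl.symm hlj]; exact (hoff l hkl.symm hlj).1
          by_cases hkj : k = j
          · subst hkj
            by_cases hli : l = i
            · rw [hli, hsym]; exact hijz
            · rw [ho l hli hkl.symm]; exact (hoff l hli hkl.symm).2
          rw [ho k hki hkj]
          by_cases hli : l = i
          · rw [hli, hsym]; exact (hoff k hki hkj).1
          by_cases hlj : l = j
          · rw [hlj, hsym]; exact (hoff k hki hkj).2
          rw [ho l hli hlj]; exact hv.1 k l hkl
        · by_cases hki : k = i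
          · subst hki
            simp [hi', hvi, hvj, hv.1 k j hij, hv.1 j k hij.symm]
            linear_combination hone
          by_cases hkj : k = j
          · subst hkj
            simp [hj', hvi, hvj, hv.1 i k hij, hv.1 k i hij.symm]
            linear_combination hone
          rw [ho k hki hkj, hv.2 k]
          simp [hki, hkj]
      have hlt : (S.erase i).erase j ⊂ S :=
        (Finset.erase_subset j _).trans_ssubset (Finset.erase_ssubset hi)
      obtain ⟨w, hw⟩ := ih _ hlt v' key
      have hc : ((S.erase i).erase j).card + 2 = S.card := by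
        rw [Finset.card_erase_of_mem (Finset.mem_erase.2 ⟨hij.symm, hj⟩), Finset.card_erase_of_mem hi]
        omega
      refine ⟨w, hw.1, fun k => ?_⟩
      rw [hw.2 k]
      have : Odd ((S.erase i).erase j).card ↔ Odd S.card := by rw [← hc]; simp [Nat.odd_add]
      simp [this]

variable [FiniteDimensional F V]

/-- A basis from an orthogonal family without isotropic members. -/
lemma exists_basis {n : ℕ} (hn : finrank F V = n) (B : LinearMap.BilinForm F V) {w : Fin n → V}
    {d : Fin n → F} (hw : IsFam B w d) (hd : ∀ i, d i ≠ 0) : ∃ b : Basis (Fin n) F V, ⇑b = w := by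
  have hli : LinearIndependent F w :=
    LinearMap.linearIndependent_of_isOrthoᵢ (B := B) hw.1 fun i h => hd i ((hw.2 i).symm.trans h)
  rcases n with _ | n
  · have : Subsingleton V := Module.finrank_zero_iff.mp hn
    exact ⟨(Basis.empty V (ι := Fin 0)), funext fun i => i.elim0⟩
  exact ⟨basisOfLinearIndependentOfCardEqFinrank hli (by simp [hn]), coe_basisOfLinearIndependentOfCardEqFinrank _ _⟩

/-- An orthogonal family with values in the two square classes. -/
theorem exists_fam [Finite F] (h2 : (2 : F) ≠ 0) (B : LinearMap.BilinForm F V) (hS : LinearMap.IsSymm B)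
    (hB : B.Nondegenerate) {n : ℕ} (hn : finrank F V = n) {α : F} (hα : ¬ IsSquare α) :
    ∃ (S : Finset (Fin n)) (v : Fin n → V), IsFam B v (fun i => if i ∈ S then α else 1) := by
  classical
  have : Invertible (2 : F) := invertibleOfNonzero h2
  obtain ⟨v, hv⟩ := LinearMap.BilinForm.exists_orthogonal_basis (B := B) hS
  let v' := v.reindex (finCongr hn)
  have hv' : ∀ i j, i ≠ j → B (v' i) (v' j) = 0 := fun i j h => by
    simp only [v', Basis.reindex_apply]
    exact hv fun e => h ((finCongr hn).symm.injective e)
  have hne : ∀ i, B (v' i) (v' i) ≠ 0 := fun i h => v'.ne_zero i (hB.1 _ fun y => by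
    rw [← v'.sum_repr y, map_sum]
    refine Finset.sum_eq_zero fun j _ => ?_
    rcases eq_or_ne i j with rfl | hij
    · simp [h]
    · simp [hv' i j hij])
  choose s hs0 hs using fun i => class_of h2 hα (hne i)
  refine ⟨Finset.univ.filter fun i => B (v' i) (v' i) * s i ^ 2 = α, fun i => s i • v' i,
    fun i j h => by simp [hv' i j h], fun i => ?_⟩
  rcases hs i with h | h
  · have hne1 : (1 : F) ≠ α := fun e => hα (e ▸ IsSquare.one)
    simp only [Finset.mem_filter, Finset.mem_univ, true_and, h, hne1, if_false]
    simp; linear_combination h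
  · simp [h]; linear_combination h

theorem normal_form [Finite F] (h2 : (2 : F) ≠ 0) (B : LinearMap.BilinForm F V) (hS : LinearMap.IsSymm B)
    (hB : B.Nondegenerate) {n : ℕ} (hn : finrank F V = n + 1) {α : F} (hα : ¬ IsSquare α) :
    ∃ (b : Basis (Fin (n + 1)) F V) (e : F), (e = 1 ∨ e = α) ∧
      IsFam B b (fun i => if i = Fin.last n then e else 1) := by
  obtain ⟨S, v, hv⟩ := exists_fam h2 B hS hB hn hα
  obtain ⟨w, hw⟩ := reduce h2 B hS hα S v hv
  obtain ⟨b, hb⟩ := exists_basis hn B hw fun i => by
    split_ifs
    · exact fun h => hα (h ▸ IsSquare.zero)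
    · exact one_ne_zero
  refine ⟨b, if Odd S.card then α else 1, by split_ifs <;> simp, hb ▸ hw.1, fun i => ?_⟩
  rw [hb, hw.2 i]
  by_cases h : i = Fin.last n <;> simp [h]

end Cfsg.Lib.Classical.SymmForm
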