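import Mathlib
import Cfsg.Prelude.Def_Classical
import Cfsg.Agent.Lib.Classical.SymmForm

/-!
An elementary abelian 2-subgroup of rank `2m` in the odd-dimensional orthogonal group.
-/

set_option autoImplicit false

namespace Cfsg.Lib.Classical.OddOmega

open Module
open scoped Matrix commutatorElement

variable {F : Type*} [Field F] (m : ℕ)

local notation "ι" => (Unit ⊕ (Fin m ⊕ Fin m))

variable (F) in
/-- The polar form of `quadFormOdd`. -/
def bil : LinearMap.BilinForm F (ι → F) :=
  LinearMap.mk₂ F (fun u v => 2 * (u (.inl ()) * v (.inl ())) +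
      ∑ i : Fin m, (u (.inr (.inl i)) * v (.inr (.inr i)) + v (.inr (.inl i)) * u (.inr (.inr i))))
    (fun u u' v => by simp [add_mul, mul_add, Finset.sum_add_distrib]; ring)
    (fun c u v => by simp [Finset.mul_sum, mul_add]; ring_nf)
    (fun u v v' => by simp [add_mul, mul_add, Finset.sum_add_distrib]; ring)
    (fun c u v => by simp [Finset.mul_sum, mul_add]; ring_nf)

lemma bil_self (v : ι → F) : bil F m v v = 2 * Cfsg.quadFormOdd m F v := by
  simp [bil, Cfsg.quadFormOdd, mul_add, Finset.mul_sum, sq, two_mul, Finset.sum_add_distrib]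

lemma bil_symm : LinearMap.IsSymm (bil F m) := ⟨fun u v => by
  simp [bil, mul_comm, add_comm]⟩

lemma bil_nondegenerate (h2 : (2 : F) ≠ 0) : (bil F m).Nondegenerate := by
  suffices h : ∀ u, (∀ v, bil F m u v = 0) → u = 0 from
    ⟨h, fun u hu => h u fun v => by
      have := (bil_symm (F := F) m).eq v u
      simp only [RingHom.id_apply] at this
      rw [← this]; exact hu v⟩
  intro u hu
  funext a
  rcases a with ⟨⟩ | i | i
  · have := hu (Pi.single (.inl ()) 1)
    simpa [bil, h2] using this
  · have := hu (Pi.single (.inr (.inr i)) 1)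
    simpa [bil, Pi.single_apply] using this
  · have := hu (Pi.single (.inr (.inl i)) 1)
    simpa [bil, Pi.single_apply] using this

/-- An orthogonal basis with all values equal. -/
lemma exists_basis_const [Finite F] (h2 : (2 : F) ≠ 0) :
    ∃ (b : Basis (Fin (2 * m + 1)) F (ι → F)) (c : F), c ≠ 0 ∧ SymmForm.IsFam (bil F m) b (fun _ => c) := by
  classical
  obtain ⟨α, hα⟩ := FiniteField.exists_nonsquare (SymmForm.char_ne_two h2)
  have hα0 : α ≠ 0 := fun h => hα (h ▸ IsSquare.zero)
  have hfr : finrank F (ι → F) = 2 * m + 1 := by simp; ring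
  obtain ⟨b, e, he, hb⟩ := SymmForm.normal_form h2 (bil F m) (bil_symm m) (bil_nondegenerate m h2) hfr hα
  rcases he with rfl | he
  · exact ⟨b, 1, one_ne_zero, hb.1, fun i => by simp [hb.2]⟩
  subst he
  let v := fun i => if i = Fin.last (2 * m) then e⁻¹ • b i else b i
  have hsym : LinearMap.IsSymm (e • bil F m) := ⟨fun x y => by
    simpa using congrArg (e * ·) ((bil_symm (F := F) m).eq x y)⟩
  obtain ⟨w, hw⟩ := SymmForm.reduce h2 (e • bil F m) hsym hα (Finset.univ.erase (Fin.last (2 * m))) v
    ⟨fun i j h => by simp only [v]; split_ifs <;> simp [hb.1 i j h], fun i => by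
      by_cases h : i = Fin.last (2 * m)
      · simp [v, h, hb.2]; field_simp
      · simp [v, h, hb.2]⟩
  obtain ⟨b', hb'⟩ := SymmForm.exists_basis hfr (e • bil F m) hw fun i => by split_ifs <;> simp [hα0]
  refine ⟨b', e⁻¹, inv_ne_zero hα0, fun i j h => ?_, fun i => ?_⟩
  · rw [hb']
    have := hw.1 i j h
    simpa [hα0] using this
  · rw [hb']
    have := hw.2 i
    simp [show ¬ Odd (2 * m) by simp] at this
    field_simp
    linear_combination this

variable {m} in
/-- An element of the isometry group from a linear equivalence preserving `bil`. -/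
noncomputable def toIso (h2 : (2 : F) ≠ 0) (g : (ι → F) ≃ₗ[F] (ι → F))
    (hg : ∀ u v, bil F m (g u) (g v) = bil F m u v) : Cfsg.isometryGroup F (Cfsg.quadFormOdd m F) :=
  ⟨Matrix.GeneralLinearGroup.toLin.symm ((LinearMap.GeneralLinearGroup.generalLinearEquiv F _).symm g), by
    intro v w
    have h : ∀ x, ((Matrix.GeneralLinearGroup.toLin.symm ((LinearMap.GeneralLinearGroup.generalLinearEquiv F _).symm g) : Matrix.GeneralLinearGroup ι F) : Matrix ι ι F) *ᵥ x = g x := by
      intro x
      change (LinearMap.GeneralLinearGroup.generalLinearEquiv F _ (Matrix.GeneralLinearGroup.toLin _)) x = g x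
      simp
    change Cfsg.quadFormOdd m F _ = Cfsg.quadFormOdd m F v
    rw [Units.coeHom_apply, h]
    exact mul_left_cancel₀ h2 (by rw [← bil_self, ← bil_self, hg])⟩

set_option maxHeartbeats 1000000 in
/-- A large elementary abelian 2-subgroup of `PΩ_{2m+1}`. -/
theorem exists_elemAb [Finite F] (h2 : (2 : F) ≠ 0) (hm : 1 ≤ m) :
    ∃ E : Subgroup (Cfsg.POmega F (Cfsg.quadFormOdd m F)),
      (∀ x ∈ E, x ^ 2 = 1) ∧ (∀ x ∈ E, ∀ y ∈ E, x * y = y * x) ∧ 2 ^ (2 * m) ≤ Nat.card E := by
  classical
  obtain ⟨b, c, hc, hb⟩ := exists_basis_const (F := F) m h2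
  let G := Cfsg.isometryGroup F (Cfsg.quadFormOdd m F)
  -- monomial isometries
  have hpres : ∀ (σ : Equiv.Perm (Fin (2 * m + 1))) (ε : Fin (2 * m + 1) → ℤˣ),
      ∀ u v, bil F m ((b.equiv (b.unitsSMul fun i => ((Units.map (Int.castRingHom F).toMonoidHom) (ε i))) σ) u)
        ((b.equiv (b.unitsSMul fun i => ((Units.map (Int.castRingHom F).toMonoidHom) (ε i))) σ) v) = bil F m u v := by
    intro σ ε
    set g := b.equiv (b.unitsSMul fun i => ((Units.map (Int.castRingHom F).toMonoidHom) (ε i))) σ
    have : (bil F m).compl₁₂ g.toLinearMap g.toLinearMap = bil F m := by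
      refine b.ext fun i => b.ext fun j => ?_
      rw [LinearMap.compl₁₂_apply]
      simp only [g, LinearEquiv.coe_coe, Basis.equiv_apply, Basis.unitsSMul_apply, Units.smul_def, map_smul,
        LinearMap.smul_apply]
      rcases eq_or_ne i j with rfl | hij
      · rw [hb.2, hb.2]
        rcases Int.units_eq_one_or (ε (σ i)) with h | h <;> simp [h]
      · rw [hb.1 _ _ (σ.injective.ne hij), hb.1 _ _ hij]; simp
    exact fun u v => LinearMap.congr_fun (LinearMap.congr_fun this u) v
  let mon : Equiv.Perm (Fin (2 * m + 1)) → (Fin (2 * m + 1) → ℤˣ) → G := fun σ ε => toIso h2 _ (hpres σ ε)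
  have happ : ∀ σ ε i, (mon σ ε : Matrix.GeneralLinearGroup ι F).1 *ᵥ b i = (((ε (σ i) : ℤ) : F)) • b (σ i) := by
    intro σ ε i
    change (LinearMap.GeneralLinearGroup.generalLinearEquiv F _ (Matrix.GeneralLinearGroup.toLin (Matrix.GeneralLinearGroup.toLin.symm _))) (b i) = _
    simp [Units.smul_def, Basis.unitsSMul_apply]
  have hext : ∀ g h : G, (∀ i, (g : Matrix.GeneralLinearGroup ι F).1 *ᵥ b i = (h : Matrix.GeneralLinearGroup ι F).1 *ᵥ b i) → g = h := by
    intro g h hgh
    refine Subtype.ext (Units.ext (Matrix.ext_iff_mulVec.2 fun v => ?_))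
    have : (Matrix.mulVecLin (g : Matrix.GeneralLinearGroup ι F).1) = Matrix.mulVecLin (h : Matrix.GeneralLinearGroup ι F).1 :=
      b.ext fun i => by simpa using hgh i
    exact LinearMap.congr_fun this v
  have hmul : ∀ σ ε σ' ε', mon σ ε * mon σ' ε' = mon (σ * σ') (ε * fun i => ε' (σ⁻¹ i)) := by
    intro σ ε σ' ε'
    refine hext _ _ fun i => ?_
    rw [Subgroup.coe_mul, Units.val_mul, ← Matrix.mulVec_mulVec, happ, Matrix.mulVec_smul, happ, happ, smul_smul]
    simp [mul_comm]
  let d : (Fin (2 * m + 1) → ℤˣ) →* G :=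
    { toFun := mon 1
      map_one' := hext _ _ fun i => by rw [happ]; simp
      map_mul' := fun ε ε' => by rw [hmul]; simp }
  let p : Equiv.Perm (Fin (2 * m + 1)) →* G :=
    { toFun := fun σ => mon σ 1
      map_one' := hext _ _ fun i => by rw [happ]; simp
      map_mul' := fun σ σ' => by rw [hmul]; congr 1 }
  have hconj : ∀ σ ε, p σ * d ε * (p σ)⁻¹ = d (fun i => ε (σ⁻¹ i)) := by
    intro σ ε
    rw [mul_inv_eq_iff_eq_mul]
    change mon σ 1 * mon 1 ε = mon 1 _ * mon σ 1
    rw [hmul, hmul]
    rw [one_mul, mul_one]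
    congr 1
    funext i
    simp
  -- even sign changes lie in `Ω`
  let l := Fin.last (2 * m)
  have hpair : ∀ i x, d (Pi.mulSingle i x * Pi.mulSingle l x) ∈ Cfsg.Omega F (Cfsg.quadFormOdd m F) := by
    intro i x
    have h : d (Pi.mulSingle i x * Pi.mulSingle l x) = ⁅d (Pi.mulSingle i x), p (Equiv.swap i l)⁆ := by
      rw [commutatorElement_def, mul_assoc (d (Pi.mulSingle i x)), mul_assoc (d (Pi.mulSingle i x)), ← map_inv d, hconj, ← map_mul]
      congr 2
      funext j
      rcases Int.units_eq_one_or x with rfl | rfl <;>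
        simp [Pi.mulSingle_apply, Equiv.swap_apply_eq_iff]
    rw [h]
    exact Subgroup.commutator_mem_commutator (Subgroup.mem_top _) (Subgroup.mem_top _)
  let π : (Fin (2 * m + 1) → ℤˣ) →* ℤˣ :=
    { toFun := fun ε => ∏ i, ε i
      map_one' := by simp
      map_mul' := fun a b => Finset.prod_mul_distrib }
  have hsur : ∀ ε, π ε = 1 → d ε ∈ Cfsg.Omega F (Cfsg.quadFormOdd m F) := by
    intro ε hε
    have he : ε = ∏ i, (Pi.mulSingle i (ε i) * Pi.mulSingle l (ε i)) := by
      rw [Finset.prod_mul_distrib, Finset.univ_prod_mulSingle]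
      have h1 : ∏ i, (Pi.mulSingle l (ε i) : Fin (2 * m + 1) → ℤˣ) = Pi.mulSingle l (π ε) :=
        (map_prod (MonoidHom.mulSingle (fun _ : Fin (2 * m + 1) => ℤˣ) l) ε Finset.univ).symm
      rw [h1, hε, Pi.mulSingle_one, mul_one]
    rw [he]
    exact Subgroup.prod_mem (K := (Cfsg.Omega F (Cfsg.quadFormOdd m F)).comap d) fun i _ => hpair i (ε i)
  let D : π.ker →* Cfsg.POmega F (Cfsg.quadFormOdd m F) :=
    (QuotientGroup.mk' _).comp ((d.comp π.ker.subtype).codRestrict _ fun ε => hsur ε.1 ε.2)
  have hD : Function.Injective D := by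
    rw [injective_iff_map_eq_one]
    intro ε hε
    have hcen : (⟨d ε.1, hsur ε.1 ε.2⟩ : Cfsg.Omega F (Cfsg.quadFormOdd m F)) ∈ Subgroup.center _ :=
      (QuotientGroup.eq_one_iff _).1 hε
    have hall : ∀ i j k, i ≠ j → j ≠ k → i ≠ k → ε.1 i = ε.1 j := by
      intro i j k hij hjk hik
      let σ := Equiv.swap i j * Equiv.swap j k * (Equiv.swap i j)⁻¹ * (Equiv.swap j k)⁻¹
      have hσ : p σ ∈ Cfsg.Omega F (Cfsg.quadFormOdd m F) := by
        have : p σ = ⁅p (Equiv.swap i j), p (Equiv.swap j k)⁆ := by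
          rw [commutatorElement_def]; simp only [σ, map_mul, map_inv]
        rw [this]
        exact Subgroup.commutator_mem_commutator (Subgroup.mem_top _) (Subgroup.mem_top _)
      have hc' : p σ * d ε.1 = d ε.1 * p σ := congrArg Subtype.val (Subgroup.mem_center_iff.1 hcen ⟨p σ, hσ⟩)
      have h1 := congrArg (fun g : G => (g : Matrix.GeneralLinearGroup ι F).1 *ᵥ b (σ⁻¹ i)) hc'
      simp only [Subgroup.coe_mul, Units.val_mul, ← Matrix.mulVec_mulVec] at h1
      rw [show d ε.1 = mon 1 ε.1 from rfl, show p σ = mon σ 1 from rfl] at h1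
      simp only [happ, Matrix.mulVec_smul, Equiv.Perm.coe_one, id_eq, Pi.one_apply, Units.val_one,
        Int.cast_one, one_smul, Equiv.Perm.inv_def, Equiv.apply_symm_apply] at h1
      have h3 : σ j = i ∨ σ⁻¹ j = i := by
        simp [σ, Equiv.swap_apply_of_ne_of_ne, hij, hij.symm, hjk, hjk.symm, hik, hik.symm]
      have h4 : ((ε.1 (σ⁻¹ i) : ℤ) : F) = ((ε.1 i : ℤ) : F) := smul_left_injective F (b.ne_zero i) h1
      have h5 : ∀ x y : ℤˣ, ((x : ℤ) : F) = ((y : ℤ) : F) → x = y := by
        intro x y h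
        rcases Int.units_eq_one_or x with rfl | rfl <;> rcases Int.units_eq_one_or y with rfl | rfl <;>
          simp at h ⊢
        · exact h2 (by linear_combination h)
        · exact h2 (by linear_combination -h)
      rcases h3 with h3 | h3
      · have e1 : σ⁻¹ i = j := by rw [Equiv.Perm.inv_eq_iff_eq]; exact h3.symm
        rw [e1] at h4
        exact (h5 _ _ h4).symm
      · -- the other orientation
        have h1' := congrArg (fun g : G => (g : Matrix.GeneralLinearGroup ι F).1 *ᵥ b (σ⁻¹ j)) hc'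
        simp only [Subgroup.coe_mul, Units.val_mul, ← Matrix.mulVec_mulVec] at h1'
        rw [show d ε.1 = mon 1 ε.1 from rfl, show p σ = mon σ 1 from rfl] at h1'
        simp only [happ, Matrix.mulVec_smul, Equiv.Perm.coe_one, id_eq, Pi.one_apply, Units.val_one,
          Int.cast_one, one_smul, Equiv.Perm.inv_def, Equiv.apply_symm_apply] at h1'
        rw [show (Equiv.symm σ) j = i from h3] at h1'
        exact h5 _ _ (smul_left_injective F (b.ne_zero j) h1')
    have hconst : ∀ i, ε.1 i = ε.1 0 := by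
      intro i
      rcases eq_or_ne i 0 with rfl | hi
      · rfl
      obtain ⟨k, hk0, hki⟩ : ∃ k : Fin (2 * m + 1), k ≠ 0 ∧ k ≠ i := by
        by_contra! h
        have hsub : (Finset.univ : Finset (Fin (2 * m + 1))) ⊆ {0, i} := fun k _ => by
          simp only [Finset.mem_insert, Finset.mem_singleton]
          exact or_iff_not_imp_left.2 (h k)
        have := (Finset.card_le_card hsub).trans Finset.card_le_two
        simp at this; omega
      exact hall i 0 k hi hk0.symm hki.symm
    have h1 : π ε.1 = 1 := ε.2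
    simp only [π, MonoidHom.coe_mk, OneHom.coe_mk] at h1
    rw [Finset.prod_congr rfl fun i _ => hconst i, Finset.prod_const, Finset.card_univ, Fintype.card_fin,
      pow_succ, pow_mul, Int.units_sq, one_pow, one_mul] at h1
    exact Subtype.ext (funext fun i => (hconst i).trans h1)
  refine ⟨D.range, ?_, ?_, ?_⟩
  · rintro _ ⟨x, rfl⟩
    rw [← map_pow, show x ^ 2 = 1 from Subtype.ext (funext fun i => Int.units_sq _), map_one]
  · rintro _ ⟨x, rfl⟩ _ ⟨y, rfl⟩
    rw [← map_mul, ← map_mul]
    exact congrArg D (mul_comm x y)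
  · rw [Nat.card_congr (MonoidHom.ofInjective hD).toEquiv.symm]
    have h1 := π.ker.card_mul_index
    rw [Nat.card_fun, Nat.card_eq_fintype_card (α := ℤˣ), Fintype.card_units_int, Nat.card_fin, pow_succ] at h1
    have h3 : π.ker.index ≤ 2 := by
      rw [Subgroup.index_ker]
      exact (Subgroup.card_le_card_group _).trans (by simp)
    nlinarith [π.ker.index.zero_le]

end Cfsg.Lib.Classical.OddOmega
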