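import Mathlib
import Cfsg.Agent.Lib.Classical.OmegaCentre
import Cfsg.Agent.Lib.Classical.SingularVectors

/-!
Siegel transformations of a quadratic space (any characteristic): they lie in the commutator subgroup
of the isometry group and generate it.
-/

set_option autoImplicit false

namespace Cfsg.Lib.Classical.SiegelElements

open Module Reflections
open scoped commutatorElement

variable {F V : Type*} [Field F] [AddCommGroup V] [Module F V] (Q : QuadraticForm F V)

local notation "β" => QuadraticMap.polarBilin Q
local notation "G" => Witt.quadIso Q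

/-- The Siegel map `x ↦ x + β(x,p) w - β(x,w) p - Q(w) β(x,p) p`. -/
noncomputable def siegelMap (p w : V) : V →ₗ[F] V :=
  LinearMap.id + ((β).flip p).smulRight w - ((β).flip w + Q w • (β).flip p).smulRight p

lemma siegelMap_apply (p w x : V) :
    siegelMap Q p w x = x + β x p • w - (β x w + Q w * β x p) • p := by
  simp [siegelMap, LinearMap.flip_apply]

lemma siegelMap_comp {p w w' : V} (hp : Q p = 0) (hw : β p w = 0) (hw' : β p w' = 0) (x : V) :
    siegelMap Q p w (siegelMap Q p w' x) = siegelMap Q p (w + w') x := by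
  have hpp : β p p = 0 := by rw [Witt.polar_self', hp, mul_zero]
  have hwp : β w' p = 0 := by rw [Witt.polar_symm', hw']
  simp only [siegelMap_apply, map_add, map_sub, map_smul, LinearMap.add_apply, LinearMap.sub_apply,
    LinearMap.smul_apply, smul_eq_mul, hpp, hwp, hw, Witt.quad_add, Witt.polar_symm' Q w' w]
  module

lemma siegelMap_zero (p x : V) : siegelMap Q p 0 x = x := by simp [siegelMap_apply]

lemma siegelMap_isometry {p w : V} (hp : Q p = 0) (hw : β p w = 0) (x : V) :
    Q (siegelMap Q p w x) = Q x := by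
  rw [siegelMap_apply, sub_eq_add_neg, ← neg_smul, Witt.quad_add, Witt.quad_add, Witt.quad_smul,
    Witt.quad_smul, map_add, map_smul, map_smul, map_smul, LinearMap.add_apply, LinearMap.smul_apply,
    Witt.polar_symm' Q w p, hw, hp]
  simp only [smul_eq_mul]
  ring

/-- The Siegel element; the identity outside its domain. -/
noncomputable def siegel (p w : V) : G := by
  classical
  exact if h : Q p = 0 ∧ β p w = 0 then
    ⟨LinearEquiv.ofLinear (siegelMap Q p w) (siegelMap Q p (-w))
      (LinearMap.ext fun x => by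
        rw [LinearMap.comp_apply, siegelMap_comp Q h.1 h.2 (by rw [map_neg, h.2, neg_zero]),
          add_neg_cancel, siegelMap_zero]
        rfl)
      (LinearMap.ext fun x => by
        rw [LinearMap.comp_apply, siegelMap_comp Q h.1 (by rw [map_neg, h.2, neg_zero]) h.2,
          neg_add_cancel, siegelMap_zero]
        rfl),
      fun x => siegelMap_isometry Q h.1 h.2 x⟩
  else 1

lemma siegel_apply {p w : V} (hp : Q p = 0) (hw : β p w = 0) (x : V) :
    (siegel Q p w).1 x = x + β x p • w - (β x w + Q w * β x p) • p := by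
  rw [siegel, dif_pos ⟨hp, hw⟩]
  exact siegelMap_apply Q p w x

lemma ext' {g h : G} (e : ∀ x, g.1 x = h.1 x) : g = h := Subtype.ext (LinearEquiv.ext e)

lemma siegel_mul {p w w' : V} (hp : Q p = 0) (hw : β p w = 0) (hw' : β p w' = 0) :
    siegel Q p w * siegel Q p w' = siegel Q p (w + w') := by
  refine ext' Q fun x => ?_
  show (siegel Q p w).1 ((siegel Q p w').1 x) = _
  rw [siegel_apply Q hp hw, siegel_apply Q hp hw', siegel_apply Q hp (by rw [map_add, hw, hw', add_zero]),
    ← siegelMap_apply Q p w, ← siegelMap_apply Q p w', siegelMap_comp Q hp hw hw', siegelMap_apply]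

lemma siegel_zero {p : V} (hp : Q p = 0) : siegel Q p 0 = 1 := by
  refine ext' Q fun x => ?_
  rw [siegel_apply Q hp (map_zero _)]
  simp

lemma siegel_inv {p w : V} (hp : Q p = 0) (hw : β p w = 0) : (siegel Q p w)⁻¹ = siegel Q p (-w) :=
  inv_eq_of_mul_eq_one_right (by
    rw [siegel_mul Q hp hw (by rw [map_neg, hw, neg_zero]), add_neg_cancel, siegel_zero Q hp])

lemma siegel_conj (g : G) {p w : V} (hp : Q p = 0) (hw : β p w = 0) :
    g * siegel Q p w * g⁻¹ = siegel Q (g.1 p) (g.1 w) := by
  rw [mul_inv_eq_iff_eq_mul]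
  refine ext' Q fun x => ?_
  show g.1 ((siegel Q p w).1 x) = (siegel Q (g.1 p) (g.1 w)).1 (g.1 x)
  rw [siegel_apply Q hp hw, siegel_apply Q (by rw [g.2, hp]) (by rw [polar_apply, hw]), polar_apply,
    polar_apply, g.2 w, map_sub, map_add, map_smul, map_smul]

/-- For singular orthogonal vectors the Siegel element is symmetric up to sign. -/
lemma siegel_swap {p w : V} (hp : Q p = 0) (hwq : Q w = 0) (hw : β p w = 0) :
    siegel Q p w = siegel Q w (-p) := by
  refine ext' Q fun x => ?_
  rw [siegel_apply Q hp hw, siegel_apply Q hwq (by rw [map_neg, Witt.polar_symm', hw, neg_zero]),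
    QuadraticMap.map_neg, map_neg, hp, hwq]
  module

/-- A Siegel element with nonsingular vector is a product of two reflections. -/
lemma siegel_eq_refl {p w : V} (hp : Q p = 0) (hw : β p w = 0) (hq : Q w ≠ 0) :
    siegel Q p w = refl Q w * refl Q (w + Q w • p) := by
  have h2 : Q (w + Q w • p) = Q w := by
    rw [Witt.quad_add, Witt.quad_smul, map_smul, hp, Witt.polar_symm' Q w p, hw, smul_zero]
    ring
  refine ext' Q fun x => ?_
  show _ = (refl Q w).1 ((refl Q (w + Q w • p)).1 x)
  have hwp : β w p = 0 := by rw [Witt.polar_symm', hw]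
  rw [siegel_apply Q hp hw, refl_apply, refl_apply, h2]
  simp only [map_add, map_sub, map_smul, LinearMap.add_apply, LinearMap.sub_apply,
    LinearMap.smul_apply, smul_eq_mul, Witt.polar_self', hwp,
    Witt.polar_symm' Q w x, Witt.polar_symm' Q p x]
  match_scalars <;> field_simp <;> ring

variable [Finite F] [FiniteDimensional F V] (hB : (QuadraticMap.polarBilin Q).Nondegenerate)
  (hn : 5 ≤ finrank F V)
include hB hn

/-- Siegel elements lie in the commutator subgroup. -/
theorem siegel_mem_commutator {p w : V} (hp : Q p = 0) (hw : β p w = 0) :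
    siegel Q p w ∈ commutator G := by
  have key : ∀ u, β p u = 0 → Q u ≠ 0 → siegel Q p u ∈ commutator G := by
    intro u hu hq
    rw [siegel_eq_refl Q hp hu hq]
    refine OmegaCentre.refl_mul_mem_commutator hB hq ?_
    rw [Witt.quad_add, Witt.quad_smul, map_smul, hp, Witt.polar_symm' Q u p, hu, smul_zero]
    ring
  by_cases hq : Q w = 0
  · set U := LinearMap.BilinForm.orthogonal β (Submodule.span F (Set.range ![p, w])) with hU
    obtain ⟨z, hzU, hz⟩ : ∃ z ∈ U, Q z ≠ 0 := by
      by_contra hcon
      push Not at hcon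
      have hle : U ≤ LinearMap.BilinForm.orthogonal β U := fun x hx => LinearMap.BilinForm.mem_orthogonal_iff.2
        fun y hy => by
          show β y x = 0
          rw [QuadraticMap.polarBilin_apply_apply, QuadraticMap.polar, hcon _ (U.add_mem hy hx),
            hcon _ hy, hcon _ hx]
          ring
      have h1 := Submodule.finrank_mono hle
      have h4 := LinearMap.BilinForm.finrank_orthogonal hB (W := U)
      have h2 : finrank F U = finrank F V - finrank F (Submodule.span F (Set.range ![p, w])) := by
        rw [hU, LinearMap.BilinForm.finrank_orthogonal hB]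
      have h3 := finrank_range_le_card (R := F) ![p, w]
      rw [Set.finrank] at h3
      simp only [Fintype.card_fin] at h3
      omega
    have hpz : β p z = 0 :=
      LinearMap.BilinForm.mem_orthogonal_iff.1 hzU p (Submodule.subset_span ⟨0, rfl⟩)
    have hwz : β w z = 0 :=
      LinearMap.BilinForm.mem_orthogonal_iff.1 hzU w (Submodule.subset_span ⟨1, rfl⟩)
    have h1 : β p (w - z) = 0 := by rw [map_sub, hw, hpz, sub_zero]
    have h2 : Q (w - z) ≠ 0 := by
      rw [sub_eq_add_neg, Witt.quad_add, QuadraticMap.map_neg, hq, map_neg, hwz]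
      simpa using hz
    have := (commutator G).mul_mem (key z hpz hz) (key _ h1 h2)
    rwa [siegel_mul Q hp hpz h1, add_sub_cancel] at this
  · exact key w hw hq

/-- The group generated by the Siegel elements. -/
noncomputable def siegelGroup : Subgroup G :=
  Subgroup.closure {g | ∃ p w, Q p = 0 ∧ β p w = 0 ∧ g = siegel Q p w}

/-- It is transitive on the nonzero level sets. -/
lemma exists_move {u v : V} (hu : Q u ≠ 0) (h : Q u = Q v) :
    ∃ g ∈ siegelGroup Q, g.1 u = v := by
  have step : ∀ x d : V, Q x ≠ 0 → Q d = 0 → β x d = 0 → ∃ g ∈ siegelGroup Q, g.1 x = x + d := by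
    intro x d hx hd hxd
    have hxs : x ∉ Submodule.span F (Set.range ![d]) := by
      intro hc
      obtain ⟨c, hc⟩ := (Submodule.mem_span_range_iff_exists_fun F).1 hc
      apply hx
      rw [← hc]
      simp [Witt.quad_smul, hd]
    obtain ⟨w, hw, hwd, hwx⟩ := SingularVectors.exists_sing Q hB ![d] (by omega) hxs
    have hwd' : β d (-w) = 0 := by
      rw [map_neg, Witt.polar_symm', show β w d = 0 from hwd 0, neg_zero]
    refine ⟨siegel Q d (-w), Subgroup.subset_closure ⟨d, -w, hd, hwd', rfl⟩, ?_⟩
    rw [siegel_apply Q hd hwd', hxd, map_neg, Witt.polar_symm' Q x w, hwx, QuadraticMap.map_neg, hw]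
    module
  have main : ∀ x y : V, Q x ≠ 0 → Q x = Q y → y ∉ Submodule.span F (Set.range ![x]) →
      ∃ g ∈ siegelGroup Q, g.1 x = y := by
    intro x y hx hxy hsp
    set c := 2 * Q x - β x y with hc
    have hfin : ∀ z : V, Q z = Q y → β y z = 2 * Q y → Q z ≠ 0 →
        ∃ g ∈ siegelGroup Q, g.1 z = y := by
      intro z hz hyz hz0
      obtain ⟨g, hg, hgz⟩ := step z (y - z) hz0
        (by rw [sub_eq_add_neg, Witt.quad_add, QuadraticMap.map_neg, map_neg, hyz, hz]; ring)
        (by rw [map_sub, Witt.polar_symm' Q z y, hyz, Witt.polar_self', hz, sub_self])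
      exact ⟨g, hg, by rw [hgz, add_sub_cancel]⟩
    by_cases hc0 : c = 0
    · exact hfin x hxy (by rw [Witt.polar_symm', ← hxy]; linear_combination -hc0) hx
    · obtain ⟨p, hp, hpx, hpy⟩ := SingularVectors.exists_sing Q hB ![x] (by omega) hsp
      have hxp : β x p = 0 := by rw [Witt.polar_symm']; exact hpx 0
      obtain ⟨g, hg, hgx⟩ := step x (c • p) hx (by rw [Witt.quad_smul, hp, mul_zero])
        (by rw [map_smul, hxp, smul_zero])
      have hz : Q (x + c • p) = Q x := by
        rw [Witt.quad_add, Witt.quad_smul, map_smul, hp, hxp, smul_zero]; ring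
      obtain ⟨g', hg', hg'z⟩ := hfin (x + c • p) (hz.trans hxy) (by
        rw [map_add, map_smul, Witt.polar_symm' Q y x, Witt.polar_symm' Q y p, hpy, ← hxy,
          smul_eq_mul, hc]
        ring) (by rw [hz]; exact hx)
      exact ⟨g' * g, mul_mem hg' hg, by rw [Subgroup.coe_mul, LinearEquiv.mul_apply, hgx, hg'z]⟩
  by_cases hsp : v ∈ Submodule.span F (Set.range ![u])
  · have hu0 : u ≠ 0 := fun h0 => hu (by rw [h0, QuadraticMap.map_zero])
    obtain ⟨z, hz⟩ : ∃ z, z ∉ Submodule.span F (Set.range ![u]) := by
      by_contra hcon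
      push Not at hcon
      have := Submodule.finrank_mono (show (⊤ : Submodule F V) ≤ _ from fun x _ => hcon x)
      have h3 := finrank_range_le_card (R := F) ![u]
      rw [Set.finrank] at h3
      simp only [Fintype.card_fin] at h3
      rw [finrank_top] at this
      omega
    obtain ⟨p, hp, hpu, hpz⟩ := SingularVectors.exists_sing Q hB ![u] (by omega) hz
    have hup : β u p = 0 := by rw [Witt.polar_symm']; exact hpu 0
    obtain ⟨g, hg, hgu⟩ := step u p hu hp hup
    have hpne : p ∉ Submodule.span F (Set.range ![u]) := by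
      intro hc
      obtain ⟨c, hc⟩ := (Submodule.mem_span_range_iff_exists_fun F).1 hc
      simp only [Fin.sum_univ_one, Matrix.cons_val_zero] at hc
      have : c 0 * c 0 * Q u = 0 := by rw [← hp, ← hc, Witt.quad_smul]
      rw [← hc, show c 0 = 0 by simpa [hu] using this, zero_smul, map_zero, LinearMap.zero_apply] at hpz
      exact zero_ne_one hpz
    obtain ⟨g', hg', hg'v⟩ := main (u + p) v (by rw [Witt.quad_add, hp, hup]; simpa using hu)
      (by rw [Witt.quad_add, hp, hup, ← h]; simp) (by
        intro hc
        obtain ⟨a, ha⟩ := (Submodule.mem_span_range_iff_exists_fun F).1 hc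
        obtain ⟨b, hb⟩ := (Submodule.mem_span_range_iff_exists_fun F).1 hsp
        simp only [Fin.sum_univ_one, Matrix.cons_val_zero] at ha hb
        by_cases ha0 : a 0 = 0
        · rw [ha0, zero_smul] at ha
          rw [← ha, QuadraticMap.map_zero] at h
          exact hu h
        · refine hpne ((Submodule.mem_span_range_iff_exists_fun F).2 ⟨![(b 0 - a 0) / a 0], ?_⟩)
          have : a 0 • p = (b 0 - a 0) • u := by
            linear_combination (norm := module) ha - hb
          rw [Fin.sum_univ_one, Matrix.cons_val_zero, Matrix.cons_val_zero, div_eq_inv_mul, mul_smul,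
            ← this, inv_smul_smul₀ ha0])
    exact ⟨g' * g, mul_mem hg' hg, by rw [Subgroup.coe_mul, LinearEquiv.mul_apply, hgu, hg'v]⟩
  · exact main u v hu h hsp

omit hB hn [Finite F] [FiniteDimensional F V] in
lemma siegelGroup_le_iff {H : Subgroup G} :
    siegelGroup Q ≤ H ↔ ∀ p w, Q p = 0 → β p w = 0 → siegel Q p w ∈ H := by
  rw [siegelGroup, Subgroup.closure_le]
  exact ⟨fun h p w hp hw => h ⟨p, w, hp, hw, rfl⟩, fun h g ⟨p, w, hp, hw, e⟩ => e ▸ h p w hp hw⟩

omit hB hn [Finite F] [FiniteDimensional F V] in
lemma siegelGroup_normal : (siegelGroup Q).Normal := by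
  refine ⟨fun n hn g => ?_⟩
  induction hn using Subgroup.closure_induction with
  | mem x hx =>
    obtain ⟨p, w, hp, hw, rfl⟩ := hx
    rw [siegel_conj Q g hp hw]
    exact Subgroup.subset_closure ⟨_, _, by rw [g.2, hp], by rw [polar_apply, hw], rfl⟩
  | one => simp
  | mul a b _ _ ha hb => rw [← conj_mul]; exact mul_mem ha hb
  | inv a _ ha => rw [← conj_inv]; exact inv_mem ha

/-- The Siegel elements generate the commutator subgroup. -/
theorem commutator_eq : commutator G = siegelGroup Q := by
  refine le_antisymm ?_ ((siegelGroup_le_iff Q).2 fun p w hp hw => siegel_mem_commutator Q hB hn hp hw)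
  have hN := siegelGroup_normal Q
  let π : G →* G ⧸ siegelGroup Q := QuotientGroup.mk' _
  have hcomm : ∀ u v, Q u ≠ 0 → Q v ≠ 0 → Commute (π (refl Q u)) (π (refl Q v)) := by
    intro u v hu hv
    obtain ⟨g, hg, hgv⟩ := exists_move Q hB hn hv (u := v) (v := (refl Q u).1 v) ((refl Q u).2 v).symm
    have h1 : π (g * refl Q v * g⁻¹) = π (refl Q u * refl Q v * (refl Q u)⁻¹) := by
      rw [conj_refl, conj_refl, hgv]
    have hg1 : π g = 1 := (QuotientGroup.eq_one_iff _).2 hg
    simp only [map_mul, map_inv, hg1, one_mul, inv_one, mul_one] at h1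
    exact (eq_mul_inv_iff_mul_eq.1 h1).symm
  have hex : (∃ c : F, c ≠ 0 ∧ c ≠ 1) ∨ finrank F V ≠ 4 := Or.inr (by omega)
  have hone : ∀ u, Q u ≠ 0 → ∀ y : G, Commute (π (refl Q u)) (π y) := by
    intro u hu y
    induction y using Spinor.induction_refl hB hex with
    | h1 => rw [map_one]; exact Commute.one_right _
    | h v y hv ih => rw [map_mul]; exact (hcomm u v hu hv).mul_right ih
  have hall : ∀ x y : G, Commute (π x) (π y) := by
    intro x y
    induction x using Spinor.induction_refl hB hex with
    | h1 => rw [map_one]; exact Commute.one_left _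
    | h u x hu ih => rw [map_mul]; exact (hone u hu y).mul_left ih
  rw [commutator_def, Subgroup.commutator_le]
  intro x _ y _
  rw [← QuotientGroup.eq_one_iff (N := siegelGroup Q)]
  show π ⁅x, y⁆ = 1
  rw [map_commutatorElement, commutatorElement_eq_one_iff_commute]
  exact hall x y

end Cfsg.Lib.Classical.SiegelElements
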