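import Mathlib
import Cfsg.Prelude.Def_GeometricClasses
import Cfsg.Agent.Lib.Classical.SiegelElements
import Cfsg.Agent.Lib.Classical.NotMax

/-!
Passing between `omegaGL f` and the commutator subgroup of the abstract isometry group.
-/

set_option autoImplicit false

namespace Cfsg.Lib.Classical.OmegaBridge

open scoped MatrixGroups Matrix

variable {ι : Type} [Fintype ι] [DecidableEq ι] {F : Type*} [Field F] {f : (ι → F) → F}
  {Q : QuadraticForm F (ι → F)} (h : ∀ v, Q v = f v)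

/-- An isometry as a matrix. -/
noncomputable def toGL : Witt.quadIso Q →* GL ι F :=
  (Cfsg.isometryGroup F f).subtype.comp (OrthMatrix.eI h).symm.toMonoidHom

lemma toGL_mulVec (g : Witt.quadIso Q) (x : ι → F) :
    ((toGL h g : GL ι F) : Matrix ι ι F) *ᵥ x = g.1 x := by
  show ((((OrthMatrix.eI h).symm g : Cfsg.isometryGroup F f) : GL ι F) : Matrix ι ι F) *ᵥ x = g.1 x
  rw [← OrthMatrix.eI_apply h, MulEquiv.apply_symm_apply]

lemma toGL_mem {g : Witt.quadIso Q} (hg : g ∈ commutator (Witt.quadIso Q)) :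
    toGL h g ∈ Cfsg.Geo.omegaGL f := by
  refine ⟨(OrthMatrix.eI h).symm g, ?_, rfl⟩
  show (OrthMatrix.eI h).symm g ∈ Cfsg.Omega F f
  rw [OrthMatrix.omega_eq h, Subgroup.mem_comap]
  show OrthMatrix.eI h ((OrthMatrix.eI h).symm g) ∈ _
  rwa [MulEquiv.apply_symm_apply]

lemma exists_preimage {g : GL ι F} (hg : g ∈ Cfsg.Geo.omegaGL f) :
    ∃ u ∈ commutator (Witt.quadIso Q), toGL h u = g := by
  obtain ⟨g', hg', rfl⟩ := hg
  refine ⟨OrthMatrix.eI h g', (OrthMatrix.omega_eq h).le hg', ?_⟩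
  show (((OrthMatrix.eI h).symm (OrthMatrix.eI h g') : Cfsg.isometryGroup F f) : GL ι F) = _
  rw [MulEquiv.symm_apply_apply]
  rfl

/-- Maximality criterion. -/
theorem isMaximalIn (N : Subgroup (GL ι F))
    (hproper : ∃ g ∈ commutator (Witt.quadIso Q), toGL h g ∉ N)
    (hkey : ∀ H : Subgroup (Witt.quadIso Q),
      (∀ g ∈ commutator (Witt.quadIso Q), toGL h g ∈ N → g ∈ H) →
      ∀ g ∈ H, g ∈ commutator (Witt.quadIso Q) → toGL h g ∉ N → commutator (Witt.quadIso Q) ≤ H) :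
    Cfsg.Geo.IsMaximalIn (Cfsg.Geo.omegaGL f) (N ⊓ Cfsg.Geo.omegaGL f) := by
  refine ⟨lt_of_le_of_ne inf_le_right fun heq => ?_, fun M hNM hMS => ?_⟩
  · obtain ⟨g, hg, hgN⟩ := hproper
    exact hgN (heq.ge (toGL_mem h hg)).1
  · by_cases hex : ∀ g ∈ M, g ∈ N
    · exact Or.inl (le_antisymm (fun g hg => ⟨hex g hg, hMS hg⟩) hNM)
    · push Not at hex
      obtain ⟨g, hgM, hgN⟩ := hex
      obtain ⟨u, hu, rfl⟩ := exists_preimage h (hMS hgM)
      refine Or.inr (le_antisymm hMS fun y hy => ?_)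
      obtain ⟨w, hw, rfl⟩ := exists_preimage h hy
      exact hkey (M.comap (toGL h)) (fun g hg hgN' => hNM ⟨hgN', toGL_mem h hg⟩) u hgM hu hgN hw

end Cfsg.Lib.Classical.OmegaBridge
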