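import Mathlib
import Cfsg.Agent.Lib.Classical.SiegelElements

/-!
Subgroups containing whole root subgroups (unipotent radicals of point stabilisers) of a quadratic space.
-/

set_option autoImplicit false

namespace Cfsg.Lib.Classical.SiegelFull

open Module SiegelElements

variable {F V : Type*} [Field F] [AddCommGroup V] [Module F V] (Q : QuadraticForm F V)

local notation "β" => QuadraticMap.polarBilin Q

/-- Every Siegel element at the point `p` lies in `H`. -/
def Full (H : Subgroup (Witt.quadIso Q)) (p : V) : Prop :=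
  Q p = 0 ∧ ∀ u, QuadraticMap.polarBilin Q p u = 0 → siegel Q p u ∈ H

variable {H : Subgroup (Witt.quadIso Q)}

lemma Full.map {p : V} (hp : Full Q H p) {g : Witt.quadIso Q} (hg : g ∈ H) : Full Q H (g.1 p) := by
  refine ⟨by rw [g.2, hp.1], fun u hu => ?_⟩
  obtain ⟨u', rfl⟩ : ∃ u', g.1 u' = u := ⟨g.1.symm u, g.1.apply_symm_apply u⟩
  rw [Reflections.polar_apply] at hu
  rw [← siegel_conj Q g hp.1 hu]
  exact H.mul_mem (H.mul_mem hg (hp.2 u' hu)) (H.inv_mem hg)

lemma Full.smul {p : V} (hp : Full Q H p) (c : F) : Full Q H (c • p) := by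
  have hq : Q (c • p) = 0 := by rw [Witt.quad_smul, hp.1, mul_zero]
  refine ⟨hq, fun u hu => ?_⟩
  by_cases hc : c = 0
  · subst hc
    rw [show siegel Q ((0 : F) • p) u = 1 from ext' Q fun x => by rw [siegel_apply Q hq hu]; simp]
    exact one_mem H
  · have hu' : β p u = 0 := by
      rw [map_smul, LinearMap.smul_apply, smul_eq_zero] at hu
      exact hu.resolve_left hc
    have e : siegel Q (c • p) u = siegel Q p (c • u) := by
      refine ext' Q fun x => ?_
      rw [siegel_apply Q hq hu, siegel_apply Q hp.1 (by rw [map_smul, hu', smul_zero]), Witt.quad_smul,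
        map_smul, map_smul, smul_eq_mul, smul_eq_mul]
      module
    exact e ▸ hp.2 _ (by rw [map_smul, hu', smul_zero])

/-- A root subgroup is transitive on the singular vectors with value one at its point. -/
lemma exists_move_one {z p q : V} (hz : Q z = 0) (hp : Q p = 0) (hq : Q q = 0) (hzp : β z p = 1)
    (hzq : β z q = 1) : β z (q - p) = 0 ∧ (siegel Q z (q - p)).1 p = q := by
  have hd : β z (q - p) = 0 := by rw [map_sub, hzp, hzq, sub_self]
  refine ⟨hd, ?_⟩
  rw [siegel_apply Q hz hd, Witt.polar_symm' Q p z, hzp, map_sub, Witt.polar_self', hp, sub_eq_add_neg q p,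
    Witt.quad_add, QuadraticMap.map_neg, hp, hq, map_neg, Witt.polar_symm' Q q p]
  module

lemma Full.of_pair {z p q : V} (hz : Full Q H z) (hp : Full Q H p) (hzp : β z p ≠ 0) (hq : Q q = 0)
    (hzq : β z q ≠ 0) : Full Q H q := by
  have hp' := hp.smul Q (β z p)⁻¹
  obtain ⟨hd, he⟩ := exists_move_one Q hz.1 hp'.1
    (q := (β z q)⁻¹ • q) (by rw [Witt.quad_smul, hq, mul_zero])
    (by rw [map_smul, smul_eq_mul, inv_mul_cancel₀ hzp]) (by rw [map_smul, smul_eq_mul, inv_mul_cancel₀ hzq])
  have h1 := (hp'.map Q (hz.2 _ hd)).smul Q (β z q)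
  rwa [he, smul_inv_smul₀ hzq] at h1

variable [Finite F] [FiniteDimensional F V] (hB : (QuadraticMap.polarBilin Q).Nondegenerate)
  (hn : 7 ≤ finrank F V)
include hB hn

/-- Two non-orthogonal full points generate everything. -/
theorem commutator_le {z p : V} (hz : Full Q H z) (hp : Full Q H p) (hzp : β z p ≠ 0) :
    commutator (Witt.quadIso Q) ≤ H := by
  have hall : ∀ q, Q q = 0 → q ≠ 0 → Full Q H q := by
    intro q hq hq0
    by_cases hzq : β z q = 0
    · have hz0 : z ≠ 0 := fun h => hzp (by rw [h]; simp)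
      -- a full point not orthogonal to `z` and `q`
      obtain ⟨r, hr, hrz, hrq⟩ : ∃ r, Q r = 0 ∧ β r z ≠ 0 ∧ β r q ≠ 0 := by
        by_cases hd : q ∈ Submodule.span F (Set.range ![z])
        · obtain ⟨c, hc⟩ := (Submodule.mem_span_range_iff_exists_fun F).1 hd
          simp only [Fin.sum_univ_one, Matrix.cons_val_zero] at hc
          refine ⟨p, hp.1, by rwa [Witt.polar_symm'], ?_⟩
          rw [← hc, map_smul, smul_eq_mul, Witt.polar_symm' Q p z]
          exact mul_ne_zero (fun h => hq0 (by rw [← hc, h, zero_smul])) hzp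
        · have hzs : z ∉ Submodule.span F (Set.range ![q - z]) := by
            intro hc
            obtain ⟨c, hc⟩ := (Submodule.mem_span_range_iff_exists_fun F).1 hc
            simp only [Fin.sum_univ_one, Matrix.cons_val_zero] at hc
            by_cases hc0 : c 0 = 0
            · exact hz0 (by rw [← hc, hc0, zero_smul])
            · refine hd ((Submodule.mem_span_range_iff_exists_fun F).2 ⟨![1 + (c 0)⁻¹], ?_⟩)
              rw [Fin.sum_univ_one, Matrix.cons_val_zero, Matrix.cons_val_zero, add_smul, one_smul]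
              nth_rewrite 2 [← hc]
              rw [inv_smul_smul₀ hc0]
              abel
          obtain ⟨r, hr, hrr, hrz⟩ := SingularVectors.exists_sing Q hB ![q - z] (by omega) hzs
          have h0 : β r (q - z) = 0 := hrr 0
          rw [map_sub, sub_eq_zero] at h0
          exact ⟨r, hr, by rw [hrz]; exact one_ne_zero, by rw [h0, hrz]; exact one_ne_zero⟩
      have hrf : Full Q H r := hz.of_pair Q hp hzp hr (by rwa [Witt.polar_symm'])
      exact hrf.of_pair Q hz hrz hq hrq
    · exact hz.of_pair Q hp hzp hq hzq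
  rw [commutator_eq Q hB (by omega), siegelGroup_le_iff]
  intro q u hq hu
  by_cases hq0 : q = 0
  · subst hq0
    rw [show siegel Q 0 u = 1 from ext' Q fun x => by rw [siegel_apply Q hq hu]; simp]
    exact one_mem H
  · exact (hall q hq hq0).2 u hu

/-- A full point with a mover inside a subspace. -/
theorem commutator_le_of_mover {y a b : V} (hy : Full Q H y) (ha : Q a = 0) (hab : β a b = 0)
    (hE : siegel Q a b ∈ H) (hya : β y a ≠ 0) (hb : Q b ≠ 0) : commutator (Witt.quadIso Q) ≤ H := by
  refine commutator_le Q hB hn hy (hy.map Q hE) ?_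
  rw [siegel_apply Q ha hab, map_sub, map_add, map_smul, map_smul, Witt.polar_self', hy.1, smul_eq_mul,
    smul_eq_mul]
  have e : 2 * (0 : F) + β y a * β y b - (β y b + Q b * β y a) * β y a =
      -(Q b * (β y a * β y a)) := by ring
  rw [e]
  exact neg_ne_zero.2 (mul_ne_zero hb (mul_ne_zero hya hya))

end Cfsg.Lib.Classical.SiegelFull
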