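import Mathlib
import Cfsg.Agent.Lib.Classical.SiegelFull
import Cfsg.Agent.Lib.Classical.OmegaBridge
import Cfsg.Agent.Lib.Classical.SubspaceStab

/-!
Stabilisers of totally singular subspaces and of nonsingular points are maximal in `omegaGL`.
-/

set_option autoImplicit false

namespace Cfsg.Lib.Classical.OrthSingularStab

open Module SiegelElements
open scoped MatrixGroups

section abstract

variable {F V : Type*} [Field F] [Finite F] [AddCommGroup V] [Module F V] [FiniteDimensional F V]
  (Q : QuadraticForm F V)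

local notation "β" => QuadraticMap.polarBilin Q

variable (hB : (QuadraticMap.polarBilin Q).Nondegenerate) (hn : 13 ≤ finrank F V)
include hB hn

omit [Finite F] hn in
/-- A totally singular subspace has dimension at most half. -/
lemma finrank_ts (U : Submodule F V) (hU : ∀ x ∈ U, Q x = 0) : 2 * finrank F U ≤ finrank F V := by
  have hle : U ≤ LinearMap.BilinForm.orthogonal β U := fun x hx =>
    LinearMap.BilinForm.mem_orthogonal_iff.2 fun y hy => by
      show β y x = 0
      rw [QuadraticMap.polarBilin_apply_apply, QuadraticMap.polar, hU _ (U.add_mem hy hx), hU _ hy,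
        hU _ hx]
      ring
  have h1 := Submodule.finrank_mono hle
  rw [LinearMap.BilinForm.finrank_orthogonal hB] at h1
  have := U.finrank_le
  omega

omit [Finite F] hB hn in
/-- A singular vector orthogonal to a totally singular subspace extends it. -/
lemma exists_extend (W : Submodule F V) (hW : ∀ x ∈ W, Q x = 0) {y : V} (hy : Q y = 0)
    (hperp : ∀ x ∈ W, β x y = 0) (hyW : y ∉ W) :
    ∃ U : Submodule F V, (∀ x ∈ U, Q x = 0) ∧ finrank F U = finrank F W + 1 := by
  refine ⟨W ⊔ Submodule.span F {y}, fun z hz => ?_, ?_⟩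
  · obtain ⟨x, hx, c, hc, rfl⟩ := Submodule.mem_sup.1 hz
    obtain ⟨r, rfl⟩ := Submodule.mem_span_singleton.1 hc
    rw [Witt.quad_add, Witt.quad_smul, map_smul, hW x hx, hy, hperp x hx]
    simp
  · have h1 := Submodule.finrank_sup_add_finrank_inf_eq W (Submodule.span F {y})
    have hy0 : y ≠ 0 := fun h => hyW (h ▸ W.zero_mem)
    have h2 : W ⊓ Submodule.span F {y} = ⊥ :=
      disjoint_iff.1 ((Submodule.disjoint_span_singleton' hy0).2 hyW)
    rw [h2, finrank_bot, finrank_span_singleton hy0, add_zero] at h1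
    exact h1

/-- Overgroups of the stabiliser of a totally singular subspace. -/
theorem commutator_le_of_singular (W : Submodule F V) (hW : ∀ x ∈ W, Q x = 0)
    (hcase : (∀ y, Q y = 0 → (∀ x ∈ W, β x y = 0) → y ∈ W) ∨ 2 * finrank F W + 3 ≤ finrank F V)
    {H : Subgroup (Witt.quadIso Q)}
    (hH : ∀ g ∈ commutator (Witt.quadIso Q), (∀ x ∈ W, g.1 x ∈ W) → g ∈ H)
    {g : Witt.quadIso Q} (hg : g ∈ H) (hgW : ¬ ∀ x ∈ W, g.1 x ∈ W) :
    commutator (Witt.quadIso Q) ≤ H := by
  have hWW : ∀ x ∈ W, ∀ y ∈ W, β x y = 0 := fun x hx y hy => by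
    rw [QuadraticMap.polarBilin_apply_apply, QuadraticMap.polar, hW _ (W.add_mem hx hy), hW _ hx, hW _ hy]
    ring
  have hfull : ∀ p ∈ W, SiegelFull.Full Q H p := fun p hp => ⟨hW p hp, fun u hu =>
    hH _ (siegel_mem_commutator Q hB (by omega) (hW p hp) hu) fun x hx => by
      rw [siegel_apply Q (hW p hp) hu, hWW x hx p hp, zero_smul, add_zero]
      exact W.sub_mem hx (W.smul_mem _ hp)⟩
  push Not at hgW
  obtain ⟨w, hw, hgw⟩ := hgW
  have hy : SiegelFull.Full Q H (g.1 w) := (hfull w hw).map Q hg
  by_cases hperp : ∀ x ∈ W, β x (g.1 w) = 0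
  · have hdim : 2 * finrank F W + 3 ≤ finrank F V :=
      hcase.resolve_left fun h => hgw (h _ hy.1 hperp)
    set U := LinearMap.BilinForm.orthogonal β W with hU
    have hUU : LinearMap.BilinForm.orthogonal β U = W :=
      LinearMap.BilinForm.orthogonal_orthogonal hB (SingularVectors.refl' Q) W
    have hU' : finrank F U = finrank F V - finrank F W := by
      rw [hU, LinearMap.BilinForm.finrank_orthogonal hB]
    have hspan : Submodule.span F {x | x ∈ U ∧ Q x = 0} = U := by
      refine SingularVectors.span_singular Q ?_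
      have h1 := Submodule.finrank_mono (inf_le_right : U ⊓ LinearMap.BilinForm.orthogonal β U ≤ _)
      rw [hUU] at h1 ⊢
      omega
    obtain ⟨a, ⟨haU, ha⟩, hya⟩ : ∃ a ∈ {x | x ∈ U ∧ Q x = 0}, β (g.1 w) a ≠ 0 := by
      by_contra hcon
      push Not at hcon
      apply hgw
      rw [← hUU, ← hspan, LinearMap.BilinForm.mem_orthogonal_iff]
      intro x hx
      show β x (g.1 w) = 0
      induction hx using Submodule.span_induction with
      | mem x hx => rw [Witt.polar_symm']; exact hcon x hx
      | zero => simp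
      | add x y _ _ hx hy => rw [map_add, LinearMap.add_apply, hx, hy, add_zero]
      | smul c x _ hx => rw [map_smul, LinearMap.smul_apply, hx, smul_zero]
    obtain ⟨b, ⟨hbU, hab⟩, hb⟩ : ∃ b, (b ∈ U ∧ β a b = 0) ∧ Q b ≠ 0 := by
      by_contra hcon
      push Not at hcon
      have h1 := finrank_ts Q hB (U ⊓ LinearMap.BilinForm.orthogonal β (Submodule.span F {a}))
        fun x hx => hcon x ⟨hx.1, LinearMap.BilinForm.mem_orthogonal_iff.1 hx.2 a
          (Submodule.mem_span_singleton_self a)⟩
      have h2 := Submodule.finrank_sup_add_finrank_inf_eq U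
        (LinearMap.BilinForm.orthogonal β (Submodule.span F {a}))
      have h3 : finrank F (LinearMap.BilinForm.orthogonal β (Submodule.span F {a})) =
          finrank F V - finrank F (Submodule.span F {a}) :=
        LinearMap.BilinForm.finrank_orthogonal hB (W := Submodule.span F {a})
      have h4 := (U ⊔ LinearMap.BilinForm.orthogonal β (Submodule.span F {a})).finrank_le
      have h5 : finrank F (Submodule.span F {a}) ≤ 1 := by
        have := finrank_range_le_card (R := F) ![a]
        rw [Set.finrank, Matrix.range_cons, Matrix.range_empty, Set.union_empty] at this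
        simpa using this
      omega
    refine SiegelFull.commutator_le_of_mover Q hB (by omega) hy ha hab
      (hH _ (siegel_mem_commutator Q hB (by omega) ha hab) fun x hx => ?_) hya hb
    rw [siegel_apply Q ha hab, LinearMap.BilinForm.mem_orthogonal_iff.1 haU x hx,
      LinearMap.BilinForm.mem_orthogonal_iff.1 hbU x hx]
    simpa using hx
  · push Not at hperp
    obtain ⟨x, hx, hxy⟩ := hperp
    exact SiegelFull.commutator_le Q hB (by omega) (hfull x hx) hy hxy

/-- Some element of the commutator subgroup moves a nonzero totally singular subspace. -/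
theorem exists_moving (W : Submodule F V) (hW : ∀ x ∈ W, Q x = 0) (hW0 : W ≠ ⊥) :
    ∃ g ∈ commutator (Witt.quadIso Q), ¬ ∀ x ∈ W, g.1 x ∈ W := by
  obtain ⟨x, hx, hx0⟩ := Submodule.exists_mem_ne_zero_of_ne_bot hW0
  obtain ⟨q, hq, -, hqx⟩ := SingularVectors.exists_sing Q hB (![] : Fin 0 → V) (by omega) (v := x)
    (by simpa [Matrix.range_empty] using hx0)
  have hd := finrank_ts Q hB W hW
  let s : Fin (finrank F W) → V := fun i => (Module.finBasis F W i : V)
  have hs : Submodule.span F (Set.range s) = W := by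
    have : Set.range s = W.subtype '' Set.range (Module.finBasis F W) := by
      rw [← Set.range_comp]; rfl
    rw [this, Submodule.span_image, (Module.finBasis F W).span_eq, Submodule.map_subtype_top]
  obtain ⟨v, hv⟩ : ∃ v, v ∉ Submodule.span F (Set.range ![q, x]) := by
    by_contra hcon
    push Not at hcon
    have h1 := Submodule.finrank_mono (show (⊤ : Submodule F V) ≤ _ from fun z _ => hcon z)
    have h2 := finrank_range_le_card (R := F) ![q, x]
    rw [Set.finrank] at h2
    simp only [Fintype.card_fin] at h2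
    rw [finrank_top] at h1
    omega
  obtain ⟨u, hu, hur, -, hus⟩ := SingularVectors.exists_sing_avoid Q hB _ (by omega) hv s (by omega)
  have hqu : β q u = 0 := by rw [Witt.polar_symm']; exact hur 0
  refine ⟨siegel Q q u, siegel_mem_commutator Q hB (by omega) hq hqu, fun hall => hus ?_⟩
  have h1 := hall x hx
  rw [siegel_apply Q hq hqu, Witt.polar_symm' Q x q, hqx,
    show β x u = 0 by rw [Witt.polar_symm']; exact hur 1, hu] at h1
  rw [hs]
  simpa using W.sub_mem h1 hx

/-- Overgroups of the stabiliser of a nonsingular point. -/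
theorem commutator_le_of_point {v : V} (hv : Q v ≠ 0) {H : Subgroup (Witt.quadIso Q)}
    (hH : ∀ g ∈ commutator (Witt.quadIso Q), g.1 v = v → g ∈ H)
    {g : Witt.quadIso Q} (hg : g ∈ H) (hgv : g.1 v ∉ Submodule.span F {v}) :
    commutator (Witt.quadIso Q) ≤ H := by
  have hv0 : v ≠ 0 := fun h => hv (by rw [h, QuadraticMap.map_zero])
  have hfix : ∀ p u, Q p = 0 → β p u = 0 → β v p = 0 → β v u = 0 → siegel Q p u ∈ H :=
    fun p u hp hu hvp hvu => hH _ (siegel_mem_commutator Q hB (by omega) hp hu) (by
      rw [siegel_apply Q hp hu, hvp, hvu]; simp)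
  set v' := g.1 v with hv'
  have hzs : ∃ z, z ∉ Submodule.span F (Set.range ![v, v']) := by
    by_contra hcon
    push Not at hcon
    have h1 := Submodule.finrank_mono (show (⊤ : Submodule F V) ≤ _ from fun z _ => hcon z)
    have h2 := finrank_range_le_card (R := F) ![v, v']
    rw [Set.finrank] at h2
    simp only [Fintype.card_fin] at h2
    rw [finrank_top] at h1
    omega
  obtain ⟨z, hz⟩ := hzs
  obtain ⟨p, hp, hpr, -, hps⟩ := SingularVectors.exists_sing_avoid Q hB _ (by omega) hz ![v, v'] (by omega)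
  have hvp : β v p = 0 := by rw [Witt.polar_symm']; exact hpr 0
  have hv'p : β v' p = 0 := by rw [Witt.polar_symm']; exact hpr 1
  have hpv : v' ∉ Submodule.span F (Set.range ![p, v]) := by
    intro hc
    obtain ⟨c, hc⟩ := (Submodule.mem_span_range_iff_exists_fun F).1 hc
    simp only [Fin.sum_univ_two, Matrix.cons_val_zero, Matrix.cons_val_one] at hc
    by_cases h0 : c 0 = 0
    · exact hgv (Submodule.mem_span_singleton.2 ⟨c 1, by rw [← hc, h0]; simp⟩)
    · refine hps ((Submodule.mem_span_range_iff_exists_fun F).2 ⟨![-(c 0)⁻¹ * c 1, (c 0)⁻¹], ?_⟩)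
      rw [← inv_smul_smul₀ h0 p, show c 0 • p = v' - c 1 • v by linear_combination (norm := module) hc]
      simp
      module
  obtain ⟨p', rfl⟩ : ∃ p', g.1 p' = p := ⟨g.1.symm p, g.1.apply_symm_apply p⟩
  have hp' : Q p' = 0 := by rw [← g.2]; exact hp
  have hvp' : β v p' = 0 := by rw [← Reflections.polar_apply Q g]; exact hv'p
  -- a vector of `p^⊥ ∩ v^⊥` not orthogonal to `v'`
  obtain ⟨e, -, her, hev⟩ := SingularVectors.exists_sing Q hB _ (by omega) hpv
  have hfullp : SiegelFull.Full Q H (g.1 p') := by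
    refine ⟨hp, fun u hu => ?_⟩
    set c := β v' u
    have hpe : β (g.1 p') e = 0 := by rw [Witt.polar_symm']; exact her 0
    have hve : β v e = 0 := by rw [Witt.polar_symm']; exact her 1
    have h1 : β (g.1 p') (u - c • e) = 0 := by rw [map_sub, map_smul, hu, hpe, smul_zero, sub_zero]
    have h2 : siegel Q (g.1 p') (u - c • e) ∈ H := by
      obtain ⟨u', hu'⟩ : ∃ u', g.1 u' = u - c • e := ⟨g.1.symm _, g.1.apply_symm_apply _⟩
      have hpu : β p' u' = 0 := by rw [← Reflections.polar_apply Q g, hu', h1]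
      have hvu : β v u' = 0 := by
        rw [← Reflections.polar_apply Q g, hu', ← hv', map_sub, map_smul, Witt.polar_symm' Q v' e, hev]
        simp [c, -QuadraticMap.polarBilin_apply_apply]
      rw [← hu', ← siegel_conj Q g hp' hpu]
      exact H.mul_mem (H.mul_mem hg (hfix p' u' hp' hpu hvp' hvu)) (H.inv_mem hg)
    have h3 : siegel Q (g.1 p') (c • e) ∈ H := hfix _ _ hp (by rw [map_smul, hpe, smul_zero]) hvp
      (by rw [map_smul, hve, smul_zero])
    have h4 := H.mul_mem h2 h3
    rwa [siegel_mul Q hp h1 (by rw [map_smul, hpe, smul_zero]), sub_add_cancel] at h4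
  -- a mover inside `v^⊥`
  have hps' : g.1 p' ∉ Submodule.span F (Set.range ![v]) := fun hc => by
    obtain ⟨c, hc⟩ := (Submodule.mem_span_range_iff_exists_fun F).1 hc
    refine hps ((Submodule.mem_span_range_iff_exists_fun F).2 ⟨![c 0, 0], ?_⟩)
    simpa [Fin.sum_univ_two] using hc
  obtain ⟨a, ha, har, hap⟩ := SingularVectors.exists_sing Q hB _ (by omega) hps'
  have hva : β v a = 0 := by rw [Witt.polar_symm']; exact har 0
  set U := LinearMap.BilinForm.orthogonal β (Submodule.span F (Set.range ![v, a])) with hU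
  obtain ⟨b, hbU, hb⟩ : ∃ b ∈ U, Q b ≠ 0 := by
    by_contra hcon
    push Not at hcon
    have h1 := finrank_ts Q hB U hcon
    have h2 : finrank F U = finrank F V - finrank F (Submodule.span F (Set.range ![v, a])) := by
      rw [hU, LinearMap.BilinForm.finrank_orthogonal hB]
    have h3 := finrank_range_le_card (R := F) ![v, a]
    rw [Set.finrank] at h3
    simp only [Fintype.card_fin] at h3
    omega
  have hvb : β v b = 0 :=
    LinearMap.BilinForm.mem_orthogonal_iff.1 hbU v (Submodule.subset_span ⟨0, rfl⟩)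
  have hab : β a b = 0 :=
    LinearMap.BilinForm.mem_orthogonal_iff.1 hbU a (Submodule.subset_span ⟨1, rfl⟩)
  exact SiegelFull.commutator_le_of_mover Q hB (by omega) hfullp ha hab (hfix a b ha hab hva hvb)
    (by rw [Witt.polar_symm', hap]; exact one_ne_zero) hb

/-- Some element of the commutator subgroup moves a nonsingular point. -/
theorem exists_moving_point {v : V} (hv : Q v ≠ 0) :
    ∃ g ∈ commutator (Witt.quadIso Q), g.1 v ∉ Submodule.span F {v} := by
  have hv0 : v ≠ 0 := fun h => hv (by rw [h, QuadraticMap.map_zero])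
  obtain ⟨q, hq, -, hqv⟩ := SingularVectors.exists_sing Q hB (![] : Fin 0 → V) (by omega) (v := v)
    (by simpa [Matrix.range_empty] using hv0)
  obtain ⟨z, hz⟩ : ∃ z, z ∉ Submodule.span F (Set.range ![q, v]) := by
    by_contra hcon
    push Not at hcon
    have h1 := Submodule.finrank_mono (show (⊤ : Submodule F V) ≤ _ from fun z _ => hcon z)
    have h2 := finrank_range_le_card (R := F) ![q, v]
    rw [Set.finrank] at h2
    simp only [Fintype.card_fin] at h2
    rw [finrank_top] at h1
    omega
  obtain ⟨u, hu, hur, -, hus⟩ := SingularVectors.exists_sing_avoid Q hB _ (by omega) hz ![v] (by omega)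
  have hqu : β q u = 0 := by rw [Witt.polar_symm']; exact hur 0
  refine ⟨siegel Q q u, siegel_mem_commutator Q hB (by omega) hq hqu, fun hc => hus ?_⟩
  rw [siegel_apply Q hq hqu, Witt.polar_symm' Q v q, hqv,
    show β v u = 0 by rw [Witt.polar_symm']; exact hur 1, hu] at hc
  obtain ⟨c, hc⟩ := Submodule.mem_span_singleton.1 hc
  refine (Submodule.mem_span_range_iff_exists_fun F).2 ⟨![c - 1], ?_⟩
  rw [Fin.sum_univ_one, Matrix.cons_val_zero, Matrix.cons_val_zero]
  linear_combination (norm := module) hc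

end abstract

variable {ι : Type} [Fintype ι] [DecidableEq ι] {F : Type*} [Field F] [Finite F] {f : (ι → F) → F}
  {Q : QuadraticForm F (ι → F)}

lemma toGL_mem_stab (h : ∀ v, Q v = f v) (W : Submodule F (ι → F)) (g : Witt.quadIso Q) :
    OmegaBridge.toGL h g ∈ Cfsg.Geo.subspaceStabilizer W ↔ ∀ x ∈ W, g.1 x ∈ W := by
  constructor
  · intro hg x hx
    have := (mem_subspaceStabilizer.1 hg x).1 hx
    rwa [OmegaBridge.toGL_mulVec] at this
  · intro hg
    exact Cfsg.Lib.Classical.map_eq_of_maps_to fun x hx => by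
      rw [OmegaBridge.toGL_mulVec]; exact hg x hx

/-- The stabiliser of a totally singular subspace is maximal. -/
theorem maximal_singular (h : ∀ v, Q v = f v) (hB : (QuadraticMap.polarBilin Q).Nondegenerate)
    (hn : 13 ≤ finrank F (ι → F)) (W : Submodule F (ι → F)) (hW0 : W ≠ ⊥)
    (hW : ∀ x ∈ W, Q x = 0)
    (hcase : (∀ y, Q y = 0 → (∀ x ∈ W, QuadraticMap.polarBilin Q x y = 0) → y ∈ W) ∨
      2 * finrank F W + 3 ≤ finrank F (ι → F)) :
    Cfsg.Geo.IsMaximalIn (Cfsg.Geo.omegaGL f) (Cfsg.Geo.subspaceStabilizer W ⊓ Cfsg.Geo.omegaGL f) := by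
  refine OmegaBridge.isMaximalIn h _ ?_ fun H hH g hg _ hgN => ?_
  · obtain ⟨g, hg, hgW⟩ := exists_moving Q hB hn W hW hW0
    exact ⟨g, hg, fun hc => hgW ((toGL_mem_stab h W g).1 hc)⟩
  · exact commutator_le_of_singular Q hB hn W hW hcase
      (fun g hg hgW => hH g hg ((toGL_mem_stab h W g).2 hgW)) hg
      fun hgW => hgN ((toGL_mem_stab h W g).2 hgW)

/-- The stabiliser of a nonsingular point is maximal. -/
theorem maximal_point (h : ∀ v, Q v = f v) (hB : (QuadraticMap.polarBilin Q).Nondegenerate)
    (hn : 13 ≤ finrank F (ι → F)) {v : ι → F} (hv : Q v ≠ 0) :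
    Cfsg.Geo.IsMaximalIn (Cfsg.Geo.omegaGL f)
      (Cfsg.Geo.subspaceStabilizer (Submodule.span F {v}) ⊓ Cfsg.Geo.omegaGL f) := by
  have hiff : ∀ g : Witt.quadIso Q, (∀ x ∈ Submodule.span F {v}, g.1 x ∈ Submodule.span F {v}) ↔
      g.1 v ∈ Submodule.span F {v} := fun g =>
    ⟨fun hh => hh v (Submodule.mem_span_singleton_self v), fun hh x hx => by
      obtain ⟨c, rfl⟩ := Submodule.mem_span_singleton.1 hx
      rw [map_smul]
      exact Submodule.smul_mem _ _ hh⟩
  refine OmegaBridge.isMaximalIn h _ ?_ fun H hH g hg _ hgN => ?_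
  · obtain ⟨g, hg, hgv⟩ := exists_moving_point Q hB hn hv
    exact ⟨g, hg, fun hc => hgv ((hiff g).1 ((toGL_mem_stab h _ g).1 hc))⟩
  · exact commutator_le_of_point Q hB hn hv
      (fun g hg hgv => hH g hg ((toGL_mem_stab h _ g).2 ((hiff g).2 (by
        rw [hgv]; exact Submodule.mem_span_singleton_self v)))) hg
      fun hgv => hgN ((toGL_mem_stab h _ g).2 ((hiff g).2 hgv))

end Cfsg.Lib.Classical.OrthSingularStab
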