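import Mathlib
import Cfsg.Agent.Lib.Classical.OrthSingularStab

/-!
Stabilisers of nondegenerate subspaces are maximal in `omegaGL`.
-/

set_option autoImplicit false

namespace Cfsg.Lib.Classical.OrthNondegStab

open Module SiegelElements
open scoped MatrixGroups

section abstract

variable {F V : Type*} [Field F] [AddCommGroup V] [Module F V] [FiniteDimensional F V]
  (Q : QuadraticForm F V)

local notation "β" => QuadraticMap.polarBilin Q

/-- The orthogonal complement. -/
local notation "perp" => fun S => LinearMap.BilinForm.orthogonal (QuadraticMap.polarBilin Q) S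

lemma mem_perp {S : Submodule F V} {x : V} : x ∈ perp S ↔ ∀ y ∈ S, β y x = 0 :=
  LinearMap.BilinForm.mem_orthogonal_iff

variable (hB : (QuadraticMap.polarBilin Q).Nondegenerate) {U : Submodule F V}
  (hU : U ⊓ LinearMap.BilinForm.orthogonal (QuadraticMap.polarBilin Q) U = ⊥)
include hB hU

lemma decompose (x : V) : ∃ a ∈ U, ∃ b ∈ perp U, x = a + b := by
  have htop : U ⊔ perp U = ⊤ := by
    apply Submodule.eq_top_of_finrank_eq
    have h1 := Submodule.finrank_sup_add_finrank_inf_eq U (perp U)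
    have h2 : finrank F (perp U) = finrank F V - finrank F U :=
      LinearMap.BilinForm.finrank_orthogonal hB (W := U)
    rw [hU, finrank_bot] at h1
    have := U.finrank_le
    omega
  obtain ⟨a, ha, b, hb, e⟩ := Submodule.mem_sup.1 (htop ▸ Submodule.mem_top : x ∈ U ⊔ perp U)
  exact ⟨a, ha, b, hb, e.symm⟩

/-- A linear functional separating inside the subspace. -/
lemma exists_dual {k : ℕ} (r : Fin k → V) {x : V} (hx : x ∈ U) (hr : ∀ i, r i ∈ U)
    (hxr : x ∉ Submodule.span F (Set.range r)) : ∃ z ∈ U, β x z = 1 ∧ ∀ i, β (r i) z = 0 := by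
  obtain ⟨f, hfx, hf⟩ := Witt.exists_fun_of_not_mem _ hxr
  obtain ⟨y, hy⟩ := Witt.exists_polar hB f
  obtain ⟨a, ha, b, hb, rfl⟩ := decompose Q hB hU y
  have key : ∀ z ∈ U, β z a = f z := fun z hz => by
    rw [Witt.polar_symm' Q z a, ← hy z, map_add, LinearMap.add_apply,
      show β b z = 0 by rw [Witt.polar_symm']; exact (mem_perp Q).1 hb z hz, add_zero]
  exact ⟨a, ha, by rw [key x hx, hfx], fun i => by rw [key _ (hr i), hf _ (Submodule.subset_span ⟨i, rfl⟩)]⟩

lemma exists_pair {p : V} (hp : p ∈ U) (hQp : Q p = 0) (hp0 : p ≠ 0) :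
    ∃ q ∈ U, Q q = 0 ∧ β p q = 1 := by
  obtain ⟨z, hz, hpz, -⟩ := exists_dual Q hB hU (![] : Fin 0 → V) hp (fun i => i.elim0)
    (by simpa [Matrix.range_empty] using hp0)
  refine ⟨z - Q z • p, U.sub_mem hz (U.smul_mem _ hp), ?_, ?_⟩
  · rw [sub_eq_add_neg, ← neg_smul, Witt.quad_add, Witt.quad_smul, map_smul, smul_eq_mul, hQp,
      Witt.polar_symm' Q z p, hpz]
    ring
  · rw [map_sub, map_smul, smul_eq_mul, Witt.polar_self', hQp, hpz]
    ring

/-- Singular vectors span a nondegenerate subspace with a singular vector. -/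
lemma le_of_singular {e : V} (he : e ∈ U) (hQe : Q e = 0) (he0 : e ≠ 0) (M : Submodule F V)
    (hM : ∀ x ∈ U, Q x = 0 → x ≠ 0 → x ∈ M) : U ≤ M := by
  have hM' : ∀ x ∈ U, Q x = 0 → x ∈ M := fun x hx hQ => by
    by_cases h : x = 0
    · exact h ▸ M.zero_mem
    · exact hM x hx hQ h
  obtain ⟨f, hf, hQf, hef⟩ := exists_pair Q hB hU he hQe he0
  intro x hx
  set y := x - β f x • e - β e x • f with hy
  have hyU : y ∈ U := U.sub_mem (U.sub_mem hx (U.smul_mem _ he)) (U.smul_mem _ hf)
  have hey : β e y = 0 := by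
    simp only [hy, map_sub, map_smul, Witt.polar_self', hQe, hef, smul_eq_mul]; ring
  have hfy : β f y = 0 := by
    simp only [hy, map_sub, map_smul, Witt.polar_self', hQf, Witt.polar_symm' Q f e, hef, smul_eq_mul]
    ring
  have h1 : y + (f - Q y • e) ∈ M := by
    refine hM' _ (U.add_mem hyU (U.sub_mem hf (U.smul_mem _ he))) ?_
    rw [Witt.quad_add, sub_eq_add_neg f, ← neg_smul, Witt.quad_add, Witt.quad_smul, map_add, map_smul,
      map_smul, Witt.polar_symm' Q y e, hey, Witt.polar_symm' Q y f, hfy, Witt.polar_symm' Q f e, hef,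
      hQe, hQf]
    simp only [smul_eq_mul]
    ring
  have h2 : x = (y + (f - Q y • e)) - f + Q y • e + β f x • e + β e x • f := by rw [hy]; module
  rw [h2]
  exact M.add_mem (M.add_mem (M.add_mem (M.sub_mem h1 (hM' f hf hQf)) (M.smul_mem _ (hM' e he hQe)))
    (M.smul_mem _ (hM' e he hQe))) (M.smul_mem _ (hM' f hf hQf))

variable [Finite F] (hu : 6 ≤ finrank F U)
include hu

/-- A hyperbolic pair inside the complement of a hyperbolic pair of `U`. -/
lemma exists_hyp {p q : V} (hp : p ∈ U) (hq : q ∈ U) (hQp : Q p = 0) (hQq : Q q = 0) (hpq : β p q = 1) :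
    ∃ s ∈ U, ∃ t ∈ U, Q s = 0 ∧ β p s = 0 ∧ β q s = 0 ∧ β p t = 0 ∧ β q t = 0 ∧ β s t = 1 := by
  set L := U ⊓ perp (Submodule.span F (Set.range ![p, q])) with hL
  have h1 := Submodule.finrank_sup_add_finrank_inf_eq U (perp (Submodule.span F (Set.range ![p, q])))
  have h2 : finrank F (perp (Submodule.span F (Set.range ![p, q]))) =
      finrank F V - finrank F (Submodule.span F (Set.range ![p, q])) :=
    LinearMap.BilinForm.finrank_orthogonal hB (W := Submodule.span F (Set.range ![p, q]))
  have h3 := (U ⊔ perp (Submodule.span F (Set.range ![p, q]))).finrank_le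
  have h4 := finrank_range_le_card (R := F) ![p, q]
  rw [Set.finrank] at h4
  simp only [Fintype.card_fin] at h4
  rw [← hL] at h1
  obtain ⟨s, ⟨hs, hsL⟩, hs0, hQs⟩ := SingularVectors.exists_zero Q L (by omega)
  have hps : β p s = 0 := (mem_perp Q).1 hsL p (Submodule.subset_span ⟨0, rfl⟩)
  have hqs : β q s = 0 := (mem_perp Q).1 hsL q (Submodule.subset_span ⟨1, rfl⟩)
  obtain ⟨z, hz, hsz, -⟩ := exists_dual Q hB hU (![] : Fin 0 → V) hs (fun i => i.elim0)
    (by simpa [Matrix.range_empty] using hs0)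
  refine ⟨s, hs, z - β q z • p - β p z • q, U.sub_mem (U.sub_mem hz (U.smul_mem _ hp)) (U.smul_mem _ hq),
    hQs, hps, hqs, ?_, ?_, ?_⟩ <;>
  simp only [map_sub, map_smul, Witt.polar_self', hQp, hQq, hpq, Witt.polar_symm' Q q p, hsz,
    Witt.polar_symm' Q s p, Witt.polar_symm' Q s q, hps, hqs, smul_eq_mul] <;> ring

lemma exists_value {p q : V} (hp : p ∈ U) (hq : q ∈ U) (hQp : Q p = 0) (hQq : Q q = 0) (hpq : β p q = 1)
    (c : F) : ∃ x ∈ U, β p x = 0 ∧ β q x = 0 ∧ Q x = c := by
  obtain ⟨s, hs, t, ht, hQs, hps, hqs, hpt, hqt, hst⟩ := exists_hyp Q hB hU hu hp hq hQp hQq hpq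
  refine ⟨t + (c - Q t) • s, U.add_mem ht (U.smul_mem _ hs), ?_, ?_, ?_⟩
  · rw [map_add, map_smul, hpt, hps, smul_zero, add_zero]
  · rw [map_add, map_smul, hqt, hqs, smul_zero, add_zero]
  · rw [Witt.quad_add, Witt.quad_smul, hQs, map_smul, Witt.polar_symm' Q t s, hst, smul_eq_mul]
    ring

variable (hn : 13 ≤ finrank F V) {H : Subgroup (Witt.quadIso Q)}
  (hH : ∀ g ∈ commutator (Witt.quadIso Q), (∀ x ∈ U, g.1 x ∈ U) → g ∈ H)
include hn hH

/-- Any isometry preserving the complement agrees on it, and at a singular point, with an element of `H`. -/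
theorem stab_elem {p : V} (hp : p ∈ U) (hQp : Q p = 0) (hp0 : p ≠ 0) (σ : Witt.quadIso Q)
    (hσ : ∀ x ∈ perp U, σ.1 x ∈ perp U) :
    ∃ c ∈ H, c.1 p = σ.1 p ∧ ∀ x ∈ perp U, c.1 x = σ.1 x := by
  obtain ⟨q, hq, hQq, hpq⟩ := exists_pair Q hB hU hp hQp hp0
  let S : Subgroup (Witt.quadIso Q) :=
    { carrier := {a | a.1 p = p ∧ ∀ x ∈ perp U, a.1 x = x}
      one_mem' := ⟨rfl, fun _ _ => rfl⟩
      mul_mem' := fun {a b} ha hb => ⟨by show a.1 (b.1 p) = p; rw [hb.1, ha.1],
        fun x hx => by show a.1 (b.1 x) = x; rw [hb.2 x hx, ha.2 x hx]⟩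
      inv_mem' := fun {a} ha => ⟨by show a.1.symm p = p; rw [LinearEquiv.symm_apply_eq, ha.1],
        fun x hx => by show a.1.symm x = x; rw [LinearEquiv.symm_apply_eq, ha.2 x hx]⟩ }
  have htop : (⊤ : Subgroup (Witt.quadIso Q)) ≤ commutator (Witt.quadIso Q) ⊔ S := by
    rw [← Reflections.closure_refl hB (Or.inr (by omega)), Subgroup.closure_le]
    rintro _ ⟨z, hz, rfl⟩
    obtain ⟨x, hx, hpx, hqx, hQx⟩ := exists_value Q hB hU hu hp hq hQp hQq hpq (Q z)
    have h1 : Reflections.refl Q x ∈ S :=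
      ⟨Reflections.refl_fix Q (by rw [Witt.polar_symm']; exact hpx),
        fun y hy => Reflections.refl_fix Q ((mem_perp Q).1 hy x hx)⟩
    have h2 := Subgroup.mul_mem_sup (OmegaCentre.refl_mul_mem_commutator hB hz hQx.symm) h1
    rwa [mul_assoc, Reflections.refl_mul_self, mul_one] at h2
  obtain ⟨c, hc, a, ha, rfl⟩ := Subgroup.mem_sup_of_normal_left.1 (htop (Subgroup.mem_top σ))
  have hc1 : c.1 p = (c * a).1 p := by show c.1 p = c.1 (a.1 p); rw [ha.1]
  have hc2 : ∀ x ∈ perp U, c.1 x = (c * a).1 x := fun x hx => by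
    show c.1 x = c.1 (a.1 x); rw [ha.2 x hx]
  refine ⟨c, hH c hc fun x hx => ?_, hc1, hc2⟩
  obtain ⟨u, hu', k, hk, e⟩ := decompose Q hB hU (c.1 x)
  suffices hk0 : k = 0 by rw [e, hk0, add_zero]; exact hu'
  have hsurj : ∀ y ∈ perp U, ∃ z ∈ perp U, c.1 z = y := fun y hy => by
    have hinj : Function.Injective ((c.1 : V →ₗ[F] V).restrict (p := perp U) (q := perp U)
        fun z hz => by show c.1 z ∈ _; rw [hc2 z hz]; exact hσ z hz) := fun z z' h => by
      exact Subtype.ext (c.1.injective (congrArg Subtype.val h))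
    obtain ⟨z, hz⟩ := LinearMap.surjective_of_injective hinj ⟨y, hy⟩
    exact ⟨z.1, z.2, congrArg Subtype.val hz⟩
  have hk' : k ∈ U ⊓ perp U := by
    refine ⟨?_, hk⟩
    have : k ∈ perp (perp U) := (mem_perp Q).2 fun y hy => by
      obtain ⟨z, hz, rfl⟩ := hsurj y hy
      have h3 : β (c.1 z) (c.1 x) = 0 := by
        rw [Reflections.polar_apply, Witt.polar_symm']
        exact (mem_perp Q).1 hz x hx
      rwa [e, map_add, Witt.polar_symm' Q (c.1 z) u, (mem_perp Q).1 hy u hu', zero_add] at h3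
    rwa [show perp (perp U) = U from
      LinearMap.BilinForm.orthogonal_orthogonal hB (SingularVectors.refl' Q) U] at this
  rwa [hU, Submodule.mem_bot] at hk'

variable (hplane : ¬ (Nat.card F ≤ 3 ∧
  finrank F (LinearMap.BilinForm.orthogonal (QuadraticMap.polarBilin Q) U) = 2 ∧
  ∃ e ∈ LinearMap.BilinForm.orthogonal (QuadraticMap.polarBilin Q) U, e ≠ 0 ∧ Q e = 0))
include hplane

/-- A root element leaving `U` makes its point full. -/
theorem full_of_mem {p v : V} (hp : p ∈ U) (hQp : Q p = 0) (hp0 : p ≠ 0) (hpv : β p v = 0)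
    (hv : siegel Q p v ∈ H) (hvU : v ∉ U) : SiegelFull.Full Q H p := by
  set K := perp U with hK
  have hKp : ∀ x ∈ K, β p x = 0 := fun x hx => (mem_perp Q).1 hx p hp
  have hN : ∀ w ∈ U, β p w = 0 → siegel Q p w ∈ H := fun w hw hpw =>
    hH _ (siegel_mem_commutator Q hB (by omega) hQp hpw) fun x hx => by
      rw [siegel_apply Q hQp hpw]
      exact U.sub_mem (U.add_mem hx (U.smul_mem _ hw)) (U.smul_mem _ hp)
  obtain ⟨a, ha, b₀, hb₀, hvab⟩ := decompose Q hB hU v
  have hb0 : b₀ ≠ 0 := fun h => hvU (by rw [hvab, h, add_zero]; exact ha)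
  have hpa : β p a = 0 := by rwa [hvab, map_add, hKp b₀ hb₀, add_zero] at hpv
  -- the part of the root group in the complement
  let B : Submodule F V :=
    { carrier := {x | x ∈ K ∧ siegel Q p x ∈ H}
      zero_mem' := ⟨K.zero_mem, by rw [siegel_zero Q hQp]; exact one_mem H⟩
      add_mem' := fun {x y} hx hy => ⟨K.add_mem hx.1 hy.1, by
        rw [← siegel_mul Q hQp (hKp x hx.1) (hKp y hy.1)]; exact H.mul_mem hx.2 hy.2⟩
      smul_mem' := fun d x hx => ⟨K.smul_mem d hx.1, by
        by_cases hd : d = 0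
        · subst hd; rw [zero_smul, siegel_zero Q hQp]; exact one_mem H
        obtain ⟨q, hq, hQq, hpq⟩ := exists_pair Q hB hU hp hQp hp0
        have hQd : ∀ e : F, Q (p - e • q) = -e := fun e => by
          rw [sub_eq_add_neg, ← neg_smul, Witt.quad_add, Witt.quad_smul, map_smul, smul_eq_mul, hQp, hQq,
            hpq]
          ring
        have hfx : ∀ e : F, ∀ y ∈ K, (Reflections.refl Q (p - e • q)).1 y = y := fun e y hy =>
          Reflections.refl_fix Q ((mem_perp Q).1 hy _ (U.sub_mem hp (U.smul_mem _ hq)))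
        obtain ⟨c, hc, hcp, hcK⟩ := stab_elem Q hB hU hu hn hH hp hQp hp0
          (Reflections.refl Q (p - (1 : F) • q) * Reflections.refl Q (p - d • q)) fun y hy => by
            show (Reflections.refl Q _).1 ((Reflections.refl Q _).1 y) ∈ K
            rw [hfx d y hy, hfx 1 y hy]; exact hy
        have h1 := H.mul_mem (H.mul_mem hc hx.2) (H.inv_mem hc)
        rw [siegel_conj Q c hQp (hKp x hx.1), hcK x hx.1, hcp] at h1
        have e1 : (Reflections.refl Q (p - (1 : F) • q) * Reflections.refl Q (p - d • q)).1 p = d • p := by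
          show (Reflections.refl Q _).1 ((Reflections.refl Q _).1 p) = d • p
          have s1 : (Reflections.refl Q (p - d • q)).1 p = d • q := by
            rw [Reflections.refl_apply, hQd, map_sub, LinearMap.sub_apply, map_smul, LinearMap.smul_apply,
              Witt.polar_self', hQp, Witt.polar_symm' Q q p, hpq, smul_eq_mul, mul_zero, mul_one, zero_sub,
              inv_neg, neg_mul_neg, inv_mul_cancel₀ hd]
            module
          rw [s1, map_smul, Reflections.refl_apply, hQd, map_sub, LinearMap.sub_apply, map_smul,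
            LinearMap.smul_apply, Witt.polar_self', hQq, hpq, smul_eq_mul, inv_neg, inv_one]
          module
        rw [e1] at h1
        have e2 : (Reflections.refl Q (p - (1 : F) • q) * Reflections.refl Q (p - d • q)).1 x = x := by
          show (Reflections.refl Q _).1 ((Reflections.refl Q _).1 x) = x
          rw [hfx d x hx.1, hfx 1 x hx.1]
        rw [e2] at h1
        convert h1 using 1
        refine ext' Q fun y => ?_
        rw [siegel_apply Q hQp (by rw [map_smul, hKp x hx.1, smul_zero]),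
          siegel_apply Q (by rw [Witt.quad_smul, hQp, mul_zero])
            (by rw [map_smul, LinearMap.smul_apply, hKp x hx.1, smul_zero]), Witt.quad_smul, map_smul,
          map_smul, smul_eq_mul, smul_eq_mul]
        module⟩ }
  have hinv : ∀ x ∈ B, ∀ σ : Witt.quadIso Q, σ.1 p = p → (∀ y ∈ K, σ.1 y ∈ K) → σ.1 x ∈ B := by
    intro x hx σ hσp hσ
    obtain ⟨c, hc, hcp, hcK⟩ := stab_elem Q hB hU hu hn hH hp hQp hp0 σ hσ
    refine ⟨hσ x hx.1, ?_⟩
    have h1 := H.mul_mem (H.mul_mem hc hx.2) (H.inv_mem hc)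
    rwa [siegel_conj Q c hQp (hKp x hx.1), hcK x hx.1, hcp, hσp] at h1
  have hbB : b₀ ∈ B := by
    refine ⟨hb₀, ?_⟩
    have h1 := H.mul_mem hv (hN (-a) (U.neg_mem ha) (by rw [map_neg, hpa, neg_zero]))
    rwa [siegel_mul Q hQp (by rw [hvab, map_add, hpa, hKp b₀ hb₀, add_zero])
      (by rw [map_neg, hpa, neg_zero]), hvab, add_neg_cancel_comm] at h1
  have hKK : K ⊓ perp K = ⊥ := by
    rw [hK, show perp (perp U) = U from
      LinearMap.BilinForm.orthogonal_orthogonal hB (SingularVectors.refl' Q) U, inf_comm, hU]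
  -- invariance under Witt
  have horbit : ∀ x ∈ B, x ≠ 0 → ∀ y ∈ K, y ≠ 0 → Q y = Q x → y ∈ B := by
    intro x hx hx0 y hy hy0 hQy
    let w : Fin (finrank F U) → V := fun i => (Module.finBasis F U i : V)
    have hw : ∀ i, w i ∈ U := fun i => (Module.finBasis F U i).2
    have hwi : LinearIndependent F w :=
      (Module.finBasis F U).linearIndependent.map' U.subtype (Submodule.ker_subtype U)
    have hspan : Submodule.span F (Set.range w) = U := by
      have : Set.range w = U.subtype '' Set.range (Module.finBasis F U) := by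
        rw [← Set.range_comp]; rfl
      rw [this, Submodule.span_image, (Module.finBasis F U).span_eq, Submodule.map_subtype_top]
    have hli : ∀ z ∈ K, z ≠ 0 → LinearIndependent F (Fin.cons z w) := fun z hz hz0 =>
      linearIndependent_finCons.2 ⟨hwi, fun hc => hz0 (by
        have : z ∈ U ⊓ K := ⟨hspan ▸ hc, hz⟩
        rwa [hU, Submodule.mem_bot] at this)⟩
    obtain ⟨σ', hσm, hσ⟩ := Witt.quad_witt hB (Fin.cons x w) (Fin.cons y w) (hli x hx.1 hx0) (hli y hy hy0)
      (fun i => by refine Fin.cases ?_ (fun l => ?_) i <;> simp [hQy]) fun i l => by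
        refine Fin.cases ?_ (fun l' => ?_) l <;> refine Fin.cases ?_ (fun i' => ?_) i
        · simp [Witt.polar_self', hQy, -QuadraticMap.polarBilin_apply_apply]
        · simp [(mem_perp Q).1 hy _ (hw i'), (mem_perp Q).1 hx.1 _ (hw i'),
            -QuadraticMap.polarBilin_apply_apply]
        · simp [Witt.polar_symm' Q y, Witt.polar_symm' Q x, (mem_perp Q).1 hy _ (hw l'),
            (mem_perp Q).1 hx.1 _ (hw l'), -QuadraticMap.polarBilin_apply_apply]
        · simp
    set σ : Witt.quadIso Q := ⟨σ', hσm⟩ with hσdef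
    have hσU : ∀ z ∈ U, σ.1 z = z := fun z hz => by
      rw [← hspan] at hz
      induction hz using Submodule.span_induction with
      | mem z hz => obtain ⟨i, rfl⟩ := hz; simpa using hσ i.succ
      | zero => simp
      | add a b _ _ ha hb => rw [map_add, ha, hb]
      | smul d a _ ha => rw [map_smul, ha]
    have h0 := hσ 0
    simp only [Fin.cons_zero] at h0
    rw [← h0]
    refine hinv x hx σ (hσU p hp) fun z hz => (mem_perp Q).2 fun u hu' => ?_
    rw [← hσU u hu', Reflections.polar_apply]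
    exact (mem_perp Q).1 hz u hu'
  have hBK : K ≤ B := by
    by_contra hne
    have hnos : ∀ x ∈ B, Q x = 0 → x = 0 := fun x hx hQx => by_contra fun hx0 =>
      hne (le_of_singular Q hB hKK hx.1 hQx hx0 B fun y hy hQy hy0 =>
        horbit x hx hx0 y hy hy0 (hQy.trans hQx.symm))
    have hQb : Q b₀ ≠ 0 := fun h => hb0 (hnos b₀ hbB h)
    by_cases hiso : ∃ e ∈ K, e ≠ 0 ∧ Q e = 0
    · obtain ⟨e, he, he0, hQe⟩ := hiso
      obtain ⟨f, hf, hQf, hef⟩ := exists_pair Q hB hKK he hQe he0
      have hf0 : f ≠ 0 := fun h => by rw [h, map_zero] at hef; exact zero_ne_one hef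
      have hfB : f ∉ B := fun h => hf0 (hnos f h hQf)
      have hval : ∀ t : F, t ≠ 0 → ∀ y ∈ K, β e y = 0 → β f y = 0 →
          t • e + ((Q b₀ - Q y) * t⁻¹) • f + y ∈ B := by
        intro t ht y hy hey hfy
        have hQ : Q (t • e + ((Q b₀ - Q y) * t⁻¹) • f + y) = Q b₀ := by
          simp only [Witt.quad_add, Witt.quad_smul, map_add, map_smul, LinearMap.add_apply,
            LinearMap.smul_apply, hQe, hQf, hef, hey, hfy, smul_eq_mul]
          field_simp
          ring
        refine horbit b₀ hbB hb0 _ (K.add_mem (K.add_mem (K.smul_mem _ he) (K.smul_mem _ hf)) hy) ?_ hQ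
        exact fun h => hQb (by rw [← hQ, h, QuadraticMap.map_zero])
      by_cases hk : finrank F K = 2
      · obtain ⟨t, ht, ht1⟩ : ∃ t : F, t ≠ 0 ∧ t * t ≠ 1 := by
          by_contra hcon
          push Not at hcon
          refine hplane ⟨?_, hk, e, he, he0, hQe⟩
          classical
          haveI := Fintype.ofFinite F
          rw [Nat.card_eq_fintype_card, ← Finset.card_univ]
          calc (Finset.univ : Finset F).card ≤ ({0, 1, -1} : Finset F).card :=
                Finset.card_le_card fun x _ => by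
                  by_cases hx : x = 0
                  · simp [hx]
                  · rcases mul_self_eq_one_iff.1 (hcon x hx) with h | h <;> simp [h]
            _ ≤ 3 := Finset.card_le_three
        have h1 := hval 1 one_ne_zero 0 K.zero_mem (by simp) (by simp)
        have h2 := hval t ht 0 K.zero_mem (by simp) (by simp)
        have h3 := B.sub_mem (B.smul_mem t h1) h2
        rw [show t • ((1 : F) • e + ((Q b₀ - Q 0) * (1 : F)⁻¹) • f + 0) -
            (t • e + ((Q b₀ - Q 0) * t⁻¹) • f + 0) = (Q b₀ * (t - t⁻¹)) • f by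
          rw [QuadraticMap.map_zero, inv_one]; module] at h3
        have hne' : Q b₀ * (t - t⁻¹) ≠ 0 := mul_ne_zero hQb fun h => ht1 (by
          rw [sub_eq_zero] at h; nth_rewrite 2 [h]; exact mul_inv_cancel₀ ht)
        exact hfB ((B.smul_mem_iff hne').1 h3)
      · obtain ⟨y, ⟨hy, hey, hfy⟩, hy0⟩ :
            ∃ y, (y ∈ K ∧ β e y = 0 ∧ β f y = 0) ∧ y ≠ 0 := by
          by_contra hcon
          push Not at hcon
          apply hk
          have hli : K = Submodule.span F (Set.range ![e, f]) := by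
            refine le_antisymm (fun x hx => ?_) (Submodule.span_le.2 ?_)
            · have := hcon (x - β f x • e - β e x • f) ⟨K.sub_mem (K.sub_mem hx (K.smul_mem _ he))
                (K.smul_mem _ hf), by
                  simp only [map_sub, map_smul, Witt.polar_self', hQe, hef, smul_eq_mul]; ring, by
                  simp only [map_sub, map_smul, Witt.polar_self', hQf, Witt.polar_symm' Q f e, hef,
                    smul_eq_mul]; ring⟩
              refine (Submodule.mem_span_range_iff_exists_fun F).2 ⟨![β f x, β e x], ?_⟩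
              rw [Fin.sum_univ_two]
              simp only [Matrix.cons_val_zero, Matrix.cons_val_one]
              linear_combination (norm := module) -this
            · rintro _ ⟨i, rfl⟩; fin_cases i <;> simp [he, hf]
          rw [hli, finrank_span_eq_card, Fintype.card_fin]
          rw [LinearIndependent.pair_iff]
          intro a b hab
          have ha := congrArg (fun z => β z f) hab
          have hb := congrArg (fun z => β z e) hab
          simp only [map_add, map_smul, LinearMap.add_apply, LinearMap.smul_apply, map_zero,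
            LinearMap.zero_apply, Witt.polar_self', hQe, hQf, hef, Witt.polar_symm' Q f e,
            smul_eq_mul, mul_zero, mul_one, add_zero, zero_add] at ha hb
          exact ⟨ha, hb⟩
        obtain ⟨z', hz', hyz', -⟩ := exists_dual Q hB hKK (![] : Fin 0 → V) hy (fun i => i.elim0)
          (by simpa [Matrix.range_empty] using hy0)
        set z := z' - β f z' • e - β e z' • f with hzd
        have hz : z ∈ K := K.sub_mem (K.sub_mem hz' (K.smul_mem _ he)) (K.smul_mem _ hf)
        have hez : β e z = 0 := by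
          simp only [hzd, map_sub, map_smul, Witt.polar_self', hQe, hef, smul_eq_mul]; ring
        have hfz : β f z = 0 := by
          simp only [hzd, map_sub, map_smul, Witt.polar_self', hQf, Witt.polar_symm' Q f e, hef, smul_eq_mul]
          ring
        have hyz : β y z = 1 := by
          simp only [hzd, map_sub, map_smul, hyz', Witt.polar_symm' Q y e, Witt.polar_symm' Q y f, hey,
            hfy, smul_eq_mul]
          ring
        have h1 := B.sub_mem (B.sub_mem (hval 1 one_ne_zero (y + z) (K.add_mem hy hz)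
          (by rw [map_add, hey, hez, add_zero]) (by rw [map_add, hfy, hfz, add_zero]))
          (hval 1 one_ne_zero y hy hey hfy))
          (B.sub_mem (hval 1 one_ne_zero z hz hez hfz) (hval 1 one_ne_zero 0 K.zero_mem (by simp) (by simp)))
        rw [Witt.quad_add, hyz, QuadraticMap.map_zero, inv_one] at h1
        refine hfB ?_
        convert B.neg_mem h1 using 1
        module
    · push Not at hiso
      obtain ⟨z, hz, hzb⟩ : ∃ z ∈ K, z ∉ B := SetLike.not_le_iff_exists.1 hne
      have hrefl : ∀ y ∈ K, y ≠ 0 → β y b₀ ≠ 0 → y ∈ B := fun y hy hy0 hyb => by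
        have hQy : Q y ≠ 0 := fun h => hy0 (by_contra fun _ => hiso y hy hy0 h)
        have h1 := hinv b₀ hbB (Reflections.refl Q y)
          (Reflections.refl_fix Q (by rw [Witt.polar_symm']; exact hKp y hy)) fun w hw => by
            rw [Reflections.refl_apply]; exact K.sub_mem hw (K.smul_mem _ hy)
        rw [Reflections.refl_apply] at h1
        have h2 := B.smul_mem ((Q y)⁻¹ * β y b₀)⁻¹ (B.sub_mem hbB h1)
        rwa [sub_sub_cancel, smul_smul, inv_mul_cancel₀ (mul_ne_zero (inv_ne_zero hQy) hyb), one_smul]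
          at h2
      have hzb' : β z b₀ = 0 := by_contra fun h => hzb (hrefl z hz (fun h0 => hzb (h0 ▸ B.zero_mem)) h)
      obtain ⟨y, hy, hyb, -⟩ := exists_dual Q hB hKK (![] : Fin 0 → V) hb₀ (fun i => i.elim0)
        (by simpa [Matrix.range_empty] using hb0)
      have hyb' : β y b₀ = 1 := by rw [Witt.polar_symm']; exact hyb
      have h1 := hrefl (y + z) (K.add_mem hy hz)
        (fun h => by have := congrArg (β b₀) h; rw [map_add, Witt.polar_symm' Q b₀ z, hzb', hyb, map_zero,
          add_zero] at this; exact one_ne_zero this)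
        (by rw [map_add, LinearMap.add_apply, hyb', hzb', add_zero]; exact one_ne_zero)
      have h2 := hrefl y hy (fun h => by rw [h, map_zero] at hyb; exact zero_ne_one hyb)
        (by rw [hyb']; exact one_ne_zero)
      exact hzb (by simpa using B.sub_mem h1 h2)
  refine ⟨hQp, fun w hw => ?_⟩
  obtain ⟨x, hx, y, hy, rfl⟩ := decompose Q hB hU w
  have hpx : β p x = 0 := by rwa [map_add, hKp y hy, add_zero] at hw
  rw [← siegel_mul Q hQp hpx (hKp y hy)]
  exact H.mul_mem (hN x hx hpx) (hBK hy).2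

variable (hno : ∀ g : Witt.quadIso Q,
  ¬ ∀ x ∈ U, g.1 x ∈ LinearMap.BilinForm.orthogonal (QuadraticMap.polarBilin Q) U)
include hno

/-- Overgroups of the stabiliser of a nondegenerate subspace. -/
theorem commutator_le_of_nondeg {g : Witt.quadIso Q} (hg : g ∈ H) (hgU : ¬ ∀ x ∈ U, g.1 x ∈ U) :
    commutator (Witt.quadIso Q) ≤ H := by
  let im : Witt.quadIso Q → Submodule F V := fun h => U ⊓ U.map (h.1 : V →ₗ[F] V)
  -- an element moving `U` only a little
  obtain ⟨h, hh, hhU, hbig⟩ : ∃ h ∈ H, (¬ ∀ x ∈ U, h.1 x ∈ U) ∧ finrank F U ≤ finrank F (im h) + 2 := by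
    by_contra hcon
    push Not at hcon
    have hsmall := hcon g hg (by push Not at hgU; exact hgU)
    obtain ⟨e, he, he0, hQe⟩ := SingularVectors.exists_zero Q U (by omega)
    have hstab : ∀ p ∈ U, Q p = 0 → ∀ v ∈ U, β p v = 0 → ∀ x ∈ U, (siegel Q (g.1 p) (g.1 v)).1 x ∈ U := by
      intro p hp hQp v hv hpv
      have hm : siegel Q (g.1 p) (g.1 v) ∈ H := by
        rw [← siegel_conj Q g hQp hpv]
        refine H.mul_mem (H.mul_mem hg (hH _ (siegel_mem_commutator Q hB (by omega) hQp hpv)
          fun x hx => ?_)) (H.inv_mem hg)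
        rw [siegel_apply Q hQp hpv]
        exact U.sub_mem (U.add_mem hx (U.smul_mem _ hv)) (U.smul_mem _ hp)
      by_contra hc
      have h0 := hcon _ hm (by push Not at hc; exact hc)
      have hgp : Q (g.1 p) = 0 := by rw [g.2, hQp]
      have hgpv : β (g.1 p) (g.1 v) = 0 := by rw [Reflections.polar_apply, hpv]
      set S := perp (Submodule.span F (Set.range ![g.1 p, g.1 v])) with hS
      have hle : U ⊓ S ≤ im (siegel Q (g.1 p) (g.1 v)) := fun x hx => ⟨hx.1, x, hx.1, by
        have e1 : β x (g.1 p) = 0 := by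
          rw [Witt.polar_symm']; exact (mem_perp Q).1 hx.2 _ (Submodule.subset_span ⟨0, rfl⟩)
        have e2 : β x (g.1 v) = 0 := by
          rw [Witt.polar_symm']; exact (mem_perp Q).1 hx.2 _ (Submodule.subset_span ⟨1, rfl⟩)
        show (siegel Q (g.1 p) (g.1 v)).1 x = x
        rw [siegel_apply Q hgp hgpv, e1, e2]; simp⟩
      have h1 := Submodule.finrank_sup_add_finrank_inf_eq U S
      have h2 : finrank F S = finrank F V - finrank F (Submodule.span F (Set.range ![g.1 p, g.1 v])) :=
        LinearMap.BilinForm.finrank_orthogonal hB (W := Submodule.span F (Set.range ![g.1 p, g.1 v]))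
      have h3 := (U ⊔ S).finrank_le
      have h4 := finrank_range_le_card (R := F) ![g.1 p, g.1 v]
      rw [Set.finrank] at h4
      simp only [Fintype.card_fin] at h4
      have h5 := Submodule.finrank_mono hle
      omega
    refine hno g ?_
    have key : ∀ p ∈ U, Q p = 0 → p ≠ 0 → p ∈ (perp U).comap (g.1 : V →ₗ[F] V) := by
      intro p hp hQp hp0
      refine (mem_perp Q).2 fun x hx => ?_
      show β x (g.1 p) = 0
      by_contra hc
      obtain ⟨q, hq, hQq, hpq⟩ := exists_pair Q hB hU hp hQp hp0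
      obtain ⟨s, hs, t, ht, hQs, hps, hqs, hpt, hqt, hst⟩ := exists_hyp Q hB hU hu hp hq hQp hQq hpq
      have hd : ∀ v ∈ U, β p v = 0 →
          β x (g.1 p) • g.1 v - (β x (g.1 v) + Q v * β x (g.1 p)) • g.1 p ∈ U := by
        intro v hv hpv
        have h1 := U.sub_mem (hstab p hp hQp v hv hpv x hx) hx
        rw [siegel_apply Q (by rw [g.2, hQp]) (by rw [Reflections.polar_apply, hpv]), g.2] at h1
        convert h1 using 1
        abel
      have h1 := U.sub_mem (U.sub_mem (hd (s + t) (U.add_mem hs ht) (by rw [map_add, hps, hpt, add_zero]))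
        (hd s hs hps)) (hd t ht hpt)
      rw [Witt.quad_add, hst, map_add g.1, map_add (β x)] at h1
      have hgp : g.1 p ∈ U := by
        have h2 := U.smul_mem (-(β x (g.1 p))⁻¹) h1
        convert h2 using 1
        match_scalars <;> field_simp <;> ring
      have hgv : ∀ v ∈ U, β p v = 0 → g.1 v ∈ U := fun v hv hpv => by
        have h2 := U.smul_mem (β x (g.1 p))⁻¹ (U.add_mem (hd v hv hpv)
          (U.smul_mem (β x (g.1 v) + Q v * β x (g.1 p)) hgp))
        rwa [sub_add_cancel, smul_smul, inv_mul_cancel₀ hc, one_smul] at h2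
      have h2 : (U ⊓ perp (Submodule.span F {p})).map (g.1 : V →ₗ[F] V) ≤ im g := by
        rintro _ ⟨v, ⟨hv, hvp⟩, rfl⟩
        exact ⟨hgv v hv ((mem_perp Q).1 hvp p (Submodule.mem_span_singleton_self p)), v, hv, rfl⟩
      have h3 := Submodule.finrank_mono h2
      rw [LinearEquiv.finrank_map_eq g.1] at h3
      have h4 := Submodule.finrank_sup_add_finrank_inf_eq U (perp (Submodule.span F {p}))
      have h5 : finrank F (perp (Submodule.span F {p})) = finrank F V - finrank F (Submodule.span F {p}) :=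
        LinearMap.BilinForm.finrank_orthogonal hB (W := Submodule.span F {p})
      have h6 := (U ⊔ perp (Submodule.span F {p})).finrank_le
      rw [finrank_span_singleton hp0] at h5
      omega
    exact fun x hx => le_of_singular Q hB hU he hQe he0 _ key hx
  -- two singular points in the intersection
  obtain ⟨p₁, hp₁, hp₁0, hQp₁⟩ := SingularVectors.exists_zero Q (im h) (by omega)
  obtain ⟨L', hL'⟩ := Submodule.exists_isCompl (Submodule.span F {p₁})
  have hL : 3 ≤ finrank F (im h ⊓ L' : Submodule F V) := by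
    have h1 := Submodule.finrank_sup_add_finrank_inf_eq (im h) L'
    have h2 := Submodule.finrank_add_eq_of_isCompl hL'
    rw [finrank_span_singleton hp₁0] at h2
    have h3 := (im h ⊔ L').finrank_le
    omega
  obtain ⟨p₂, ⟨hp₂, hp₂L⟩, hp₂0, hQp₂⟩ := SingularVectors.exists_zero Q (im h ⊓ L') hL
  obtain ⟨-, a₁, ha₁, rfl⟩ := id hp₁
  obtain ⟨-, a₂, ha₂, rfl⟩ := id hp₂
  have hQa₁ : Q a₁ = 0 := by rw [← h.2]; exact hQp₁
  have hQa₂ : Q a₂ = 0 := by rw [← h.2]; exact hQp₂
  obtain ⟨z, hz, hz1, hz2⟩ := exists_dual Q hB hU (![a₂] : Fin 1 → V) ha₁ (fun i => by simpa using ha₂)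
    (fun hc => by
      obtain ⟨c, hc⟩ := (Submodule.mem_span_range_iff_exists_fun F).1 hc
      rw [Fin.sum_univ_one, Matrix.cons_val_zero] at hc
      refine hp₁0 ?_
      have hmem : h.1 a₁ ∈ Submodule.span F {h.1 a₁} ⊓ L' := ⟨Submodule.mem_span_singleton_self _, by
        rw [← hc, map_smul]; exact L'.smul_mem _ hp₂L⟩
      exact Submodule.disjoint_def.1 hL'.disjoint _ hmem.1 hmem.2)
  have hz2' : β a₂ z = 0 := hz2 0
  obtain ⟨p₀, hp₀, hhp, hQp₀, hp₀0, v, hv, hpv, hvU⟩ : ∃ p₀ ∈ U, h.1 p₀ ∈ U ∧ Q p₀ = 0 ∧ p₀ ≠ 0 ∧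
      ∃ v ∈ U, β p₀ v = 0 ∧ h.1 v ∉ U := by
    by_contra hcon
    push Not at hcon
    apply hhU
    intro y hy
    have h1 : h.1 (y - β a₁ y • z) ∈ U := hcon a₁ ha₁ hp₁.1 hQa₁ (fun e => hp₁0 (by
      simp [e])) _ (U.sub_mem hy (U.smul_mem _ hz))
      (by rw [map_sub, map_smul, hz1, smul_eq_mul, mul_one, sub_self])
    have h2 : h.1 z ∈ U := hcon a₂ ha₂ hp₂.1 hQa₂ (fun e => hp₂0 (by
      simp [e])) z hz hz2'
    have := U.add_mem h1 (U.smul_mem (β a₁ y) h2)
    rwa [← map_smul, ← map_add, sub_add_cancel] at this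
  have hQp : Q (h.1 p₀) = 0 := by rw [h.2, hQp₀]
  have hpv' : β (h.1 p₀) (h.1 v) = 0 := by rw [Reflections.polar_apply, hpv]
  have hmem : siegel Q (h.1 p₀) (h.1 v) ∈ H := by
    rw [← siegel_conj Q h hQp₀ hpv]
    refine H.mul_mem (H.mul_mem hh (hH _ (siegel_mem_commutator Q hB (by omega) hQp₀ hpv)
      fun x hx => ?_)) (H.inv_mem hh)
    rw [siegel_apply Q hQp₀ hpv]
    exact U.sub_mem (U.add_mem hx (U.smul_mem _ hv)) (U.smul_mem _ hp₀)
  have hp0 : h.1 p₀ ≠ 0 := fun e => hp₀0 (h.1.injective (e.trans (map_zero _).symm))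
  have hfull := full_of_mem Q hB hU hu hn hH hplane hhp hQp hp0 hpv' hmem hvU
  obtain ⟨q, hq, hQq, hpq⟩ := exists_pair Q hB hU hhp hQp hp0
  obtain ⟨b, hb, -, hqb, hQb⟩ := exists_value Q hB hU hu hhp hq hQp hQq hpq 1
  refine SiegelFull.commutator_le_of_mover Q hB (by omega) hfull hQq hqb
    (hH _ (siegel_mem_commutator Q hB (by omega) hQq hqb) fun x hx => ?_)
    (by rw [hpq]; exact one_ne_zero) (by rw [hQb]; exact one_ne_zero)
  rw [siegel_apply Q hQq hqb]
  exact U.sub_mem (U.add_mem hx (U.smul_mem _ hb)) (U.smul_mem _ hq)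

omit hH hplane hno in
/-- Some element of the commutator subgroup moves a nondegenerate proper subspace. -/
theorem exists_moving (htop : U ≠ ⊤) : ∃ g ∈ commutator (Witt.quadIso Q), ¬ ∀ x ∈ U, g.1 x ∈ U := by
  obtain ⟨x, hx⟩ : ∃ x, x ∉ U := by
    by_contra hcon
    push Not at hcon
    exact htop (Submodule.eq_top_iff'.2 hcon)
  obtain ⟨a, ha, b, hb, rfl⟩ := decompose Q hB hU x
  have hbU : b ∉ U := fun hc => hx (U.add_mem ha hc)
  obtain ⟨p, hp, hp0, hQp⟩ := SingularVectors.exists_zero Q U (by omega)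
  obtain ⟨q, hq, hQq, hpq⟩ := exists_pair Q hB hU hp hQp hp0
  have hpb : β p b = 0 := (mem_perp Q).1 hb p hp
  refine ⟨siegel Q p b, siegel_mem_commutator Q hB (by omega) hQp hpb, fun hall => hbU ?_⟩
  have h1 := hall q hq
  rw [siegel_apply Q hQp hpb, Witt.polar_symm' Q q p, hpq, one_smul, (mem_perp Q).1 hb q hq] at h1
  have h2 := U.add_mem (U.sub_mem h1 hq) (U.smul_mem (0 + Q b * 1) hp)
  convert h2 using 1
  abel

end abstract

section similitude

variable {F V : Type*} [Field F] [Finite F] [AddCommGroup V] [Module F V] [FiniteDimensional F V]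
  (Q : QuadraticForm F V)

local notation "β" => QuadraticMap.polarBilin Q

/-- A nondegenerate subspace of even dimension has a similitude of multiplier `-1`. -/
theorem exists_antiisometry (h2 : (2 : F) ≠ 0) (U : Submodule F V)
    (hU : U ⊓ LinearMap.BilinForm.orthogonal β U = ⊥) (hev : Even (finrank F U)) :
    ∃ T : U →ₗ[F] U, ∀ x : U, Q (T x : V) = -Q (x : V) := by
  classical
  letI : Invertible (2 : F) := invertibleOfNonzero h2
  haveI := Fintype.ofFinite F
  have hodd : Fintype.card F % 2 = 1 := by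
    refine FiniteField.odd_card_of_char_ne_two fun hc => h2 ?_
    have := hc ▸ (ringChar.Nat.cast_ringChar (R := F))
    exact_mod_cast this
  let B : LinearMap.BilinForm F U := (β).compl₁₂ U.subtype U.subtype
  have hBa : ∀ x y : U, B x y = β (x : V) (y : V) := fun x y => rfl
  have hS : LinearMap.IsSymm B := ⟨fun x y => by rw [hBa, hBa]; exact Witt.polar_symm' Q _ _⟩
  obtain ⟨v, hv⟩ := LinearMap.BilinForm.exists_orthogonal_basis (B := B) hS
  have ho : ∀ i l, i ≠ l → B (v i) (v l) = 0 := fun i l h => hv h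
  have hne : ∀ i, B (v i) (v i) ≠ 0 := by
    intro i h0
    refine v.ne_zero i (Subtype.ext ((Submodule.eq_bot_iff _).1 hU _
      ⟨(v i).2, LinearMap.BilinForm.mem_orthogonal_iff.2 fun y hy => ?_⟩))
    show β y (v i : V) = 0
    rw [← hBa ⟨y, hy⟩ (v i), ← v.sum_repr ⟨y, hy⟩, map_sum, LinearMap.sum_apply]
    refine Finset.sum_eq_zero fun l _ => ?_
    rw [map_smul, LinearMap.smul_apply]
    by_cases hl : l = i
    · rw [hl, h0, smul_zero]
    · rw [ho l i hl, smul_zero]
  obtain ⟨j, hj⟩ := hev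
  let e : Fin j × Fin 2 ≃ Fin (finrank F U) := finProdFinEquiv.trans (finCongr (by omega))
  let d : Fin j × Fin 2 → F := fun a => B (v (e a)) (v (e a))
  have hsol : ∀ i : Fin j, ∃ a b : F, d (i, 0) * (1 + a * a) + d (i, 1) * (b * b) = 0 := by
    intro i
    obtain ⟨a, b, hab⟩ := FiniteField.exists_root_sum_quadratic
      (f := (Polynomial.C (d (i, 0)) * Polynomial.X ^ 2 + Polynomial.C (d (i, 0)) : Polynomial F))
      (g := Polynomial.C (d (i, 1)) * Polynomial.X ^ 2)
      (by rw [Polynomial.degree_add_C (by rw [Polynomial.degree_C_mul_X_pow 2 (hne _)]; decide),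
            Polynomial.degree_C_mul_X_pow 2 (hne _)]; rfl)
      (by rw [Polynomial.degree_C_mul_X_pow 2 (hne _)]; rfl) hodd
    refine ⟨a, b, ?_⟩
    simp only [Polynomial.eval_add, Polynomial.eval_mul, Polynomial.eval_C, Polynomial.eval_pow,
      Polynomial.eval_X] at hab
    linear_combination hab
  choose a b hab using hsol
  let img : Fin j × Fin 2 → U := fun p => if p.2 = 0 then a p.1 • v (e (p.1, 0)) + b p.1 • v (e (p.1, 1))
    else (-((d (p.1, 0))⁻¹ * d (p.1, 1) * b p.1)) • v (e (p.1, 0)) + a p.1 • v (e (p.1, 1))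
  let T : U →ₗ[F] U := v.constr F fun i => img (e.symm i)
  have hT : ∀ p, T (v (e p)) = img p := fun p => by simp [T]
  have key : ∀ p r, B (img p) (img r) = -B (v (e p)) (v (e r)) := by
    rintro ⟨i, s⟩ ⟨l, t⟩
    have hz : ∀ s t : Fin 2, (i, s) ≠ (l, t) → B (v (e (i, s))) (v (e (l, t))) = 0 :=
      fun s t h => ho _ _ (e.injective.ne h)
    by_cases hil : i = l
    · subst hil
      have h01 : B (v (e (i, 0))) (v (e (i, 1))) = 0 := hz 0 1 (by simp)
      have h10 : B (v (e (i, 1))) (v (e (i, 0))) = 0 := hz 1 0 (by simp)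
      have hd0 : B (v (e (i, 0))) (v (e (i, 0))) = d (i, 0) := rfl
      have hd1 : B (v (e (i, 1))) (v (e (i, 1))) = d (i, 1) := rfl
      have hn0 : d (i, 0) ≠ 0 := hne _
      have := hab i
      fin_cases s <;> fin_cases t <;>
      simp only [img, Fin.zero_eta, Fin.mk_one, Fin.isValue, ↓reduceIte, one_ne_zero, map_add, map_smul,
        LinearMap.add_apply, LinearMap.smul_apply, h01, h10, hd0, hd1, smul_eq_mul, neg_zero] <;>
      field_simp
      · linear_combination this
      · ring
      · ring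
      · linear_combination d (i, 1) * this
    · have h0 : ∀ s t : Fin 2, B (v (e (i, s))) (v (e (l, t))) = 0 := fun s t => hz s t (by simp [hil])
      simp only [img]
      split <;> split <;> simp [h0]
  have hall : B.compl₁₂ T T = -B := by
    refine v.ext fun i => v.ext fun l => ?_
    obtain ⟨p, rfl⟩ := e.surjective i
    obtain ⟨r, rfl⟩ := e.surjective l
    simp [hT, key]
  refine ⟨T, fun x => mul_left_cancel₀ h2 ?_⟩
  have h := congrArg (fun C : LinearMap.BilinForm F U => C x x) hall
  rw [mul_neg, ← Witt.polar_self', ← Witt.polar_self', ← hBa, ← hBa]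
  simpa using h

/-- Two orthogonal isometric subspaces of even dimension carry a totally singular subspace of that dimension. -/
theorem exists_ts (U : Submodule F V) (hU : U ⊓ LinearMap.BilinForm.orthogonal β U = ⊥)
    (hev : Even (finrank F U)) (g : Witt.quadIso Q)
    (hg : ∀ x ∈ U, g.1 x ∈ LinearMap.BilinForm.orthogonal β U) :
    ∃ W : Submodule F V, (∀ x ∈ W, Q x = 0) ∧ finrank F W = finrank F U := by
  obtain ⟨T, hT⟩ : ∃ T : U →ₗ[F] U, ∀ x : U, Q (T x : V) = -Q (x : V) := by
    by_cases h2 : (2 : F) = 0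
    · refine ⟨LinearMap.id, fun x => ?_⟩
      have h : Q (x : V) + Q (x : V) = 0 := by rw [← two_mul, h2, zero_mul]
      exact eq_neg_of_add_eq_zero_left h
    · exact exists_antiisometry Q h2 U hU hev
  let f : U →ₗ[F] V := U.subtype + (g.1 : V →ₗ[F] V) ∘ₗ U.subtype ∘ₗ T
  have hf : ∀ x : U, f x = (x : V) + g.1 (T x : V) := fun x => rfl
  refine ⟨LinearMap.range f, ?_, LinearMap.finrank_range_of_inj fun x y hxy => ?_⟩
  · rintro _ ⟨x, rfl⟩
    rw [hf, Witt.quad_add, g.2, hT, (mem_perp Q).1 (hg _ (T x).2) _ x.2]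
    ring
  · rw [hf, hf] at hxy
    refine Subtype.ext (sub_eq_zero.1 ((Submodule.eq_bot_iff _).1 hU _ ⟨U.sub_mem x.2 y.2, ?_⟩))
    have h1 : (x : V) - (y : V) = g.1 (T y : V) - g.1 (T x : V) := by
      linear_combination (norm := module) hxy
    rw [h1]
    exact Submodule.sub_mem _ (hg _ (T y).2) (hg _ (T x).2)

end similitude

variable {ι : Type} [Fintype ι] [DecidableEq ι] {F : Type*} [Field F] [Fintype F] {f : (ι → F) → F}
  {Q : QuadraticForm F (ι → F)}

/-- The stabiliser of a nondegenerate subspace is maximal. -/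
theorem maximal_nondeg (h : ∀ v, Q v = f v) (hB : (QuadraticMap.polarBilin Q).Nondegenerate)
    (hn : 13 ≤ finrank F (ι → F)) (W : Submodule F (ι → F)) (hW0 : W ≠ ⊥) (hW1 : W ≠ ⊤)
    (hW : Cfsg.Geo.IsNondegenerateOn (QuadraticMap.polar f) W)
    (hex : ∀ P : Submodule F (ι → F),
      (P = W ∨ P = LinearMap.BilinForm.orthogonal (QuadraticMap.polarBilin Q) W) →
      Fintype.card F ≤ 3 → finrank F P = 2 → P ⊓ LinearMap.BilinForm.orthogonal (QuadraticMap.polarBilin Q) P = ⊥ →
      (∃ e ∈ P, e ≠ 0 ∧ Q e = 0) → False)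
    (hhalf : 2 * finrank F W = finrank F (ι → F) →
      Even (finrank F W) ∧ ∀ U : Submodule F (ι → F), (∀ x ∈ U, Q x = 0) →
        2 * finrank F U ≠ finrank F (ι → F)) :
    Cfsg.Geo.IsMaximalIn (Cfsg.Geo.omegaGL f) (Cfsg.Geo.subspaceStabilizer W ⊓ Cfsg.Geo.omegaGL f) := by
  set W' := LinearMap.BilinForm.orthogonal (QuadraticMap.polarBilin Q) W with hW'
  have hfun : ∀ x y, QuadraticMap.polarBilin Q x y = QuadraticMap.polar f x y := fun x y => by
    simp [QuadraticMap.polar, h]
  have hWd : W ⊓ W' = ⊥ := (Submodule.eq_bot_iff _).2 fun x hx => by_contra fun hx0 => by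
    obtain ⟨⟨y, hy, hyx⟩, -⟩ := hW x hx.1 hx0
    exact hyx (by rw [← hfun]; exact (mem_perp Q).1 hx.2 y hy)
  have hpp : LinearMap.BilinForm.orthogonal (QuadraticMap.polarBilin Q) W' = W :=
    LinearMap.BilinForm.orthogonal_orthogonal hB (SingularVectors.refl' Q) W
  have hWd' : W' ⊓ LinearMap.BilinForm.orthogonal (QuadraticMap.polarBilin Q) W' = ⊥ := by
    rw [hpp, inf_comm, hWd]
  have hdim : finrank F W' = finrank F (ι → F) - finrank F W :=
    LinearMap.BilinForm.finrank_orthogonal hB (W := W)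
  have hle := W.finrank_le
  have hswap : ∀ (U : Submodule F (ι → F)) (g : Witt.quadIso Q), (∀ x ∈ U, g.1 x ∈ U) →
      ∀ x ∈ LinearMap.BilinForm.orthogonal (QuadraticMap.polarBilin Q) U,
        g.1 x ∈ LinearMap.BilinForm.orthogonal (QuadraticMap.polarBilin Q) U := fun U g hg x hx =>
    (mem_perp Q).2 fun y hy => by
      obtain ⟨z, hz, rfl⟩ : ∃ z ∈ U, g.1 z = y := by
        obtain ⟨z, hz⟩ := LinearMap.surjective_of_injective
          (f := (g.1 : (ι → F) →ₗ[F] (ι → F)).restrict (p := U) (q := U) hg)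
          (fun z z' e => Subtype.ext (g.1.injective (congrArg Subtype.val e))) ⟨y, hy⟩
        exact ⟨z.1, z.2, congrArg Subtype.val hz⟩
      rw [Reflections.polar_apply]
      exact (mem_perp Q).1 hx z hz
  obtain ⟨U, hUd, hU7, hUW, hUiff, hU1, hplane⟩ : ∃ U : Submodule F (ι → F),
      U ⊓ LinearMap.BilinForm.orthogonal (QuadraticMap.polarBilin Q) U = ⊥ ∧
      finrank F (ι → F) ≤ 2 * finrank F U ∧
      (finrank F U = finrank F W ∨ finrank F U = finrank F (ι → F) - finrank F W) ∧
      (∀ g : Witt.quadIso Q, (∀ x ∈ W, g.1 x ∈ W) ↔ ∀ x ∈ U, g.1 x ∈ U) ∧ U ≠ ⊤ ∧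
      ¬ (Nat.card F ≤ 3 ∧ finrank F (LinearMap.BilinForm.orthogonal (QuadraticMap.polarBilin Q) U) = 2 ∧
        ∃ e ∈ LinearMap.BilinForm.orthogonal (QuadraticMap.polarBilin Q) U, e ≠ 0 ∧ Q e = 0) := by
    by_cases hbig : finrank F (ι → F) ≤ 2 * finrank F W
    · refine ⟨W, hWd, hbig, Or.inl rfl, fun g => Iff.rfl, hW1, fun hh => ?_⟩
      exact hex W' (Or.inr rfl) (Nat.card_eq_fintype_card (α := F) ▸ hh.1) hh.2.1 hWd' hh.2.2
    · refine ⟨W', hWd', by omega, Or.inr hdim, fun g => ⟨hswap W g, fun hg => ?_⟩, fun ht => ?_, fun hh => ?_⟩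
      · have := hswap W' g hg
        rwa [hpp] at this
      · refine hW0 ?_
        rwa [ht, inf_top_eq] at hWd
      · rw [hpp] at hh
        exact hex W (Or.inl rfl) (Nat.card_eq_fintype_card (α := F) ▸ hh.1) hh.2.1 hWd hh.2.2
  have hno : ∀ g : Witt.quadIso Q,
      ¬ ∀ x ∈ U, g.1 x ∈ LinearMap.BilinForm.orthogonal (QuadraticMap.polarBilin Q) U := by
    intro g hg
    have h0 : U.map (g.1 : (ι → F) →ₗ[F] (ι → F)) ≤
        LinearMap.BilinForm.orthogonal (QuadraticMap.polarBilin Q) U := by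
      rintro _ ⟨x, hx, rfl⟩
      exact hg x hx
    have h1 := Submodule.finrank_mono h0
    rw [LinearEquiv.finrank_map_eq g.1] at h1
    have h2 : finrank F (LinearMap.BilinForm.orthogonal (QuadraticMap.polarBilin Q) U) =
        finrank F (ι → F) - finrank F U := LinearMap.BilinForm.finrank_orthogonal hB (W := U)
    have := U.finrank_le
    -- the two subspaces have equal dimension
    obtain ⟨hev, hnots⟩ : Even (finrank F U) ∧ ∀ P : Submodule F (ι → F), (∀ x ∈ P, Q x = 0) →
        2 * finrank F P ≠ finrank F (ι → F) := by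
      have heq : 2 * finrank F W = finrank F (ι → F) := by omega
      exact ⟨by obtain ⟨h', -⟩ := hhalf heq; rwa [show finrank F U = finrank F W by omega], (hhalf heq).2⟩
    obtain ⟨P, hP, hPd⟩ := exists_ts Q U hUd hev g hg
    exact hnots P hP (by omega)
  refine OmegaBridge.isMaximalIn h _ ?_ fun H hH g hg _ hgN => ?_
  · obtain ⟨g, hg, hgU⟩ := exists_moving Q hB hUd (by omega) hn hU1
    exact ⟨g, hg, fun hc => hgU ((hUiff g).1 ((OrthSingularStab.toGL_mem_stab h W g).1 hc))⟩
  · exact commutator_le_of_nondeg Q hB hUd (by omega) hn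
      (fun g hg hgU => hH g hg ((OrthSingularStab.toGL_mem_stab h W g).2 ((hUiff g).2 hgU))) hplane hno hg
      fun hgU => hgN ((OrthSingularStab.toGL_mem_stab h W g).2 ((hUiff g).2 hgU))

end Cfsg.Lib.Classical.OrthNondegStab
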