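import Mathlib
import Cfsg.Prelude.Def_Classical
import Cfsg.Agent.Lib.Classical.SiegelFull

/-!
Iwasawa's argument for the commutator subgroup of an orthogonal group in dimension at least seven:
it is perfect and every proper normal subgroup is central.
-/

set_option autoImplicit false

namespace Cfsg.Lib.Classical.OrthSimple

open Module SiegelElements
open scoped commutatorElement

variable {F V : Type*} [Field F] [Finite F] [AddCommGroup V] [Module F V] [FiniteDimensional F V]
  (Q : QuadraticForm F V)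

local notation "β" => QuadraticMap.polarBilin Q
local notation "C" => commutator (Witt.quadIso Q)

/-- The root subgroup of a singular point. -/
def radical (p : V) (hp : Q p = 0) : Subgroup (Witt.quadIso Q) where
  carrier := {g | ∃ u, β p u = 0 ∧ g = siegel Q p u}
  one_mem' := ⟨0, map_zero _, (siegel_zero Q hp).symm⟩
  mul_mem' := fun ⟨u, hu, e⟩ ⟨v, hv, e'⟩ =>
    ⟨u + v, by rw [map_add, hu, hv, add_zero], by rw [e, e', siegel_mul Q hp hu hv]⟩
  inv_mem' := fun ⟨u, hu, e⟩ => ⟨-u, by rw [map_neg, hu, neg_zero], by rw [e, siegel_inv Q hp hu]⟩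

variable (hB : (QuadraticMap.polarBilin Q).Nondegenerate) (hn : 7 ≤ finrank F V)
include hB hn

omit hn in
/-- A singular vector not orthogonal to two nonzero vectors. -/
lemma exists_common (h5 : 5 ≤ finrank F V) {p q : V} (hp0 : p ≠ 0) (hq0 : q ≠ 0) :
    ∃ r, Q r = 0 ∧ β r p ≠ 0 ∧ β r q ≠ 0 := by
  by_cases hd : q ∈ Submodule.span F (Set.range ![p])
  · obtain ⟨c, hc⟩ := (Submodule.mem_span_range_iff_exists_fun F).1 hd
    simp only [Fin.sum_univ_one, Matrix.cons_val_zero] at hc
    obtain ⟨r, hr, -, hrp⟩ := SingularVectors.exists_sing Q hB (![] : Fin 0 → V) (by omega) (v := p)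
      (by simpa [Matrix.range_empty] using hp0)
    refine ⟨r, hr, by rw [hrp]; exact one_ne_zero, ?_⟩
    rw [← hc, map_smul, hrp, smul_eq_mul, mul_one]
    exact fun h => hq0 (by rw [← hc, h, zero_smul])
  · have hps : p ∉ Submodule.span F (Set.range ![q - p]) := by
      intro hc
      obtain ⟨c, hc⟩ := (Submodule.mem_span_range_iff_exists_fun F).1 hc
      simp only [Fin.sum_univ_one, Matrix.cons_val_zero] at hc
      by_cases hc0 : c 0 = 0
      · exact hp0 (by rw [← hc, hc0, zero_smul])
      · refine hd ((Submodule.mem_span_range_iff_exists_fun F).2 ⟨![1 + (c 0)⁻¹], ?_⟩)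
        rw [Fin.sum_univ_one, Matrix.cons_val_zero, Matrix.cons_val_zero, add_smul, one_smul]
        nth_rewrite 2 [← hc]
        rw [inv_smul_smul₀ hc0]
        abel
    obtain ⟨r, hr, hrr, hrp⟩ := SingularVectors.exists_sing Q hB ![q - p] (by omega) hps
    have h0 : β r (q - p) = 0 := hrr 0
    rw [map_sub, sub_eq_zero] at h0
    exact ⟨r, hr, by rw [hrp]; exact one_ne_zero, by rw [h0, hrp]; exact one_ne_zero⟩

/-- `Omega` is transitive on the singular points. -/
lemma exists_move_sing {p q : V} (hp : Q p = 0) (hq : Q q = 0) (hp0 : p ≠ 0) (hq0 : q ≠ 0) :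
    ∃ g ∈ C, ∃ c : F, c ≠ 0 ∧ g.1 p = c • q := by
  obtain ⟨z, hz, hzp, hzq⟩ := exists_common Q hB (by omega) hp0 hq0
  obtain ⟨hd, he⟩ := SiegelFull.exists_move_one Q hz (p := (β z p)⁻¹ • p) (q := (β z q)⁻¹ • q)
    (by rw [Witt.quad_smul, hp, mul_zero]) (by rw [Witt.quad_smul, hq, mul_zero])
    (by rw [map_smul, smul_eq_mul, inv_mul_cancel₀ hzp]) (by rw [map_smul, smul_eq_mul, inv_mul_cancel₀ hzq])
  refine ⟨_, siegel_mem_commutator Q hB (by omega) hz hd, β z p * (β z q)⁻¹,
    mul_ne_zero hzp (inv_ne_zero hzq), ?_⟩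
  rw [map_smul, inv_smul_eq_iff₀ hzp] at he
  rw [he, smul_smul]

/-- The stabiliser of a singular point is maximal. -/
lemma commutator_le_of_stab {p : V} (hp : Q p = 0) (hp0 : p ≠ 0) {H : Subgroup (Witt.quadIso Q)}
    (hH : ∀ g ∈ C, g.1 p ∈ Submodule.span F {p} → g ∈ H) {g : Witt.quadIso Q} (hg : g ∈ H)
    (hgp : g.1 p ∉ Submodule.span F {p}) : C ≤ H := by
  have hfix : ∀ a b, Q a = 0 → β a b = 0 → (siegel Q a b).1 p ∈ Submodule.span F {p} →
      siegel Q a b ∈ H := fun a b ha hab h =>
    hH _ (siegel_mem_commutator Q hB (by omega) ha hab) h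
  have hfull : SiegelFull.Full Q H p := ⟨hp, fun u hu => hfix p u hp hu (by
    rw [siegel_apply Q hp hu, Witt.polar_self', hp, mul_zero, hu]; simp)⟩
  have hfull' := hfull.map Q hg
  set p' := g.1 p with hp'
  by_cases hpp : β p p' = 0
  · obtain ⟨a, ha, har, hap⟩ := SingularVectors.exists_sing Q hB ![p] (v := p') (by omega) (by
      rw [Matrix.range_cons, Matrix.range_empty, Set.union_empty]
      exact hgp)
    have hpa : β p a = 0 := by rw [Witt.polar_symm']; exact har 0
    set U := LinearMap.BilinForm.orthogonal β (Submodule.span F (Set.range ![p, a])) with hU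
    obtain ⟨b, hbU, hb⟩ : ∃ b ∈ U, Q b ≠ 0 := by
      by_contra hcon
      push Not at hcon
      have hle : U ≤ LinearMap.BilinForm.orthogonal β U := fun x hx => LinearMap.BilinForm.mem_orthogonal_iff.2
        fun y hy => by
          show β y x = 0
          rw [QuadraticMap.polarBilin_apply_apply, QuadraticMap.polar, hcon _ (U.add_mem hy hx),
            hcon _ hy, hcon _ hx]
          ring
      have h1 := Submodule.finrank_mono hle
      rw [LinearMap.BilinForm.finrank_orthogonal hB (W := U)] at h1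
      have h2 : finrank F U = finrank F V - finrank F (Submodule.span F (Set.range ![p, a])) := by
        rw [hU, LinearMap.BilinForm.finrank_orthogonal hB]
      have h3 := finrank_range_le_card (R := F) ![p, a]
      rw [Set.finrank] at h3
      simp only [Fintype.card_fin] at h3
      omega
    have hpb : β p b = 0 :=
      LinearMap.BilinForm.mem_orthogonal_iff.1 hbU p (Submodule.subset_span ⟨0, rfl⟩)
    have hab : β a b = 0 :=
      LinearMap.BilinForm.mem_orthogonal_iff.1 hbU a (Submodule.subset_span ⟨1, rfl⟩)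
    refine SiegelFull.commutator_le_of_mover Q hB hn hfull' ha hab (hfix a b ha hab ?_)
      (by rw [Witt.polar_symm', hap]; exact one_ne_zero) hb
    rw [siegel_apply Q ha hab, hpa, hpb]
    simp
  · exact SiegelFull.commutator_le Q hB hn hfull hfull' hpp

/-- `Omega` is perfect. -/
theorem commutator_commutator : ⁅C, C⁆ = C := by
  refine le_antisymm (Subgroup.commutator_le_left C C) ?_
  have hN : ⁅C, C⁆ ≤ C := Subgroup.commutator_le_left C C
  conv_lhs => rw [commutator_eq Q hB (by omega)]
  rw [siegelGroup_le_iff]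
  intro p w hp hpw
  by_cases hp0 : p = 0
  · subst hp0
    rw [show siegel Q 0 w = 1 from ext' Q fun x => by rw [siegel_apply Q hp hpw]; simp]
    exact one_mem _
  set U := LinearMap.BilinForm.orthogonal β (Submodule.span F (Set.range ![p])) with hU
  have hmem : ∀ x ∈ U, β p x = 0 := fun x hx =>
    LinearMap.BilinForm.mem_orthogonal_iff.1 hx p (Submodule.subset_span ⟨0, rfl⟩)
  have hUp : U ⊓ LinearMap.BilinForm.orthogonal β U ≤ Submodule.span F (Set.range ![p]) := by
    rw [hU, LinearMap.BilinForm.orthogonal_orthogonal hB (SingularVectors.refl' Q)]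
    exact inf_le_right
  have hUr : finrank F U = finrank F V - finrank F (Submodule.span F (Set.range ![p])) := by
    rw [hU, LinearMap.BilinForm.finrank_orthogonal hB]
  have hwU : w ∈ U := LinearMap.BilinForm.mem_orthogonal_iff.2 fun y hy => by
    obtain ⟨c, rfl⟩ := (Submodule.mem_span_range_iff_exists_fun F).1 hy
    show β (∑ i, c i • ![p] i) w = 0
    simp [Fin.sum_univ_one, hpw]
  rw [← SingularVectors.span_singular Q (U := U) (by
    have h1 := Submodule.finrank_mono hUp
    have h3 := finrank_range_le_card (R := F) ![p]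
    rw [Set.finrank] at h3
    simp only [Fintype.card_fin] at h3
    omega)] at hwU
  suffices h : ∀ a : F, β p (a • w) = 0 ∧ siegel Q p (a • w) ∈ ⁅C, C⁆ by simpa using (h 1).2
  clear hpw
  induction hwU using Submodule.span_induction with
  | mem x hx =>
    intro a
    obtain ⟨hxU, hxq⟩ := hx
    have h0 : β p (a • x) = 0 := by rw [map_smul, hmem x hxU, smul_zero]
    refine ⟨h0, ?_⟩
    set y := a • x with hy
    have hyq : Q y = 0 := by rw [hy, Witt.quad_smul, hxq, mul_zero]
    obtain ⟨v, hvU, hv⟩ : ∃ v, (β p v = 0 ∧ β y v = 0) ∧ v ∉ Submodule.span F (Set.range ![p, y]) := by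
      by_contra hcon
      push Not at hcon
      have h1 := Submodule.finrank_mono (show LinearMap.BilinForm.orthogonal β
          (Submodule.span F (Set.range ![p, y])) ≤ Submodule.span F (Set.range ![p, y]) from fun v hv =>
        hcon v ⟨LinearMap.BilinForm.mem_orthogonal_iff.1 hv p (Submodule.subset_span ⟨0, rfl⟩),
          LinearMap.BilinForm.mem_orthogonal_iff.1 hv y (Submodule.subset_span ⟨1, rfl⟩)⟩)
      rw [LinearMap.BilinForm.finrank_orthogonal hB] at h1
      have h3 := finrank_range_le_card (R := F) ![p, y]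
      rw [Set.finrank] at h3
      simp only [Fintype.card_fin] at h3
      omega
    obtain ⟨b, hb, hbr, hbv⟩ := SingularVectors.exists_sing Q hB ![p, y] (by omega) hv
    have hbp : β b p = 0 := hbr 0
    have hby : β b y = 0 := hbr 1
    have hpb : β p b = 0 := by rw [Witt.polar_symm', hbp]
    set t := siegel Q b y with ht
    have e0 : t.1 p = p := by
      rw [ht, siegel_apply Q hb hby, hpb, h0]; simp
    have e1 : t.1 v = v + y := by
      rw [ht, siegel_apply Q hb hby, Witt.polar_symm' Q v b, hbv, Witt.polar_symm' Q v y, hvU.2, hyq]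
      simp
    have key := Subgroup.commutator_mem_commutator (siegel_mem_commutator Q hB (by omega) hb hby)
      (siegel_mem_commutator Q hB (by omega) hp hvU.1)
    rwa [← ht, commutatorElement_def, siegel_conj Q t hp hvU.1, e0, e1, siegel_inv Q hp hvU.1,
      siegel_mul Q hp (by rw [map_add, hvU.1, h0, add_zero]) (by rw [map_neg, hvU.1, neg_zero]),
      add_neg_cancel_comm] at key
  | zero => intro a; rw [smul_zero, siegel_zero Q hp]; exact ⟨map_zero _, one_mem _⟩
  | add x y _ _ hx hy =>
    intro a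
    rw [smul_add]
    refine ⟨by rw [map_add, (hx a).1, (hy a).1, add_zero], ?_⟩
    rw [← siegel_mul Q hp (hx a).1 (hy a).1]
    exact mul_mem (hx a).2 (hy a).2
  | smul c x _ hx => intro a; rw [smul_smul]; exact hx (a * c)

/-- An isometry fixing every singular point is scalar. -/
lemma scalar_of_fix {g : Witt.quadIso Q}
    (h : ∀ p, Q p = 0 → g.1 p ∈ Submodule.span F {p}) : ∃ c : F, ∀ x, g.1 x = c • x := by
  choose c hc using fun (p : {p // Q p = 0}) => Submodule.mem_span_singleton.1 (h p.1 p.2)
  have hprod : ∀ p q : {p // Q p = 0}, β p.1 q.1 ≠ 0 → c p * c q = 1 := by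
    intro p q hpq
    have := Reflections.polar_apply Q g p.1 q.1
    rw [← hc, ← hc, map_smul, map_smul, LinearMap.smul_apply, smul_eq_mul, smul_eq_mul] at this
    exact mul_right_cancel₀ hpq (by linear_combination this)
  have heq : ∀ p q : {p // Q p = 0}, p.1 ≠ 0 → q.1 ≠ 0 → c p = c q := by
    intro p q hp hq
    obtain ⟨r, hr, hrp, hrq⟩ := exists_common Q hB (by omega) hp hq
    have h1 := hprod ⟨r, hr⟩ p hrp
    have h2 := hprod ⟨r, hr⟩ q hrq
    exact mul_left_cancel₀ (left_ne_zero_of_mul (h1.trans_ne one_ne_zero)) (h1.trans h2.symm)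
  obtain ⟨v, hv⟩ : ∃ v : V, v ≠ 0 := by
    by_contra! hcon
    have : Subsingleton V := ⟨fun a b => by rw [hcon a, hcon b]⟩
    rw [finrank_zero_of_subsingleton] at hn
    omega
  obtain ⟨p, hp, -, hpv⟩ := SingularVectors.exists_sing Q hB (![] : Fin 0 → V) (by omega) (v := v)
    (by simpa [Matrix.range_empty] using hv)
  have hp0 : p ≠ 0 := by rintro rfl; simp at hpv
  refine ⟨c ⟨p, hp⟩, fun x => ?_⟩
  have hx : x ∈ Submodule.span F {x | x ∈ (⊤ : Submodule F V) ∧ Q x = 0} := by
    rw [SingularVectors.span_singular Q (U := ⊤) (by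
      have h1 := LinearMap.BilinForm.finrank_orthogonal hB (W := ⊤)
      have h2 := Submodule.finrank_mono (inf_le_right : (⊤ : Submodule F V) ⊓ LinearMap.BilinForm.orthogonal β ⊤ ≤ _)
      rw [finrank_top] at h1 ⊢
      omega)]
    trivial
  induction hx using Submodule.span_induction with
  | mem y hy =>
    by_cases hy0 : y = 0
    · subst hy0; simp
    · rw [heq ⟨p, hp⟩ ⟨y, hy.2⟩ hp0 hy0]
      exact (hc ⟨y, hy.2⟩).symm
  | zero => simp
  | add a b _ _ ha hb => rw [map_add, ha, hb, smul_add]
  | smul a y _ hy => rw [map_smul, hy, smul_comm]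

/-- Every proper normal subgroup of `Omega` is central. -/
theorem center_or_top (N : Subgroup C) [N.Normal] : N = ⊤ ∨ N ≤ Subgroup.center C := by
  by_cases hall : ∀ n ∈ N, ∀ p, Q p = 0 → (n : Witt.quadIso Q).1 p ∈ Submodule.span F {p}
  · refine Or.inr fun n hnN => Subgroup.mem_center_iff.2 fun g => ?_
    obtain ⟨c, hc⟩ := scalar_of_fix Q hB hn (hall n hnN)
    refine Subtype.ext (SiegelElements.ext' Q fun x => ?_)
    show g.1.1 (n.1.1 x) = n.1.1 (g.1.1 x)
    rw [hc, hc, map_smul]
  push Not at hall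
  obtain ⟨n₀, hn₀, p, hp, hmove⟩ := hall
  have hp0 : p ≠ 0 := fun h => hmove (by rw [h, map_zero]; exact zero_mem _)
  left
  -- the stabiliser of the point
  let S : Subgroup C :=
    { carrier := {g | g.1.1 p ∈ Submodule.span F {p}}
      one_mem' := Submodule.mem_span_singleton_self p
      mul_mem' := fun {a b} ha hb => by
        obtain ⟨c, hc⟩ := Submodule.mem_span_singleton.1 hb
        show a.1.1 (b.1.1 p) ∈ Submodule.span F {p}
        rw [← hc, map_smul]
        exact Submodule.smul_mem _ c ha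
      inv_mem' := fun {a} ha => by
        obtain ⟨c, hc⟩ := Submodule.mem_span_singleton.1 ha
        have hc0 : c ≠ 0 := fun h => hp0 (a.1.1.injective (by rw [← hc, h, zero_smul, map_zero]))
        refine Submodule.mem_span_singleton.2 ⟨c⁻¹, ?_⟩
        show c⁻¹ • p = a.1.1.symm p
        rw [eq_comm, LinearEquiv.symm_apply_eq, map_smul, ← hc, inv_smul_smul₀ hc0] }
  have hgen : N ⊔ S = ⊤ := by
    have h1 : C ≤ (N ⊔ S).map (commutator (Witt.quadIso Q)).subtype :=
      commutator_le_of_stab Q hB hn hp hp0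
        (fun g hg hgp => ⟨⟨g, hg⟩, Subgroup.mem_sup_right hgp, rfl⟩)
        ⟨n₀, Subgroup.mem_sup_left hn₀, rfl⟩ hmove
    refine eq_top_iff.2 fun g _ => ?_
    obtain ⟨g', hg', e⟩ := h1 g.2
    rwa [← Subtype.ext e]
  set R := (radical Q p hp).subgroupOf C with hR
  have hgenR : N ⊔ R = ⊤ := by
    have h1 : C ≤ (N ⊔ R).map (commutator (Witt.quadIso Q)).subtype := by
      conv_lhs => rw [commutator_eq Q hB (by omega)]
      rw [siegelGroup_le_iff]
      intro q u hq hu
      by_cases hq0 : q = 0
      · subst hq0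
        rw [show siegel Q 0 u = 1 from ext' Q fun x => by rw [siegel_apply Q hq hu]; simp]
        exact one_mem _
      obtain ⟨g, hg, c, hc, hgq⟩ := exists_move_sing Q hB hn hp hq hp0 hq0
      obtain ⟨n, hnN, s, hs, hns⟩ : ∃ n ∈ N, ∃ s ∈ S, n * s = ⟨g, hg⟩ := by
        have : (⟨g, hg⟩ : C) ∈ N ⊔ S := hgen ▸ Subgroup.mem_top _
        exact Subgroup.mem_sup_of_normal_left.1 this
      obtain ⟨d, hd⟩ := Submodule.mem_span_singleton.1 hs
      have hq' : n.1.1 (d • p) = c • q := by
        rw [hd, ← hgq]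
        exact congrArg (fun t : C => t.1.1 p) hns
      have hd0 : d ≠ 0 := fun h => by
        rw [h, zero_smul, map_zero, eq_comm, smul_eq_zero] at hq'
        exact hq'.elim hc hq0
      obtain ⟨u', hu'⟩ : ∃ u', n.1.1 u' = c⁻¹ • u := ⟨n.1.1.symm _, n.1.1.apply_symm_apply _⟩
      have hpu : β (d • p) u' = 0 := by
        rw [← Reflections.polar_apply Q n.1, hq', hu', map_smul, map_smul, LinearMap.smul_apply, hu,
          smul_zero, smul_zero]
      have hpu' : β p (d • u') = 0 := by
        rw [map_smul, ← LinearMap.smul_apply, ← map_smul, hpu]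
      have hdp : Q (d • p) = 0 := by rw [Witt.quad_smul, hp, mul_zero]
      have er : siegel Q (d • p) u' = siegel Q p (d • u') := by
        refine SiegelElements.ext' Q fun x => ?_
        rw [siegel_apply Q hdp hpu, siegel_apply Q hp hpu', Witt.quad_smul]
        simp only [map_smul, smul_eq_mul]
        module
      have eq' : n.1 * siegel Q p (d • u') * n.1⁻¹ = siegel Q q u := by
        rw [← er, siegel_conj Q n.1 hdp hpu, hq', hu']
        have hcq : Q (c • q) = 0 := by rw [Witt.quad_smul, hq, mul_zero]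
        have hcu : β (c • q) (c⁻¹ • u) = 0 := by
          rw [map_smul, map_smul, LinearMap.smul_apply, hu, smul_zero, smul_zero]
        refine SiegelElements.ext' Q fun x => ?_
        rw [siegel_apply Q hcq hcu, siegel_apply Q hq hu, Witt.quad_smul]
        simp only [map_smul, smul_eq_mul]
        match_scalars <;> field_simp
      refine ⟨n * ⟨_, siegel_mem_commutator Q hB (by omega) hp hpu'⟩ * n⁻¹,
        mul_mem (mul_mem (Subgroup.mem_sup_left hnN) (Subgroup.mem_sup_right ⟨_, hpu', rfl⟩))
          (inv_mem (Subgroup.mem_sup_left hnN)), eq'⟩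
    refine eq_top_iff.2 fun g _ => ?_
    obtain ⟨g', hg', e⟩ := h1 g.2
    rwa [← Subtype.ext e]
  have hab : ∀ x y : C, ⁅x, y⁆ ∈ N := by
    intro x y
    obtain ⟨n, hnN, r, hr, rfl⟩ := Subgroup.mem_sup_of_normal_left.1 (hgenR ▸ Subgroup.mem_top x : x ∈ N ⊔ R)
    obtain ⟨m, hmN, s, hs, rfl⟩ := Subgroup.mem_sup_of_normal_left.1 (hgenR ▸ Subgroup.mem_top y : y ∈ N ⊔ R)
    rw [← QuotientGroup.eq_one_iff]
    show QuotientGroup.mk' N ⁅n * r, m * s⁆ = 1
    rw [map_commutatorElement, map_mul, map_mul,
      show QuotientGroup.mk' N n = 1 from (QuotientGroup.eq_one_iff _).2 hnN,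
      show QuotientGroup.mk' N m = 1 from (QuotientGroup.eq_one_iff _).2 hmN, one_mul, one_mul,
      ← map_commutatorElement, commutatorElement_eq_one_iff_commute.2, map_one]
    obtain ⟨u, hu, hru⟩ := hr
    obtain ⟨v, hv, hsv⟩ := hs
    refine Subtype.ext ?_
    show r.1 * s.1 = s.1 * r.1
    rw [show r.1 = siegel Q p u from hru, show s.1 = siegel Q p v from hsv, siegel_mul Q hp hu hv,
      siegel_mul Q hp hv hu, add_comm]
  refine eq_top_iff.2 ?_
  have hperf : commutator C = ⊤ := by
    apply Subgroup.map_injective (C).subtype_injective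
    rw [Subgroup.map_subtype_commutator, commutator_commutator Q hB hn, ← MonoidHom.range_eq_map,
      Subgroup.range_subtype]
  exact hperf.symm.trans_le (Subgroup.commutator_le.2 fun x _ y _ => hab x y)

/-- Some element of `Omega` is not central. -/
theorem center_ne_top : Subgroup.center C ≠ ⊤ := by
  intro h
  obtain ⟨v, hv⟩ : ∃ v : V, v ≠ 0 := by
    by_contra! hcon
    have : Subsingleton V := ⟨fun a b => by rw [hcon a, hcon b]⟩
    rw [finrank_zero_of_subsingleton] at hn
    omega
  obtain ⟨p, hp, -, hpv⟩ := SingularVectors.exists_sing Q hB (![] : Fin 0 → V) (by omega) (v := v)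
    (by simpa [Matrix.range_empty] using hv)
  have hp0 : p ≠ 0 := by rintro rfl; simp at hpv
  have : commutator C ≤ ⊥ := by
    refine Subgroup.commutator_le.2 fun x _ y _ => ?_
    exact commutatorElement_eq_one_iff_commute.2 (Subgroup.mem_center_iff.1 (h ▸ Subgroup.mem_top y : y ∈ _) x)
  have h1 : ⁅C, C⁆ = ⊥ := by
    rw [← Subgroup.map_subtype_commutator, le_bot_iff.1 this, Subgroup.map_bot]
  rw [commutator_commutator Q hB hn] at h1
  obtain ⟨r, hr, hrp⟩ : ∃ r, Q r = 0 ∧ β r p ≠ 0 := by
    obtain ⟨r, hr, hrp, -⟩ := exists_common Q hB (by omega) hp0 hp0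
    exact ⟨r, hr, hrp⟩
  have hr0 : r ≠ 0 := by rintro rfl; simp at hrp
  obtain ⟨g, hg, c, -, hgp⟩ := exists_move_sing Q hB hn hp hr hp0 hr0
  rw [h1, Subgroup.mem_bot] at hg
  subst hg
  have hpc : p = c • r := hgp
  apply hrp
  rw [hpc, map_smul, Witt.polar_self', hr, mul_zero, smul_zero]

omit hB hn in
/-- Simplicity of `PΩ` for a form given as a function. -/
theorem isSimpleGroup_pomega {ι : Type} [Fintype ι] [DecidableEq ι] {f : (ι → F) → F}
    {Q : QuadraticForm F (ι → F)} (h : ∀ v, Q v = f v) (hB : (QuadraticMap.polarBilin Q).Nondegenerate)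
    (hn : 7 ≤ Fintype.card ι) : IsSimpleGroup (Cfsg.POmega F f) := by
  have hn' : 7 ≤ finrank F (ι → F) := by rwa [Module.finrank_fintype_fun_eq_card]
  let e : Cfsg.Omega F f ≃* commutator (Witt.quadIso Q) :=
    { toFun := fun g => ⟨OrthMatrix.eI h g.1, (OrthMatrix.omega_eq h).le g.2⟩
      invFun := fun g => ⟨(OrthMatrix.eI h).symm g.1, (OrthMatrix.omega_eq h).ge (by
        rw [Subgroup.mem_comap]
        show OrthMatrix.eI h ((OrthMatrix.eI h).symm g.1) ∈ _
        rw [MulEquiv.apply_symm_apply]
        exact g.2)⟩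
      left_inv := fun g => Subtype.ext ((OrthMatrix.eI h).symm_apply_apply _)
      right_inv := fun g => Subtype.ext ((OrthMatrix.eI h).apply_symm_apply _)
      map_mul' := fun a b => Subtype.ext (map_mul (OrthMatrix.eI h) _ _) }
  have hc : (Subgroup.center (Cfsg.Omega F f)).map e.toMonoidHom = Subgroup.center _ := by
    refine le_antisymm ?_ fun y hy => ⟨e.symm y, Subgroup.mem_center_iff.2 fun g => e.injective ?_,
      e.apply_symm_apply y⟩
    · rintro _ ⟨x, hx, rfl⟩
      refine Subgroup.mem_center_iff.2 fun g => ?_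
      obtain ⟨g, rfl⟩ := e.surjective g
      exact (map_mul e g x).symm.trans ((congrArg e (Subgroup.mem_center_iff.1 hx g)).trans (map_mul e x g))
    · rw [map_mul, map_mul, e.apply_symm_apply]
      exact Subgroup.mem_center_iff.1 hy _
  let e' := QuotientGroup.congr _ _ e hc
  haveI hne : Nontrivial (commutator (Witt.quadIso Q) ⧸ Subgroup.center (commutator (Witt.quadIso Q))) :=
    QuotientGroup.nontrivial_iff.2 (center_ne_top Q hB hn')
  haveI : IsSimpleGroup (commutator (Witt.quadIso Q) ⧸ Subgroup.center (commutator (Witt.quadIso Q))) := by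
    refine { eq_bot_or_eq_top_of_normal := fun M hM => ?_ }
    have hs := QuotientGroup.mk'_surjective (Subgroup.center (commutator (Witt.quadIso Q)))
    have := Subgroup.Normal.comap hM (QuotientGroup.mk' (Subgroup.center (commutator (Witt.quadIso Q))))
    rcases center_or_top Q hB hn' (M.comap (QuotientGroup.mk' _)) with h1 | h1
    · right
      rw [← Subgroup.map_comap_eq_self_of_surjective hs M, h1, Subgroup.map_top_of_surjective _ hs]
    · left
      rw [← Subgroup.map_comap_eq_self_of_surjective hs M, eq_bot_iff]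
      rintro _ ⟨x, hx, rfl⟩
      exact (QuotientGroup.eq_one_iff x).2 (h1 hx)
  exact e'.isSimpleGroup

end Cfsg.Lib.Classical.OrthSimple
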