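import Mathlib
import Cfsg.Agent.Lib.Classical.SiegelElements

/-!
Overgroups, inside the commutator subgroup of an orthogonal group (any characteristic), of the
unitary group of a quadratic extension acting through `J` with `J² = τ J - N`.
-/

set_option autoImplicit false

namespace Cfsg.Lib.Classical.OrthUnitaryField

open Module SiegelElements
open scoped commutatorElement

variable {F V : Type*} [Field F] [AddCommGroup V] [Module F V] (Q : QuadraticForm F V)

local notation "β" => QuadraticMap.polarBilin Q
local notation "G" => Witt.quadIso Q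

/-- A quadratic extension acting on the quadratic space by similitudes, not self-adjointly. -/
structure Data (J : V →ₗ[F] V) (τ N : F) : Prop where
  sq : ∀ x, J (J x) = τ • J x - N • x
  adj : ∀ x y, QuadraticMap.polarBilin Q (J x) y =
    τ * QuadraticMap.polarBilin Q x y - QuadraticMap.polarBilin Q x (J y)
  quad : ∀ x, Q (J x) = N * Q x
  cross : ∀ x, QuadraticMap.polarBilin Q x (J x) = τ * Q x
  noroot : ∀ t : F, t * t - τ * t + N ≠ 0

variable {Q} {J : V →ₗ[F] V} {τ N : F}

/-- `w` on the extension-field line of `b`. -/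
def InK (J : V →ₗ[F] V) (b w : V) : Prop := ∃ x y : F, w = x • b + y • J b

variable (D : Data Q J τ N)
include D

lemma norm_ne {a c : F} (h : a ≠ 0 ∨ c ≠ 0) : a * a + a * c * τ + c * c * N ≠ 0 := by
  intro h0
  by_cases hc : c = 0
  · subst hc
    simp at h0
    exact h.elim (fun h => h h0) fun h => h rfl
  · refine D.noroot (-a / c) ?_
    field_simp
    linear_combination h0

lemma norm_smul' (a c : F) (w : V) :
    (a * a + a * c * τ + c * c * N) • w =
      (a + c * τ) • (a • w + c • J w) - c • J (a • w + c • J w) := by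
  simp only [map_add, map_smul, D.sq]
  module

lemma eq_zero_of_pair {v : V} (hv : v ≠ 0) {x y : F} (h : x • v + y • J v = 0) : x = 0 ∧ y = 0 := by
  by_contra hne
  refine hv ((smul_eq_zero.1 (?_ : (x * x + x * y * τ + y * y * N) • v = 0)).resolve_left
    (norm_ne D (by tauto)))
  rw [norm_smul' D, h, map_zero, smul_zero, smul_zero, sub_zero]

lemma inK_inv {b w : V} {a c : F} (hne : a ≠ 0 ∨ c ≠ 0) (h : InK J b (a • w + c • J w)) :
    InK J b w := by
  obtain ⟨x, y, h⟩ := h
  refine ⟨(a * a + a * c * τ + c * c * N)⁻¹ * ((a + c * τ) * x + c * y * N),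
    (a * a + a * c * τ + c * c * N)⁻¹ * ((a + c * τ) * y - c * x - c * y * τ), ?_⟩
  rw [mul_smul, mul_smul, ← smul_add, ← inv_smul_smul₀ (norm_ne D hne) w, norm_smul' D, h]
  simp only [map_add, map_smul, D.sq]
  module

lemma inK_symm {b w : V} (hb : b ≠ 0) (h : InK J w b) : InK J b w := by
  obtain ⟨x, y, h⟩ := h
  refine inK_inv D (a := x) (c := y) ?_ ⟨1, 0, by rw [← h]; module⟩
  by_contra hc
  push Not at hc
  exact hb (by rw [h, hc.1, hc.2]; simp)

lemma quad_indep {v u : V} (hv : v ≠ 0) (hu : ¬ InK J v u) {x y z w : F}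
    (h : x • v + y • J v + z • u + w • J u = 0) : x = 0 ∧ y = 0 ∧ z = 0 ∧ w = 0 := by
  have hzw : z = 0 ∧ w = 0 := by
    by_contra hne
    refine hu (inK_inv D (a := z) (c := w) (by tauto) ⟨-x, -y, ?_⟩)
    linear_combination (norm := module) h
  obtain ⟨rfl, rfl⟩ := hzw
  simp only [zero_smul, add_zero] at h
  exact ⟨(eq_zero_of_pair D hv h).1, (eq_zero_of_pair D hv h).2, rfl, rfl⟩

lemma polar_J (x y : V) : β x (J y) = τ * β x y - β (J x) y := by rw [D.adj]; ring

lemma sing_J {y : V} (hy : Q y = 0) : Q (J y) = 0 := by rw [D.quad, hy, mul_zero]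

lemma sing_cross {y : V} (hy : Q y = 0) : β y (J y) = 0 := by rw [D.cross, hy, mul_zero]

variable [Finite F] [FiniteDimensional F V] (hB : (QuadraticMap.polarBilin Q).Nondegenerate)
  (hn : 14 ≤ finrank F V)

omit [FiniteDimensional F V] in
lemma disc_ne : 4 * N - τ * τ ≠ 0 := by
  intro h
  by_cases h2 : (2 : F) = 0
  · have hτ : τ = 0 := mul_self_eq_zero.1 (by linear_combination -h + 2 * N * h2)
    have := Fintype.ofFinite F
    have hc : ringChar F = 2 := by
      by_contra hc
      exact Ring.two_ne_zero hc h2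
    obtain ⟨s, hs⟩ := FiniteField.isSquare_of_char_two hc (-N)
    exact D.noroot s (by rw [hτ, ← hs]; ring)
  · refine D.noroot (τ / 2) ?_
    have h4 : (4 : F) ≠ 0 := by
      rw [show (4 : F) = 2 * 2 by norm_num]
      exact mul_ne_zero h2 h2
    field_simp
    linear_combination h

lemma coeff_cases {a b : F} (hb : b ≠ 0) (h1 : b * (2 * a + b * τ - τ) = 0)
    (h0 : a * a - b * b * N - τ * a + N = 0) : (a = 0 ∧ b = 1) ∨ (a = τ ∧ b = -1) := by
  have h := (mul_eq_zero.1 h1).resolve_left hb
  have hbb : (1 - b * b) * (4 * N - τ * τ) = 0 := by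
    linear_combination 4 * h0 - (2 * a - b * τ - τ) * h
  have hb1 : b * b = 1 := by
    have := (mul_eq_zero.1 hbb).resolve_right (disc_ne D)
    linear_combination -this
  have ha : a * (a - τ) = 0 := by linear_combination h0 + N * hb1
  rcases mul_self_eq_one_iff.1 hb1 with rfl | rfl
  · rcases mul_eq_zero.1 ha with ha | ha
    · exact Or.inl ⟨ha, rfl⟩
    · obtain rfl := sub_eq_zero.1 ha
      by_cases h2 : (2 : F) = 0
      · exact Or.inr ⟨rfl, by linear_combination h2⟩
      · exact Or.inl ⟨(mul_eq_zero.1 (show (2 : F) * a = 0 by linear_combination h)).resolve_left h2, rfl⟩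
  · rcases mul_eq_zero.1 ha with ha | ha
    · subst ha
      by_cases h2 : (2 : F) = 0
      · exact Or.inl ⟨rfl, by linear_combination -h2⟩
      · exact Or.inr ⟨((mul_eq_zero.1 (show (2 : F) * τ = 0 by linear_combination -h)).resolve_left h2).symm, rfl⟩
    · exact Or.inr ⟨sub_eq_zero.1 ha, rfl⟩

omit D [Finite F] in
lemma exists_notMem {k : ℕ} (r : Fin k → V) (hk : k < finrank F V) :
    ∃ z, z ∉ Submodule.span F (Set.range r) := by
  by_contra hcon
  push Not at hcon
  have h1 := Submodule.finrank_mono (show (⊤ : Submodule F V) ≤ _ from fun x _ => hcon x)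
  have h3 := finrank_range_le_card (R := F) r
  rw [Set.finrank] at h3
  simp only [Fintype.card_fin] at h3
  rw [finrank_top] at h1
  omega

omit D [Finite F] [FiniteDimensional F V] in
lemma notInK_of_avoid {x u : V} {l : ℕ} (s : Fin l → V) (i j : Fin l) (hi : s i = x) (hj : s j = J x)
    (hu : u ∉ Submodule.span F (Set.range s)) : ¬ InK J x u := by
  rintro ⟨a, b, rfl⟩
  exact hu (Submodule.add_mem _
    (Submodule.smul_mem _ a (hi ▸ Submodule.subset_span (Set.mem_range_self i)))
    (Submodule.smul_mem _ b (hj ▸ Submodule.subset_span (Set.mem_range_self j))))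

include hB hn

/-- Either `g` respects the extension field or it moves some singular line off the field lines. -/
lemma exists_bad (g : G) (h1 : ¬ ∀ x, J (g.1 x) = g.1 (J x))
    (h2 : ¬ ∀ x, J (g.1 x) = τ • g.1 x - g.1 (J x)) :
    ∃ v, v ≠ 0 ∧ Q v = 0 ∧ ¬ InK J (g.1 v) (g.1 (J v)) := by
  by_contra! hcon
  set S : V →ₗ[F] V := (g.1.symm : V →ₗ[F] V) ∘ₗ J ∘ₗ (g.1 : V →ₗ[F] V) with hS
  have hSa : ∀ x, S x = g.1.symm (J (g.1 x)) := fun x => rfl
  have hloc : ∀ v, Q v = 0 → v ≠ 0 → ∃ a b : F, S v = a • v + b • J v := by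
    intro v hv hv0
    obtain ⟨x, y, h⟩ := hcon v hv0 hv
    have hy : y ≠ 0 := by
      rintro rfl
      have h' : J v = x • v := g.1.injective (by rw [h, map_smul]; module)
      have := (eq_zero_of_pair D hv0 (x := -x) (y := 1) (by rw [h']; module)).2
      exact one_ne_zero this
    refine ⟨-x / y, 1 / y, g.1.injective ?_⟩
    rw [hSa, LinearEquiv.apply_symm_apply, map_add, map_smul, map_smul, h]
    match_scalars <;> field_simp <;> ring
  have hpair : ∀ v u, Q v = 0 → v ≠ 0 → Q u = 0 → β u v = 0 → ¬ InK J v u →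
      ∀ a b a' b' : F, S v = a • v + b • J v → S u = a' • u + b' • J u → a = a' ∧ b = b' := by
    intro v u hv hv0 hu huv hnK a b a' b' hab hab'
    have hne1 : v + u ≠ 0 := fun h => hnK ⟨-1, 0, by
      linear_combination (norm := module) h⟩
    obtain ⟨e, f, hef⟩ := hloc (v + u) (by
      rw [Witt.quad_add, hv, hu, Witt.polar_symm' Q v u, huv]; ring) hne1
    rw [map_add, hab, hab', map_add] at hef
    obtain ⟨k1, k2, k3, k4⟩ := quad_indep D hv0 hnK (x := a - e) (y := b - f) (z := a' - e)
      (w := b' - f) (by linear_combination (norm := module) hef)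
    exact ⟨by linear_combination k1 - k3, by linear_combination k2 - k4⟩
  obtain ⟨z0, hz0⟩ := exists_notMem (F := F) (![] : Fin 0 → V) (by omega)
  obtain ⟨v, hv, -, hvz⟩ := SingularVectors.exists_sing Q hB (![] : Fin 0 → V) (by omega) hz0
  have hv0 : v ≠ 0 := fun h => by
    rw [h, map_zero, LinearMap.zero_apply] at hvz
    exact zero_ne_one hvz
  obtain ⟨a, b, hab⟩ := hloc v hv hv0
  have hall : ∀ w, Q w = 0 → S w = a • w + b • J w := by
    intro w hw
    by_cases hw0 : w = 0
    · simp [hw0]
    obtain ⟨z, hz⟩ := exists_notMem (F := F) ![v, w] (by omega)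
    obtain ⟨u, hu, hur, -, hus⟩ := SingularVectors.exists_sing_avoid Q hB ![v, w] (by omega) hz
      ![v, J v, w, J w] (by omega)
    have hu0 : u ≠ 0 := fun h => hus (by rw [h]; exact Submodule.zero_mem _)
    obtain ⟨a', b', hab'⟩ := hloc u hu hu0
    obtain ⟨a'', b'', hab''⟩ := hloc w hw hw0
    obtain ⟨rfl, rfl⟩ := hpair v u hv hv0 hu (hur 0) (notInK_of_avoid _ 0 1 rfl rfl hus) _ _ _ _ hab hab'
    obtain ⟨rfl, rfl⟩ := hpair w u hw hw0 hu (hur 1) (notInK_of_avoid _ 2 3 rfl rfl hus) _ _ _ _ hab'' hab'
    exact hab''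
  have hSJ : ∀ x, S x = a • x + b • J x := by
    intro x
    have hx : x ∈ Submodule.span F {x : V | x ∈ (⊤ : Submodule F V) ∧ Q x = 0} := by
      rw [SingularVectors.span_singular Q (U := ⊤)]
      · exact Submodule.mem_top
      · rw [LinearMap.BilinForm.orthogonal_top_eq_bot hB, inf_bot_eq, finrank_bot, finrank_top]
        omega
    induction hx using Submodule.span_induction with
    | mem y hy => exact hall y hy.2
    | zero => simp
    | add y z _ _ hy hz => rw [map_add, hy, hz, map_add]; module
    | smul c y _ hy => rw [map_smul, hy, map_smul]; module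
  have hS2 : S (S v) = τ • S v - N • v := by
    rw [hSa, hSa, LinearEquiv.apply_symm_apply, D.sq, map_sub, map_smul, map_smul,
      LinearEquiv.symm_apply_apply]
  rw [hSJ (S v), hSJ v, map_add, map_smul, map_smul, D.sq] at hS2
  obtain ⟨k1, k2⟩ := eq_zero_of_pair D hv0 (x := a * a - b * b * N - τ * a + N)
    (y := b * (2 * a + b * τ - τ)) (by linear_combination (norm := module) hS2)
  have hb : b ≠ 0 := by
    intro hb
    exact D.noroot a (by rw [hb] at k1; linear_combination k1)
  have hJg : ∀ x, J (g.1 x) = a • g.1 x + b • g.1 (J x) := fun x => by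
    have := congrArg g.1 (hSJ x)
    rwa [hSa, LinearEquiv.apply_symm_apply, map_add, map_smul, map_smul] at this
  rcases coeff_cases D hb k2 k1 with ⟨rfl, rfl⟩ | ⟨rfl, rfl⟩
  · exact h1 fun x => by rw [hJg]; module
  · exact h2 fun x => by rw [hJg]; module

omit D hB hn [Finite F] [FiniteDimensional F V] in
/-- `w` is orthogonal to `b` and the root group of `(b, w)` lies in `H`. -/
def InA (H : Subgroup G) (b w : V) : Prop := β b w = 0 ∧ ∀ s : F, siegel Q b (s • w) ∈ H

variable {H : Subgroup (Witt.quadIso Q)} (hT : ∀ v, Q v = 0 → ∀ s : F, siegel Q v (s • J v) ∈ H)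

omit D hB hn [Finite F] [FiniteDimensional F V] in
lemma InA.add {b w w' : V} (hb : Q b = 0) (h : InA H b w) (h' : InA H b w') : InA H b (w + w') := by
  refine ⟨by rw [map_add, h.1, h'.1, add_zero], fun s => ?_⟩
  rw [smul_add, ← siegel_mul Q hb (by rw [map_smul, h.1, smul_zero]) (by rw [map_smul, h'.1, smul_zero])]
  exact mul_mem (h.2 s) (h'.2 s)

omit D hB hn [Finite F] [FiniteDimensional F V] in
lemma InA.smul {b w : V} (h : InA H b w) (c : F) : InA H b (c • w) :=
  ⟨by rw [map_smul, h.1, smul_zero], fun s => by rw [smul_smul]; exact h.2 _⟩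

omit D hB hn [Finite F] [FiniteDimensional F V] in
lemma InA.sub {b w w' : V} (hb : Q b = 0) (h : InA H b w) (h' : InA H b w') : InA H b (w - w') := by
  rw [sub_eq_add_neg, ← neg_one_smul F w']
  exact h.add hb (h'.smul _)

omit D hB hn [Finite F] [FiniteDimensional F V] in
lemma InA.zero {b : V} (hb : Q b = 0) : InA H b 0 :=
  ⟨map_zero _, fun s => by rw [smul_zero, siegel_zero Q hb]; exact one_mem H⟩

omit D hB hn [Finite F] [FiniteDimensional F V] in
lemma InA.swap {b w : V} (hb : Q b = 0) (hw : Q w = 0) (h : InA H b w) : InA H w b := by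
  have hwb : β w b = 0 := by rw [Witt.polar_symm', h.1]
  refine ⟨hwb, fun s => ?_⟩
  have e : siegel Q w (s • b) = siegel Q b ((-s) • w) := by
    refine ext' Q fun x => ?_
    rw [siegel_apply Q hw (by rw [map_smul, hwb, smul_zero]),
      siegel_apply Q hb (by rw [map_smul, h.1, smul_zero]), Witt.quad_smul, Witt.quad_smul, hb, hw,
      map_smul, map_smul, smul_eq_mul, smul_eq_mul]
    module
  exact e ▸ h.2 _

omit D hB hn [Finite F] [FiniteDimensional F V] in
lemma InA.map {b w : V} (hb : Q b = 0) (h : InA H b w) {g : G} (hg : g ∈ H) (hgb : g.1 b = b) :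
    InA H b (g.1 w) := by
  refine ⟨by rw [← hgb, Reflections.polar_apply, h.1], fun s => ?_⟩
  have := H.mul_mem (H.mul_mem hg (h.2 s)) (H.inv_mem hg)
  rwa [siegel_conj Q g hb (by rw [map_smul, h.1, smul_zero]), hgb, map_smul] at this

/-- All of the orthogonal of the field line through `b`. -/
def Wide (H : Subgroup G) (J : V →ₗ[F] V) (b : V) : Prop :=
  ∀ w, QuadraticMap.polarBilin Q b w = 0 → QuadraticMap.polarBilin Q (J b) w = 0 → InA H b w

include hT

/-- One root group off the field line gives the whole orthogonal of the field line. -/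
lemma wide_of_inA {b a : V} (hb : Q b = 0) (hb0 : b ≠ 0) (ha : InA H b a) (hnK : ¬ InK J b a) :
    Wide H J b := by
  have hR : ∀ c, InA H b c → ∀ y, Q y = 0 → β b y = 0 → β (J b) y = 0 →
      InA H b (β c y • J y - β c (J y) • y) := by
    intro c hc y hy hby hJby
    have hyJy : β y ((1 : F) • J y) = 0 := by rw [one_smul, sing_cross D hy]
    have hTc : ∀ x, (siegel Q y ((1 : F) • J y)).1 x = x + β x y • J y - β x (J y) • y := fun x => by
      rw [siegel_apply Q hy hyJy, one_smul, sing_J D hy, zero_mul, add_zero]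
    have := (hc.map hb (hT y hy 1) (by
      rw [hTc, hby, polar_J D, hby, hJby]; simp)).sub hb hc
    rw [hTc] at this
    convert this using 1
    module
  -- singular vectors outside the span of `a`, `b` over the field
  have main : ∀ y, Q y = 0 → β b y = 0 → β (J b) y = 0 →
      y ∉ Submodule.span F (Set.range ![a, J a, b, J b]) → InA H b y := by
    have hgen : ∀ y, Q y = 0 → β b y = 0 → β (J b) y = 0 →
        y ∉ Submodule.span F (Set.range ![a, J a, b, J b]) → (β a y ≠ 0 ∨ β a (J y) ≠ 0) →
        InA H b y := by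
      intro y hy hby hJby hyS hne
      by_cases he : β a y = 0
      · have h := (hR a ha y hy hby hJby).smul (-(β a (J y))⁻¹)
        rw [he, zero_smul, zero_sub, smul_neg, neg_smul, neg_neg, smul_smul,
          inv_mul_cancel₀ (hne.resolve_left (not_not_intro he)), one_smul] at h
        exact h
      · have hspan : J y ∉ Submodule.span F (Set.range ![b, J b, a, y, J a - J y]) := by
          intro hc
          obtain ⟨c, hc⟩ := (Submodule.mem_span_range_iff_exists_fun F).1 hc
          simp only [Fin.sum_univ_five, Matrix.cons_val_zero, Matrix.cons_val_one, Matrix.cons_val] at hc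
          by_cases hyc : c 3 = 0 ∧ -(1 + c 4) = 0
          · have h4 : c 4 = -1 := by linear_combination -hyc.2
            rw [hyc.1, h4] at hc
            obtain ⟨-, -, -, k4⟩ := quad_indep D hb0 hnK (x := c 0) (y := c 1) (z := c 2) (w := -1)
              (by linear_combination (norm := module) hc)
            simp at k4
          · apply hyS
            have hmem : ∀ x0 x1 x2 x3 : F, x0 • a + x1 • J a + x2 • b + x3 • J b ∈
                Submodule.span F (Set.range ![a, J a, b, J b]) := fun x0 x1 x2 x3 =>
              (Submodule.mem_span_range_iff_exists_fun F).2 ⟨![x0, x1, x2, x3], by simp [Fin.sum_univ_four]⟩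
            have e1 : c 3 • y + (-(1 + c 4)) • J y =
                (-c 2) • a + (-c 4) • J a + (-c 0) • b + (-c 1) • J b := by
              linear_combination (norm := module) hc
            have hno := norm_ne D (a := c 3) (c := -(1 + c 4)) (by tauto)
            rw [← inv_smul_smul₀ hno y, norm_smul' D, e1]
            refine Submodule.smul_mem _ _ (Submodule.sub_mem _ (Submodule.smul_mem _ _ (hmem _ _ _ _))
              (Submodule.smul_mem _ _ ?_))
            simp only [map_add, map_smul, D.sq]
            convert hmem (c 4 * N) (-c 2 - c 4 * τ) (c 1 * N) (-c 0 - c 1 * τ) using 1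
            module
        obtain ⟨p, hp, hpr, hpv⟩ := SingularVectors.exists_sing Q hB _ (by omega) hspan
        have hpb : β b p = 0 := by rw [Witt.polar_symm']; exact hpr 0
        have hpJb : β (J b) p = 0 := by rw [Witt.polar_symm']; exact hpr 1
        have hpa : β a p = 0 := by rw [Witt.polar_symm']; exact hpr 2
        have hpJa : β (J a) p = 1 := by
          rw [Witt.polar_symm', ← hpv]
          have := hpr 4
          simp only [Matrix.cons_val, map_sub] at this
          exact sub_eq_zero.1 this
        have hpA : InA H b p := by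
          have h := hR a ha p hp hpb hpJb
          rw [polar_J D, hpa, hpJa] at h
          convert h using 1
          module
        have h := (hR p hpA y hy hby hJby).smul (-1)
        rw [show β p y = 0 from hpr 3, hpv] at h
        convert h using 1
        module
    intro y hy hby hJby hyS
    by_cases hne : β a y ≠ 0 ∨ β a (J y) ≠ 0
    · exact hgen y hy hby hJby hyS hne
    · push Not at hne
      have hspan : a ∉ Submodule.span F (Set.range ![b, J b, y]) := by
        intro hc
        obtain ⟨c, hc⟩ := (Submodule.mem_span_range_iff_exists_fun F).1 hc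
        simp only [Fin.sum_univ_three, Matrix.cons_val_zero, Matrix.cons_val_one, Matrix.cons_val] at hc
        by_cases h3 : c 2 = 0
        · exact hnK ⟨c 0, c 1, by rw [← hc, h3]; module⟩
        · refine hyS ((Submodule.mem_span_range_iff_exists_fun F).2
            ⟨![(c 2)⁻¹, 0, -(c 2)⁻¹ * c 0, -(c 2)⁻¹ * c 1], ?_⟩)
          rw [← inv_smul_smul₀ h3 y, show c 2 • y = a - c 0 • b - c 1 • J b by
            linear_combination (norm := module) hc]
          simp [Fin.sum_univ_four]
          module
      obtain ⟨p, hp, hpr, hpv, hps⟩ := SingularVectors.exists_sing_avoid Q hB _ (by omega) hspan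
        ![a, J a, b, J b, y, J y] (by omega)
      have hsub : Submodule.span F (Set.range ![a, J a, b, J b]) ≤
          Submodule.span F (Set.range ![a, J a, b, J b, y, J y]) := by
        refine Submodule.span_mono ?_
        rintro x ⟨i, rfl⟩
        fin_cases i
        exacts [⟨0, rfl⟩, ⟨1, rfl⟩, ⟨2, rfl⟩, ⟨3, rfl⟩]
      have hbp : β b p = 0 := by rw [Witt.polar_symm']; exact hpr 0
      have hJbp : β (J b) p = 0 := by rw [Witt.polar_symm']; exact hpr 1
      have hap : β a p = 1 := by rw [Witt.polar_symm']; exact hpv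
      have hp1 : InA H b p := hgen p hp hbp hJbp (fun hc => hps (hsub hc))
        (Or.inl (by rw [hap]; exact one_ne_zero))
      have hp2 : InA H b (y + p) := hgen (y + p)
        (by rw [Witt.quad_add, hy, hp, Witt.polar_symm' Q y p, show β p y = 0 from hpr 2]; ring)
        (by rw [map_add, hby, hbp, add_zero]) (by rw [map_add, hJby, hJbp, add_zero])
        (fun hc => hps (by
          have := Submodule.sub_mem _ (hsub hc)
            (Submodule.subset_span (⟨4, rfl⟩ : y ∈ Set.range ![a, J a, b, J b, y, J y]))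
          rwa [add_sub_cancel_left] at this))
        (Or.inl (by rw [map_add, hne.1, hap, zero_add]; exact one_ne_zero))
      simpa using hp2.sub hb hp1
  intro w hw hJw
  set W := LinearMap.BilinForm.orthogonal β (Submodule.span F (Set.range ![b, J b])) with hW
  have hspanW : Submodule.span F {x | x ∈ W ∧ Q x = 0} = W := by
    refine SingularVectors.span_singular Q ?_
    have h1 := Submodule.finrank_mono (inf_le_right : W ⊓ LinearMap.BilinForm.orthogonal β W ≤ _)
    have h4 := LinearMap.BilinForm.finrank_orthogonal hB (W := W)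
    have h2 : finrank F W = finrank F V - finrank F (Submodule.span F (Set.range ![b, J b])) := by
      rw [hW, LinearMap.BilinForm.finrank_orthogonal hB]
    have h3 := finrank_range_le_card (R := F) ![b, J b]
    rw [Set.finrank] at h3
    simp only [Fintype.card_fin] at h3
    omega
  have hwW : w ∈ Submodule.span F {x | x ∈ W ∧ Q x = 0} := by
    rw [hspanW, hW, LinearMap.BilinForm.mem_orthogonal_iff]
    intro x hx
    show β x w = 0
    obtain ⟨c, rfl⟩ := (Submodule.mem_span_range_iff_exists_fun F).1 hx
    simp only [Fin.sum_univ_two, Matrix.cons_val_zero, Matrix.cons_val_one, map_add, map_smul,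
      LinearMap.add_apply, LinearMap.smul_apply, hw, hJw, smul_zero, add_zero]
  clear hw hJw
  induction hwW using Submodule.span_induction with
  | mem y hy =>
    obtain ⟨hyW, hyq⟩ := hy
    have hby : β b y = 0 :=
      LinearMap.BilinForm.mem_orthogonal_iff.1 hyW b (Submodule.subset_span ⟨0, rfl⟩)
    have hJby : β (J b) y = 0 :=
      LinearMap.BilinForm.mem_orthogonal_iff.1 hyW (J b) (Submodule.subset_span ⟨1, rfl⟩)
    by_cases hyS : y ∈ Submodule.span F (Set.range ![a, J a, b, J b])
    · obtain ⟨v, hv⟩ : ∃ v, v ∉ Submodule.span F (Set.range ![b, J b, y]) :=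
        exists_notMem _ (by omega)
      obtain ⟨p, hp, hpr, -, hps⟩ := SingularVectors.exists_sing_avoid Q hB _ (by omega) hv
        ![a, J a, b, J b] (by omega)
      have hbp : β b p = 0 := by rw [Witt.polar_symm']; exact hpr 0
      have hJbp : β (J b) p = 0 := by rw [Witt.polar_symm']; exact hpr 1
      have h2 : InA H b (y + p) := main (y + p)
        (by rw [Witt.quad_add, hyq, hp, Witt.polar_symm' Q y p, show β p y = 0 from hpr 2]; ring)
        (by rw [map_add, hby, hbp, add_zero]) (by rw [map_add, hJby, hJbp, add_zero])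
        (fun hc => hps (by
          have := Submodule.sub_mem _ hc hyS
          rwa [add_sub_cancel_left] at this))
      simpa using h2.sub hb (main p hp hbp hJbp hps)
    · exact main y hyq hby hJby hyS
  | zero => exact InA.zero hb
  | add x y _ _ hx hy => exact hx.add hb hy
  | smul c x _ hx => exact hx.smul c

/-- Propagation. -/
lemma wide_all {b : V} (hb : Q b = 0) (hb0 : b ≠ 0) (hWb : Wide H J b) {d : V} (hd : Q d = 0)
    (hd0 : d ≠ 0) : Wide H J d := by
  obtain ⟨z, hz⟩ := exists_notMem (F := F) ![b, J b, d, J d] (by omega)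
  obtain ⟨w, hw, hwr, -, hws⟩ := SingularVectors.exists_sing_avoid Q hB _ (by omega) hz
    ![b, J b, d, J d] (by omega)
  have hw0 : w ≠ 0 := fun h => hws (by rw [h]; exact Submodule.zero_mem _)
  have hbw : InA H w b := (hWb w (by rw [Witt.polar_symm']; exact hwr 0)
    (by rw [Witt.polar_symm']; exact hwr 1)).swap hb hw
  have hWw : Wide H J w := wide_of_inA D hB hn hT hw hw0 hbw
    fun hc => notInK_of_avoid _ 0 1 rfl rfl hws (inK_symm D hb0 hc)
  have hdw : InA H d w := (hWw d (hwr 2) (by
    rw [D.adj, show β w d = 0 from hwr 2, show β w (J d) = 0 from hwr 3]; ring)).swap hw hd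
  exact wide_of_inA D hB hn hT hd hd0 hdw (notInK_of_avoid _ 2 3 rfl rfl hws)

/-- All Siegel elements. -/
lemma full_of_wide (hW : ∀ d, Q d = 0 → d ≠ 0 → Wide H J d) {b : V} (hb : Q b = 0) (hb0 : b ≠ 0)
    (x : V) (hx : β b x = 0) : InA H b x := by
  obtain ⟨z, hz⟩ := exists_notMem (F := F) ![b, J b] (by omega)
  obtain ⟨w, hw, hwr, -, hws⟩ := SingularVectors.exists_sing_avoid Q hB _ (by omega) hz
    ![b, J b] (by omega)
  have hwK : ¬ InK J b w := notInK_of_avoid _ 0 1 rfl rfl hws
  have hwA : InA H b w := hW b hb hb0 w (by rw [Witt.polar_symm']; exact hwr 0)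
    (by rw [Witt.polar_symm']; exact hwr 1)
  have hwb : w ∉ Submodule.span F (Set.range ![b]) := by
    intro hc
    obtain ⟨c, hc⟩ := (Submodule.mem_span_range_iff_exists_fun F).1 hc
    exact hwK ⟨c 0, 0, by rw [← hc]; simp⟩
  obtain ⟨d, hd, hdr, hdw, hds⟩ := SingularVectors.exists_sing_avoid Q hB _ (by omega) hwb
    ![b, J b, w, J w] (by omega)
  have hd0 : d ≠ 0 := fun h => hds (by rw [h]; exact Submodule.zero_mem _)
  have hspan : J b ∉ Submodule.span F (Set.range ![b, w, d, J d]) := by
    intro hc
    obtain ⟨c, hc⟩ := (Submodule.mem_span_range_iff_exists_fun F).1 hc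
    simp only [Fin.sum_univ_four, Matrix.cons_val_zero, Matrix.cons_val_one, Matrix.cons_val] at hc
    by_cases h23 : c 2 = 0 ∧ c 3 = 0
    · rw [h23.1, h23.2] at hc
      obtain ⟨-, k2, -, -⟩ := quad_indep D hb0 hwK (x := c 0) (y := -1) (z := c 1) (w := 0)
        (by linear_combination (norm := module) hc)
      simp at k2
    · apply hds
      have hno := norm_ne D (a := c 2) (c := c 3) (by tauto)
      rw [← inv_smul_smul₀ hno d, norm_smul' D,
        show c 2 • d + c 3 • J d = (-c 0) • b + (1 : F) • J b + (-c 1) • w by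
          linear_combination (norm := module) hc]
      simp only [map_add, map_smul, D.sq]
      refine (Submodule.mem_span_range_iff_exists_fun F).2
        ⟨![(c 2 * (c 2) + c 2 * c 3 * τ + c 3 * c 3 * N)⁻¹ * ((c 2 + c 3 * τ) * (-c 0) + c 3 * N),
           (c 2 * (c 2) + c 2 * c 3 * τ + c 3 * c 3 * N)⁻¹ * ((c 2 + c 3 * τ) + c 3 * c 0 - c 3 * τ),
           (c 2 * (c 2) + c 2 * c 3 * τ + c 3 * c 3 * N)⁻¹ * ((c 2 + c 3 * τ) * (-c 1)),
           (c 2 * (c 2) + c 2 * c 3 * τ + c 3 * c 3 * N)⁻¹ * (c 3 * c 1)], ?_⟩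
      simp [Fin.sum_univ_four]
      module
  obtain ⟨e, he, her, hev⟩ := SingularVectors.exists_sing Q hB _ (by omega) hspan
  have hde : β d e = 0 := by rw [Witt.polar_symm']; exact her 2
  have hJde : β (J d) e = 0 := by rw [Witt.polar_symm']; exact her 3
  have hg : siegel Q d e ∈ H := by simpa using (hW d hd hd0 e hde hJde).2 1
  have hbd : β b d = 0 := by rw [Witt.polar_symm']; exact hdr 0
  have hbe : β b e = 0 := by rw [Witt.polar_symm']; exact her 0
  have hwd : β w d = 1 := by rw [Witt.polar_symm']; exact hdw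
  have hwe : β w e = 0 := by rw [Witt.polar_symm']; exact her 1
  have h1 := hwA.map hb hg (by rw [siegel_apply Q hd hde, hbd, hbe]; simp)
  rw [siegel_apply Q hd hde, hwd, hwe, he] at h1
  have heA : InA H b e := by
    convert h1.sub hb hwA using 1
    module
  have hJbe : β (J b) e = 1 := by rw [Witt.polar_symm']; exact hev
  have h3 := hW b hb hb0 (x - β (J b) x • e) (by rw [map_sub, map_smul, hx, hbe, smul_zero, sub_zero])
    (by rw [map_sub, map_smul, hJbe, smul_eq_mul, mul_one, sub_self])
  simpa using h3.add hb (heA.smul (β (J b) x))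

/-- A subgroup containing the unitary root groups and an element not respecting the field contains the
commutator subgroup. -/
theorem commutator_le {g : G} (hg : g ∈ H) (h1 : ¬ ∀ x, J (g.1 x) = g.1 (J x))
    (h2 : ¬ ∀ x, J (g.1 x) = τ • g.1 x - g.1 (J x)) : commutator G ≤ H := by
  obtain ⟨v, hv0, hv, hvK⟩ := exists_bad D hB hn g h1 h2
  have hgv : Q (g.1 v) = 0 := by rw [g.2, hv]
  have hgv0 : g.1 v ≠ 0 := fun h => hv0 (g.1.map_eq_zero_iff.1 h)
  have hA : InA H (g.1 v) (g.1 (J v)) := by
    refine ⟨by rw [Reflections.polar_apply, sing_cross D hv], fun s => ?_⟩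
    have := H.mul_mem (H.mul_mem hg (hT v hv s)) (H.inv_mem hg)
    rwa [siegel_conj Q g hv (by rw [map_smul, sing_cross D hv, smul_zero]), map_smul] at this
  have hW := fun d (hd : Q d = 0) (hd0 : d ≠ 0) =>
    wide_all D hB hn hT hgv hgv0 (wide_of_inA D hB hn hT hgv hgv0 hA hvK) hd hd0
  rw [commutator_eq Q hB (by omega), siegelGroup_le_iff]
  intro p w hp hw
  by_cases hp0 : p = 0
  · subst hp0
    rw [show siegel Q 0 w = 1 from ext' Q fun x => by rw [siegel_apply Q hp hw]; simp]
    exact one_mem H
  · simpa using (full_of_wide D hB hn hT hW hp hp0 w hw).2 1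

end Cfsg.Lib.Classical.OrthUnitaryField
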