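import Mathlib
import Cfsg.Agent.Lib.Classical.OrthUnitaryField
import Cfsg.Agent.Lib.Classical.SymplecticCentre

/-!
Overgroups, inside the commutator subgroup of an orthogonal group of plus type, of the stabiliser of
two complementary totally singular subspaces.
-/

set_option autoImplicit false

namespace Cfsg.Lib.Classical.OrthSplitPair

open Module SiegelElements
open Cfsg.Lib.Classical.OrthUnitaryField (InA)

variable {F V : Type*} [Field F] [AddCommGroup V] [Module F V] [FiniteDimensional F V]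
  (Q : QuadraticForm F V)

local notation "β" => QuadraticMap.polarBilin Q

variable (hB : (QuadraticMap.polarBilin Q).Nondegenerate)
include hB

/-- A vector of the orthogonal of `S` with value one at a vector outside `S`. -/
lemma exists_sep {S : Submodule F V} {x : V} (hx : x ∉ S) :
    ∃ z ∈ LinearMap.BilinForm.orthogonal β S, β z x = 1 := by
  by_contra! hcon
  apply hx
  rw [← LinearMap.BilinForm.orthogonal_orthogonal hB (SingularVectors.refl' Q) S,
    LinearMap.BilinForm.mem_orthogonal_iff]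
  intro z hz
  show β z x = 0
  by_contra hne
  exact hcon ((β z x)⁻¹ • z) (Submodule.smul_mem _ _ hz)
    (by rw [map_smul, LinearMap.smul_apply, smul_eq_mul, inv_mul_cancel₀ hne])

/-- A vector of `C` orthogonal to a family and outside the span of another one. -/
lemma exists_pick {C : Submodule F V} {i j : ℕ} (r : Fin i → V) (s : Fin j → V)
    (h : i + j < finrank F C) :
    ∃ x ∈ C, (∀ l, β (r l) x = 0) ∧ x ∉ Submodule.span F (Set.range s) := by
  by_contra! hcon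
  set O := LinearMap.BilinForm.orthogonal β (Submodule.span F (Set.range r)) with hO
  have hle : C ⊓ O ≤ Submodule.span F (Set.range s) := fun x hx => hcon x hx.1 fun l =>
    LinearMap.BilinForm.mem_orthogonal_iff.1 hx.2 _ (Submodule.subset_span (Set.mem_range_self l))
  have h1 := Submodule.finrank_mono hle
  have h2 := Submodule.finrank_sup_add_finrank_inf_eq C O
  have h3 : finrank F O = finrank F V - finrank F (Submodule.span F (Set.range r)) := by
    rw [hO, LinearMap.BilinForm.finrank_orthogonal hB]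
  have h4 := (C ⊔ O).finrank_le
  have h5 := finrank_range_le_card (R := F) s
  have h6 := finrank_range_le_card (R := F) r
  rw [Set.finrank] at h5 h6
  simp only [Fintype.card_fin] at h5 h6
  omega

/-- A totally singular subspace of half dimension is its own orthogonal. -/
lemma orth_eq {C : Submodule F V} {k : ℕ} (hC : ∀ x ∈ C, Q x = 0) (hd : finrank F C = k)
    (hV : finrank F V = 2 * k) : LinearMap.BilinForm.orthogonal β C = C := by
  refine (Submodule.eq_of_le_of_finrank_eq (fun x hx => ?_) ?_).symm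
  · refine LinearMap.BilinForm.mem_orthogonal_iff.2 fun y hy => ?_
    show β y x = 0
    rw [QuadraticMap.polarBilin_apply_apply, QuadraticMap.polar, hC _ (C.add_mem hy hx), hC y hy, hC x hx]
    ring
  · rw [LinearMap.BilinForm.finrank_orthogonal hB]
    omega

omit hB in
omit [FiniteDimensional F V] in
lemma ts_polar {C : Submodule F V} (hC : ∀ x ∈ C, Q x = 0) {x y : V} (hx : x ∈ C) (hy : y ∈ C) :
    β x y = 0 := by
  rw [QuadraticMap.polarBilin_apply_apply, QuadraticMap.polar, hC _ (C.add_mem hx hy), hC x hx, hC y hy]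
  ring

omit hB in
omit [FiniteDimensional F V] in
lemma decomp {A A' : Submodule F V} (hc : IsCompl A A') (x : V) :
    ∃ x₁ ∈ A, ∃ x₂ ∈ A', x = x₁ + x₂ := by
  obtain ⟨x₁, h₁, x₂, h₂, h⟩ := Submodule.mem_sup.1 (hc.sup_eq_top ▸ Submodule.mem_top : x ∈ A ⊔ A')
  exact ⟨x₁, h₁, x₂, h₂, h.symm⟩

omit hB in
lemma hV {A A' : Submodule F V} {k : ℕ} (hc : IsCompl A A') (hdA : finrank F A = k)
    (hdA' : finrank F A' = k) : finrank F V = 2 * k := by
  rw [← Submodule.finrank_add_eq_of_isCompl hc, hdA, hdA']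
  omega

omit hB in
omit [FiniteDimensional F V] in
lemma inA_root {A A' : Submodule F V} {H : Subgroup (Witt.quadIso Q)}
    (hroot : ∀ v ∈ A, ∀ φ ∈ A', β v φ = 0 → siegel Q v φ ∈ H)
    {v φ : V} (hv : v ∈ A) (hφ : φ ∈ A') (h : β v φ = 0) : InA H v φ :=
  ⟨h, fun s => hroot v hv (s • φ) (A'.smul_mem _ hφ) (by rw [map_smul, h, smul_zero])⟩

variable {A A' : Submodule F V} {k : ℕ} (hA : ∀ x ∈ A, Q x = 0) (hA' : ∀ x ∈ A', Q x = 0)
  (hc : IsCompl A A') (hdA : finrank F A = k) (hdA' : finrank F A' = k)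
  {H : Subgroup (Witt.quadIso Q)}
  (hroot : ∀ v ∈ A, ∀ φ ∈ A', QuadraticMap.polarBilin Q v φ = 0 → siegel Q v φ ∈ H)
include hA hA' hc hdA hdA' hroot

variable (hk : 5 ≤ k)
include hk

/-- A root group off the standard lines on a point of `A'` side gives one inside `A'`. -/
lemma step {a b a₁ a₂ b₁ b₂ : V} (ha : a = a₁ + a₂) (hb : b = b₁ + b₂) (ha₁ : a₁ ∈ A) (ha₂ : a₂ ∈ A')
    (hb₁ : b₁ ∈ A) (hb₂ : b₂ ∈ A') (hqb : Q b = 0) (hb₂0 : b₂ ≠ 0)
    (hne : a₂ ∉ Submodule.span F {b₂}) (hab : InA H b a) :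
    ∃ φ ψ, φ ∈ A' ∧ ψ ∈ A' ∧ φ ≠ 0 ∧ ψ ∉ Submodule.span F {φ} ∧ InA H φ ψ := by
  have hsep : a₂ ∉ A ⊔ Submodule.span F {b} := by
    intro hm
    obtain ⟨y, hy, z, hz, hyz⟩ := Submodule.mem_sup.1 hm
    obtain ⟨c, rfl⟩ := Submodule.mem_span_singleton.1 hz
    refine hne (Submodule.mem_span_singleton.2 ⟨c, ?_⟩)
    rw [hb, smul_add, ← add_assoc] at hyz
    have h0 : a₂ - c • b₂ ∈ A ⊓ A' := ⟨by
      rw [← hyz, add_sub_cancel_right]; exact A.add_mem hy (A.smul_mem _ hb₁),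
      A'.sub_mem ha₂ (A'.smul_mem _ hb₂)⟩
    rw [hc.inf_eq_bot, Submodule.mem_bot, sub_eq_zero] at h0
    exact h0.symm
  obtain ⟨v, hv, hva₂⟩ := exists_sep Q hB hsep
  have hvA : v ∈ A := by
    rw [← orth_eq Q hB hA hdA (hV hc hdA hdA')]
    exact LinearMap.BilinForm.orthogonal_le le_sup_left hv
  have hbv : β b v = 0 := LinearMap.BilinForm.mem_orthogonal_iff.1 hv b
    (Submodule.mem_sup_right (Submodule.mem_span_singleton_self b))
  have hav : β a v = 1 := by
    rw [ha, map_add, LinearMap.add_apply, ts_polar Q hA ha₁ hvA, zero_add, Witt.polar_symm', hva₂]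
  obtain ⟨φ, hφ, hφr, hφs⟩ := exists_pick Q hB (C := A') ![a, b, v] ![b₂] (by omega)
  have hvφ : β v φ = 0 := hφr 2
  have hT : siegel Q v φ ∈ H := hroot v hvA φ hφ hvφ
  have h1 := hab.map hqb hT (by
    rw [siegel_apply Q (hA v hvA) hvφ, hbv, show β b φ = 0 from hφr 1]; simp)
  rw [siegel_apply Q (hA v hvA) hvφ, hav, show β a φ = 0 from hφr 0, hA' φ hφ] at h1
  have hbφ : InA H b φ := by
    convert h1.sub hqb hab using 1
    module
  have hb1φ : β b₁ φ = 0 := by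
    have h5 : β b φ = 0 := hφr 1
    rwa [hb, map_add, LinearMap.add_apply, ts_polar Q hA' hb₂ hφ, add_zero] at h5
  have h2 : InA H φ b := hbφ.swap hqb (hA' φ hφ)
  have h3 : InA H φ b₁ := (inA_root Q hroot hb₁ hφ hb1φ).swap (hA b₁ hb₁) (hA' φ hφ)
  refine ⟨φ, b₂, hφ, hb₂, fun h0 => hφs (by rw [h0]; exact Submodule.zero_mem _), fun hm => ?_, ?_⟩
  · obtain ⟨c, hc'⟩ := Submodule.mem_span_singleton.1 hm
    have hc0 : c ≠ 0 := fun h => hb₂0 (by rw [← hc', h, zero_smul])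
    refine hφs (Submodule.mem_span_range_iff_exists_fun F |>.2 ⟨![c⁻¹], ?_⟩)
    simp [← hc', hc0]
  · have := h2.sub (hA' φ hφ) h3
    rwa [hb, add_sub_cancel_left] at this

/-- One root group inside `A` gives the whole unipotent radical at each point of `A`. -/
lemma full {v u : V} (hv : v ∈ A) (hu : u ∈ A)
    (hne : u ∉ Submodule.span F {v}) (h : InA H v u) {x : V} (hx : β v x = 0) : InA H v x := by
  have hsep : u ∉ A' ⊔ Submodule.span F {v} := by
    intro hm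
    obtain ⟨y, hy, z, hz, hyz⟩ := Submodule.mem_sup.1 hm
    obtain ⟨c, rfl⟩ := Submodule.mem_span_singleton.1 hz
    have h0 : y ∈ A ⊓ A' := ⟨by
      rw [eq_sub_of_add_eq hyz]; exact A.sub_mem hu (A.smul_mem _ hv), hy⟩
    rw [hc.inf_eq_bot, Submodule.mem_bot] at h0
    exact hne (Submodule.mem_span_singleton.2 ⟨c, by rw [← hyz, h0, zero_add]⟩)
  obtain ⟨φ, hφ, hφu⟩ := exists_sep Q hB hsep
  have hφA : φ ∈ A' := by
    rw [← orth_eq Q hB hA' hdA' (hV hc hdA hdA')]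
    exact LinearMap.BilinForm.orthogonal_le le_sup_left hφ
  have hvφ : β v φ = 0 := LinearMap.BilinForm.mem_orthogonal_iff.1 hφ v
    (Submodule.mem_sup_right (Submodule.mem_span_singleton_self v))
  have huφ : β u φ = 1 := by rw [Witt.polar_symm', hφu]
  have hker : ∀ w ∈ A, β w φ = 0 → InA H v w := by
    intro w hw hwφ
    have hT : siegel Q w φ ∈ H := hroot w hw φ hφA hwφ
    have h1 := h.map (hA v hv) hT (by
      rw [siegel_apply Q (hA w hw) hwφ, ts_polar Q hA hv hw, hvφ]; simp)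
    rw [siegel_apply Q (hA w hw) hwφ, ts_polar Q hA hu hw, huφ, hA' φ hφA] at h1
    convert h.sub (hA v hv) h1 using 1
    module
  obtain ⟨x₁, hx₁, x₂, hx₂, rfl⟩ := decomp hc x
  have hx₂' : β v x₂ = 0 := by
    rwa [map_add, ts_polar Q hA hv hx₁, zero_add] at hx
  refine InA.add (hA v hv) ?_ (inA_root Q hroot hv hx₂ hx₂')
  have h1 := (hker (x₁ - β x₁ φ • u) (A.sub_mem hx₁ (A.smul_mem _ hu))
    (by rw [map_sub, LinearMap.sub_apply, map_smul, LinearMap.smul_apply, huφ, smul_eq_mul, mul_one, sub_self])).add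
    (hA v hv) (h.smul (β x₁ φ))
  rwa [sub_add_cancel] at h1

/-- All points of `A`. -/
lemma full_all {v u : V} (hv : v ∈ A) (hu : u ∈ A)
    (hne : u ∉ Submodule.span F {v}) (h : InA H v u) (hv1 : v ≠ 0) {d : V} (hd : d ∈ A) (hd0 : d ≠ 0)
    {x : V} (hx : β d x = 0) : InA H d x := by
  have hv0 : ∀ e ∈ A, e ∉ Submodule.span F {v} → ∀ y, β e y = 0 → InA H e y := by
    intro e he hev y hy
    refine full Q hB hA hA' hc hdA hdA' hroot hk he hv (fun hm => ?_)
      ((full Q hB hA hA' hc hdA hdA' hroot hk hv hu hne h (ts_polar Q hA hv he)).swap (hA v hv) (hA e he)) hy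
    obtain ⟨c, hc'⟩ := Submodule.mem_span_singleton.1 hm
    by_cases hc0 : c = 0
    · rw [hc0, zero_smul] at hc'
      exact hv1 hc'.symm
    · exact hev (Submodule.mem_span_singleton.2 ⟨c⁻¹, by rw [← hc', inv_smul_smul₀ hc0]⟩)
  by_cases hdv : d ∈ Submodule.span F {v}
  · refine full Q hB hA hA' hc hdA hdA' hroot hk hd hu (fun hm => hne ?_)
      ((hv0 u hu hne d (ts_polar Q hA hu hd)).swap (hA u hu) (hA d hd)) hx
    exact (Submodule.span_singleton_le_iff_mem d _).2 hdv hm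
  · exact hv0 d hd hdv x hx

variable (hswap : ∃ σ ∈ H, (∀ x ∈ A, (σ : Witt.quadIso Q).1 x ∈ A') ∧ ∀ x ∈ A', (σ : Witt.quadIso Q).1 x ∈ A)
include hswap

/-- A subgroup containing the root groups of standard lines, a swap, and an element moving the pair
contains all Siegel elements. -/
theorem siegel_mem {g : Witt.quadIso Q} (hg : g ∈ H)
    (hgn : ¬ ((∀ x ∈ A, g.1 x ∈ A) ∧ ∀ x ∈ A', g.1 x ∈ A'))
    (hgn' : ¬ ((∀ x ∈ A, g.1 x ∈ A') ∧ ∀ x ∈ A', g.1 x ∈ A))
    {p w : V} (hp : Q p = 0) (hw : β p w = 0) : siegel Q p w ∈ H := by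
  have hroot' : ∀ v ∈ A', ∀ φ ∈ A, β v φ = 0 → siegel Q v φ ∈ H := fun v hv φ hφ hvφ => by
    have := (inA_root Q hroot hφ hv (by rw [Witt.polar_symm', hvφ])).swap (hA φ hφ) (hA' v hv)
    simpa using this.2 1
  obtain ⟨σ, hσ, hσA, hσA'⟩ := hswap
  have hσinj : ∀ x y, σ.1 x = σ.1 y → x = y := fun x y h => σ.1.injective h
  -- a root group inside `A`
  have toA : (∃ φ ψ, φ ∈ A' ∧ ψ ∈ A' ∧ φ ≠ 0 ∧ ψ ∉ Submodule.span F {φ} ∧ InA H φ ψ) →
      ∃ φ ψ, φ ∈ A ∧ ψ ∈ A ∧ φ ≠ 0 ∧ ψ ∉ Submodule.span F {φ} ∧ InA H φ ψ := by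
    rintro ⟨φ, ψ, hφ, hψ, hφ0, hne, hI⟩
    refine ⟨σ.1 φ, σ.1 ψ, hσA' φ hφ, hσA' ψ hψ, fun h0 => hφ0 (σ.1.map_eq_zero_iff.1 h0), fun hm => hne ?_, ?_⟩
    · obtain ⟨c, hc'⟩ := Submodule.mem_span_singleton.1 hm
      exact Submodule.mem_span_singleton.2 ⟨c, hσinj _ _ (by rw [map_smul, hc'])⟩
    · refine ⟨by rw [Reflections.polar_apply, hI.1], fun s => ?_⟩
      have := H.mul_mem (H.mul_mem hσ (hI.2 s)) (H.inv_mem hσ)
      rwa [siegel_conj Q σ (hA' φ hφ) (by rw [map_smul, hI.1, smul_zero]), map_smul] at this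
  have hex : ∃ φ ψ, φ ∈ A ∧ ψ ∈ A ∧ φ ≠ 0 ∧ ψ ∉ Submodule.span F {φ} ∧ InA H φ ψ := by
    by_contra hno
    -- then every image of a standard line is standard
    have hstd : ∀ v ∈ A, ∀ φ ∈ A', β v φ = 0 → v ≠ 0 → φ ≠ 0 →
        ∃ v' ∈ A, ∃ φ' ∈ A', g.1 v ∈ Submodule.span F {v', φ'} ∧ g.1 φ ∈ Submodule.span F {v', φ'} := by
      intro v hv φ hφ hvφ hv0 hφ0
      have hI : InA H (g.1 v) (g.1 φ) := by
        refine ⟨by rw [Reflections.polar_apply, hvφ], fun s => ?_⟩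
        have := H.mul_mem (H.mul_mem hg ((inA_root Q hroot hv hφ hvφ).2 s)) (H.inv_mem hg)
        rwa [siegel_conj Q g (hA v hv) (by rw [map_smul, hvφ, smul_zero]), map_smul] at this
      have hqb : Q (g.1 v) = 0 := by rw [g.2, hA v hv]
      have hqa : Q (g.1 φ) = 0 := by rw [g.2, hA' φ hφ]
      obtain ⟨b₁, hb₁, b₂, hb₂, hb⟩ := decomp hc (g.1 v)
      obtain ⟨a₁, ha₁, a₂, ha₂, ha⟩ := decomp hc (g.1 φ)
      have side' : ∀ {x y : V} {x₁ y₁ x₂ y₂ : V}, x = x₁ + x₂ → y = y₁ + y₂ → x₁ ∈ A → x₂ ∈ A' →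
          y₁ ∈ A → y₂ ∈ A' → Q y = 0 → InA H y x → y₂ ≠ 0 → x₂ ∈ Submodule.span F {y₂} := by
        intro x y x₁ y₁ x₂ y₂ hx hy hx₁ hx₂ hy₁ hy₂ hqy hxy hy0
        by_contra hne
        exact hno (toA (step Q hB hA hA' hc hdA hdA' hroot hk hx hy hx₁ hx₂ hy₁ hy₂ hqy hy0 hne hxy))
      have side : ∀ {x y : V} {x₁ y₁ x₂ y₂ : V}, x = x₁ + x₂ → y = y₁ + y₂ → x₁ ∈ A → x₂ ∈ A' →
          y₁ ∈ A → y₂ ∈ A' → Q y = 0 → InA H y x → y₁ ≠ 0 → x₁ ∈ Submodule.span F {y₁} := by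
        intro x y x₁ y₁ x₂ y₂ hx hy hx₁ hx₂ hy₁ hy₂ hqy hxy hy0
        by_contra hne
        exact hno (step Q hB hA' hA hc.symm hdA' hdA hroot' hk (hx.trans (add_comm x₁ x₂)) (hy.trans (add_comm y₁ y₂)) hx₂ hx₁ hy₂ hy₁ hqy hy0 hne hxy)
      -- choose spanning vectors on both sides
      have pick : ∀ {x y : V}, (y ≠ 0 → x ∈ Submodule.span F {y}) → ∀ {W : Submodule F V}, x ∈ W → y ∈ W →
          ∃ z ∈ W, x ∈ Submodule.span F {z} ∧ y ∈ Submodule.span F {z} := by
        intro x y h W hxW hyW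
        by_cases hy : y = 0
        · exact ⟨x, hxW, Submodule.mem_span_singleton_self x, hy ▸ Submodule.zero_mem _⟩
        · exact ⟨y, hyW, h hy, Submodule.mem_span_singleton_self y⟩
      obtain ⟨v', hv', hav', hbv'⟩ := pick (side ha hb ha₁ ha₂ hb₁ hb₂ hqb hI) ha₁ hb₁
      obtain ⟨φ', hφ', haφ', hbφ'⟩ := pick (side' ha hb ha₁ ha₂ hb₁ hb₂ hqb hI) ha₂ hb₂
      have hsub1 : Submodule.span F {v'} ≤ Submodule.span F {v', φ'} := Submodule.span_mono (by simp)
      have hsub2 : Submodule.span F {φ'} ≤ Submodule.span F {v', φ'} := Submodule.span_mono (by simp)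
      exact ⟨v', hv', φ', hφ', hb ▸ Submodule.add_mem _ (hsub1 hbv') (hsub2 hbφ'),
        ha ▸ Submodule.add_mem _ (hsub1 hav') (hsub2 haφ')⟩
    -- each image of a point lies in `A` or in `A'`
    have hpoint : ∀ (B B' : Submodule F V), finrank F B' = k →
        (∀ v ∈ B, ∀ φ ∈ B', β v φ = 0 → v ≠ 0 → φ ≠ 0 →
          ∃ v' ∈ A, ∃ φ' ∈ A', g.1 v ∈ Submodule.span F {v', φ'} ∧ g.1 φ ∈ Submodule.span F {v', φ'}) →
        B ⊓ B' = ⊥ → ∀ v ∈ B, g.1 v ∈ A ∨ g.1 v ∈ A' := by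
      intro B B' hdB' hline hBB v hv
      by_cases hv0 : v = 0
      · exact Or.inl (by rw [hv0, map_zero]; exact A.zero_mem)
      obtain ⟨φ, hφ, hφr, hφs⟩ := exists_pick Q hB (C := B') ![v] ![(0 : V)] (by omega)
      obtain ⟨ψ, hψ, hψr, hψs⟩ := exists_pick Q hB (C := B') ![v] ![φ] (by omega)
      have hφ0 : φ ≠ 0 := fun h => hφs (by rw [h]; exact Submodule.zero_mem _)
      have hψ0 : ψ ≠ 0 := fun h => hψs (by rw [h]; exact Submodule.zero_mem _)
      obtain ⟨b₁, hb₁, b₂, hb₂, hb⟩ := decomp hc (g.1 v)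
      by_contra hcon
      push Not at hcon
      have hb1 : b₁ ≠ 0 := fun h => hcon.2 (by rw [hb, h, zero_add]; exact hb₂)
      have hb2 : b₂ ≠ 0 := fun h => hcon.1 (by rw [hb, h, add_zero]; exact hb₁)
      have key : ∀ χ, χ ∈ B' → β v χ = 0 → χ ≠ 0 → g.1 χ ∈ Submodule.span F {b₁, b₂} := by
        intro χ hχ hvχ hχ0
        obtain ⟨v', hv', φ', hφ', h1, h2⟩ := hline v hv χ hχ hvχ hv0 hχ0
        obtain ⟨c, d, hcd⟩ := Submodule.mem_span_pair.1 h1
        have h0 : c • v' - b₁ ∈ A ⊓ A' := ⟨A.sub_mem (A.smul_mem _ hv') hb₁, by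
          rw [show c • v' - b₁ = b₂ - d • φ' by linear_combination (norm := module) hcd.trans hb]
          exact A'.sub_mem hb₂ (A'.smul_mem _ hφ')⟩
        rw [hc.inf_eq_bot, Submodule.mem_bot, sub_eq_zero] at h0
        have h0' : d • φ' = b₂ := by linear_combination (norm := module) hcd.trans hb - h0
        have hc0 : c ≠ 0 := fun h => hb1 (by rw [← h0, h, zero_smul])
        have hd0 : d ≠ 0 := fun h => hb2 (by rw [← h0', h, zero_smul])
        obtain ⟨x, y, hxy⟩ := Submodule.mem_span_pair.1 h2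
        refine Submodule.mem_span_pair.2 ⟨x / c, y / d, ?_⟩
        rw [← hxy, ← h0, ← h0', smul_smul, smul_smul, div_mul_cancel₀ _ hc0, div_mul_cancel₀ _ hd0]
      have hv' : g.1 v ∈ Submodule.span F {b₁, b₂} := Submodule.mem_span_pair.2 ⟨1, 1, by rw [hb]; simp⟩
      have h3 : finrank F ((Submodule.span F (Set.range ![v, φ, ψ])).map (g.1 : V →ₗ[F] V)) ≤ 2 := by
        refine (Submodule.finrank_mono (?_ : _ ≤ Submodule.span F (Set.range ![b₁, b₂]))).trans
          ((finrank_range_le_card (R := F) ![b₁, b₂]).trans (by simp))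
        rw [Submodule.map_span, Submodule.span_le]
        rintro _ ⟨_, ⟨i, rfl⟩, rfl⟩
        have e : Submodule.span F {b₁, b₂} = Submodule.span F (Set.range ![b₁, b₂]) := by
          rw [Matrix.range_cons, Matrix.range_cons, Matrix.range_empty, Set.union_empty]
          rfl
        rw [← e]
        fin_cases i
        exacts [hv', key φ hφ (hφr 0) hφ0, key ψ hψ (hψr 0) hψ0]
      rw [LinearEquiv.finrank_map_eq] at h3
      have hli : LinearIndependent F ![v, φ, ψ] := by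
        rw [Fintype.linearIndependent_iff]
        intro c hc'
        simp only [Fin.sum_univ_three, Matrix.cons_val_zero, Matrix.cons_val_one, Matrix.cons_val] at hc'
        have h0 : c 0 • v ∈ B ⊓ B' := ⟨B.smul_mem _ hv, by
          rw [show c 0 • v = -(c 1 • φ + c 2 • ψ) by linear_combination (norm := module) hc']
          exact B'.neg_mem (B'.add_mem (B'.smul_mem _ hφ) (B'.smul_mem _ hψ))⟩
        rw [hBB, Submodule.mem_bot, smul_eq_zero] at h0
        have c0 := h0.resolve_right hv0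
        rw [c0, zero_smul, zero_add] at hc'
        have c2 : c 2 = 0 := by
          by_contra h
          refine hψs ((Submodule.mem_span_range_iff_exists_fun F).2 ⟨![-(c 2)⁻¹ * c 1], ?_⟩)
          rw [← inv_smul_smul₀ h ψ, show c 2 • ψ = -(c 1 • φ) by linear_combination (norm := module) hc']
          simp
          module
        rw [c2, zero_smul, add_zero, smul_eq_zero] at hc'
        intro i
        fin_cases i
        exacts [c0, hc'.resolve_right hφ0, c2]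
      rw [finrank_span_eq_card hli] at h3
      simp at h3
    have hstd' : ∀ v ∈ A', ∀ φ ∈ A, β v φ = 0 → v ≠ 0 → φ ≠ 0 →
        ∃ v' ∈ A, ∃ φ' ∈ A', g.1 v ∈ Submodule.span F {v', φ'} ∧ g.1 φ ∈ Submodule.span F {v', φ'} :=
      fun v hv φ hφ h hv0 hφ0 => by
        obtain ⟨v', hv', φ', hφ', h1, h2⟩ := hstd φ hφ v hv (by rw [Witt.polar_symm', h]) hφ0 hv0
        exact ⟨v', hv', φ', hφ', h2, h1⟩
    have side1 := hpoint A A' hdA' hstd hc.inf_eq_bot
    have side2 := hpoint A' A hdA hstd' hc.symm.inf_eq_bot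
    have cases1 : (∀ x ∈ A, g.1 x ∈ A) ∨ ∀ x ∈ A, g.1 x ∈ A' := by
      rcases Cfsg.Lib.Classical.le_or_le_of_subset_union (P := A) (U := A.comap (g.1 : V →ₗ[F] V))
        (U' := A'.comap (g.1 : V →ₗ[F] V)) side1 with h | h
      · exact Or.inl h
      · exact Or.inr h
    have cases2 : (∀ x ∈ A', g.1 x ∈ A) ∨ ∀ x ∈ A', g.1 x ∈ A' := by
      rcases Cfsg.Lib.Classical.le_or_le_of_subset_union (P := A') (U := A.comap (g.1 : V →ₗ[F] V))
        (U' := A'.comap (g.1 : V →ₗ[F] V)) side2 with h | h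
      · exact Or.inl h
      · exact Or.inr h
    have hone : ∀ T : Submodule F V, finrank F T = k → ¬ ((∀ x ∈ A, g.1 x ∈ T) ∧ ∀ x ∈ A', g.1 x ∈ T) := by
      intro T hT hh
      have h1 : (⊤ : Submodule F V).map (g.1 : V →ₗ[F] V) ≤ T := by
        rintro _ ⟨x, -, rfl⟩
        obtain ⟨x₁, h₁, x₂, h₂, rfl⟩ := decomp hc x
        rw [map_add]
        exact T.add_mem (hh.1 _ h₁) (hh.2 _ h₂)
      have h5 := Submodule.finrank_mono h1
      rw [LinearEquiv.finrank_map_eq, finrank_top, hT, hV hc hdA hdA'] at h5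
      omega
    rcases cases1 with h1 | h1 <;> rcases cases2 with h5 | h5
    · exact hone A hdA ⟨h1, h5⟩
    · exact hgn ⟨h1, h5⟩
    · exact hgn' ⟨h1, h5⟩
    · exact hone A' hdA' ⟨h1, h5⟩
  obtain ⟨v, u, hv, hu, hv1, hne, hI⟩ := hex
  have hfA : ∀ d ∈ A, d ≠ 0 → ∀ x, β d x = 0 → InA H d x := fun d hd hd0 x hx =>
    full_all Q hB hA hA' hc hdA hdA' hroot hk hv hu hne hI hv1 hd hd0 hx
  -- every singular point
  suffices hI2 : InA H p w by simpa using hI2.2 1
  by_cases hp0 : p = 0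
  · subst hp0
    refine ⟨hw, fun s => ?_⟩
    rw [show siegel Q 0 (s • w) = 1 from ext' Q fun x => by
      rw [siegel_apply Q hp (by simp)]; simp]
    exact one_mem H
  by_cases hpA : p ∈ A
  · exact hfA p hpA hp0 w hw
  obtain ⟨z, hz, hzp⟩ := exists_sep Q hB hpA
  rw [orth_eq Q hB hA hdA (hV hc hdA hdA')] at hz
  have hz0 : z ≠ 0 := fun h => by rw [h, map_zero, LinearMap.zero_apply] at hzp; exact zero_ne_one hzp
  have hzA' : z ∉ A' := fun h => by
    have h0 : z ∈ A ⊓ A' := ⟨hz, h⟩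
    rw [hc.inf_eq_bot, Submodule.mem_bot] at h0
    exact hz0 h0
  obtain ⟨φ, hφ, hφz⟩ := exists_sep Q hB hzA'
  rw [orth_eq Q hB hA' hdA' (hV hc hdA hdA')] at hφ
  have hφ0 : φ ≠ 0 := fun h => by rw [h, map_zero, LinearMap.zero_apply] at hφz; exact zero_ne_one hφz
  have hd : β z (p - φ) = 0 := by rw [map_sub, hzp, Witt.polar_symm' Q z φ, hφz, sub_self]
  have hE : siegel Q z (p - φ) ∈ H := by simpa using (hfA z hz hz0 _ hd).2 1
  have himg : (siegel Q z (p - φ)).1 φ = p := by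
    rw [siegel_apply Q (hA z hz) hd, hφz, map_sub, Witt.polar_self', hA' φ hφ, sub_eq_add_neg p φ,
      Witt.quad_add, QuadraticMap.map_neg, hp, hA' φ hφ, map_neg, Witt.polar_symm' Q p φ]
    module
  -- `φ` is full by the swap
  obtain ⟨e, he⟩ : ∃ e, σ.1 e = φ := ⟨σ.1.symm φ, σ.1.apply_symm_apply φ⟩
  have heA : e ∈ A := by
    obtain ⟨e₁, h₁, e₂, h₂, hee⟩ := decomp hc e
    have h0 : σ.1 e₂ ∈ A ⊓ A' := ⟨hσA' e₂ h₂, by
      rw [show σ.1 e₂ = φ - σ.1 e₁ by rw [← he, hee, map_add, add_sub_cancel_left]]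
      exact A'.sub_mem hφ (hσA e₁ h₁)⟩
    rw [hc.inf_eq_bot, Submodule.mem_bot, LinearEquiv.map_eq_zero_iff] at h0
    rwa [hee, h0, add_zero]
  set h := siegel Q z (p - φ) * σ
  have hh : h ∈ H := H.mul_mem hE hσ
  have hhe : h.1 e = p := by
    show (siegel Q z (p - φ)).1 (σ.1 e) = p
    rw [he, himg]
  obtain ⟨w', hw'⟩ : ∃ w', h.1 w' = w := ⟨h.1.symm w, h.1.apply_symm_apply w⟩
  have hew : β e w' = 0 := by rw [← Reflections.polar_apply Q h, hhe, hw', hw]
  have he0 : e ≠ 0 := fun h0 => hφ0 (by rw [← he, h0, map_zero])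
  refine ⟨hw, fun s => ?_⟩
  have := H.mul_mem (H.mul_mem hh ((hfA e heA he0 w' hew).2 s)) (H.inv_mem hh)
  rwa [siegel_conj Q h (hA e heA) (by rw [map_smul, hew, smul_zero]), map_smul, hhe, hw'] at this

end Cfsg.Lib.Classical.OrthSplitPair
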