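import Mathlib
import Cfsg.Agent.Lib.Classical.OrthSplitPair
import Cfsg.Agent.Lib.Classical.OmegaBridge

/-!
The stabiliser of two complementary totally singular subspaces is maximal in `omegaGL` when their
dimension is even.
-/

set_option autoImplicit false

namespace Cfsg.Lib.Classical.OrthSplitPair

open Module SiegelElements
open Cfsg.Lib.Classical.OrthUnitaryField (InA)
open scoped MatrixGroups

variable {F V : Type*} [Field F] [Finite F] [AddCommGroup V] [Module F V] [FiniteDimensional F V]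
  (Q : QuadraticForm F V)

local notation "β" => QuadraticMap.polarBilin Q

variable (hB : (QuadraticMap.polarBilin Q).Nondegenerate) {A A' : Submodule F V} {k : ℕ}
  (hA : ∀ x ∈ A, Q x = 0) (hA' : ∀ x ∈ A', Q x = 0)
  (hc : IsCompl A A') (hdA : finrank F A = k) (hdA' : finrank F A' = k)
include hB hA hA' hc hdA hdA'

/-- An element of the commutator subgroup interchanging the two subspaces. -/
theorem exists_swap (hk : Even k) :
    ∃ σ ∈ commutator (Witt.quadIso Q), (∀ x ∈ A, σ.1 x ∈ A') ∧ ∀ x ∈ A', σ.1 x ∈ A := by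
  classical
  let b := Module.finBasisOfFinrankEq F A hdA
  let e : Fin k → V := fun i => (b i : V)
  have hf : ∀ i, ∃ z ∈ A', β z (e i) = 1 ∧ ∀ l, l ≠ i → β z (e l) = 0 := by
    intro i
    have hx : e i ∉ A' ⊔ Submodule.span F (e '' {l | l ≠ i}) := by
      intro hm
      obtain ⟨y, hy, z, hz, hyz⟩ := Submodule.mem_sup.1 hm
      have hzA : z ∈ A := Submodule.span_le.2 (by rintro _ ⟨l, -, rfl⟩; exact (b l).2) hz
      have h0 : y ∈ A ⊓ A' := ⟨by rw [eq_sub_of_add_eq hyz]; exact A.sub_mem (b i).2 hzA, hy⟩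
      rw [hc.inf_eq_bot, Submodule.mem_bot] at h0
      rw [h0, zero_add] at hyz
      rw [hyz] at hz
      have hli : LinearIndependent F e := b.linearIndependent.map' A.subtype (Submodule.ker_subtype A)
      exact hli.notMem_span_image (by simp) hz
    obtain ⟨z, hz, hzi⟩ := exists_sep Q hB hx
    refine ⟨z, ?_, hzi, fun l hl => ?_⟩
    · rw [← orth_eq Q hB hA' hdA' (hV hc hdA hdA')]
      exact LinearMap.BilinForm.orthogonal_le le_sup_left hz
    · rw [Witt.polar_symm']
      exact LinearMap.BilinForm.mem_orthogonal_iff.1 hz _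
        (Submodule.mem_sup_right (Submodule.subset_span ⟨l, hl, rfl⟩))
  choose f hfm hfi hfl using hf
  have hef : ∀ i l, β (e i) (f l) = if i = l then 1 else 0 := fun i l => by
    rw [Witt.polar_symm']
    split
    · next h => subst h; exact hfi i
    · next h => exact hfl l i h
  have hfe : ∀ i l, β (f l) (e i) = if i = l then 1 else 0 := fun i l => by
    rw [Witt.polar_symm', hef]
  have hee : ∀ i l, β (e i) (e l) = 0 := fun i l => ts_polar Q hA (b i).2 (b l).2
  have hff : ∀ i l, β (f i) (f l) = 0 := fun i l => ts_polar Q hA' (hfm i) (hfm l)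
  have hq : ∀ i, Q (e i - f i) = -1 := fun i => by
    rw [sub_eq_add_neg, Witt.quad_add, QuadraticMap.map_neg, map_neg, hA (e i) (b i).2,
      hA' (f i) (hfm i), hef, if_pos rfl]
    ring
  have hr : ∀ i, (Reflections.refl Q (e i - f i)).1 (e i) = f i ∧
      (Reflections.refl Q (e i - f i)).1 (f i) = e i ∧
      ∀ l, l ≠ i → (Reflections.refl Q (e i - f i)).1 (e l) = e l ∧
        (Reflections.refl Q (e i - f i)).1 (f l) = f l := by
    intro i
    refine ⟨?_, ?_, fun l hl => ⟨Reflections.refl_fix Q ?_, Reflections.refl_fix Q ?_⟩⟩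
    · rw [Reflections.refl_apply, hq, map_sub, LinearMap.sub_apply, hee, hfe, if_pos rfl,
        inv_neg, inv_one]
      module
    · rw [Reflections.refl_apply, hq, map_sub, LinearMap.sub_apply, hff, hef, if_pos rfl,
        inv_neg, inv_one]
      module
    · rw [map_sub, LinearMap.sub_apply, hee, hfe, if_neg hl, sub_zero]
    · rw [map_sub, LinearMap.sub_apply, hff, hef, if_neg (Ne.symm hl), sub_zero]
  have main : ∀ j, 2 * j ≤ k → ∃ g ∈ commutator (Witt.quadIso Q), ∀ i : Fin k,
      (i.1 < 2 * j → g.1 (e i) = f i ∧ g.1 (f i) = e i) ∧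
      (2 * j ≤ i.1 → g.1 (e i) = e i ∧ g.1 (f i) = f i) := by
    intro j
    induction j with
    | zero => exact fun _ => ⟨1, one_mem _, fun i => ⟨fun h => absurd h (by omega), fun _ => ⟨rfl, rfl⟩⟩⟩
    | succ j ih =>
      intro hj
      obtain ⟨g, hg, hgi⟩ := ih (by omega)
      let i₀ : Fin k := ⟨2 * j, by omega⟩
      let i₁ : Fin k := ⟨2 * j + 1, by omega⟩
      have hne : i₀ ≠ i₁ := fun h => by simpa [i₀, i₁] using congrArg Fin.val h
      refine ⟨Reflections.refl Q (e i₀ - f i₀) * Reflections.refl Q (e i₁ - f i₁) * g,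
        mul_mem (OmegaCentre.refl_mul_mem_commutator hB (by rw [hq]; exact neg_ne_zero.2 one_ne_zero)
          (by rw [hq, hq])) hg, fun i => ?_⟩
      have happ : ∀ x, (Reflections.refl Q (e i₀ - f i₀) * Reflections.refl Q (e i₁ - f i₁) * g).1 x =
          (Reflections.refl Q (e i₀ - f i₀)).1 ((Reflections.refl Q (e i₁ - f i₁)).1 (g.1 x)) :=
        fun x => rfl
      have cases : (i.1 < 2 * j ∨ 2 * (j + 1) ≤ i.1) ∨ i = i₀ ∨ i = i₁ := by
        simp only [i₀, i₁, Fin.ext_iff]
        omega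
      rcases cases with hi | rfl | rfl
      · have hn0 : i ≠ i₀ := fun h => by rw [h] at hi; simp only [i₀] at hi; omega
        have hn1 : i ≠ i₁ := fun h => by rw [h] at hi; simp only [i₁] at hi; omega
        have e0 := (hr i₀).2.2 i hn0
        have e1 := (hr i₁).2.2 i hn1
        refine ⟨fun h => ?_, fun h => ?_⟩
        · obtain ⟨g1, g2⟩ := (hgi i).1 (by omega)
          rw [happ, happ, g1, g2, e1.1, e1.2, e0.1, e0.2]
          exact ⟨rfl, rfl⟩
        · obtain ⟨g1, g2⟩ := (hgi i).2 (by omega)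
          rw [happ, happ, g1, g2, e1.1, e1.2, e0.1, e0.2]
          exact ⟨rfl, rfl⟩
      · obtain ⟨g1, g2⟩ := (hgi i₀).2 (le_refl _)
        have e1 := (hr i₁).2.2 i₀ hne
        refine ⟨fun _ => ?_, fun h => absurd h (by simp only [i₀]; omega)⟩
        rw [happ, happ, g1, g2, e1.1, e1.2, (hr i₀).1, (hr i₀).2.1]
        exact ⟨rfl, rfl⟩
      · obtain ⟨g1, g2⟩ := (hgi i₁).2 (by simp only [i₁]; omega)
        have e0 := (hr i₀).2.2 i₁ hne.symm
        refine ⟨fun _ => ?_, fun h => absurd h (by simp only [i₁]; omega)⟩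
        rw [happ, happ, g1, g2, (hr i₁).1, (hr i₁).2.1, e0.1, e0.2]
        exact ⟨rfl, rfl⟩
  obtain ⟨j, hj⟩ := hk
  obtain ⟨g, hg, hgi⟩ := main j (by omega)
  have he : ∀ i : Fin k, g.1 (e i) = f i ∧ g.1 (f i) = e i := fun i => (hgi i).1 (by have := i.2; omega)
  have hA1 : ∀ x ∈ A, x = ∑ i, β x (f i) • e i := by
    intro x hx
    have hs := b.sum_repr ⟨x, hx⟩
    have hx' : x = ∑ i, b.repr ⟨x, hx⟩ i • e i := by
      have := congrArg A.subtype hs
      rw [map_sum] at this
      simp only [map_smul] at this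
      exact this.symm
    refine hx'.trans (Finset.sum_congr rfl fun i _ => ?_)
    congr 1
    conv_rhs => rw [hx']
    simp only [map_sum, map_smul, LinearMap.sum_apply, LinearMap.smul_apply, hef, smul_eq_mul,
      mul_ite, mul_one, mul_zero, Finset.sum_ite_eq', Finset.mem_univ, if_true]
  have hA2 : ∀ x ∈ A', x = ∑ i, β x (e i) • f i := by
    intro x hx
    set d := x - ∑ i, β x (e i) • f i with hd
    have hdm : d ∈ A' := A'.sub_mem hx (Submodule.sum_mem _ fun i _ => A'.smul_mem _ (hfm i))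
    have hde : ∀ l, β d (e l) = 0 := fun l => by
      simp only [hd, map_sub, map_sum, map_smul, LinearMap.sub_apply, LinearMap.sum_apply,
        LinearMap.smul_apply, hfe, smul_eq_mul, mul_ite, mul_one, mul_zero, Finset.sum_ite_eq,
        Finset.mem_univ, if_true, sub_self]
    have h0 : d = 0 := by
      refine hB.1 d fun y => ?_
      obtain ⟨y₁, hy₁, y₂, hy₂, rfl⟩ := decomp hc y
      rw [hA1 y₁ hy₁, map_add, map_sum, ts_polar Q hA' hdm hy₂, add_zero]
      exact Finset.sum_eq_zero fun i _ => by rw [map_smul, hde, smul_zero]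
    exact sub_eq_zero.1 h0
  refine ⟨g, hg, fun x hx => ?_, fun x hx => ?_⟩
  · rw [hA1 x hx, map_sum]
    exact Submodule.sum_mem _ fun i _ => by rw [map_smul, (he i).1]; exact A'.smul_mem _ (hfm i)
  · rw [hA2 x hx, map_sum]
    exact Submodule.sum_mem _ fun i _ => by rw [map_smul, (he i).2]; exact A.smul_mem _ (b i).2

omit hB hA hA' hc hdA hdA'

theorem maximal {F : Type*} [Field F] [Fintype F] {n : ℕ} (hn : 13 ≤ n)
    (f : (Fin n → F) → F) (hf : Cfsg.Geo.IsNondegenerateQuadraticForm f)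
    (k : ℕ) (hk : 2 * k = n) (hke : Even k) (D : Fin 2 → Submodule F (Fin n → F))
    (hD : Cfsg.Geo.IsMDecomposition k D) (hts : ∀ i, Cfsg.Geo.IsTotallySingularQuad f (D i)) :
    Cfsg.Geo.IsMaximalIn (Cfsg.Geo.omegaGL f)
      (Cfsg.Geo.decompositionStabilizer D ⊓ Cfsg.Geo.omegaGL f) := by
  set Q := NotMax.quadOf hf with hQ
  have h : ∀ v, Q v = f v := fun v => rfl
  have hB := NotMax.quadOf_nondeg hf
  have hA : ∀ x ∈ D 0, Q x = 0 := hts 0
  have hA' : ∀ x ∈ D 1, Q x = 0 := hts 1
  have htop : D 0 ⊔ D 1 = ⊤ := by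
    rw [← hD.iSup_eq_top]
    refine le_antisymm (sup_le (le_iSup D 0) (le_iSup D 1)) (iSup_le fun i => ?_)
    fin_cases i
    · exact le_sup_left
    · exact le_sup_right
  have hc : IsCompl (D 0) (D 1) :=
    ⟨hD.indep.pairwiseDisjoint (by decide), codisjoint_iff.2 htop⟩
  have hd := hD.finrank_eq
  have hkk : 5 ≤ k := by omega
  have hdim : ∀ (g : GL (Fin n) F) (i j : Fin 2),
      (D i).map (Matrix.toLin' (g : Matrix (Fin n) (Fin n) F)) = D j →
      ∀ x ∈ D i, (g : Matrix (Fin n) (Fin n) F).mulVec x ∈ D j :=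
    fun g i j e x hx => e ▸ ⟨x, hx, Matrix.toLin'_apply _ _⟩
  have hmem : ∀ (u : Witt.quadIso Q) (π : Equiv.Perm (Fin 2)), (∀ i, ∀ x ∈ D i, u.1 x ∈ D (π i)) →
      OmegaBridge.toGL h u ∈ Cfsg.Geo.decompositionStabilizer D := by
    intro u π hu
    refine ⟨π, fun i => Submodule.eq_of_le_of_finrank_eq ?_ ?_⟩
    · rintro _ ⟨x, hx, rfl⟩
      rw [Matrix.toLin'_apply, OmegaBridge.toGL_mulVec]
      exact hu i x hx
    · have hinj : Function.Injective
          (Matrix.toLin' ((OmegaBridge.toGL h u : GL (Fin n) F) : Matrix (Fin n) (Fin n) F)) :=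
        fun x y e => by
          rw [Matrix.toLin'_apply, Matrix.toLin'_apply, OmegaBridge.toGL_mulVec,
            OmegaBridge.toGL_mulVec] at e
          exact u.1.injective e
      rw [← LinearEquiv.finrank_eq (Submodule.equivMapOfInjective _ hinj (D i)), hd, hd]
  have hn7 : 7 ≤ finrank F (Fin n → F) := by rw [Module.finrank_fin_fun]; omega
  refine OmegaBridge.isMaximalIn h _ ?_ fun H hH g hgH hgc hgN => ?_
  · -- a Siegel element inside `D 0` moves `D 1`
    obtain ⟨v, hv, -, hv0⟩ := exists_pick Q hB (C := D 0) (![] : Fin 0 → Fin n → F)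
      ![(0 : Fin n → F)] (by rw [hd]; omega)
    obtain ⟨u, hu, -, huv⟩ := exists_pick Q hB (C := D 0) (![] : Fin 0 → Fin n → F) ![v]
      (by rw [hd]; omega)
    have hvu : QuadraticMap.polarBilin Q v u = 0 := ts_polar Q hA hv hu
    refine ⟨siegel Q v u, siegel_mem_commutator Q hB (by omega) (hA v hv) hvu, fun ⟨π, hπ⟩ => ?_⟩
    have hsep : v ∉ D 1 ⊔ Submodule.span F {u} := by
      intro hm
      obtain ⟨y, hy, z, hz, hyz⟩ := Submodule.mem_sup.1 hm
      obtain ⟨c, rfl⟩ := Submodule.mem_span_singleton.1 hz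
      have h0 : y ∈ D 0 ⊓ D 1 :=
        ⟨by rw [eq_sub_of_add_eq hyz]; exact Submodule.sub_mem _ hv (Submodule.smul_mem _ _ hu), hy⟩
      rw [hc.inf_eq_bot, Submodule.mem_bot] at h0
      rw [h0, zero_add] at hyz
      by_cases hc0 : c = 0
      · rw [hc0, zero_smul] at hyz
        exact hv0 (by rw [← hyz]; exact Submodule.zero_mem _)
      · refine huv ((Submodule.mem_span_range_iff_exists_fun F).2 ⟨![c⁻¹], ?_⟩)
        simp [← hyz, hc0]
    obtain ⟨φ, hφ, hφv⟩ := exists_sep Q hB hsep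
    have hφA : φ ∈ D 1 := by
      rw [← orth_eq Q hB hA' (hd 1) (by rw [Module.finrank_fin_fun]; omega)]
      exact LinearMap.BilinForm.orthogonal_le le_sup_left hφ
    have hφu : QuadraticMap.polarBilin Q φ u = 0 := by
      rw [Witt.polar_symm']
      exact LinearMap.BilinForm.mem_orthogonal_iff.1 hφ u
        (Submodule.mem_sup_right (Submodule.mem_span_singleton_self u))
    have h1 := hdim _ 1 (π 1) (hπ 1) φ hφA
    rw [OmegaBridge.toGL_mulVec, siegel_apply Q (hA v hv) hvu, hφv, hφu, hA u hu] at h1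
    simp only [one_smul, mul_zero, zero_mul, add_zero, zero_smul, sub_zero] at h1
    have hu0 : u ≠ 0 := fun h => huv (by rw [h]; exact Submodule.zero_mem _)
    have hφ0 : φ ≠ 0 := fun h => by rw [h, map_zero, LinearMap.zero_apply] at hφv; exact zero_ne_one hφv
    rcases (by omega : π 1 = 0 ∨ π 1 = 1) with e | e <;> rw [e] at h1
    · have h0 : φ ∈ D 0 ⊓ D 1 := ⟨by simpa using Submodule.sub_mem _ h1 hu, hφA⟩
      rw [hc.inf_eq_bot, Submodule.mem_bot] at h0
      exact hφ0 h0
    · have h0 : u ∈ D 0 ⊓ D 1 := ⟨hu, by simpa using Submodule.sub_mem _ h1 hφA⟩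
      rw [hc.inf_eq_bot, Submodule.mem_bot] at h0
      exact hu0 h0
  · obtain ⟨σ, hσ, hσA, hσA'⟩ := exists_swap Q hB hA hA' hc (hd 0) (hd 1) hke
    have hσH : σ ∈ H := hH σ hσ (hmem σ (Equiv.swap 0 1) fun i x hx => by
      fin_cases i
      · simpa using hσA x hx
      · simpa using hσA' x hx)
    have hroot : ∀ v ∈ D 0, ∀ φ ∈ D 1, QuadraticMap.polarBilin Q v φ = 0 → siegel Q v φ ∈ H := by
      intro v hv φ hφ hvφ
      refine hH _ (siegel_mem_commutator Q hB (by omega) (hA v hv) hvφ) (hmem _ 1 fun i x hx => ?_)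
      rw [siegel_apply Q (hA v hv) hvφ, hA' φ hφ]
      fin_cases i
      · rw [ts_polar Q hA hx hv]
        simp only [zero_smul, mul_zero, add_zero]
        exact Submodule.sub_mem _ hx (Submodule.smul_mem _ _ hv)
      · rw [ts_polar Q hA' hx hφ]
        simp only [zero_mul, add_zero, zero_smul, sub_zero]
        exact Submodule.add_mem _ hx (Submodule.smul_mem _ _ hφ)
    have hsieg := fun (p w : Fin n → F) => siegel_mem Q hB hA hA' hc (hd 0) (hd 1) hroot hkk
      ⟨σ, hσH, hσA, hσA'⟩ hgH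
      (fun hh => hgN (hmem g 1 fun i x hx => by fin_cases i; exacts [hh.1 x hx, hh.2 x hx]))
      (fun hh => hgN (hmem g (Equiv.swap 0 1) fun i x hx => by
        fin_cases i
        · simpa using hh.1 x hx
        · simpa using hh.2 x hx)) (p := p) (w := w)
    rw [commutator_eq Q hB (by omega), siegelGroup_le_iff]
    exact fun p w hp hw => hsieg p w hp hw

end Cfsg.Lib.Classical.OrthSplitPair
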