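import Mathlib
import Cfsg.Agent.Lib.Classical.SymplecticMatrix

/-!
Short and long root elements with rational centres in a symplectic group over a field with a
subfield: one irrational parameter gives all symplectic transvections.
-/

set_option autoImplicit false

namespace Cfsg.Lib.Classical

open Matrix Module
open scoped MatrixGroups

variable {ι : Type} [Fintype ι] [DecidableEq ι] {F : Type*} [Field F]

section Short

variable {B : LinearMap.BilinForm F (ι → F)} (hA : B.IsAlt)

/-- The short root element with centre `u, v`. -/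
noncomputable def sQ (u v : ι → F) (c : F) : GL ι F :=
  sTGL B hA (u + v) c * sTGL B hA u (-c) * sTGL B hA v (-c)

lemma sQ_mulVec {u v : ι → F} (h : B u v = 0) (c : F) (x : ι → F) :
    (sQ hA u v c : Matrix ι ι F) *ᵥ x = x + (c * B x u) • v + (c * B x v) • u := by
  have h' : B v u = 0 := by rw [alt_swap hA, h, neg_zero]
  simp only [sQ, Units.val_mul, ← mulVec_mulVec, sTGL_mulVec, map_add, map_smul,
    LinearMap.add_apply, LinearMap.smul_apply, alt_self hA, h, h', smul_eq_mul]
  module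

lemma conj_sQ (g : GL ι F)
    (hg : ∀ x y, B ((g : Matrix ι ι F) *ᵥ x) ((g : Matrix ι ι F) *ᵥ y) = B x y)
    (u v : ι → F) (c : F) :
    g * sQ hA u v c * g⁻¹ =
      sQ hA ((g : Matrix ι ι F) *ᵥ u) ((g : Matrix ι ι F) *ᵥ v) c := by
  rw [sQ, sQ, ← mulVec_add, ← conj_sTGL_iso B hA g hg, ← conj_sTGL_iso B hA g hg,
    ← conj_sTGL_iso B hA g hg]
  group

lemma sQ_isometry (u v : ι → F) (c : F) (x y : ι → F) :
    B ((sQ hA u v c : Matrix ι ι F) *ᵥ x) ((sQ hA u v c : Matrix ι ι F) *ᵥ y) = B x y := by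
  simp only [sQ, Units.val_mul, ← mulVec_mulVec, sTGL_isometry]

lemma sQ_symm (u v : ι → F) (h : B u v = 0) (c : F) : sQ hA u v c = sQ hA v u c := by
  have h' : B v u = 0 := by rw [alt_swap hA, h, neg_zero]
  refine gl_ext fun x => ?_
  rw [sQ_mulVec hA h, sQ_mulVec hA h']
  module

lemma sQ_add_right {u v v' : ι → F} (h : B u v = 0) (h' : B u v' = 0) (hvv : B v v' = 0) (c : F) :
    sQ hA u (v + v') c = sQ hA u v c * sQ hA u v' c := by
  have h1 : B u (v + v') = 0 := by rw [map_add, h, h', add_zero]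
  have h2 : B v' u = 0 := by rw [alt_swap hA, h', neg_zero]
  have h4 : B v' v = 0 := by rw [alt_swap hA, hvv, neg_zero]
  refine gl_ext fun x => ?_
  rw [Units.val_mul, ← mulVec_mulVec, sQ_mulVec hA h1, sQ_mulVec hA h', sQ_mulVec hA h]
  simp only [map_add, map_smul, LinearMap.add_apply, LinearMap.smul_apply, alt_self hA, h, h', h2,
    h4, smul_eq_mul]
  module

lemma sQ_add {u v : ι → F} (h : B u v = 0) (c d : F) :
    sQ hA u v (c + d) = sQ hA u v c * sQ hA u v d := by
  have h' : B v u = 0 := by rw [alt_swap hA, h, neg_zero]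
  refine gl_ext fun x => ?_
  rw [Units.val_mul, ← mulVec_mulVec, sQ_mulVec hA h, sQ_mulVec hA h, sQ_mulVec hA h]
  simp only [map_add, map_smul, LinearMap.add_apply, LinearMap.smul_apply, alt_self hA, h, h',
    smul_eq_mul]
  module

/-- The transvection with centre `u + l v`. -/
lemma sTGL_add_smul {u v : ι → F} (h : B u v = 0) (a l : F) :
    sTGL B hA (u + l • v) a =
      sTGL B hA u a * (sQ hA u v (a * l) * sTGL B hA v (a * l * l)) := by
  have h' : B v u = 0 := by rw [alt_swap hA, h, neg_zero]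
  refine gl_ext fun x => ?_
  rw [Units.val_mul, Units.val_mul, ← mulVec_mulVec, ← mulVec_mulVec, sTGL_mulVec, sTGL_mulVec,
    sQ_mulVec hA h, sTGL_mulVec]
  simp only [map_add, map_smul, LinearMap.add_apply, LinearMap.smul_apply, alt_self hA, h, h',
    smul_eq_mul]
  module

lemma sTGL_eq_pow (v : ι → F) (n : ℕ) (c : F) :
    sTGL B hA v (n * c) = sTGL B hA v c ^ n := by
  induction n with
  | zero => simp [sTGL_zero]
  | succ n ih => rw [pow_succ, ← ih, sTGL_mul]; congr 1; push_cast; ring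

lemma sTGL_inv_aux (v : ι → F) (c : F) : (sTGL B hA v c)⁻¹ = sTGL B hA v (-c) := by
  refine inv_eq_of_mul_eq_one_right ?_
  rw [sTGL_mul, add_neg_cancel, sTGL_zero]

end Short

variable {F₀ : Subfield F}

/-- A vector over the subfield as a vector over the field. -/
def co (v : ι → F₀) : ι → F := fun i => (v i : F)

omit [Fintype ι] [DecidableEq ι] in
@[simp] lemma co_add (u v : ι → F₀) : co (u + v) = co u + co v := funext fun _ => rfl

omit [Fintype ι] [DecidableEq ι] in
@[simp] lemma co_sub (u v : ι → F₀) : co (u - v) = co u - co v := funext fun _ => rfl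

omit [Fintype ι] [DecidableEq ι] in
@[simp] lemma co_smul (a : F₀) (v : ι → F₀) : co (a • v) = (a : F) • co v := funext fun _ => rfl

omit [Fintype ι] [DecidableEq ι] in
@[simp] lemma co_zero : co (0 : ι → F₀) = 0 := funext fun _ => rfl

omit [Fintype ι] [DecidableEq ι] in
lemma co_injective : Function.Injective (co : (ι → F₀) → ι → F) := fun _ _ h =>
  funext fun i => Subtype.ext (congrFun h i)

omit [Fintype ι] [DecidableEq ι] in
lemma co_ne_zero {v : ι → F₀} (h : v ≠ 0) : co v ≠ 0 := fun e =>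
  h (co_injective (e.trans co_zero.symm))

omit [Fintype ι] in
@[simp] lemma co_single (i : ι) (a : F₀) : co (Pi.single i a) = Pi.single i (a : F) := by
  funext k
  rcases eq_or_ne k i with rfl | h <;> simp [co, *]

omit [Fintype ι] [DecidableEq ι] in
lemma li_pair {v z : ι → F₀} (hv : v ≠ 0) (hz : z ∉ Submodule.span F₀ {v}) :
    LinearIndependent F₀ ![v, z] :=
  (LinearIndependent.pair_iff' hv).2 fun a h => hz (Submodule.mem_span_singleton.2 ⟨a, h⟩)

variable {B : LinearMap.BilinForm F (ι → F)} (hA : B.IsAlt) (hB : B.Nondegenerate)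
  (hBR : ∀ u v : ι → F₀, B (co u) (co v) ∈ F₀)

omit [Fintype ι] [DecidableEq ι] in
/-- The form on rational vectors. -/
def ratForm : LinearMap.BilinForm F₀ (ι → F₀) :=
  LinearMap.mk₂ F₀ (fun u v => ⟨B (co u) (co v), hBR u v⟩)
    (fun u u' v => Subtype.ext (by simp))
    (fun a u v => Subtype.ext (by simp))
    (fun u v v' => Subtype.ext (by simp))
    (fun a u v => Subtype.ext (by simp))

omit [Fintype ι] [DecidableEq ι] in
@[simp] lemma coe_ratForm (u v : ι → F₀) : (ratForm hBR u v : F) = B (co u) (co v) := rfl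

include hB

/-- A vector orthogonal to all rational vectors vanishes. -/
lemma eq_zero_of_rat_orth {w : ι → F} (h : ∀ x : ι → F₀, B w (co x) = 0) : w = 0 := by
  refine hB.1 w fun x => ?_
  rw [pi_eq_sum_univ' x, map_sum]
  refine Finset.sum_eq_zero fun i _ => ?_
  rw [map_smul]
  have h1 := h (Pi.single i 1)
  rw [co_single, show ((1 : F₀) : F) = 1 from rfl] at h1
  rw [h1, smul_zero]

include hA in
lemma ratForm_nondeg : (ratForm hBR).Nondegenerate := by
  refine ⟨fun v hv => ?_, fun v hv => ?_⟩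
  · refine co_injective (eq_zero_of_rat_orth (F₀ := F₀) hB fun x => ?_) |>.trans rfl
    exact congrArg Subtype.val (hv x)
  · refine co_injective (eq_zero_of_rat_orth (F₀ := F₀) hB fun x => ?_) |>.trans rfl
    rw [alt_swap hA]
    have := congrArg Subtype.val (hv x)
    simp only [coe_ratForm] at this
    rw [this, ZeroMemClass.coe_zero, neg_zero]

include hA hBR

lemma exists_ratDual {k : ℕ} {r : Fin k → ι → F₀} (hr : LinearIndependent F₀ r) (c : Fin k → F₀) :
    ∃ z : ι → F₀, ∀ i, B (co (r i)) (co z) = c i := by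
  let L : (ι → F₀) →ₗ[F₀] (Fin k → F₀) := LinearMap.pi fun i => ratForm hBR (r i)
  suffices h : LinearMap.range L = ⊤ by
    obtain ⟨z, hz⟩ := LinearMap.range_eq_top.1 h c
    exact ⟨z, fun i => by rw [← coe_ratForm hBR]; exact congrArg Subtype.val (congrFun hz i)⟩
  by_contra hne
  obtain ⟨f, hf0, hf⟩ := Submodule.exists_le_ker_of_lt_top _ (lt_top_iff_ne_top.2 hne)
  apply hf0
  have hsum : ∑ i, f (Pi.single i 1) • r i = 0 := by
    refine (ratForm_nondeg hA hB hBR).1 _ fun z => ?_
    have hz := hf ⟨z, rfl⟩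
    rw [LinearMap.mem_ker, pi_eq_sum_univ' (L z), map_sum] at hz
    simp only [map_smul, smul_eq_mul, L, LinearMap.pi_apply] at hz
    simp only [map_sum, map_smul, LinearMap.sum_apply, LinearMap.smul_apply, smul_eq_mul]
    rw [← hz]
    exact Finset.sum_congr rfl fun i _ => mul_comm _ _
  have h0 := Fintype.linearIndependent_iff.1 hr _ hsum
  refine LinearMap.ext fun x => ?_
  rw [pi_eq_sum_univ' x, map_sum]
  simp [h0]

lemma exists_ratDual₂ {v z : ι → F₀} (hv : v ≠ 0) (hz : z ∉ Submodule.span F₀ {v}) (a b : F₀) :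
    ∃ y : ι → F₀, B (co v) (co y) = a ∧ B (co z) (co y) = b := by
  obtain ⟨y, hy⟩ := exists_ratDual hA hB hBR (li_pair hv hz) ![a, b]
  exact ⟨y, hy 0, hy 1⟩

lemma exists_ratDual₁ {v : ι → F₀} (hv : v ≠ 0) (a : F₀) :
    ∃ y : ι → F₀, B (co v) (co y) = a := by
  obtain ⟨y, hy⟩ := exists_ratDual hA hB hBR (r := ![v]) (LinearIndependent.of_subsingleton (0 : Fin 1) hv) ![a]
  exact ⟨y, hy 0⟩

omit hA hB in
lemma exists_orth_avoid {k l : ℕ} (r : Fin k → ι → F₀) (s : Fin l → ι → F₀)
    (h : k + l < Fintype.card ι) :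
    ∃ z : ι → F₀, (∀ i, B (co (r i)) (co z) = 0) ∧ z ∉ Submodule.span F₀ (Set.range s) := by
  let L : (ι → F₀) →ₗ[F₀] (Fin k → F₀) := LinearMap.pi fun i => ratForm hBR (r i)
  by_contra! hcon
  have hle : LinearMap.ker L ≤ Submodule.span F₀ (Set.range s) := fun z hz =>
    hcon z fun i => by rw [← coe_ratForm hBR]; exact congrArg Subtype.val (congrFun hz i)
  have h1 := Submodule.finrank_mono hle
  have h2 := LinearMap.finrank_range_add_finrank_ker L
  have h3 := Submodule.finrank_le (LinearMap.range L)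
  have h4 := finrank_range_le_card s (R := F₀)
  rw [Set.finrank] at h4
  rw [Module.finrank_fintype_fun_eq_card] at h2 h3
  simp only [Fintype.card_fin] at h3 h4
  omega

/-- A vector whose orthogonal contains the rational vectors orthogonal to `e`. -/
lemma eq_smul_of_orth {w : ι → F} {e : ι → F₀} (he : e ≠ 0)
    (h : ∀ x : ι → F₀, B (co e) (co x) = 0 → B w (co x) = 0) : ∃ μ : F, w = μ • co e := by
  obtain ⟨y, hy⟩ := exists_ratDual₁ hA hB hBR he 1
  refine ⟨B w (co y), sub_eq_zero.1 (eq_zero_of_rat_orth (F₀ := F₀) hB fun x => ?_)⟩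
  have h1 := h (x - ratForm hBR e x • y) (by simp [hy])
  simp only [co_sub, co_smul, coe_ratForm, map_sub, map_smul, smul_eq_mul] at h1
  simp only [map_sub, map_smul, LinearMap.sub_apply, LinearMap.smul_apply, smul_eq_mul]
  linear_combination h1

variable {M : Subgroup (GL ι F)}
  (hM : ∀ g : GL ι F, (∀ i j, (g : Matrix ι ι F) i j ∈ F₀) →
    (∀ x y, B ((g : Matrix ι ι F) *ᵥ x) ((g : Matrix ι ι F) *ᵥ y) = B x y) → g ∈ M)
  (hn : 9 ≤ Fintype.card ι)

include hM

lemma ratT_mem (v : ι → F₀) (a : F₀) : sTGL B hA (co v) (a : F) ∈ M := by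
  refine hM _ (fun i j => ?_) (sTGL_isometry B hA _ _)
  rw [coe_sTGL, tv, Matrix.add_apply, vecMulVec_apply, Pi.smul_apply, smul_eq_mul]
  refine F₀.add_mem ?_ (F₀.mul_mem (v i).2 (F₀.mul_mem a.2 ?_))
  · rcases eq_or_ne i j with rfl | h <;> simp [*]
  · rw [rightVec, show (Pi.single j (1 : F) : ι → F) = co (Pi.single j (1 : F₀)) by simp]
    exact hBR _ _

lemma ratT_mem' (v : ι → F₀) {a : F} (ha : a ∈ F₀) : sTGL B hA (co v) a ∈ M :=
  ratT_mem hA hB hBR hM v ⟨a, ha⟩

lemma ratQ_mem (u v : ι → F₀) {c : F} (hc : c ∈ F₀) : sQ hA (co u) (co v) c ∈ M := by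
  rw [sQ, ← co_add]
  exact mul_mem (mul_mem (ratT_mem' hA hB hBR hM _ hc) (ratT_mem' hA hB hBR hM _ (F₀.neg_mem hc)))
    (ratT_mem' hA hB hBR hM _ (F₀.neg_mem hc))

/-- Moving one rational vector to another, fixing a third. -/
lemma exists_ratMove {v z z' y : ι → F₀} (hvz : B (co v) (co z) = 0) (hvz' : B (co v) (co z') = 0)
    (hvy : B (co v) (co y) = 0) (hzy : B (co z) (co y) ≠ 0) (hz'y : B (co z') (co y) ≠ 0) :
    ∃ g ∈ M, (∀ p q, B ((g : Matrix ι ι F) *ᵥ p) ((g : Matrix ι ι F) *ᵥ q) = B p q) ∧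
      (g : Matrix ι ι F) *ᵥ co z = co z' ∧ (g : Matrix ι ι F) *ᵥ co v = co v := by
  have hyz : B (co y) (co z') ≠ 0 := by rw [alt_swap hA]; exact neg_ne_zero.2 hz'y
  refine ⟨sTGL B hA (co (z' - y)) (B (co y) (co z'))⁻¹ *
    sTGL B hA (co (y - z)) (B (co z) (co y))⁻¹,
    mul_mem (ratT_mem' hA hB hBR hM _ (F₀.inv_mem (hBR _ _)))
      (ratT_mem' hA hB hBR hM _ (F₀.inv_mem (hBR _ _))), fun p q => ?_, ?_, ?_⟩
  · simp only [Units.val_mul, ← mulVec_mulVec, sTGL_isometry]
  · rw [Units.val_mul, ← mulVec_mulVec, sTGL_mulVec B hA (co (y - z))]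
    simp [alt_self hA, hzy, hyz]
  · rw [Units.val_mul, ← mulVec_mulVec, sTGL_mulVec B hA (co (y - z))]
    simp [hvy, hvz, hvz']

/-- All rational short root elements with parameter `c`. -/
def ShortAll (hA : B.IsAlt) (F₀ : Subfield F) (M : Subgroup (GL ι F)) (c : F) : Prop :=
  ∀ u v : ι → F₀, u ≠ 0 → v ∉ Submodule.span F₀ {u} → B (co u) (co v) = 0 →
    sQ hA (co u) (co v) c ∈ M

/-- All rational long root elements with parameter `a`. -/
def LongAll (hA : B.IsAlt) (F₀ : Subfield F) (M : Subgroup (GL ι F)) (a : F) : Prop :=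
  ∀ v : ι → F₀, sTGL B hA (co v) a ∈ M

omit [Fintype ι] [DecidableEq ι] hA hB hBR hM in
lemma not_mem_span_symm {u v : ι → F₀} (hu : u ≠ 0) (h : v ∉ Submodule.span F₀ {u}) :
    v ≠ 0 ∧ u ∉ Submodule.span F₀ {v} := by
  refine ⟨fun e => h (e ▸ Submodule.zero_mem _), fun hc => ?_⟩
  obtain ⟨a, ha⟩ := Submodule.mem_span_singleton.1 hc
  have ha0 : a ≠ 0 := fun e => hu (by rw [← ha, e, zero_smul])
  exact h (Submodule.mem_span_singleton.2 ⟨a⁻¹, by rw [← ha, smul_smul, inv_mul_cancel₀ ha0, one_smul]⟩)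

include hn

lemma longAll_of_one {v : ι → F₀} (hv : v ≠ 0) {a : F} (h : sTGL B hA (co v) a ∈ M) :
    LongAll hA F₀ M a := by
  intro u
  rcases eq_or_ne u 0 with rfl | hu
  · rw [co_zero, sTGL_zero_left]
    exact one_mem M
  obtain ⟨y, hvy, huy⟩ : ∃ y, B (co v) (co y) ≠ 0 ∧ B (co u) (co y) ≠ 0 := by
    obtain ⟨y₁, h1⟩ := exists_ratDual₁ hA hB hBR hv 1
    obtain ⟨y₂, h2⟩ := exists_ratDual₁ hA hB hBR hu 1
    by_cases hu1 : B (co u) (co y₁) = 0
    · by_cases hv2 : B (co v) (co y₂) = 0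
      · exact ⟨y₁ + y₂, by simp [h1, hv2], by simp [h2, hu1]⟩
      · exact ⟨y₂, hv2, by simp [h2]⟩
    · exact ⟨y₁, by simp [h1], hu1⟩
  obtain ⟨g, hg, hgi, hgv, -⟩ := exists_ratMove hA hB hBR hM (v := 0) (by simp) (by simp) (by simp)
    hvy huy
  have h1 := M.mul_mem (M.mul_mem hg h) (M.inv_mem hg)
  rwa [conj_sTGL_iso B hA g hgi, hgv] at h1

/-- Changing the second centre of a short root element. -/
lemma short_step {v z z' : ι → F₀} {c : F} (hv : v ≠ 0) (hz : z ∉ Submodule.span F₀ {v})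
    (hz' : z' ∉ Submodule.span F₀ {v}) (hvz : B (co v) (co z) = 0)
    (hvz' : B (co v) (co z') = 0) (h : sQ hA (co v) (co z) c ∈ M) :
    sQ hA (co v) (co z') c ∈ M := by
  obtain ⟨y, hvy, hzy, hz'y⟩ : ∃ y, B (co v) (co y) = 0 ∧ B (co z) (co y) ≠ 0 ∧
      B (co z') (co y) ≠ 0 := by
    obtain ⟨y₁, h0, h1⟩ := exists_ratDual₂ hA hB hBR hv hz 0 1
    obtain ⟨y₂, h0', h2⟩ := exists_ratDual₂ hA hB hBR hv hz' 0 1
    rw [ZeroMemClass.coe_zero] at h0 h0'
    by_cases hu1 : B (co z') (co y₁) = 0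
    · by_cases hv2 : B (co z) (co y₂) = 0
      · exact ⟨y₁ + y₂, by simp [h0, h0'], by simp [h1, hv2], by simp [h2, hu1]⟩
      · exact ⟨y₂, h0', hv2, by simp [h2]⟩
    · exact ⟨y₁, h0, by simp [h1], hu1⟩
  obtain ⟨g, hg, hgi, hgz, hgv⟩ := exists_ratMove hA hB hBR hM hvz hvz' hvy hzy hz'y
  have h1 := M.mul_mem (M.mul_mem hg h) (M.inv_mem hg)
  rwa [conj_sQ hA g hgi, hgz, hgv] at h1

lemma shortAll_of_one {v z : ι → F₀} {c : F} (hv : v ≠ 0) (hz : z ∉ Submodule.span F₀ {v})
    (hvz : B (co v) (co z) = 0) (h : sQ hA (co v) (co z) c ∈ M) : ShortAll hA F₀ M c := by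
  intro u w hu hw huw
  obtain ⟨m, hm, hms⟩ := exists_orth_avoid hBR ![v, u] ![v, u] (by omega)
  have hmv : m ∉ Submodule.span F₀ {v} := fun hc => hms (Submodule.span_mono (by simp) hc)
  have hmu : m ∉ Submodule.span F₀ {u} := fun hc => hms (Submodule.span_mono (by simp) hc)
  obtain ⟨hm0, hvm⟩ := not_mem_span_symm hv hmv
  obtain ⟨-, hum⟩ := not_mem_span_symm hu hmu
  have h1 := short_step hA hB hBR hM hn hv hz hmv hvz (hm 0) h
  have hvm0 : B (co m) (co v) = 0 := by rw [alt_swap hA, show B (co v) (co m) = 0 from hm 0, neg_zero]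
  have hum0 : B (co m) (co u) = 0 := by rw [alt_swap hA, show B (co u) (co m) = 0 from hm 1, neg_zero]
  rw [sQ_symm hA (co v) (co m) (hm 0)] at h1
  have h2 := short_step hA hB hBR hM hn hm0 hvm hum hvm0 hum0 h1
  rw [sQ_symm hA _ _ hum0] at h2
  exact short_step hA hB hBR hM hn hu hmu hw (hm 1) huw h2

/-- Extracting short root elements from an element of the unipotent radical of a point. -/
lemma shortAll_of_radical {v b : ι → F₀} {x : ι → F} {γ : F} (hv : v ≠ 0)
    (hvx : B (co v) x = 0) (hvb : B (co v) (co b) = 0)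
    (h : sQ hA (co v) x 1 * sTGL B hA (co v) γ ∈ M) : ShortAll hA F₀ M (B x (co b)) := by
  set c := B x (co b) with hc
  by_cases hb : b ∈ Submodule.span F₀ {v}
  · obtain ⟨a, rfl⟩ := Submodule.mem_span_singleton.1 hb
    have hc0 : c = 0 := by
      rw [hc, co_smul, map_smul, alt_swap hA, hvx]
      simp
    intro u w _ _ huw
    rw [hc0]
    exact ratQ_mem hA hB hBR hM u w F₀.zero_mem
  set g := sTGL B hA (co b) 1 with hg
  have hgv : (g : Matrix ι ι F) *ᵥ co v = co v := by rw [hg, sTGL_mulVec, hvb]; simp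
  have hgx : (g : Matrix ι ι F) *ᵥ x = x + c • co b := by rw [hg, sTGL_mulVec, one_mul]
  have hgM : g ∈ M := ratT_mem' hA hB hBR hM b F₀.one_mem
  have h1 := M.mul_mem (M.mul_mem hgM h) (M.inv_mem hgM)
  rw [show g * (sQ hA (co v) x 1 * sTGL B hA (co v) γ) * g⁻¹ =
    g * sQ hA (co v) x 1 * g⁻¹ * (g * sTGL B hA (co v) γ * g⁻¹) by group,
    conj_sQ hA g (sTGL_isometry B hA _ _), conj_sTGL_iso B hA g (sTGL_isometry B hA _ _),
    hgv, hgx] at h1
  set E := sQ hA (co v) (co b) c * sTGL B hA (co v) (-(c * c))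
  have hE : E ∈ M := by
    have e : sQ hA (co v) (x + c • co b) 1 * sTGL B hA (co v) γ =
        E * (sQ hA (co v) x 1 * sTGL B hA (co v) γ) := by
      refine gl_ext fun p => ?_
      simp only [E, Units.val_mul, ← mulVec_mulVec]
      rw [sTGL_mulVec B hA (co v) γ, sQ_mulVec hA (v := x + c • co b) (by simp [hvx, hvb]),
        sQ_mulVec hA hvx, sTGL_mulVec, sQ_mulVec hA hvb]
      have hxv : B x (co v) = 0 := by rw [alt_swap hA, hvx, neg_zero]
      have hbv : B (co b) (co v) = 0 := by rw [alt_swap hA, hvb, neg_zero]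
      simp only [map_add, map_smul, LinearMap.add_apply, LinearMap.smul_apply, alt_self hA,
        hxv, hbv, hvx, hvb, ← hc, smul_eq_mul]
      module
    rw [e] at h1
    exact (M.mul_mem_cancel_right h).1 h1
  obtain ⟨hb0, -⟩ := not_mem_span_symm hv hb
  obtain ⟨a, hva, hba⟩ := exists_ratDual₂ hA hB hBR hv hb 0 1
  rw [ZeroMemClass.coe_zero] at hva
  rw [OneMemClass.coe_one] at hba
  obtain ⟨z, hz, hzs⟩ := exists_orth_avoid hBR ![v, b, a] ![v, b] (by omega)
  have hzv : B (co v) (co z) = 0 := hz 0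
  have hzb : B (co b) (co z) = 0 := hz 1
  have hza : B (co a) (co z) = 0 := hz 2
  set g' := sQ hA (co a) (co z) 1
  have hg'v : (g' : Matrix ι ι F) *ᵥ co v = co v := by rw [sQ_mulVec hA hza, hva, hzv]; simp
  have hg'b : (g' : Matrix ι ι F) *ᵥ co b = co b + co z := by
    rw [sQ_mulVec hA hza, hba, hzb]
    simp
  have hg'M : g' ∈ M := ratQ_mem hA hB hBR hM a z F₀.one_mem
  have h2 := M.mul_mem (M.mul_mem hg'M hE) (M.inv_mem hg'M)
  rw [show g' * E * g'⁻¹ = g' * sQ hA (co v) (co b) c * g'⁻¹ *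
    (g' * sTGL B hA (co v) (-(c * c)) * g'⁻¹) by simp only [E]; group,
    conj_sQ hA g' (sQ_isometry hA _ _ _), conj_sTGL_iso B hA g' (sQ_isometry hA _ _ _), hg'v, hg'b,
    add_comm, sQ_add_right hA hzv hvb (by rw [alt_swap hA, hzb, neg_zero]), mul_assoc] at h2
  have h3 := (M.mul_mem_cancel_right hE).1 h2
  exact shortAll_of_one hA hB hBR hM hn hv
    (fun hc' => hzs (Submodule.span_mono (by simp) hc')) hzv h3

/-- Long times short is short, and squares of short parameters are long. -/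
lemma longAll_shortAll {a c : F} (ha : LongAll hA F₀ M a) (hc : ShortAll hA F₀ M c) :
    ShortAll hA F₀ M (a * c) ∧ LongAll hA F₀ M (c * c) := by
  obtain ⟨i⟩ : Nonempty ι := Fintype.card_pos_iff.1 (by omega)
  set v : ι → F₀ := Pi.single i 1
  have hv : v ≠ 0 := fun e => one_ne_zero (α := F₀) (by simpa [v] using congrFun e i)
  obtain ⟨z, hz, hzs⟩ := exists_orth_avoid hBR ![v] ![v] (by omega)
  have hzv : z ∉ Submodule.span F₀ {v} := fun hc' => hzs (Submodule.span_mono (by simp) hc')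
  have hvz : B (co v) (co z) = 0 := hz 0
  obtain ⟨p, hpv, hpz⟩ := exists_ratDual₂ hA hB hBR hv hzv 0 (-1)
  rw [ZeroMemClass.coe_zero] at hpv
  have hpz' : B (co p) (co z) = 1 := by rw [alt_swap hA, hpz]; simp
  have hpv' : B (co p) (co v) = 0 := by rw [alt_swap hA, hpv, neg_zero]
  have hp : p ∉ Submodule.span F₀ {v} := by
    intro hm
    obtain ⟨t, rfl⟩ := Submodule.mem_span_singleton.1 hm
    rw [co_smul, map_smul, LinearMap.smul_apply, hvz, smul_zero] at hpz'
    exact zero_ne_one hpz'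
  set g := sQ hA (co v) (co z) c
  have hgM : g ∈ M := hc v z hv hzv hvz
  have hgp : (g : Matrix ι ι F) *ᵥ co p = co p + c • co v := by
    rw [sQ_mulVec hA hvz, hpv', hpz']
    simp
  have key : ∀ α, LongAll hA F₀ M α →
      sQ hA (co p) (co v) (α * c) * sTGL B hA (co v) (α * c * c) ∈ M := by
    intro α hα
    have h1 := M.mul_mem (M.mul_mem hgM (hα p)) (M.inv_mem hgM)
    rw [conj_sTGL_iso B hA g (sQ_isometry hA _ _ _), hgp, sTGL_add_smul hA hpv'] at h1
    exact (M.mul_mem_cancel_left (hα p)).1 h1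
  have one : LongAll hA F₀ M 1 := fun u => ratT_mem' hA hB hBR hM u F₀.one_mem
  constructor
  · have e : sQ hA (co p) (co v) (a * c) = sQ hA (co v) ((a * c) • co p) 1 := by
      refine gl_ext fun w => ?_
      rw [sQ_mulVec hA hpv', sQ_mulVec hA (by rw [map_smul, hpv, smul_zero])]
      simp only [map_smul, smul_eq_mul]
      module
    have h1 := key a ha
    rw [e] at h1
    have h2 := shortAll_of_radical hA hB hBR hM hn (b := z) hv
      (by rw [map_smul, hpv, smul_zero]) hvz h1
    rwa [map_smul, LinearMap.smul_apply, hpz', smul_eq_mul, mul_one] at h2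
  · have h1 := key 1 one
    rw [one_mul] at h1
    exact longAll_of_one hA hB hBR hM hn hv
      ((M.mul_mem_cancel_left (hc p v (fun e => hp (e ▸ Submodule.zero_mem _))
        (not_mem_span_symm hv hp).2 hpv')).1 h1)

variable [Finite F]

/-- The long and short parameters coincide and form a subfield. -/
lemma exists_root_field : ∃ K : Subfield F, F₀ ≤ K ∧ ∀ a, (a ∈ K ↔ LongAll hA F₀ M a) ∧
    (a ∈ K ↔ ShortAll hA F₀ M a) := by
  have := Fintype.ofFinite F
  have toShort : ∀ {a : F}, LongAll hA F₀ M a → ShortAll hA F₀ M a := by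
    intro a ha u v _ _ _
    rw [sQ, ← co_add]
    exact mul_mem (mul_mem (ha _) (by rw [← sTGL_inv_aux hA]; exact inv_mem (ha _)))
      (by rw [← sTGL_inv_aux hA]; exact inv_mem (ha _))
  have addL : ∀ {a b : F}, LongAll hA F₀ M a → LongAll hA F₀ M b → LongAll hA F₀ M (a + b) :=
    fun ha hb v => by rw [← sTGL_mul]; exact mul_mem (ha v) (hb v)
  have negL : ∀ {a : F}, LongAll hA F₀ M a → LongAll hA F₀ M (-a) :=
    fun ha v => by rw [← sTGL_inv_aux hA]; exact inv_mem (ha v)
  have addS : ∀ {a b : F}, ShortAll hA F₀ M a → ShortAll hA F₀ M b → ShortAll hA F₀ M (a + b) :=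
    fun ha hb u v h1 h2 h3 => by rw [sQ_add hA h3]; exact mul_mem (ha u v h1 h2 h3) (hb u v h1 h2 h3)
  have ratL : ∀ {a : F}, a ∈ F₀ → LongAll hA F₀ M a := fun ha v => ratT_mem' hA hB hBR hM v ha
  have ratS : ∀ {a : F}, a ∈ F₀ → ShortAll hA F₀ M a := fun ha u v _ _ _ =>
    ratQ_mem hA hB hBR hM u v ha
  have sq : ∀ {c : F}, ShortAll hA F₀ M c → LongAll hA F₀ M (c * c) := fun hc =>
    (longAll_shortAll hA hB hBR hM hn (ratL F₀.one_mem) hc).2
  have toLong : ∀ {c : F}, ShortAll hA F₀ M c → LongAll hA F₀ M c := by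
    intro c hc
    by_cases h2 : (2 : F) = 0
    · let f : {c : F // ShortAll hA F₀ M c} → {c : F // ShortAll hA F₀ M c} :=
        fun x => ⟨x.1 * x.1, toShort (sq x.2)⟩
      have hf : Function.Injective f := by
        intro x y h
        have h' : x.1 * x.1 = y.1 * y.1 := congrArg Subtype.val h
        rcases mul_self_eq_mul_self_iff.1 h' with e | e
        · exact Subtype.ext e
        · exact Subtype.ext (by linear_combination e - y.1 * h2)
      obtain ⟨x, hx⟩ := Finite.injective_iff_surjective.1 hf ⟨c, hc⟩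
      have e : x.1 * x.1 = c := congrArg Subtype.val hx
      rw [← e]
      exact sq x.2
    · have h4 : (4 : F) ≠ 0 := by
        rw [show (4 : F) = 2 * 2 by norm_num]
        exact mul_ne_zero h2 h2
      have hd : LongAll hA F₀ M (4 * c) := by
        have := addL (sq (addS hc (ratS F₀.one_mem)))
          (negL (sq (addS hc (ratS (F₀.neg_mem F₀.one_mem)))))
        rwa [show (c + 1) * (c + 1) + -((c + -1) * (c + -1)) = 4 * c by ring] at this
      intro v
      have e : c = ((4 ^ (Fintype.card F - 2) : ℕ) : F) * (4 * c) := by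
        have hq : 2 ≤ Fintype.card F := Fintype.one_lt_card
        push_cast
        rw [← mul_assoc, ← pow_succ, show Fintype.card F - 2 + 1 = Fintype.card F - 1 by omega,
          FiniteField.pow_card_sub_one_eq_one _ h4, one_mul]
      rw [e, sTGL_eq_pow]
      exact pow_mem (hd v) _
  have mul : ∀ {a b : F}, LongAll hA F₀ M a → LongAll hA F₀ M b → LongAll hA F₀ M (a * b) :=
    fun ha hb => toLong (longAll_shortAll hA hB hBR hM hn ha (toShort hb)).1
  have pw : ∀ {a : F}, LongAll hA F₀ M a → ∀ m : ℕ, LongAll hA F₀ M (a ^ m) := fun {a} ha m => by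
    induction m with
    | zero => rw [pow_zero]; exact ratL F₀.one_mem
    | succ m ih => rw [pow_succ]; exact mul ih ha
  let K : Subfield F :=
    { carrier := {a | LongAll hA F₀ M a}
      mul_mem' := mul
      one_mem' := ratL F₀.one_mem
      add_mem' := addL
      zero_mem' := ratL F₀.zero_mem
      neg_mem' := negL
      inv_mem' := fun a ha => by
        rcases eq_or_ne a 0 with rfl | h0
        · rw [_root_.inv_zero]; exact ratL F₀.zero_mem
        · have h2 : 2 ≤ Fintype.card F := Fintype.one_lt_card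
          have h1 : a ^ (Fintype.card F - 2) = a⁻¹ := by
            refine eq_inv_of_mul_eq_one_left ?_
            rw [← pow_succ, show Fintype.card F - 2 + 1 = Fintype.card F - 1 by omega,
              FiniteField.pow_card_sub_one_eq_one a h0]
          rw [← h1]
          exact pw ha _ }
  exact ⟨K, fun a ha => ratL ha, fun a => ⟨Iff.rfl, ⟨fun h => toShort h, toLong⟩⟩⟩

omit [Finite F] in
/-- Full rational root groups give every symplectic transvection. -/
lemma sTGL_mem_of_full (hL : ∀ a, LongAll hA F₀ M a) (hS : ∀ c, ShortAll hA F₀ M c)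
    (w : ι → F) (a : F) : sTGL B hA w a ∈ M := by
  classical
  suffices h : ∀ (s : Finset ι) (a : F),
      sTGL B hA (∑ i ∈ s, w i • (Pi.single i 1 : ι → F)) a ∈ M by
    rw [pi_eq_sum_univ' w]
    exact h Finset.univ a
  intro s
  induction s using Finset.induction with
  | empty => intro a; rw [Finset.sum_empty, sTGL_zero_left]; exact one_mem M
  | insert i s his ih =>
    intro a
    rw [Finset.sum_insert his]
    set v := ∑ k ∈ s, w k • (Pi.single k 1 : ι → F) with hv
    set e : ι → F₀ := Pi.single i 1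
    have hce : co e = (Pi.single i 1 : ι → F) := by simp [e]
    rw [← hce]
    have he0 : e ≠ 0 := fun h => one_ne_zero (α := F₀) (by simpa [e] using congrFun h i)
    rcases eq_or_ne v 0 with hv0 | hv0
    · rw [hv0, add_zero, sTGL_smul]
      exact hL _ e
    have goal : ∀ g ∈ M, (∀ p q, B ((g : Matrix ι ι F) *ᵥ p) ((g : Matrix ι ι F) *ᵥ q) = B p q) →
        (g : Matrix ι ι F) *ᵥ v = w i • co e + v → sTGL B hA (w i • co e + v) a ∈ M := by
      intro g hg hgi hgv
      rw [← hgv, ← conj_sTGL_iso B hA g hgi]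
      exact mul_mem (mul_mem hg (ih a)) (inv_mem hg)
    by_cases hve : B v (co e) = 0
    · obtain ⟨x, hex, hvx⟩ : ∃ x, B (co e) (co x) = 0 ∧ B v (co x) ≠ 0 := by
        by_contra! hcon
        obtain ⟨μ, hμ⟩ := eq_smul_of_orth hA hB hBR he0 hcon
        have h1 := congrFun hμ i
        rw [hv, Finset.sum_apply, Finset.sum_eq_zero, hce] at h1
        · simp at h1
          exact hv0 (by rw [hμ, ← h1, zero_smul])
        · intro k hk
          simp [Pi.single_apply, ne_of_mem_of_not_mem hk his |>.symm]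
      have hxe : x ∉ Submodule.span F₀ {e} := fun hm => by
        obtain ⟨t, rfl⟩ := Submodule.mem_span_singleton.1 hm
        exact hvx (by rw [co_smul, map_smul, hve, smul_zero])
      refine goal (sQ hA (co e) (co x) (w i / B v (co x))) (hS _ e x he0 hxe hex)
        (sQ_isometry hA _ _ _) ?_
      rw [sQ_mulVec hA hex, hve, div_mul_cancel₀ _ hvx]
      simp [add_comm]
    · refine goal (sTGL B hA (co e) (w i / B v (co e))) (hL _ e) (sTGL_isometry B hA _ _) ?_
      rw [sTGL_mulVec, div_mul_cancel₀ _ hve, add_comm]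

end Cfsg.Lib.Classical
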