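import Mathlib
import Cfsg.Agent.Lib.Classical.SympRational
import Cfsg.Agent.Lib.Classical.SiegelFull
import Cfsg.Agent.Lib.Classical.OmegaBridge
import Cfsg.Agent.Lib.Classical.RationalRoots

/-!
Quadratic forms rational over a subfield: rational root elements with an irrational parameter
generate the whole commutator subgroup.
-/

set_option autoImplicit false

namespace Cfsg.Lib.Classical.OrthSub

open Module SiegelElements
open scoped commutatorElement

variable {ι : Type} [Fintype ι] [DecidableEq ι] {F : Type*} [Field F] [Finite F] {F₀ : Subfield F}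
  {Q : QuadraticForm F (ι → F)} (hrat : ∀ v : ι → F₀, Q (co v) ∈ F₀)

local notation "β" => QuadraticMap.polarBilin Q
local notation "G" => Witt.quadIso Q

omit [Fintype ι] [DecidableEq ι] [Finite F] in
include hrat in
lemma rat_polar (u v : ι → F₀) : β (co u) (co v) ∈ F₀ := by
  have e : β (co u) (co v) = Q (co (u + v)) - Q (co u) - Q (co v) := by
    rw [co_add, Witt.quad_add]; ring
  rw [e]
  exact F₀.sub_mem (F₀.sub_mem (hrat _) (hrat _)) (hrat _)

/-- The form on the rational vectors. -/
noncomputable def Q₀ : QuadraticForm F₀ (ι → F₀) :=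
  QuadraticMap.ofPolar (fun v => ⟨Q (co v), hrat v⟩)
    (fun a v => Subtype.ext (by simp [Witt.quad_smul]))
    (fun x x' y => Subtype.ext (by
      show Q (co (x + x' + y)) - Q (co (x + x')) - Q (co y) =
        Q (co (x + y)) - Q (co x) - Q (co y) + (Q (co (x' + y)) - Q (co x') - Q (co y))
      simp only [co_add, Witt.quad_add, map_add, LinearMap.add_apply]
      ring))
    (fun a x y => Subtype.ext (by
      show Q (co (a • x + y)) - Q (co (a • x)) - Q (co y) = (a : F) * (Q (co (x + y)) - Q (co x) - Q (co y))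
      simp only [co_add, co_smul, Witt.quad_add, Witt.quad_smul, map_smul, LinearMap.smul_apply,
        smul_eq_mul]
      ring))

omit [Fintype ι] [DecidableEq ι] [Finite F] in
lemma coe_Q₀ (v : ι → F₀) : ((Q₀ hrat v : F₀) : F) = Q (co v) := rfl

omit [Fintype ι] [DecidableEq ι] [Finite F] in
lemma coe_polar (u v : ι → F₀) :
    ((QuadraticMap.polarBilin (Q₀ hrat) u v : F₀) : F) = β (co u) (co v) := by
  show Q (co (u + v)) - Q (co u) - Q (co v) = _
  rw [co_add, Witt.quad_add]
  ring

omit [Fintype ι] [DecidableEq ι] [Finite F] in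
lemma polar_zero_iff (u v : ι → F₀) :
    QuadraticMap.polarBilin (Q₀ hrat) u v = 0 ↔ β (co u) (co v) = 0 := by
  rw [← coe_polar hrat]
  exact ⟨fun h => by rw [h]; rfl, fun h => Subtype.ext h⟩

omit [Fintype ι] [DecidableEq ι] [Finite F] in
lemma Q₀_zero_iff (v : ι → F₀) : Q₀ hrat v = 0 ↔ Q (co v) = 0 :=
  ⟨fun h => by rw [← coe_Q₀ hrat, h]; rfl, fun h => Subtype.ext h⟩

variable (hB : (QuadraticMap.polarBilin Q).Nondegenerate)
include hB

omit [Finite F] in
/-- A vector orthogonal to the rational vectors vanishes. -/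
lemma eq_zero_of_orth {x : ι → F} (h : ∀ v : ι → F₀, β x (co v) = 0) : x = 0 := by
  refine hB.1 x fun y => ?_
  rw [pi_eq_sum_univ' y, map_sum]
  refine Finset.sum_eq_zero fun i _ => ?_
  have h1 := h (Pi.single i 1)
  rw [co_single, OneMemClass.coe_one] at h1
  rw [map_smul, h1, smul_zero]

omit [Finite F] in
include hrat in
lemma nondeg₀ : (QuadraticMap.polarBilin (Q₀ hrat)).Nondegenerate := by
  have key : ∀ x : ι → F₀, (∀ y, QuadraticMap.polarBilin (Q₀ hrat) x y = 0) → x = 0 := fun x hx =>
    co_injective ((eq_zero_of_orth hB fun y => (polar_zero_iff hrat x y).1 (hx y)).trans co_zero.symm)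
  exact ⟨key, fun y hy => key y fun x => by rw [Witt.polar_symm']; exact hy x⟩

omit hB in
omit [DecidableEq ι] [Finite F] in
lemma finrank₀ : finrank F₀ (ι → F₀) = Fintype.card ι := Module.finrank_fintype_fun_eq_card F₀

include hrat in
/-- Prescribed values against independent rational vectors. -/
lemma exists_values {k : ℕ} {r : Fin k → ι → F₀} (hr : LinearIndependent F₀ r) (a : Fin k → F₀) :
    ∃ z : ι → F₀, ∀ i, β (co z) (co (r i)) = a i := by
  obtain ⟨f, hf⟩ := LinearMap.exists_extend ((Finsupp.linearCombination F₀ a).comp hr.repr)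
  obtain ⟨z, hz⟩ := Witt.exists_polar (nondeg₀ hrat hB) f
  refine ⟨z, fun i => ?_⟩
  have h1 := LinearMap.congr_fun hf ⟨r i, Submodule.subset_span ⟨i, rfl⟩⟩
  simp only [LinearMap.comp_apply, Submodule.subtype_apply, hr.repr_eq_single i ⟨r i, Submodule.subset_span ⟨i, rfl⟩⟩ rfl,
    Finsupp.linearCombination_single, one_smul] at h1
  rw [← coe_polar hrat, hz, h1]

/-- The parameters of the rational root elements in `M`. -/
def Root (M : Subgroup G) (F₀ : Subfield F) (c : F) : Prop :=
  ∀ p u : ι → F₀, Q (co p) = 0 → β (co p) (co u) = 0 → siegel Q (co p) (c • co u) ∈ M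

variable {M : Subgroup (Witt.quadIso Q)}

variable (hM : ∀ g : Witt.quadIso Q, g ∈ commutator (Witt.quadIso Q) → (∀ v : ι → F₀, ∃ w : ι → F₀, g.1 (co v) = co w) → g ∈ M)
  (hn : 13 ≤ Fintype.card ι)

omit hB in
include hrat in
lemma siegel_rat {p u : ι → F₀} (hp : Q (co p) = 0) (hu : β (co p) (co u) = 0) (v : ι → F₀) :
    ∃ w : ι → F₀, (siegel Q (co p) (co u)).1 (co v) = co w := by
  refine ⟨v + (⟨_, rat_polar hrat v p⟩ : F₀) • u -
    (⟨_, F₀.add_mem (rat_polar hrat v u) (F₀.mul_mem (hrat u) (rat_polar hrat v p))⟩ : F₀) • p, ?_⟩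
  rw [siegel_apply Q hp hu, co_sub, co_add, co_smul, co_smul]

include hrat hM hn

lemma siegel_mem {p u : ι → F₀} (hp : Q (co p) = 0) (hu : β (co p) (co u) = 0) :
    siegel Q (co p) (co u) ∈ M :=
  hM _ (siegel_mem_commutator Q hB (by rw [Module.finrank_fintype_fun_eq_card]; omega) hp hu)
    (siegel_rat hrat hp hu)

/-- One singular second vector gives all of them. -/
lemma root_point {p s : ι → F₀} {c : F} (hp : Q (co p) = 0) (hp0 : p ≠ 0) (hs : Q (co s) = 0)
    (hps : β (co p) (co s) = 0) (hsp : s ∉ Submodule.span F₀ {p})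
    (h : siegel Q (co p) (c • co s) ∈ M) :
    ∀ u : ι → F₀, β (co p) (co u) = 0 → siegel Q (co p) (c • co u) ∈ M := by
  have hB₀ := nondeg₀ hrat hB
  have hn₀ := finrank₀ (ι := ι) (F₀ := F₀)
  have step : ∀ a b : ι → F₀, Q (co a) = 0 → Q (co b) = 0 → β (co p) (co a) = 0 →
      β (co p) (co b) = 0 → a ∉ Submodule.span F₀ (Set.range ![p, a - b]) →
      siegel Q (co p) (c • co a) ∈ M → siegel Q (co p) (c • co b) ∈ M := by
    intro a b ha hb hpa hpb hab hm
    obtain ⟨z, hz, hzr, hza⟩ := SingularVectors.exists_sing (Q₀ hrat) hB₀ ![p, a - b] (by omega) hab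
    have hzp : β (co z) (co p) = 0 := (polar_zero_iff hrat _ _).1 (hzr 0)
    have hzab : β (co z) (co a) - β (co z) (co b) = 0 := by
      rw [← map_sub, ← co_sub]; exact (polar_zero_iff hrat _ _).1 (hzr 1)
    have hza' : β (co z) (co a) = 1 := by rw [← coe_polar hrat, hza]; rfl
    have hzb : β (co z) (co b) = 1 := by rw [← hza']; linear_combination -hzab
    obtain ⟨hd, he⟩ := SiegelFull.exists_move_one Q ((Q₀_zero_iff hrat z).1 hz) ha hb hza' hzb
    set g := siegel Q (co z) (co b - co a) with hg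
    have hgM : g ∈ M := by
      rw [hg, ← co_sub]
      exact siegel_mem hrat hB hM hn ((Q₀_zero_iff hrat z).1 hz) (by rw [co_sub]; exact hd)
    have hgp : g.1 (co p) = co p := by
      rw [hg, siegel_apply Q ((Q₀_zero_iff hrat z).1 hz) hd, Witt.polar_symm' Q (co p) (co z), hzp,
        map_sub, hpb, hpa]
      simp
    have h1 := M.mul_mem (M.mul_mem hgM hm) (M.inv_mem hgM)
    rwa [siegel_conj Q g hp (by rw [map_smul, hpa, smul_zero]), hgp, map_smul, he] at h1
  have hsing : ∀ b : ι → F₀, Q (co b) = 0 → β (co p) (co b) = 0 →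
      siegel Q (co p) (c • co b) ∈ M := by
    intro b hb hpb
    by_cases hbp : b ∈ Submodule.span F₀ {p}
    · obtain ⟨t, rfl⟩ := Submodule.mem_span_singleton.1 hbp
      rw [co_smul, smul_smul]
      have h0 : β (co p) ((c * (t : F)) • co p) = 0 := by
        rw [map_smul, Witt.polar_self', hp, mul_zero, smul_zero]
      rw [show siegel Q (co p) ((c * (t : F)) • co p) = 1 from SiegelElements.ext' Q fun x => by
        rw [siegel_apply Q hp h0, Witt.quad_smul, hp, mul_zero, zero_mul, add_zero, map_smul, smul_eq_mul]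
        show _ = x
        module]
      exact one_mem M
    obtain ⟨v, hv⟩ : ∃ v : ι → F₀, v ∉ Submodule.span F₀ (Set.range ![p]) := by
      by_contra hcon
      push Not at hcon
      have h1 := Submodule.finrank_mono (show (⊤ : Submodule F₀ (ι → F₀)) ≤ _ from fun x _ => hcon x)
      have h2 := finrank_range_le_card (R := F₀) ![p]
      rw [Set.finrank] at h2
      simp only [Fintype.card_fin] at h2
      rw [finrank_top] at h1
      omega
    obtain ⟨m, hm, hmr, -, hms⟩ :=
      SingularVectors.exists_sing_avoid (Q₀ hrat) hB₀ ![p] (by omega) hv ![p, s, b] (by omega)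
    have hpm : β (co p) (co m) = 0 := by rw [Witt.polar_symm']; exact (polar_zero_iff hrat _ _).1 (hmr 0)
    have aux : ∀ a d : ι → F₀, a ∉ Submodule.span F₀ {p} → d ∉ Submodule.span F₀ (Set.range ![p, a]) →
        a ∉ Submodule.span F₀ (Set.range ![p, a - d]) := by
      intro a d ha hd hc'
      obtain ⟨k, hk⟩ := (Submodule.mem_span_range_iff_exists_fun F₀).1 hc'
      simp only [Fin.sum_univ_two, Matrix.cons_val_zero, Matrix.cons_val_one] at hk
      by_cases hk1 : k 1 = 0
      · exact ha (Submodule.mem_span_singleton.2 ⟨k 0, by rw [← hk, hk1, zero_smul, add_zero]⟩)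
      · refine hd ((Submodule.mem_span_range_iff_exists_fun F₀).2
          ⟨![(k 1)⁻¹ * k 0, (k 1)⁻¹ * (k 1 - 1)], ?_⟩)
        simp only [Fin.sum_univ_two, Matrix.cons_val_zero, Matrix.cons_val_one]
        rw [← inv_smul_smul₀ hk1 d, show k 1 • d = k 0 • p + (k 1 - 1) • a by
          linear_combination (norm := module) -hk]
        module
    have hsub : ∀ a : ι → F₀, (a = s ∨ a = b) →
        Submodule.span F₀ (Set.range ![p, a]) ≤ Submodule.span F₀ (Set.range ![p, s, b]) := by
      intro a ha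
      rw [Submodule.span_le]
      rintro _ ⟨i, rfl⟩
      refine Submodule.subset_span ?_
      fin_cases i
      · exact ⟨0, rfl⟩
      · rcases ha with rfl | rfl
        · exact ⟨1, rfl⟩
        · exact ⟨2, rfl⟩
    have hmp : m ∉ Submodule.span F₀ {p} := fun hc => hms
      (Submodule.span_mono (by rintro _ rfl; exact ⟨0, rfl⟩) hc)
    have hbm : b ∉ Submodule.span F₀ (Set.range ![p, m]) := by
      intro hc'
      obtain ⟨k, hk⟩ := (Submodule.mem_span_range_iff_exists_fun F₀).1 hc'
      simp only [Fin.sum_univ_two, Matrix.cons_val_zero, Matrix.cons_val_one] at hk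
      by_cases hk1 : k 1 = 0
      · exact hbp (Submodule.mem_span_singleton.2 ⟨k 0, by rw [← hk, hk1, zero_smul, add_zero]⟩)
      · refine hms ((Submodule.mem_span_range_iff_exists_fun F₀).2 ⟨![-((k 1)⁻¹ * k 0), 0, (k 1)⁻¹], ?_⟩)
        rw [← inv_smul_smul₀ hk1 m, show k 1 • m = b - k 0 • p by linear_combination (norm := module) hk]
        simp [Fin.sum_univ_three]
        module
    have hm' := (Q₀_zero_iff hrat m).1 hm
    exact step m b hm' hb hpm hpb (aux m b hmp hbm)
      (step s m hs hm' hps hpm (aux s m hsp fun hc => hms (hsub s (Or.inl rfl) hc)) h)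
  intro u hu
  set U := LinearMap.BilinForm.orthogonal (QuadraticMap.polarBilin (Q₀ hrat)) (Submodule.span F₀ {p})
    with hU
  have hspan : Submodule.span F₀ {x | x ∈ U ∧ Q₀ hrat x = 0} = U := by
    refine SingularVectors.span_singular _ ?_
    have h1 := Submodule.finrank_mono
      (inf_le_right : U ⊓ LinearMap.BilinForm.orthogonal (QuadraticMap.polarBilin (Q₀ hrat)) U ≤ _)
    have h2 : finrank F₀ U = finrank F₀ (ι → F₀) - finrank F₀ (Submodule.span F₀ {p}) := by
      rw [hU, LinearMap.BilinForm.finrank_orthogonal hB₀]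
    have h3 : finrank F₀ (LinearMap.BilinForm.orthogonal (QuadraticMap.polarBilin (Q₀ hrat)) U) = 1 := by
      rw [hU, LinearMap.BilinForm.orthogonal_orthogonal hB₀ (SingularVectors.refl' _),
        finrank_span_singleton hp0]
    rw [finrank_span_singleton hp0] at h2
    omega
  have huU : u ∈ Submodule.span F₀ {x | x ∈ U ∧ Q₀ hrat x = 0} := by
    rw [hspan, hU, LinearMap.BilinForm.mem_orthogonal_iff]
    intro y hy
    obtain ⟨t, rfl⟩ := Submodule.mem_span_singleton.1 hy
    show QuadraticMap.polarBilin (Q₀ hrat) (t • p) u = 0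
    rw [map_smul, LinearMap.smul_apply, (polar_zero_iff hrat p u).2 hu, smul_zero]
  suffices H : ∀ a : F₀, β (co p) (co (a • u)) = 0 ∧ siegel Q (co p) (c • co (a • u)) ∈ M by
    simpa using (H 1).2
  clear hu
  induction huU using Submodule.span_induction with
  | mem x hx =>
    intro a
    have h1 : β (co p) (co x) = 0 := (polar_zero_iff hrat p x).1
      (LinearMap.BilinForm.mem_orthogonal_iff.1 hx.1 p (Submodule.mem_span_singleton_self p))
    have h0 : β (co p) (co (a • x)) = 0 := by rw [co_smul, map_smul, h1, smul_zero]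
    exact ⟨h0, hsing _ (by rw [co_smul, Witt.quad_smul, (Q₀_zero_iff hrat x).1 hx.2, mul_zero]) h0⟩
  | zero =>
    intro a
    rw [smul_zero, co_zero, smul_zero, siegel_zero Q hp]
    exact ⟨map_zero _, one_mem M⟩
  | add x y _ _ hx hy =>
    intro a
    rw [smul_add, co_add, smul_add]
    refine ⟨by rw [map_add, (hx a).1, (hy a).1, add_zero], ?_⟩
    rw [← siegel_mul Q hp (by rw [map_smul, (hx a).1, smul_zero]) (by rw [map_smul, (hy a).1, smul_zero])]
    exact mul_mem (hx a).2 (hy a).2
  | smul t x _ hx => intro a; rw [smul_smul]; exact hx (a * t)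

/-- One root element with parameter `c` gives all of them. -/
lemma root_of_one {p s : ι → F₀} {c : F} (hp : Q (co p) = 0) (hp0 : p ≠ 0) (hs : Q (co s) = 0)
    (hps : β (co p) (co s) = 0) (hsp : s ∉ Submodule.span F₀ {p})
    (h : siegel Q (co p) (c • co s) ∈ M) : Root M F₀ c := by
  have hB₀ := nondeg₀ hrat hB
  have hn₀ := finrank₀ (ι := ι) (F₀ := F₀)
  have swap : ∀ a b : ι → F₀, Q (co a) = 0 → Q (co b) = 0 → β (co a) (co b) = 0 →
      siegel Q (co a) (c • co b) = siegel Q (co b) (c • co (-a)) := by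
    intro a b ha hb hab
    have hba : β (co b) (co a) = 0 := by rw [Witt.polar_symm', hab]
    have hna : co (-a) = -co a := funext fun i => by simp [co]
    have h1 : β (co b) (c • co (-a)) = 0 := by rw [hna, map_smul, map_neg, hba, neg_zero, smul_zero]
    refine SiegelElements.ext' Q fun x => ?_
    rw [siegel_apply Q ha (by rw [map_smul, hab, smul_zero]), siegel_apply Q hb h1, hna]
    simp only [Witt.quad_smul, QuadraticMap.map_neg, ha, hb, map_smul, map_neg, smul_eq_mul]
    module
  intro q u hq hqu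
  by_cases hq0 : q = 0
  · subst hq0
    rw [co_zero] at hqu ⊢
    rw [show siegel Q (0 : ι → F) (c • co u) = 1 from SiegelElements.ext' Q fun x => by
      rw [siegel_apply Q (QuadraticMap.map_zero Q) (by rw [map_zero, LinearMap.zero_apply])]; simp]
    exact one_mem M
  obtain ⟨v, hv⟩ : ∃ v : ι → F₀, v ∉ Submodule.span F₀ (Set.range ![p, q]) := by
    by_contra hcon
    push Not at hcon
    have h1 := Submodule.finrank_mono (show (⊤ : Submodule F₀ (ι → F₀)) ≤ _ from fun x _ => hcon x)
    have h2 := finrank_range_le_card (R := F₀) ![p, q]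
    rw [Set.finrank] at h2
    simp only [Fintype.card_fin] at h2
    rw [finrank_top] at h1
    omega
  obtain ⟨m, hm, hmr, hmv, hms⟩ :=
    SingularVectors.exists_sing_avoid (Q₀ hrat) hB₀ ![p, q] (by omega) hv ![p, q] (by omega)
  have hm' := (Q₀_zero_iff hrat m).1 hm
  have hpm : β (co p) (co m) = 0 := by rw [Witt.polar_symm']; exact (polar_zero_iff hrat _ _).1 (hmr 0)
  have hmq : β (co m) (co q) = 0 := (polar_zero_iff hrat _ _).1 (hmr 1)
  have hm0 : m ≠ 0 := fun h0 => hms (h0 ▸ zero_mem _)
  have hnp : ∀ a : ι → F₀, a ≠ 0 → (a = p ∨ a = q) → -a ∉ Submodule.span F₀ {m} := by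
    intro a ha hor hc'
    rw [Submodule.neg_mem_iff] at hc'
    obtain ⟨t, ht⟩ := Submodule.mem_span_singleton.1 hc'
    have ht0 : t ≠ 0 := fun h0 => ha (by rw [← ht, h0, zero_smul])
    refine hms ?_
    rw [← inv_smul_smul₀ ht0 m, ht]
    refine Submodule.smul_mem _ _ (Submodule.subset_span ?_)
    rcases hor with rfl | rfl
    · exact ⟨0, rfl⟩
    · exact ⟨1, rfl⟩
  have h1 := root_point hrat hB hM hn hp hp0 hs hps hsp h m hpm
  rw [swap p m hp hm' hpm] at h1
  have hneg : ∀ a : ι → F₀, co (-a) = -co a := fun a => funext fun i => by simp [co]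
  have h2 := root_point hrat hB hM hn hm' hm0 (by rw [hneg, QuadraticMap.map_neg, hp])
    (by rw [hneg, map_neg, Witt.polar_symm', hpm, neg_zero]) (hnp p hp0 (Or.inl rfl)) h1 q hmq
  rw [swap m q hm' hq hmq] at h2
  refine root_point hrat hB hM hn hq hq0 (by rw [hneg, QuadraticMap.map_neg, hm'])
    (by rw [hneg, map_neg, Witt.polar_symm', hmq, neg_zero]) (fun hc' => ?_) h2 u hqu
  rw [Submodule.neg_mem_iff] at hc'
  exact hms (Submodule.span_mono (by rintro _ rfl; exact ⟨1, rfl⟩) hc')

lemma root_one : Root M F₀ 1 := fun p u hp hu => by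
  rw [one_smul]; exact siegel_mem hrat hB hM hn hp hu

omit hM hn in
lemma root_add {c d : F} (hc : Root M F₀ c) (hd : Root M F₀ d) : Root M F₀ (c + d) := by
  intro p u hp hu
  rw [add_smul, ← siegel_mul Q hp (by rw [map_smul, hu, smul_zero]) (by rw [map_smul, hu, smul_zero])]
  exact mul_mem (hc p u hp hu) (hd p u hp hu)

omit hM hn in
lemma root_smul {c : F} (hc : Root M F₀ c) {a : F} (ha : a ∈ F₀) : Root M F₀ (c * a) := by
  intro p u hp hu
  have := hc p ((⟨a, ha⟩ : F₀) • u) hp (by rw [co_smul, map_smul, hu, smul_zero])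
  rwa [co_smul, smul_smul] at this

lemma root_mul {c d : F} (hc : Root M F₀ c) (hd : Root M F₀ d) : Root M F₀ (c * d) := by
  have hB₀ := nondeg₀ hrat hB
  have hn₀ := finrank₀ (ι := ι) (F₀ := F₀)
  obtain ⟨e, he⟩ : ∃ e : ι → F₀, e ≠ 0 := by
    by_contra! hcon
    have : Subsingleton (ι → F₀) := ⟨fun a b => by rw [hcon a, hcon b]⟩
    rw [finrank_zero_of_subsingleton] at hn₀
    omega
  obtain ⟨v, hv, -, hve⟩ := SingularVectors.exists_sing (Q₀ hrat) hB₀ (![] : Fin 0 → ι → F₀)
    (by omega) (v := e) (by simpa [Matrix.range_empty] using he)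
  have hv0 : v ≠ 0 := by rintro rfl; simp at hve
  obtain ⟨v', hv', -, hv'v⟩ := SingularVectors.exists_sing (Q₀ hrat) hB₀ (![] : Fin 0 → ι → F₀)
    (by omega) (v := v) (by simpa [Matrix.range_empty] using hv0)
  have hex : ∀ {k : ℕ} (r : Fin k → ι → F₀), k ≤ 3 → ∃ z, Q₀ hrat z = 0 ∧
      (∀ i, QuadraticMap.polarBilin (Q₀ hrat) z (r i) = 0) ∧ z ∉ Submodule.span F₀ (Set.range r) := by
    intro k r hk
    obtain ⟨x, hx⟩ : ∃ x : ι → F₀, x ∉ Submodule.span F₀ (Set.range r) := by
      by_contra hcon
      push Not at hcon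
      have h1 := Submodule.finrank_mono (show (⊤ : Submodule F₀ (ι → F₀)) ≤ _ from fun x _ => hcon x)
      have h2 := finrank_range_le_card (R := F₀) r
      rw [Set.finrank] at h2
      simp only [Fintype.card_fin] at h2
      rw [finrank_top] at h1
      omega
    obtain ⟨z, h1, h2, -, h3⟩ :=
      SingularVectors.exists_sing_avoid (Q₀ hrat) hB₀ r (by omega) hx r (by omega)
    exact ⟨z, h1, h2, h3⟩
  obtain ⟨u, hu, hur, hus⟩ := hex ![v, v'] (by omega)
  obtain ⟨w, hw, hwr, hws⟩ := hex ![v, v', u] le_rfl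
  have qv := (Q₀_zero_iff hrat v).1 hv
  have qv' := (Q₀_zero_iff hrat v').1 hv'
  have qu := (Q₀_zero_iff hrat u).1 hu
  have qw := (Q₀_zero_iff hrat w).1 hw
  have a1 : β (co v') (co v) = 1 := by rw [← coe_polar hrat, hv'v]; rfl
  have a2 : β (co u) (co v) = 0 := (polar_zero_iff hrat _ _).1 (hur 0)
  have a3 : β (co u) (co v') = 0 := (polar_zero_iff hrat _ _).1 (hur 1)
  have a4 : β (co w) (co v) = 0 := (polar_zero_iff hrat _ _).1 (hwr 0)
  have a5 : β (co w) (co v') = 0 := (polar_zero_iff hrat _ _).1 (hwr 1)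
  have a6 : β (co w) (co u) = 0 := (polar_zero_iff hrat _ _).1 (hwr 2)
  have hu0 : u ≠ 0 := fun h0 => hus (h0 ▸ zero_mem _)
  have hw0 : w ≠ 0 := fun h0 => hws (h0 ▸ zero_mem _)
  have huw : u ∉ Submodule.span F₀ {w} := by
    intro hc'
    obtain ⟨t, ht⟩ := Submodule.mem_span_singleton.1 hc'
    have ht0 : t ≠ 0 := fun h0 => hu0 (by rw [← ht, h0, zero_smul])
    refine hws ?_
    rw [← inv_smul_smul₀ ht0 w, ht]
    exact Submodule.smul_mem _ _ (Submodule.subset_span ⟨2, rfl⟩)
  refine root_of_one hrat hB hM hn qw hw0 qu a6 huw ?_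
  have g1 := hc u v qu a2
  set g := siegel Q (co u) (c • co v) with hg
  have hwv' : β (co w) (co v') = 0 := a5
  have hX := hd w v' qw hwv'
  have hcv : β (co u) (c • co v) = 0 := by rw [map_smul, a2, smul_zero]
  have gw : g.1 (co w) = co w := by
    rw [hg, siegel_apply Q qu hcv, a6, map_smul, a4, smul_zero]; simp
  have gv' : g.1 (co v') = co v' + (-c) • co u := by
    rw [hg, siegel_apply Q qu hcv, Witt.polar_symm' Q (co v') (co u), a3, map_smul, a1, smul_eq_mul]
    module
  have h1 := M.mul_mem (M.mul_mem g1 hX) (M.inv_mem g1)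
  rw [siegel_conj Q g qw (by rw [map_smul, hwv', smul_zero]), gw, map_smul, gv', smul_add,
    smul_smul, ← siegel_mul Q qw (by rw [map_smul, hwv', smul_zero])
      (by rw [map_smul, a6, smul_zero])] at h1
  have h2 := M.mul_mem (M.inv_mem hX) h1
  rw [inv_mul_cancel_left] at h2
  have h3 := M.inv_mem h2
  rwa [siegel_inv Q qw (by rw [map_smul, a6, smul_zero]), ← neg_smul,
    show -(d * -c) = c * d by ring] at h3

/-- One irrational parameter gives all. -/
lemma root_all {r : ℕ} (hr : r.Prime) (hcard : Nat.card F = Nat.card F₀ ^ r) {c : F} (hc : c ∉ F₀)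
    (h : Root M F₀ c) (d : F) : Root M F₀ d := by
  have := Fintype.ofFinite F
  have rat : ∀ a ∈ F₀, Root M F₀ a := fun a ha => by
    have := root_smul hrat hB (root_one hrat hB hM hn) ha
    rwa [one_mul] at this
  have pw : ∀ {a : F}, Root M F₀ a → ∀ m : ℕ, Root M F₀ (a ^ m) := fun {a} ha m => by
    induction m with
    | zero => rw [pow_zero]; exact root_one hrat hB hM hn
    | succ m ih => rw [pow_succ]; exact root_mul hrat hB hM hn ih ha
  let K : Subfield F :=
    { carrier := {a | Root M F₀ a}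
      mul_mem' := fun ha hb => root_mul hrat hB hM hn ha hb
      one_mem' := root_one hrat hB hM hn
      add_mem' := root_add hrat hB
      zero_mem' := rat 0 F₀.zero_mem
      neg_mem' := fun {a} ha => by
        have := root_smul hrat hB ha (F₀.neg_mem F₀.one_mem)
        rwa [mul_neg, mul_one] at this
      inv_mem' := fun a ha => by
        rcases eq_or_ne a 0 with rfl | h0
        · rw [_root_.inv_zero]; exact rat 0 F₀.zero_mem
        · have h2 : 2 ≤ Fintype.card F := Fintype.one_lt_card
          have h1 : a ^ (Fintype.card F - 2) = a⁻¹ := by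
            refine eq_inv_of_mul_eq_one_left ?_
            rw [← pow_succ, show Fintype.card F - 2 + 1 = Fintype.card F - 1 by omega,
              FiniteField.pow_card_sub_one_eq_one a h0]
          rw [← h1]
          exact pw ha _ }
  exact eq_top_of_prime_degree hr hcard K (fun a ha => rat a ha) h hc d

/-- All parameters give the whole commutator subgroup. -/
theorem commutator_le_of_root (hall : ∀ d, Root M F₀ d) : commutator G ≤ M := by
  have hB₀ := nondeg₀ hrat hB
  have hn₀ := finrank₀ (ι := ι) (F₀ := F₀)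
  have hfull : ∀ p : ι → F₀, Q (co p) = 0 → p ≠ 0 → SiegelFull.Full Q M (co p) := by
    intro p hp hp0
    refine ⟨hp, fun x hx => ?_⟩
    obtain ⟨y, hy⟩ := exists_values hrat hB (r := ![p])
      (LinearIndependent.of_subsingleton (0 : Fin 1) hp0) ![1]
    have hyp : β (co y) (co p) = 1 := hy 0
    let e : ι → (ι → F₀) := fun i =>
      Pi.single i 1 - (⟨_, rat_polar hrat (Pi.single i 1) p⟩ : F₀) • y
    have he : ∀ i, β (co p) (co (e i)) = 0 := fun i => by
      rw [co_sub, co_smul, map_sub, map_smul, Witt.polar_symm' Q (co p) (co y), hyp, smul_eq_mul,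
        mul_one, Witt.polar_symm']
      exact sub_self _
    have hsum : x = ∑ i, x i • co (e i) := by
      have e1 : ∑ i, x i * β (co (Pi.single i (1 : F₀))) (co p) = β x (co p) := by
        conv_rhs => rw [pi_eq_sum_univ' x]
        simp [map_sum, LinearMap.sum_apply]
      simp only [e, co_sub, co_smul, smul_sub, smul_smul, Finset.sum_sub_distrib, ← Finset.sum_smul]
      rw [e1, Witt.polar_symm' Q x (co p), hx, zero_smul, sub_zero]
      simp only [co_single, OneMemClass.coe_one]
      exact pi_eq_sum_univ' x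
    suffices H : ∀ s : Finset ι, β (co p) (∑ i ∈ s, x i • co (e i)) = 0 ∧
        siegel Q (co p) (∑ i ∈ s, x i • co (e i)) ∈ M by
      rw [hsum]; exact (H _).2
    intro s
    induction s using Finset.induction with
    | empty => rw [Finset.sum_empty, siegel_zero Q hp]; exact ⟨map_zero _, one_mem M⟩
    | insert i s his ih =>
      rw [Finset.sum_insert his]
      have h0 : β (co p) (x i • co (e i)) = 0 := by rw [map_smul, he, smul_zero]
      refine ⟨by rw [map_add, h0, zero_add]; exact ih.1, ?_⟩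
      rw [← siegel_mul Q hp h0 ih.1]
      exact mul_mem (hall _ p (e i) hp (he i)) ih.2
  obtain ⟨a, ha⟩ : ∃ a : ι → F₀, a ≠ 0 := by
    by_contra! hcon
    have : Subsingleton (ι → F₀) := ⟨fun a b => by rw [hcon a, hcon b]⟩
    rw [finrank_zero_of_subsingleton] at hn₀
    omega
  obtain ⟨p, hp, -, hpa⟩ := SingularVectors.exists_sing (Q₀ hrat) hB₀ (![] : Fin 0 → ι → F₀)
    (by omega) (v := a) (by simpa [Matrix.range_empty] using ha)
  have hp0 : p ≠ 0 := by rintro rfl; simp at hpa
  obtain ⟨z, hz, -, hzp⟩ := SingularVectors.exists_sing (Q₀ hrat) hB₀ (![] : Fin 0 → ι → F₀)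
    (by omega) (v := p) (by simpa [Matrix.range_empty] using hp0)
  have hz0 : z ≠ 0 := by rintro rfl; simp at hzp
  refine SiegelFull.commutator_le Q hB (by rw [Module.finrank_fintype_fun_eq_card]; omega)
    (hfull z ((Q₀_zero_iff hrat z).1 hz) hz0) (hfull p ((Q₀_zero_iff hrat p).1 hp) hp0) ?_
  rw [← coe_polar hrat, hzp]
  exact one_ne_zero

end Cfsg.Lib.Classical.OrthSub
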