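import Mathlib
import Cfsg.Agent.Lib.Classical.OrthSubfieldRoots
import Cfsg.Agent.Lib.Classical.SubfieldMax
import Cfsg.Agent.Lib.Classical.Spinor

/-!
Rational isometries of a rational quadratic space: moved and fixed rational vectors, reflection products.
-/

set_option autoImplicit false

namespace Cfsg.Lib.Classical.OrthSub

open Module SiegelElements Matrix
open Reflections (movSp fixSp rk refl mem_movSp mem_fixSp)
open scoped MatrixGroups

variable {ι : Type} [Fintype ι] [DecidableEq ι] {F : Type*} [Field F] {F₀ : Subfield F}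
  {Q : QuadraticForm F (ι → F)}

local notation "β" => QuadraticMap.polarBilin Q

/-- An isometry as a matrix. -/
noncomputable def tgl (Q : QuadraticForm F (ι → F)) : Witt.quadIso Q →* GL ι F :=
  OmegaBridge.toGL (f := ⇑Q) (fun _ => rfl)

lemma tgl_mulVec (g : Witt.quadIso Q) (x : ι → F) : (tgl Q g : Matrix ι ι F) *ᵥ x = g.1 x :=
  OmegaBridge.toGL_mulVec _ g x

/-- A rational isometry. -/
def RatIso (F₀ : Subfield F) (g : Witt.quadIso Q) : Prop := RatMat F₀ (tgl Q g : Matrix ι ι F)

lemma RatIso.apply {g : Witt.quadIso Q} (hg : RatIso F₀ g) (v : ι → F₀) :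
    ∃ w : ι → F₀, g.1 (co v) = co w := by
  refine ⟨fun i => ⟨(g.1 (co v)) i, ?_⟩, rfl⟩
  rw [← tgl_mulVec]
  exact F₀.sum_mem fun j _ => F₀.mul_mem (hg i j) (v j).2

lemma ratIso_of {g : Witt.quadIso Q} (h : ∀ v : ι → F₀, ∃ w : ι → F₀, g.1 (co v) = co w) :
    RatIso F₀ g := fun i j => by
  obtain ⟨w, hw⟩ := h (Pi.single j 1)
  rw [← tgl_mulVec, co_single, OneMemClass.coe_one, mulVec_single_one] at hw
  rw [show (tgl Q g : Matrix ι ι F) i j = co w i from congrFun hw i]
  exact (w i).2

lemma RatIso.mul {g h : Witt.quadIso Q} (hg : RatIso F₀ g) (hh : RatIso F₀ h) : RatIso F₀ (g * h) := by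
  rw [RatIso, map_mul, Units.val_mul]
  exact RatMat.mul hg hh

lemma rk_eq_rank (g : Witt.quadIso Q) : rk Q g = ((tgl Q g : Matrix ι ι F) - 1).rank := by
  have e : LinearMap.range ((tgl Q g : Matrix ι ι F) - 1).mulVecLin = movSp Q g := by
    ext x
    constructor
    · rintro ⟨z, rfl⟩
      exact ⟨z, by rw [mulVecLin_apply, sub_mulVec, tgl_mulVec, one_mulVec]; rfl⟩
    · rintro ⟨z, rfl⟩
      exact ⟨z, by rw [mulVecLin_apply, sub_mulVec, tgl_mulVec, one_mulVec]; rfl⟩
  rw [rk, Matrix.rank, e]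

lemma rk_conj (y g : Witt.quadIso Q) : rk Q (y * g * y⁻¹) = rk Q g := by
  rw [rk_eq_rank, rk_eq_rank, map_mul, map_mul, map_inv, Units.val_mul, Units.val_mul, conj_sub_one,
    rank_conj]

omit [DecidableEq ι] in
lemma rk_mul_le (g h : Witt.quadIso Q) : rk Q (g * h) ≤ rk Q g + rk Q h := by
  refine (Submodule.finrank_mono ?_).trans (Submodule.finrank_add_le_finrank_add_finrank _ _)
  rintro _ ⟨x, rfl⟩
  refine Submodule.mem_sup.2 ⟨g.1 (h.1 x) - h.1 x, ⟨h.1 x, rfl⟩, h.1 x - x, ⟨x, rfl⟩, ?_⟩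
  show _ = g.1 (h.1 x) - x
  abel

variable (hrat : ∀ v : ι → F₀, Q (co v) ∈ F₀)
include hrat

omit [Fintype ι] [DecidableEq ι] in
lemma refl_rat [Fintype ι] [DecidableEq ι] (a : ι → F₀) : RatIso F₀ (refl Q (co a)) :=
  ratIso_of fun v => ⟨v - (⟨_, F₀.mul_mem (F₀.inv_mem (hrat a)) (rat_polar hrat a v)⟩ : F₀) • a, by
    rw [Reflections.refl_apply, co_sub, co_smul]⟩

omit hrat in
/-- The rational part of `g - 1`. -/
noncomputable def lin₀ {g : Witt.quadIso Q} (hg : RatIso F₀ g) : (ι → F₀) →ₗ[F₀] (ι → F₀) where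
  toFun v := fun i => ⟨(g.1 (co v) - co v) i, by
    obtain ⟨w, hw⟩ := hg.apply v
    rw [hw, ← co_sub]
    exact SetLike.coe_mem _⟩
  map_add' u v := co_injective (by
    show g.1 (co (u + v)) - co (u + v) = co (_ + _)
    rw [co_add, co_add, map_add]
    show _ = (g.1 (co u) - co u) + (g.1 (co v) - co v)
    abel)
  map_smul' a v := co_injective (by
    show g.1 (co (a • v)) - co (a • v) = co (a • _)
    rw [co_smul, co_smul, map_smul]
    show _ = (a : F) • (g.1 (co v) - co v)
    rw [smul_sub])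

omit hrat in
lemma co_lin₀ {g : Witt.quadIso Q} (hg : RatIso F₀ g) (v : ι → F₀) :
    co (lin₀ hg v) = g.1 (co v) - co v := rfl

omit hrat in
lemma mem_ker_lin₀ {g : Witt.quadIso Q} (hg : RatIso F₀ g) (v : ι → F₀) :
    v ∈ LinearMap.ker (lin₀ hg) ↔ g.1 (co v) = co v := by
  rw [LinearMap.mem_ker, ← co_injective.eq_iff, co_lin₀, co_zero, sub_eq_zero]

omit hrat in
lemma movSp_le {g : Witt.quadIso Q} (hg : RatIso F₀ g) :
    movSp Q g ≤ Submodule.span F (co '' (LinearMap.range (lin₀ hg) : Set (ι → F₀))) := by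
  rintro _ ⟨x, rfl⟩
  show g.1 x - x ∈ _
  rw [show g.1 x - x = ∑ i, x i • co (lin₀ hg (Pi.single i 1)) by
    conv_lhs => rw [pi_eq_sum_univ' x, map_sum, ← Finset.sum_sub_distrib]
    refine Finset.sum_congr rfl fun i _ => ?_
    rw [co_lin₀, co_single, OneMemClass.coe_one, map_smul, smul_sub]]
  exact Submodule.sum_mem _ fun i _ => Submodule.smul_mem _ _ (Submodule.subset_span ⟨_, ⟨_, rfl⟩, rfl⟩)

variable [Finite F] (hB : (QuadraticMap.polarBilin Q).Nondegenerate)
include hB

/-- Independent rational vectors stay independent. -/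
lemma li_co {k : ℕ} {r : Fin k → ι → F₀} (hr : LinearIndependent F₀ r) :
    LinearIndependent F (fun i => co (r i)) := by
  classical
  rw [Fintype.linearIndependent_iff]
  intro a ha j
  obtain ⟨z, hz⟩ := exists_values hrat hB hr (Pi.single j 1)
  have h1 := congrArg (fun v => β (co z) v) ha
  simp only [map_sum, map_smul, hz, map_zero, smul_eq_mul] at h1
  rw [Finset.sum_eq_single j (fun b _ hb => by simp [hb]) (by simp)] at h1
  simpa using h1

lemma finrank_range_lin₀ {g : Witt.quadIso Q} (hg : RatIso F₀ g) :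
    finrank F₀ (LinearMap.range (lin₀ hg)) = rk Q g := by
  let b := Module.finBasis F₀ (LinearMap.range (lin₀ hg))
  have hli : LinearIndependent F (fun i => co ((b i : ι → F₀))) :=
    li_co hrat hB (r := fun i => (b i : ι → F₀))
      (b.linearIndependent.map' (LinearMap.range (lin₀ hg)).subtype (Submodule.ker_subtype _))
  refine le_antisymm ?_ ?_
  · have hle : Submodule.span F (Set.range fun i => co ((b i : ι → F₀))) ≤ movSp Q g := by
      rw [Submodule.span_le]
      rintro _ ⟨i, rfl⟩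
      obtain ⟨p, hp⟩ := (b i).2
      exact ⟨co p, by show g.1 (co p) - co p = _; rw [← co_lin₀ hg, hp]⟩
    have h := Submodule.finrank_mono hle
    rwa [finrank_span_eq_card hli, Fintype.card_fin] at h
  · have hle : movSp Q g ≤ Submodule.span F (Set.range fun i => co ((b i : ι → F₀))) := by
      refine (movSp_le hg).trans (Submodule.span_le.2 ?_)
      rintro _ ⟨w, hw, rfl⟩
      obtain ⟨c, hc⟩ : ∃ c : Fin (finrank F₀ (LinearMap.range (lin₀ hg))) → F₀,
          ∑ i, c i • (b i : ι → F₀) = w := by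
        have hb : Submodule.span F₀ (Set.range fun i => (b i : ι → F₀)) = LinearMap.range (lin₀ hg) := by
          rw [show (fun i => (b i : ι → F₀)) = (LinearMap.range (lin₀ hg)).subtype ∘ b from rfl,
            Set.range_comp, Submodule.span_image, b.span_eq, Submodule.map_subtype_top]
        exact (Submodule.mem_span_range_iff_exists_fun F₀).1 (hb.symm ▸ hw)
      have hco : co w = ∑ i, (c i : F) • co ((b i : ι → F₀)) := by
        rw [← hc]
        funext j
        simp [co, Finset.sum_apply]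
      rw [hco]
      exact Submodule.sum_mem _ fun i _ => Submodule.smul_mem _ _ (Submodule.subset_span ⟨i, rfl⟩)
    have h := Submodule.finrank_mono hle
    rwa [finrank_span_eq_card hli, Fintype.card_fin] at h

omit [Finite F] hB in
/-- A rational vector orthogonal to the rational moved vectors is fixed. -/
lemma fixed_of_orth (hB : (QuadraticMap.polarBilin Q).Nondegenerate) {g : Witt.quadIso Q}
    (hg : RatIso F₀ g) {a : ι → F₀}
    (ha : ∀ w ∈ LinearMap.range (lin₀ hg), β (co w) (co a) = 0) : g.1 (co a) = co a := by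
  rw [← mem_fixSp, Reflections.mem_fixSp_iff hB]
  intro w hw
  have hw' := movSp_le hg hw
  clear hw
  induction hw' using Submodule.span_induction with
  | mem x hx =>
    obtain ⟨w₀, hw₀, rfl⟩ := hx
    exact ha w₀ hw₀
  | zero => rw [map_zero, LinearMap.zero_apply]
  | add x y _ _ hx hy => rw [map_add, LinearMap.add_apply, hx, hy, add_zero]
  | smul c x _ hx => rw [map_smul, LinearMap.smul_apply, hx, smul_zero]

variable (hn : 13 ≤ Fintype.card ι)
include hn

/-- A subspace of more than half dimension has a nonsingular vector. -/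
lemma exists_aniso₀ {U : Submodule F₀ (ι → F₀)} (hU : Fintype.card ι < 2 * finrank F₀ U) :
    ∃ u ∈ U, Q (co u) ≠ 0 := by
  by_contra! hall
  have hle : U ≤ LinearMap.BilinForm.orthogonal (QuadraticMap.polarBilin (Q₀ hrat)) U := by
    intro x hx
    refine LinearMap.BilinForm.mem_orthogonal_iff.2 fun y hy => ?_
    refine (polar_zero_iff hrat y x).2 ?_
    have := hall _ (U.add_mem hy hx)
    rw [co_add, Witt.quad_add, hall y hy, hall x hx] at this
    simpa using this
  have h1 := Submodule.finrank_mono hle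
  rw [LinearMap.BilinForm.finrank_orthogonal (nondeg₀ hrat hB) (W := U), finrank₀] at h1
  omega

/-- A fixed singular vector with an orthogonal fixed nonsingular one. -/
lemma exists_fixed_pair {g : Witt.quadIso Q} (hg : RatIso F₀ g)
    (h : 2 * rk Q g + 3 ≤ Fintype.card ι ∨ (rk Q g + 3 ≤ Fintype.card ι ∧ (2 : F) ≠ 0 ∧ g * g = 1)) :
    ∃ v u : ι → F₀, v ≠ 0 ∧ Q (co v) = 0 ∧ β (co v) (co u) = 0 ∧ Q (co u) ≠ 0 ∧
      g.1 (co v) = co v ∧ g.1 (co u) = co u := by
  set K := LinearMap.ker (lin₀ hg) with hK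
  have hd : finrank F₀ K + rk Q g = Fintype.card ι := by
    rw [← finrank_range_lin₀ hrat hB hg, add_comm, LinearMap.finrank_range_add_finrank_ker, finrank₀]
  obtain ⟨v, hvK, hv0, hv⟩ := SingularVectors.exists_zero (Q₀ hrat) K (by
    rcases h with h | ⟨h, -, -⟩ <;> omega)
  set U := K ⊓ LinearMap.ker (QuadraticMap.polarBilin (Q₀ hrat) v) with hU
  have hUd : finrank F₀ K ≤ finrank F₀ U + 1 := by
    have h1 := Submodule.finrank_sup_add_finrank_inf_eq K (LinearMap.ker (QuadraticMap.polarBilin (Q₀ hrat) v))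
    have h2 := Submodule.finrank_le (K ⊔ LinearMap.ker (QuadraticMap.polarBilin (Q₀ hrat) v))
    have h3 := LinearMap.finrank_range_add_finrank_ker (QuadraticMap.polarBilin (Q₀ hrat) v)
    have h4 := (LinearMap.range (QuadraticMap.polarBilin (Q₀ hrat) v)).finrank_le
    rw [finrank_self] at h4
    rw [← hU] at h1
    omega
  obtain ⟨u, huU, hu⟩ : ∃ u ∈ U, Q (co u) ≠ 0 := by
    rcases h with h | ⟨h, h2, hgg⟩
    · exact exists_aniso₀ hrat hB hn (U := U) (by omega)
    by_contra! hall
    set R := LinearMap.range (lin₀ hg) with hR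
    have hKR : ∀ x ∈ K, ∀ w ∈ R, β (co x) (co w) = 0 := by
      rintro x hx _ ⟨p, rfl⟩
      rw [co_lin₀, map_sub]
      nth_rw 1 [← (mem_ker_lin₀ hg x).1 hx]
      rw [Reflections.polar_apply, sub_self]
    have hdis : K ⊓ R = ⊥ := by
      rw [eq_bot_iff]
      rintro w ⟨hw1, p, rfl⟩
      have e1 := (mem_ker_lin₀ hg _).1 hw1
      have e2 : g.1 (g.1 (co p)) = co p := congrArg (fun t : Witt.quadIso Q => t.1 (co p)) hgg
      rw [co_lin₀, map_sub, e2] at e1
      have h3 : (2 : F) • co (lin₀ hg p) = 0 := by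
        rw [co_lin₀, two_smul]
        linear_combination (norm := module) -e1
      rw [Submodule.mem_bot]
      exact co_injective (((smul_eq_zero.1 h3).resolve_left h2).trans co_zero.symm)
    have hle : U ⊔ R ≤ LinearMap.BilinForm.orthogonal (QuadraticMap.polarBilin (Q₀ hrat)) U := by
      refine sup_le (fun x hx => ?_) fun x hx => ?_
      · refine LinearMap.BilinForm.mem_orthogonal_iff.2 fun y hy => (polar_zero_iff hrat y x).2 ?_
        have := hall _ (U.add_mem hy hx)
        rw [co_add, Witt.quad_add, hall y hy, hall x hx] at this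
        simpa using this
      · exact LinearMap.BilinForm.mem_orthogonal_iff.2 fun y hy =>
          (polar_zero_iff hrat y x).2 (hKR y hy.1 x hx)
    have h1 := Submodule.finrank_mono hle
    have h3 := Submodule.finrank_sup_add_finrank_inf_eq U R
    have h4 : U ⊓ R = ⊥ := eq_bot_mono (inf_le_inf_right R inf_le_left) hdis
    rw [h4, finrank_bot, finrank_range_lin₀ hrat hB hg] at h3
    rw [LinearMap.BilinForm.finrank_orthogonal (nondeg₀ hrat hB) (W := U), finrank₀] at h1
    omega
  exact ⟨v, u, hv0, (Q₀_zero_iff hrat v).1 hv, (polar_zero_iff hrat v u).1 huU.2, hu,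
    (mem_ker_lin₀ hg v).1 hvK, (mem_ker_lin₀ hg u).1 huU.1⟩

/-- A vector of value one orthogonal to a family without singular radical. -/
lemma exists_one {k : ℕ} (r : Fin k → ι → F₀) (hk : k ≤ 5)
    (hr : ∀ p ∈ Submodule.span F₀ (Set.range r), (∀ i, β (co p) (co (r i)) = 0) → Q (co p) = 0 → p = 0) :
    ∃ a : ι → F₀, Q (co a) = 1 ∧ ∀ i, β (co (r i)) (co a) = 0 := by
  have hB₀ := nondeg₀ hrat hB
  have hn₀ := finrank₀ (ι := ι) (F₀ := F₀)
  obtain ⟨x, hx⟩ : ∃ x : ι → F₀, x ∉ Submodule.span F₀ (Set.range r) := by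
    by_contra hcon
    push Not at hcon
    have h1 := Submodule.finrank_mono (show (⊤ : Submodule F₀ (ι → F₀)) ≤ _ from fun x _ => hcon x)
    have h2 := finrank_range_le_card (R := F₀) r
    rw [Set.finrank] at h2
    simp only [Fintype.card_fin] at h2
    rw [finrank_top] at h1
    omega
  obtain ⟨p, hp, hpr, hpx⟩ := SingularVectors.exists_sing (Q₀ hrat) hB₀ r (by omega) hx
  have hps : p ∉ Submodule.span F₀ (Set.range r) := fun hc => by
    have := hr p hc (fun i => (polar_zero_iff hrat _ _).1 (hpr i)) ((Q₀_zero_iff hrat p).1 hp)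
    subst this
    simp at hpx
  obtain ⟨y, hy, hyr, hyp⟩ := SingularVectors.exists_sing (Q₀ hrat) hB₀ r (by omega) hps
  refine ⟨p + y, ?_, fun i => ?_⟩
  · rw [co_add, Witt.quad_add, (Q₀_zero_iff hrat p).1 hp, (Q₀_zero_iff hrat y).1 hy,
      Witt.polar_symm' Q (co p) (co y), ← coe_polar hrat, hyp]
    simp
  · rw [co_add, map_add, Witt.polar_symm' Q (co (r i)) (co p), Witt.polar_symm' Q (co (r i)) (co y),
      (polar_zero_iff hrat _ _).1 (hpr i), (polar_zero_iff hrat _ _).1 (hyr i), add_zero]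

omit hn in
/-- Orthogonal anisotropic families have no singular radical. -/
lemma no_radical (h2 : (2 : F) ≠ 0) {k : ℕ} (r : Fin k → ι → F₀) (hne : ∀ i, Q (co (r i)) ≠ 0)
    (horth : ∀ i j, i ≠ j → β (co (r i)) (co (r j)) = 0) :
    ∀ p ∈ Submodule.span F₀ (Set.range r), (∀ i, β (co p) (co (r i)) = 0) → Q (co p) = 0 → p = 0 := by
  intro p hp hpr _
  obtain ⟨c, rfl⟩ := (Submodule.mem_span_range_iff_exists_fun F₀).1 hp
  have hc : ∀ j, c j = 0 := by
    intro j
    have h1 := hpr j
    have e : co (∑ i, c i • r i) = ∑ i, (c i : F) • co (r i) := by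
      funext l; simp [co, Finset.sum_apply]
    rw [e, map_sum, LinearMap.sum_apply,
      Finset.sum_eq_single j (fun i _ hi => by rw [map_smul, LinearMap.smul_apply, horth i j hi, smul_zero])
        (by simp), map_smul, LinearMap.smul_apply, Witt.polar_self', smul_eq_mul] at h1
    exact Subtype.ext ((mul_eq_zero.1 h1).resolve_right (mul_ne_zero h2 (hne j)))
  simp [hc]

omit hrat hn in
omit [DecidableEq ι] in
lemma not_mem_movSp (h2 : (2 : F) ≠ 0) {g : Witt.quadIso Q} {v : ι → F} (hv : Q v ≠ 0)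
    (hfix : g.1 v = v) : v ∉ movSp Q g := fun hm => by
  have := Reflections.fix_mov_perp g (mem_fixSp.2 hfix) hm
  rw [Witt.polar_self'] at this
  exact mul_ne_zero h2 hv this

end Cfsg.Lib.Classical.OrthSub
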