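import Mathlib
import Cfsg.Agent.Lib.Classical.OrthSubfieldBase

/-!
Without irrational rational root parameters, a conjugated root element orthogonal to a rational
singular point has rational centre.
-/

set_option autoImplicit false

namespace Cfsg.Lib.Classical.OrthSub

open Module SiegelElements

variable {ι : Type} [Fintype ι] [DecidableEq ι] {F : Type*} [Field F] [Finite F] {F₀ : Subfield F}
  {Q : QuadraticForm F (ι → F)} (hrat : ∀ v : ι → F₀, Q (co v) ∈ F₀)
  (hB : (QuadraticMap.polarBilin Q).Nondegenerate) {M : Subgroup (Witt.quadIso Q)}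

variable (hM : ∀ g : Witt.quadIso Q, g ∈ commutator (Witt.quadIso Q) →
    (∀ v : ι → F₀, ∃ w : ι → F₀, g.1 (co v) = co w) → g ∈ M)
  (hn : 13 ≤ Fintype.card ι) (hS : ∀ c, Root M F₀ c → c ∈ F₀)

local notation "β" => QuadraticMap.polarBilin Q

include hrat hB hn

lemma exists_outside {k : ℕ} (r : Fin k → ι → F₀) (hk : k < 13) :
    ∃ x : ι → F₀, x ∉ Submodule.span F₀ (Set.range r) := by
  by_contra hcon
  push Not at hcon
  have h1 := Submodule.finrank_mono (show (⊤ : Submodule F₀ (ι → F₀)) ≤ _ from fun x _ => hcon x)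
  have h2 := finrank_range_le_card (R := F₀) r
  rw [Set.finrank] at h2
  simp only [Fintype.card_fin] at h2
  rw [finrank_top, finrank₀] at h1
  omega

include hM hS

omit hn hS hrat hB hM in
lemma shift_mem {p x : ι → F} (hp : Q p = 0) (hpx : β p x = 0) (hX : siegel Q p x ∈ M)
    {h : Witt.quadIso Q} (hh : h ∈ M) (hfix : h.1 p = p) :
    β p (h.1 x - x) = 0 ∧ siegel Q p (h.1 x - x) ∈ M := by
  have h1 : β p (h.1 x) = 0 := by
    have := Reflections.polar_apply Q h p x
    rw [hfix] at this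
    rw [this, hpx]
  refine ⟨by rw [map_sub, h1, hpx, sub_zero], ?_⟩
  have h2 := M.mul_mem (M.mul_mem (M.mul_mem hh hX) (M.inv_mem hh)) (M.inv_mem hX)
  rwa [siegel_conj Q h hp hpx, hfix, siegel_inv Q hp hpx,
    siegel_mul Q hp h1 (by rw [map_neg, hpx, neg_zero]), ← sub_eq_add_neg] at h2

/-- An element of the radical of a rational point has rational vector part. -/
lemma radical_rat {p : ι → F₀} (hp0 : p ≠ 0) (hp : Q (co p) = 0) {x : ι → F}
    (hpx : β (co p) x = 0) (hX : siegel Q (co p) x ∈ M) {y : ι → F₀} (hy : β (co p) (co y) = 0) :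
    β x (co y) ∈ F₀ := by
  have hB₀ := nondeg₀ hrat hB
  have hn₀ := finrank₀ (ι := ι) (F₀ := F₀)
  have hsing : ∀ a : ι → F₀, Q (co a) = 0 → β (co p) (co a) = 0 → β x (co a) ∈ F₀ := by
    intro a ha hpa
    by_cases hap : a ∈ Submodule.span F₀ {p}
    · obtain ⟨t, rfl⟩ := Submodule.mem_span_singleton.1 hap
      rw [co_smul, map_smul, Witt.polar_symm' Q x (co p), hpx, smul_zero]
      exact F₀.zero_mem
    obtain ⟨w, hw⟩ := exists_outside hrat hB hn ![p, a] (by omega)
    obtain ⟨b, hb, hbr, -, hbs⟩ :=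
      SingularVectors.exists_sing_avoid (Q₀ hrat) hB₀ ![p, a] (by omega) hw ![p, a] (by omega)
    obtain ⟨a', ha', ha'r, ha'b⟩ := SingularVectors.exists_sing (Q₀ hrat) hB₀ ![p, a] (by omega) hbs
    obtain ⟨w', hw'⟩ := exists_outside hrat hB hn ![p, a, b, a'] (by omega)
    obtain ⟨z, hz, hzr, -, hzs⟩ :=
      SingularVectors.exists_sing_avoid (Q₀ hrat) hB₀ ![p, a, b, a'] (by omega) hw' ![p] (by omega)
    have qb := (Q₀_zero_iff hrat b).1 hb
    have qa' := (Q₀_zero_iff hrat a').1 ha'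
    have qz := (Q₀_zero_iff hrat z).1 hz
    have b1 : β (co b) (co p) = 0 := (polar_zero_iff hrat _ _).1 (hbr 0)
    have b2 : β (co b) (co a) = 0 := (polar_zero_iff hrat _ _).1 (hbr 1)
    have c1 : β (co a') (co p) = 0 := (polar_zero_iff hrat _ _).1 (ha'r 0)
    have c2 : β (co a') (co a) = 0 := (polar_zero_iff hrat _ _).1 (ha'r 1)
    have c3 : β (co a') (co b) = 1 := by rw [← coe_polar hrat, ha'b]; rfl
    have z1 : β (co z) (co p) = 0 := (polar_zero_iff hrat _ _).1 (hzr 0)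
    have z2 : β (co z) (co a) = 0 := (polar_zero_iff hrat _ _).1 (hzr 1)
    have z3 : β (co z) (co b) = 0 := (polar_zero_iff hrat _ _).1 (hzr 2)
    have z4 : β (co z) (co a') = 0 := (polar_zero_iff hrat _ _).1 (hzr 3)
    have hab : β (co a) (co b) = 0 := by rw [Witt.polar_symm', b2]
    have ha'z : β (co a') (co z) = 0 := by rw [Witt.polar_symm', z4]
    have s1 : (siegel Q (co a) (co b)).1 (co p) = co p := by
      rw [siegel_apply Q ha hab, hpa, Witt.polar_symm' Q (co p) (co b), b1]; simp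
    obtain ⟨p1, m1⟩ := shift_mem hp hpx hX (siegel_mem hrat hB hM hn ha hab) s1
    set x₁ := (siegel Q (co a) (co b)).1 x - x with hx₁
    have s2 : (siegel Q (co a') (co z)).1 (co p) = co p := by
      rw [siegel_apply Q qa' ha'z, Witt.polar_symm' Q (co p) (co a'), c1, Witt.polar_symm' Q (co p) (co z), z1]
      simp
    obtain ⟨p2, m2⟩ := shift_mem hp p1 m1 (siegel_mem hrat hB hM hn qa' ha'z) s2
    have e : (siegel Q (co a') (co z)).1 x₁ - x₁ = β x (co a) • co z := by
      have ea : (siegel Q (co a') (co z)).1 (co a) = co a := by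
        rw [siegel_apply Q qa' ha'z, Witt.polar_symm' Q (co a) (co a'), c2, Witt.polar_symm' Q (co a) (co z), z2]
        simp
      have eb : (siegel Q (co a') (co z)).1 (co b) = co b + co z := by
        rw [siegel_apply Q qa' ha'z, Witt.polar_symm' Q (co b) (co a'), c3, Witt.polar_symm' Q (co b) (co z), z3,
          qz]
        simp
      rw [hx₁, siegel_apply Q ha hab, qb, zero_mul, add_zero]
      simp only [map_sub, map_add, map_smul, ea, eb]
      module
    rw [e] at m2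
    refine hS _ (root_of_one hrat hB hM hn hp hp0 qz (by rw [Witt.polar_symm', z1]) (fun hc => hzs ?_) m2)
    exact Submodule.span_mono (by rintro _ rfl; exact ⟨0, rfl⟩) hc
  set U := LinearMap.BilinForm.orthogonal (QuadraticMap.polarBilin (Q₀ hrat)) (Submodule.span F₀ {p})
    with hU
  have hspan : Submodule.span F₀ {a | a ∈ U ∧ Q₀ hrat a = 0} = U := by
    refine SingularVectors.span_singular _ ?_
    have h1 := Submodule.finrank_mono
      (inf_le_right : U ⊓ LinearMap.BilinForm.orthogonal (QuadraticMap.polarBilin (Q₀ hrat)) U ≤ _)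
    have h2 : finrank F₀ U = finrank F₀ (ι → F₀) - finrank F₀ (Submodule.span F₀ {p}) := by
      rw [hU, LinearMap.BilinForm.finrank_orthogonal hB₀]
    have h3 : finrank F₀ (LinearMap.BilinForm.orthogonal (QuadraticMap.polarBilin (Q₀ hrat)) U) = 1 := by
      rw [hU, LinearMap.BilinForm.orthogonal_orthogonal hB₀ (SingularVectors.refl' _),
        finrank_span_singleton hp0]
    rw [finrank_span_singleton hp0] at h2
    omega
  have hyU : y ∈ Submodule.span F₀ {a | a ∈ U ∧ Q₀ hrat a = 0} := by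
    rw [hspan, hU, LinearMap.BilinForm.mem_orthogonal_iff]
    intro z hz
    obtain ⟨t, rfl⟩ := Submodule.mem_span_singleton.1 hz
    show QuadraticMap.polarBilin (Q₀ hrat) (t • p) y = 0
    rw [map_smul, LinearMap.smul_apply, (polar_zero_iff hrat p y).2 hy, smul_zero]
  clear hy
  induction hyU using Submodule.span_induction with
  | mem a ha =>
    exact hsing a ((Q₀_zero_iff hrat a).1 ha.2) ((polar_zero_iff hrat p a).1
      (LinearMap.BilinForm.mem_orthogonal_iff.1 ha.1 p (Submodule.mem_span_singleton_self p)))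
  | zero => rw [co_zero, map_zero]; exact F₀.zero_mem
  | add a b _ _ ha hb => rw [co_add, map_add]; exact F₀.add_mem ha hb
  | smul t a _ ha => rw [co_smul, map_smul]; exact F₀.mul_mem t.2 ha

/-- The relation forced by a conjugated root element fixing a rational point. -/
lemma point_step {e : ι → F₀} (he0 : e ≠ 0) (he : Q (co e) = 0) {w X : ι → F} (hw : Q w = 0)
    (hwX : β w X = 0) (hT : siegel Q w X ∈ M) (hwe : β w (co e) = 0) (hXe : β X (co e) = 0)
    {b z : ι → F₀} (hb : β (co e) (co b) = 0) (hz : β (co e) (co z) = 0) :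
    β w (co b) * β X (co z) - (β X (co b) + Q X * β w (co b)) * β w (co z) ∈ F₀ := by
  have hTe : (siegel Q w X).1 (co e) = co e := by
    rw [siegel_apply Q hw hwX, Witt.polar_symm' Q (co e) w, hwe, Witt.polar_symm' Q (co e) X, hXe]
    simp
  obtain ⟨h1, h2⟩ := shift_mem (M := M) he hb (siegel_mem hrat hB hM hn he hb) hT hTe
  have h3 := radical_rat hrat hB hM hn hS he0 he h1 h2 hz
  rwa [siegel_apply Q hw hwX, map_sub, map_sub, map_add, map_smul, map_smul, LinearMap.sub_apply,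
    LinearMap.sub_apply, LinearMap.add_apply, LinearMap.smul_apply, LinearMap.smul_apply, smul_eq_mul,
    smul_eq_mul, add_sub_assoc, add_sub_cancel_left, Witt.polar_symm' Q (co b) w,
    Witt.polar_symm' Q (co b) X] at h3

omit hrat hB hM hn hS in
omit [Fintype ι] [DecidableEq ι] in
lemma rat_of_sq {a : F} (h1 : a * a ∈ F₀) (h2 : (a + 1) * (a + 1) ∈ F₀) : a ∈ F₀ := by
  have h3 : 2 * a ∈ F₀ := by
    have := F₀.sub_mem (F₀.sub_mem h2 h1) F₀.one_mem
    rwa [show (a + 1) * (a + 1) - a * a - 1 = 2 * a by ring] at this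
  by_cases h : (2 : F) = 0
  · have h0 : (2 : F₀) = 0 := Subtype.ext h
    haveI : CharP F₀ 2 := CharTwo.of_one_ne_zero_of_two_eq_zero one_ne_zero h0
    obtain ⟨s, hs⟩ := FiniteField.isSquare_of_char_two (ringChar.eq F₀ 2) (⟨a * a, h1⟩ : F₀)
    have e : a * a = (s : F) * s := congrArg Subtype.val hs
    have : (a - s) * (a - s) = 0 := by linear_combination e + ((s : F) * s - a * s) * h
    rw [sub_eq_zero.1 (mul_self_eq_zero.1 this)]
    exact s.2
  · have h2' : (2 : F) ∈ F₀ := by rw [← one_add_one_eq_two]; exact F₀.add_mem F₀.one_mem F₀.one_mem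
    have := F₀.mul_mem (F₀.inv_mem h2') h3
    rwa [inv_mul_cancel_left₀ h] at this

omit hM hS hn in
/-- A vector with rational values is rational. -/
lemma exists_rat {w : ι → F} (hw : ∀ z : ι → F₀, β w (co z) ∈ F₀) : ∃ r : ι → F₀, co r = w := by
  let L : (ι → F₀) →ₗ[F₀] F₀ :=
    { toFun := fun z => ⟨β w (co z), hw z⟩
      map_add' := fun u v => Subtype.ext (by simp only [co_add, map_add]; rfl)
      map_smul' := fun a v => Subtype.ext (by simp only [co_smul, map_smul]; rfl) }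
  obtain ⟨r, hr⟩ := Witt.exists_polar (nondeg₀ hrat hB) L
  refine ⟨r, sub_eq_zero.1 (eq_zero_of_orth (F₀ := F₀) hB fun v => ?_)⟩
  rw [map_sub, LinearMap.sub_apply, ← coe_polar hrat, hr]
  exact sub_self _

/-- A conjugated root element orthogonal to a rational singular point has rational centre. -/
lemma exists_rat_of_point {e : ι → F₀} (he0 : e ≠ 0) (he : Q (co e) = 0) {w X : ι → F}
    (hw0 : w ≠ 0) (hw : Q w = 0) (hwX : β w X = 0) (hT : siegel Q w X ∈ M)
    (hwe : β w (co e) = 0) (hXe : β X (co e) = 0) (hQX : Q X ∈ F₀) (hQX0 : Q X ≠ 0) :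
    ∃ ρ : F, ρ ≠ 0 ∧ ∃ r : ι → F₀, co r = ρ • w := by
  have hB₀ := nondeg₀ hrat hB
  have hn₀ := finrank₀ (ι := ι) (F₀ := F₀)
  suffices H : ∃ ρ : F, ρ ≠ 0 ∧ ∀ z, ρ * β w (co z) ∈ F₀ by
    obtain ⟨ρ, hρ, hz⟩ := H
    exact ⟨ρ, hρ, exists_rat hrat hB (w := ρ • w) fun z => by
      rw [map_smul, LinearMap.smul_apply]; exact hz z⟩
  obtain ⟨y₀, hy₀⟩ := exists_values hrat hB (r := ![e])
    (LinearIndependent.of_subsingleton (0 : Fin 1) he0) ![1]
  have hye : β (co y₀) (co e) = 1 := hy₀ 0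
  let P : (ι → F₀) →ₗ[F₀] (ι → F₀) :=
    LinearMap.id - (((QuadraticMap.polarBilin (Q₀ hrat)).flip e).smulRight y₀)
  have hP : ∀ z, β (co e) (co (P z)) = 0 := fun z => by
    show β (co e) (co (z - QuadraticMap.polarBilin (Q₀ hrat) z e • y₀)) = 0
    rw [co_sub, co_smul, coe_polar hrat, map_sub, map_smul, Witt.polar_symm' Q (co e) (co y₀), hye,
      smul_eq_mul, mul_one, Witt.polar_symm']
    exact sub_self _
  by_cases hW : ∀ z : ι → F₀, β (co e) (co z) = 0 → β w (co z) = 0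
  · have hdec : ∀ z : ι → F₀, β w (co z) = β (co z) (co e) * β w (co y₀) := fun z => by
      have h1 := hW (z - (⟨_, rat_polar hrat z e⟩ : F₀) • y₀) (by
        rw [co_sub, co_smul, map_sub, map_smul, Witt.polar_symm' Q (co e) (co y₀), hye, smul_eq_mul,
          mul_one, Witt.polar_symm']
        exact sub_self _)
      rw [co_sub, co_smul, map_sub, map_smul, sub_eq_zero] at h1
      exact h1
    have hW0 : β w (co y₀) ≠ 0 := fun h0 => hw0 (eq_zero_of_orth (F₀ := F₀) hB fun v => by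
      rw [hdec, h0, mul_zero])
    refine ⟨(β w (co y₀))⁻¹, inv_ne_zero hW0, fun z => ?_⟩
    rw [hdec z, mul_left_comm, inv_mul_cancel₀ hW0, mul_one]
    exact rat_polar hrat z e
  push Not at hW
  obtain ⟨z₀, hz₀, hW₀⟩ := hW
  set W₀ := β w (co z₀) with hW₀def
  -- the relations at a point
  have sqz : ∀ (f : ι → F₀), f ≠ 0 → Q (co f) = 0 → β w (co f) = 0 → β X (co f) = 0 →
      ∀ z : ι → F₀, β (co f) (co z) = 0 → β w (co z) * β w (co z) ∈ F₀ := by
    intro f hf0 hf hwf hXf z hz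
    have h1 := point_step hrat hB hM hn hS hf0 hf hw hwX hT hwf hXf hz hz
    have h2 := F₀.mul_mem (F₀.inv_mem (F₀.neg_mem hQX)) h1
    rw [show β w (co z) * β X (co z) - (β X (co z) + Q X * β w (co z)) * β w (co z) =
      (-Q X) * (β w (co z) * β w (co z)) by ring, inv_mul_cancel_left₀ (neg_ne_zero.2 hQX0)] at h2
    exact h2
  have ratio : ∀ (f : ι → F₀), f ≠ 0 → Q (co f) = 0 → β w (co f) = 0 → β X (co f) = 0 →
      ∀ z₁ z : ι → F₀, β (co f) (co z₁) = 0 → β w (co z₁) ≠ 0 → β (co f) (co z) = 0 →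
      (β w (co z₁))⁻¹ * β w (co z) ∈ F₀ := by
    intro f hf0 hf hwf hXf z₁ z hz₁ hne hz
    have q1 := F₀.inv_mem (sqz f hf0 hf hwf hXf z₁ hz₁)
    refine rat_of_sq ?_ ?_
    · have := F₀.mul_mem q1 (sqz f hf0 hf hwf hXf z hz)
      convert this using 1
      field_simp
    · have := F₀.mul_mem q1 (sqz f hf0 hf hwf hXf (z + z₁) (by rw [co_add, map_add, hz, hz₁, add_zero]))
      rw [co_add, map_add] at this
      convert this using 1
      field_simp
  have R1 : ∀ z, β (co e) (co z) = 0 → W₀⁻¹ * β w (co z) ∈ F₀ := fun z hz =>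
    ratio e he0 he hwe hXe z₀ z hz₀ hW₀ hz
  let L1 : (ι → F₀) →ₗ[F₀] F₀ :=
    { toFun := fun z => ⟨W₀⁻¹ * β w (co (P z)), R1 _ (hP z)⟩
      map_add' := fun u v => Subtype.ext (by simp only [map_add, co_add, mul_add]; rfl)
      map_smul' := fun a v => Subtype.ext (by
        show W₀⁻¹ * β w (co (P (a • v))) = (a : F) * (W₀⁻¹ * β w (co (P v)))
        rw [map_smul, co_smul, map_smul, smul_eq_mul]
        ring) }
  let P₂ : (ι → F₀) →ₗ[F₀] (ι → F₀) := P - L1.smulRight z₀
  have hP₂ : ∀ z, β (co e) (co (P₂ z)) = 0 ∧ β w (co (P₂ z)) = 0 := fun z => by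
    show β (co e) (co (P z - L1 z • z₀)) = 0 ∧ β w (co (P z - L1 z • z₀)) = 0
    rw [co_sub, co_smul, map_sub, map_sub, map_smul, map_smul, hP, hz₀, smul_zero, sub_zero]
    refine ⟨rfl, ?_⟩
    show β w (co (P z)) - (W₀⁻¹ * β w (co (P z))) • W₀ = 0
    rw [smul_eq_mul, mul_comm (W₀⁻¹), mul_assoc, inv_mul_cancel₀ hW₀, mul_one, sub_self]
  have R2 : ∀ z, W₀ * β X (co (P₂ z)) ∈ F₀ := fun z => by
    have h1 := point_step hrat hB hM hn hS he0 he hw hwX hT hwe hXe hz₀ (hP₂ z).1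
    rwa [(hP₂ z).2, mul_zero, sub_zero] at h1
  let L2 : (ι → F₀) →ₗ[F₀] F₀ :=
    { toFun := fun z => ⟨W₀ * β X (co (P₂ z)), R2 z⟩
      map_add' := fun u v => Subtype.ext (by simp only [map_add, co_add, mul_add]; rfl)
      map_smul' := fun a v => Subtype.ext (by
        show W₀ * β X (co (P₂ (a • v))) = (a : F) * (W₀ * β X (co (P₂ v)))
        rw [map_smul, co_smul, map_smul, smul_eq_mul]
        ring) }
  obtain ⟨rw₁, hrw⟩ := Witt.exists_polar hB₀ L1
  obtain ⟨rd, hrd⟩ := Witt.exists_polar hB₀ L2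
  obtain ⟨v, hv⟩ := exists_outside hrat hB hn ![e, rw₁, rd] (by omega)
  obtain ⟨e₂, he₂, he₂r, -, he₂s⟩ :=
    SingularVectors.exists_sing_avoid (Q₀ hrat) hB₀ ![e, rw₁, rd] (by omega) hv ![e, rw₁] (by omega)
  have he₂0 : e₂ ≠ 0 := fun h0 => he₂s (h0 ▸ zero_mem _)
  have qe₂ := (Q₀_zero_iff hrat e₂).1 he₂
  have hee₂ : β (co e) (co e₂) = 0 := by rw [Witt.polar_symm']; exact (polar_zero_iff hrat _ _).1 (he₂r 0)
  have hPe₂ : P e₂ = e₂ := by
    show e₂ - QuadraticMap.polarBilin (Q₀ hrat) e₂ e • y₀ = e₂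
    rw [show QuadraticMap.polarBilin (Q₀ hrat) e₂ e = 0 from he₂r 0, zero_smul, sub_zero]
  have hL1 : L1 e₂ = 0 := by rw [← hrw, Witt.polar_symm']; exact he₂r 1
  have hL2 : L2 e₂ = 0 := by rw [← hrd, Witt.polar_symm']; exact he₂r 2
  have hwe₂ : β w (co e₂) = 0 := by
    have h1 : W₀⁻¹ * β w (co (P e₂)) = 0 := congrArg Subtype.val hL1
    rw [hPe₂] at h1
    exact (mul_eq_zero.1 h1).resolve_left (inv_ne_zero hW₀)
  have hP₂e₂ : P₂ e₂ = e₂ := by
    show P e₂ - L1 e₂ • z₀ = e₂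
    rw [hPe₂, hL1, zero_smul, sub_zero]
  have hXe₂ : β X (co e₂) = 0 := by
    have h1 : W₀ * β X (co (P₂ e₂)) = 0 := congrArg Subtype.val hL2
    rw [hP₂e₂] at h1
    exact (mul_eq_zero.1 h1).resolve_left hW₀
  obtain ⟨z₁, hz₁e, hz₁e₂, hz₁⟩ : ∃ z₁ : ι → F₀, β (co e) (co z₁) = 0 ∧ β (co e₂) (co z₁) = 0 ∧
      β w (co z₁) ≠ 0 := by
    by_contra! hall
    have hin : rw₁ ∈ Submodule.span F₀ (Set.range ![e, e₂]) := by
      rw [← LinearMap.BilinForm.orthogonal_orthogonal hB₀ (SingularVectors.refl' _)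
        (Submodule.span F₀ (Set.range ![e, e₂])), LinearMap.BilinForm.mem_orthogonal_iff]
      intro z hz
      have h0 := LinearMap.BilinForm.mem_orthogonal_iff.1 hz e (Submodule.subset_span ⟨0, rfl⟩)
      have h1 := LinearMap.BilinForm.mem_orthogonal_iff.1 hz e₂ (Submodule.subset_span ⟨1, rfl⟩)
      have e0 : P z = z := by
        show z - QuadraticMap.polarBilin (Q₀ hrat) z e • y₀ = z
        rw [Witt.polar_symm', show QuadraticMap.polarBilin (Q₀ hrat) e z = 0 from h0, zero_smul, sub_zero]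
      show QuadraticMap.polarBilin (Q₀ hrat) z rw₁ = 0
      rw [Witt.polar_symm', hrw]
      refine Subtype.ext ?_
      show W₀⁻¹ * β w (co (P z)) = 0
      rw [e0, hall z ((polar_zero_iff hrat e z).1 h0) ((polar_zero_iff hrat e₂ z).1 h1), mul_zero]
    obtain ⟨c, hc⟩ := (Submodule.mem_span_range_iff_exists_fun F₀).1 hin
    simp only [Fin.sum_univ_two, Matrix.cons_val_zero, Matrix.cons_val_one] at hc
    by_cases hc1 : c 1 = 0
    · have h1 : L1 z₀ = 0 := by
        rw [← hrw, ← hc, hc1, zero_smul, add_zero, map_smul, LinearMap.smul_apply,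
          (polar_zero_iff hrat e z₀).2 hz₀, smul_zero]
      have h2 : W₀⁻¹ * β w (co (P z₀)) = 0 := congrArg Subtype.val h1
      have e0 : P z₀ = z₀ := by
        show z₀ - QuadraticMap.polarBilin (Q₀ hrat) z₀ e • y₀ = z₀
        rw [Witt.polar_symm', (polar_zero_iff hrat e z₀).2 hz₀, zero_smul, sub_zero]
      rw [e0] at h2
      exact mul_ne_zero (inv_ne_zero hW₀) hW₀ h2
    · refine he₂s ((Submodule.mem_span_range_iff_exists_fun F₀).2
        ⟨![-((c 1)⁻¹ * c 0), (c 1)⁻¹], ?_⟩)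
      simp only [Fin.sum_univ_two, Matrix.cons_val_zero, Matrix.cons_val_one]
      rw [← inv_smul_smul₀ hc1 e₂, show c 1 • e₂ = rw₁ - c 0 • e by
        linear_combination (norm := module) hc]
      module
  have R3 : ∀ z, β (co e₂) (co z) = 0 → W₀⁻¹ * β w (co z) ∈ F₀ := fun z hz => by
    have h1 := F₀.mul_mem (R1 z₁ hz₁e) (ratio e₂ he₂0 qe₂ hwe₂ hXe₂ z₁ z hz₁e₂ hz₁ hz)
    rwa [mul_assoc, mul_inv_cancel_left₀ hz₁] at h1
  refine ⟨W₀⁻¹, inv_ne_zero hW₀, fun z => ?_⟩
  obtain ⟨y₁, hy₁⟩ := exists_values hrat hB (r := ![e, e₂]) (li_pair he0 (fun hc => he₂s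
    (Submodule.span_mono (by rintro _ rfl; exact ⟨0, rfl⟩) hc))) ![1, 0]
  have hy₁e : β (co y₁) (co e) = 1 := hy₁ 0
  have hy₁e₂ : β (co y₁) (co e₂) = 0 := hy₁ 1
  have h1 := R1 (z - (⟨_, rat_polar hrat z e⟩ : F₀) • y₁) (by
    rw [co_sub, co_smul, map_sub, map_smul, Witt.polar_symm' Q (co e) (co y₁), hy₁e, smul_eq_mul,
      mul_one, Witt.polar_symm']
    exact sub_self _)
  have h2 := R3 y₁ (by rw [Witt.polar_symm', hy₁e₂])
  have h3 := F₀.add_mem h1 (F₀.mul_mem (rat_polar hrat z e) h2)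
  rw [co_sub, co_smul, map_sub, map_smul, smul_eq_mul] at h3
  convert h3 using 1
  ring

end Cfsg.Lib.Classical.OrthSub
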