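import Mathlib
import Cfsg.Agent.Lib.Classical.OrthSubfieldPoint

/-!
An element carrying a rational isometry to a rational one, the latter moving a rational singular vector,
is rational up to a scalar.
-/

set_option autoImplicit false

namespace Cfsg.Lib.Classical.OrthSub

open Module SiegelElements Matrix
open scoped MatrixGroups

variable {ι : Type} [Fintype ι] [DecidableEq ι] {F : Type*} [Field F] [Finite F] {F₀ : Subfield F}
  {Q : QuadraticForm F (ι → F)} (hrat : ∀ v : ι → F₀, Q (co v) ∈ F₀)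
  (hB : (QuadraticMap.polarBilin Q).Nondegenerate) {M : Subgroup (Witt.quadIso Q)}

variable (hM : ∀ g : Witt.quadIso Q, g ∈ commutator (Witt.quadIso Q) →
    (∀ v : ι → F₀, ∃ w : ι → F₀, g.1 (co v) = co w) → g ∈ M)
  (hn : 13 ≤ Fintype.card ι) (hS : ∀ c, Root M F₀ c → c ∈ F₀)

local notation "β" => QuadraticMap.polarBilin Q

include hrat hB hM hn hS

/-- The main intertwining lemma. -/
theorem scalRat_good {Z y : Witt.quadIso Q} (hy : y ∈ M)
    (hfix : ∃ v u : ι → F₀, v ≠ 0 ∧ Q (co v) = 0 ∧ β (co v) (co u) = 0 ∧ Q (co u) ≠ 0 ∧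
      Z.1 (co v) = co v ∧ Z.1 (co u) = co u)
    (himg : ∃ e p : ι → F₀, e ≠ 0 ∧ Q (co e) = 0 ∧ co e = (y * Z * y⁻¹).1 (co p) - co p) :
    ScalRat F₀ (tgl Q y : Matrix ι ι F) := by
  classical
  have hB₀ := nondeg₀ hrat hB
  have hn₀ := finrank₀ (ι := ι) (F₀ := F₀)
  obtain ⟨v₀, u₀, hv₀0, hv₀, hvu, hu₀, Zv, Zu⟩ := hfix
  obtain ⟨e, p, he0, he, hep⟩ := himg
  have horth : ∀ x, Z.1 x = x → β (y.1 x) (co e) = 0 := fun x hx => by
    have hfx : (y * Z * y⁻¹).1 (y.1 x) = y.1 x := by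
      show y.1 (Z.1 (y.1.symm (y.1 x))) = y.1 x
      rw [LinearEquiv.symm_apply_apply, hx]
    rw [hep, map_sub]
    nth_rw 1 [← hfx]
    rw [Reflections.polar_apply, sub_self]
  have conjT : ∀ v u : ι → F₀, Q (co v) = 0 → β (co v) (co u) = 0 →
      β (y.1 (co v)) (y.1 (co u)) = 0 ∧ siegel Q (y.1 (co v)) (y.1 (co u)) ∈ M := by
    intro v u hv hvu
    refine ⟨by rw [Reflections.polar_apply, hvu], ?_⟩
    rw [← siegel_conj Q y hv hvu]
    exact M.mul_mem (M.mul_mem hy (siegel_mem hrat hB hM hn hv hvu)) (M.inv_mem hy)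
  have hne : ∀ {v : ι → F₀}, v ≠ 0 → y.1 (co v) ≠ 0 := fun hv h =>
    co_ne_zero hv (y.1.injective (by rw [h, map_zero]))
  obtain ⟨h00, hT0⟩ := conjT v₀ u₀ hv₀ hvu
  obtain ⟨ρ₀, hρ₀, r₀, hr₀⟩ := exists_rat_of_point hrat hB hM hn hS he0 he (hne hv₀0)
    (by rw [y.2, hv₀]) h00 hT0 (horth _ Zv) (horth _ Zu) (by rw [y.2]; exact hrat u₀) (by rw [y.2]; exact hu₀)
  have chain : ∀ {a x : ι → F₀} {ρ : F} {r : ι → F₀}, a ≠ 0 → Q (co a) = 0 → x ≠ 0 → Q (co x) = 0 →
      β (co x) (co a) = 0 → ρ ≠ 0 → co r = ρ • y.1 (co a) →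
      ∃ ρ' : F, ρ' ≠ 0 ∧ ∃ r' : ι → F₀, co r' = ρ' • y.1 (co x) := by
    intro a x ρ r ha qa hx qx hxa hρ hr
    obtain ⟨u, huU, hu⟩ := exists_aniso₀ hrat hB hn
      (U := LinearMap.BilinForm.orthogonal (QuadraticMap.polarBilin (Q₀ hrat))
        (Submodule.span F₀ (Set.range ![a, x]))) (by
      rw [LinearMap.BilinForm.finrank_orthogonal hB₀, hn₀]
      have h3 := finrank_range_le_card (R := F₀) ![a, x]
      rw [Set.finrank] at h3
      simp only [Fintype.card_fin] at h3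
      omega)
    have hau : β (co a) (co u) = 0 := (polar_zero_iff hrat a u).1
      (LinearMap.BilinForm.mem_orthogonal_iff.1 huU a (Submodule.subset_span ⟨0, rfl⟩))
    have hxu : β (co x) (co u) = 0 := (polar_zero_iff hrat x u).1
      (LinearMap.BilinForm.mem_orthogonal_iff.1 huU x (Submodule.subset_span ⟨1, rfl⟩))
    obtain ⟨h1, hT⟩ := conjT x u qx hxu
    refine exists_rat_of_point hrat hB hM hn hS (e := r)
      (fun e' => smul_ne_zero hρ (hne ha) (by rw [← hr, e', co_zero]))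
      (by rw [hr, Witt.quad_smul, y.2, qa, mul_zero]) (hne hx) (by rw [y.2, qx]) h1 hT ?_ ?_
      (by rw [y.2]; exact hrat u) (by rw [y.2]; exact hu)
    · rw [hr, map_smul, Reflections.polar_apply, hxa, smul_zero]
    · rw [hr, map_smul, Reflections.polar_apply, Witt.polar_symm' Q (co u) (co a), hau, smul_zero]
  have line : ∀ x : ι → F₀, Q (co x) = 0 → x ≠ 0 →
      ∃ ρ : F, ρ ≠ 0 ∧ ∃ r : ι → F₀, co r = ρ • y.1 (co x) := by
    intro x hx hx0
    obtain ⟨m, hmU, hm0, hm⟩ := SingularVectors.exists_zero (Q₀ hrat)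
      (LinearMap.BilinForm.orthogonal (QuadraticMap.polarBilin (Q₀ hrat))
        (Submodule.span F₀ (Set.range ![v₀, x]))) (by
      rw [LinearMap.BilinForm.finrank_orthogonal hB₀, hn₀]
      have h3 := finrank_range_le_card (R := F₀) ![v₀, x]
      rw [Set.finrank] at h3
      simp only [Fintype.card_fin] at h3
      omega)
    have h1 : β (co m) (co v₀) = 0 := by
      rw [Witt.polar_symm']
      exact (polar_zero_iff hrat v₀ m).1
        (LinearMap.BilinForm.mem_orthogonal_iff.1 hmU v₀ (Submodule.subset_span ⟨0, rfl⟩))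
    have h2 : β (co x) (co m) = 0 := (polar_zero_iff hrat x m).1
      (LinearMap.BilinForm.mem_orthogonal_iff.1 hmU x (Submodule.subset_span ⟨1, rfl⟩))
    have qm := (Q₀_zero_iff hrat m).1 hm
    obtain ⟨ρ, hρ, r₁, hr₁⟩ := chain hv₀0 hv₀ hm0 qm h1 hρ₀ hr₀
    exact chain hm0 qm hx0 hx h2 hρ hr₁
  -- one scalar
  have same : ∀ {a b : ι → F₀}, a ≠ 0 → b ∉ Submodule.span F₀ {a} → Q (co a) = 0 → Q (co b) = 0 →
      β (co a) (co b) = 0 → ∀ {s : F}, s ≠ 0 → (∃ r : ι → F₀, co r = s • y.1 (co a)) →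
      ∃ r : ι → F₀, co r = s • y.1 (co b) := by
    intro a b ha hb qa qb hab s hs ⟨r₁, hr₁⟩
    have hb0 : b ≠ 0 := fun h => hb (h ▸ zero_mem _)
    have hab0 : a + b ≠ 0 := fun h => hb (Submodule.mem_span_singleton.2 ⟨-1, by
      rw [neg_smul, one_smul]; exact neg_eq_of_add_eq_zero_right h⟩)
    obtain ⟨ρ, hρ, r₂, hr₂⟩ := line b qb hb0
    obtain ⟨τ, hτ, r₃, hr₃⟩ := line (a + b) (by rw [co_add, Witt.quad_add, qa, qb, hab]; ring) hab0
    have hne1 : r₁ ≠ 0 := fun e' => smul_ne_zero hs (hne ha) (by rw [← hr₁, e', co_zero])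
    have hind : r₂ ∉ Submodule.span F₀ {r₁} := by
      intro hc
      obtain ⟨t, ht⟩ := Submodule.mem_span_singleton.1 hc
      have h3 : y.1 (ρ • co b) = y.1 (((t : F) * s) • co a) := by
        rw [map_smul, map_smul, ← hr₂, ← ht, co_smul, hr₁, smul_smul]
      have h4 := y.1.injective h3
      obtain ⟨k, hk⟩ := Function.ne_iff.1 ha
      have hq' : (t : F) * s / ρ ∈ F₀ := by
        have h5 := congrFun h4 k
        simp only [Pi.smul_apply, co, smul_eq_mul] at h5
        have hak : (a k : F) ≠ 0 := fun e => hk (Subtype.ext e)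
        rw [show (t : F) * s / ρ = (b k : F) / a k by
          field_simp
          linear_combination -h5]
        exact F₀.div_mem (b k).2 (a k).2
      refine hb (Submodule.mem_span_singleton.2 ⟨⟨_, hq'⟩, co_injective ?_⟩)
      rw [co_smul]
      funext i
      have h5 := congrFun h4 i
      simp only [Pi.smul_apply, co, smul_eq_mul] at h5 ⊢
      field_simp
      linear_combination -h5
    have hy1 : y.1 (co a) = s⁻¹ • co r₁ := by rw [hr₁, smul_smul, inv_mul_cancel₀ hs, one_smul]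
    have hy2 : y.1 (co b) = ρ⁻¹ • co r₂ := by rw [hr₂, smul_smul, inv_mul_cancel₀ hρ, one_smul]
    obtain ⟨z, hz⟩ := exists_values hrat hB (li_pair hne1 hind) ![1, 0]
    obtain ⟨z', hz'⟩ := exists_values hrat hB (li_pair hne1 hind) ![0, 1]
    have hz1 : β (co z) (co r₁) = 1 := hz 0
    have hz2 : β (co z) (co r₂) = 0 := hz 1
    have hz1' : β (co z') (co r₁) = 0 := hz' 0
    have hz2' : β (co z') (co r₂) = 1 := hz' 1
    rw [co_add, map_add, hy1, hy2] at hr₃
    have hc1 : τ * s⁻¹ ∈ F₀ := by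
      have h3 := rat_polar hrat z r₃
      rw [hr₃] at h3
      simpa [-QuadraticMap.polarBilin_apply_apply, hz1, hz2] using h3
    have hc2 : τ * ρ⁻¹ ∈ F₀ := by
      have h3 := rat_polar hrat z' r₃
      rw [hr₃] at h3
      simpa [-QuadraticMap.polarBilin_apply_apply, hz1', hz2'] using h3
    have hsρ : s * ρ⁻¹ ∈ F₀ := by
      have h3 := F₀.div_mem hc2 hc1
      rwa [mul_div_mul_left _ _ hτ, div_inv_eq_mul, mul_comm] at h3
    exact ⟨(⟨_, hsρ⟩ : F₀) • r₂, by rw [co_smul, hy2, smul_smul]⟩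
  obtain ⟨s, hs, hs₀⟩ := line v₀ hv₀ hv₀0
  have allIso : ∀ x : ι → F₀, Q (co x) = 0 → ∃ r : ι → F₀, co r = s • y.1 (co x) := by
    intro x hx
    by_cases hxv : x ∈ Submodule.span F₀ {v₀}
    · obtain ⟨t, rfl⟩ := Submodule.mem_span_singleton.1 hxv
      obtain ⟨r, hr⟩ := hs₀
      exact ⟨t • r, by rw [co_smul, co_smul, hr, map_smul, smul_comm]⟩
    obtain ⟨hx0, -⟩ := not_mem_span_symm hv₀0 hxv
    obtain ⟨w, hw⟩ := exists_outside hrat hB hn ![v₀, x] (by omega)
    obtain ⟨m, hm, hmr, -, hms⟩ :=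
      SingularVectors.exists_sing_avoid (Q₀ hrat) hB₀ ![v₀, x] (by omega) hw ![v₀, x] (by omega)
    have hmv : m ∉ Submodule.span F₀ {v₀} := fun hc => hms
      (Submodule.span_mono (by rintro _ rfl; exact ⟨0, rfl⟩) hc)
    have hmx : m ∉ Submodule.span F₀ {x} := fun hc => hms
      (Submodule.span_mono (by rintro _ rfl; exact ⟨1, rfl⟩) hc)
    obtain ⟨hm0, hxm⟩ := not_mem_span_symm hx0 hmx
    have qm := (Q₀_zero_iff hrat m).1 hm
    exact same hm0 hxm qm hx ((polar_zero_iff hrat _ _).1 (hmr 1)) hs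
      (same hv₀0 hmv hv₀ qm (by rw [Witt.polar_symm']; exact (polar_zero_iff hrat _ _).1 (hmr 0)) hs hs₀)
  have allRat : ∀ x : ι → F₀, ∃ r : ι → F₀, co r = s • y.1 (co x) := by
    intro x
    have hx : x ∈ Submodule.span F₀ {x | x ∈ (⊤ : Submodule F₀ (ι → F₀)) ∧ Q₀ hrat x = 0} := by
      rw [SingularVectors.span_singular (Q₀ hrat) (U := ⊤) (by
        have h1 := LinearMap.BilinForm.finrank_orthogonal hB₀ (W := ⊤)
        have h2 := Submodule.finrank_mono (inf_le_right : (⊤ : Submodule F₀ (ι → F₀)) ⊓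
          LinearMap.BilinForm.orthogonal (QuadraticMap.polarBilin (Q₀ hrat)) ⊤ ≤ _)
        rw [finrank_top] at h1 ⊢
        omega)]
      trivial
    induction hx using Submodule.span_induction with
    | mem a ha => exact allIso a ((Q₀_zero_iff hrat a).1 ha.2)
    | zero => exact ⟨0, by simp⟩
    | add a b _ _ ha hb =>
      obtain ⟨r, hr⟩ := ha
      obtain ⟨r', hr'⟩ := hb
      exact ⟨r + r', by rw [co_add, co_add, map_add, smul_add, hr, hr']⟩
    | smul t a _ ha =>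
      obtain ⟨r, hr⟩ := ha
      exact ⟨t • r, by rw [co_smul, co_smul, hr, map_smul, smul_comm]⟩
  refine ⟨s, hs, fun i j => ?_⟩
  obtain ⟨r, hr⟩ := allRat (Pi.single j 1)
  have h1 := congrFun hr i
  rw [Pi.smul_apply, ← tgl_mulVec, co_single, OneMemClass.coe_one, mulVec_single_one] at h1
  rw [Matrix.smul_apply, show s • (tgl Q y : Matrix ι ι F) i j = co r i from h1.symm]
  exact (r i).2

end Cfsg.Lib.Classical.OrthSub
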