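import Mathlib
import Cfsg.Agent.Lib.Classical.OrthSubfieldGood
import Cfsg.Agent.Lib.Classical.Spinor

/-!
Rational involutions of a rational quadratic space: frames of the moved plane, unit families, parity.
-/

set_option autoImplicit false

namespace Cfsg.Lib.Classical.OrthSub

open Module SiegelElements Matrix
open Reflections (movSp fixSp rk refl mem_movSp mem_fixSp)
open scoped MatrixGroups commutatorElement

variable {ι : Type} [Fintype ι] [DecidableEq ι] {F : Type*} [Field F] [Finite F] {F₀ : Subfield F}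
  {Q : QuadraticForm F (ι → F)}

local notation "β" => QuadraticMap.polarBilin Q

/-- An orthogonal anisotropic family. -/
def AO (Q : QuadraticForm F (ι → F)) {k : ℕ} (r : Fin k → ι → F₀) : Prop :=
  (∀ i, Q (co (r i)) ≠ 0) ∧ ∀ i j, i ≠ j → QuadraticMap.polarBilin Q (co (r i)) (co (r j)) = 0

omit [DecidableEq ι] [Finite F] in
lemma rk_refl_le (v : ι → F) : rk Q (refl Q v) ≤ 1 := by
  have hle : movSp Q (refl Q v) ≤ Submodule.span F {v} := by
    rintro _ ⟨x, rfl⟩
    refine Submodule.mem_span_singleton.2 ⟨-((Q v)⁻¹ * β v x), ?_⟩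
    show _ = (refl Q v).1 x - x
    rw [Reflections.refl_apply, neg_smul]
    abel
  refine (Submodule.finrank_mono hle).trans ?_
  have := finrank_span_le_card (R := F) ({v} : Set (ι → F))
  simpa using this

omit [DecidableEq ι] [Finite F] in
lemma refl_comm {a b : ι → F} (h : β a b = 0) : Commute (refl Q a) (refl Q b) := by
  have := Reflections.conj_refl Q (refl Q a) b
  rw [Reflections.refl_fix Q h] at this
  exact mul_inv_eq_iff_eq_mul.1 this

omit [DecidableEq ι] [Finite F] in
lemma finite_iso [Finite F] : Finite (Witt.quadIso Q) :=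
  Finite.of_injective (fun g => (g.1 : (ι → F) → (ι → F))) fun _ _ h =>
    Subtype.ext (LinearEquiv.ext fun x => congrFun h x)

omit [DecidableEq ι] [Finite F] in
/-- Three orthogonal nonsingular negated vectors. -/
lemma three_le_rk (h2 : (2 : F) ≠ 0) {g : Witt.quadIso Q} {v : Fin 3 → ι → F}
    (hne : ∀ i, Q (v i) ≠ 0) (horth : ∀ i j, i ≠ j → β (v i) (v j) = 0)
    (hg : ∀ i, g.1 (v i) = -v i) : 3 ≤ rk Q g := by
  classical
  have hli : LinearIndependent F v := by
    rw [Fintype.linearIndependent_iff]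
    intro a ha j
    have h1 := congrArg (fun x => β x (v j)) ha
    simp only [map_sum, map_smul, LinearMap.sum_apply, LinearMap.smul_apply, map_zero,
      LinearMap.zero_apply, smul_eq_mul] at h1
    rw [Finset.sum_eq_single j (fun i _ hi => by rw [horth i j hi, mul_zero]) (by simp),
      Witt.polar_self'] at h1
    exact (mul_eq_zero.1 h1).resolve_right (mul_ne_zero h2 (hne j))
  have hle : Submodule.span F (Set.range v) ≤ movSp Q g := by
    rw [Submodule.span_le]
    rintro _ ⟨i, rfl⟩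
    refine ⟨(-(2 : F)⁻¹) • v i, ?_⟩
    show g.1 ((-(2 : F)⁻¹) • v i) - (-(2 : F)⁻¹) • v i = v i
    rw [map_smul, hg]
    match_scalars
    field_simp
    norm_num
  have := Submodule.finrank_mono hle
  rwa [finrank_span_eq_card hli, Fintype.card_fin] at this

variable (hrat : ∀ v : ι → F₀, Q (co v) ∈ F₀) (hB : (QuadraticMap.polarBilin Q).Nondegenerate)
  (hn : 13 ≤ Fintype.card ι)
include hB hn

lemma even_rk {g : Witt.quadIso Q} (hg : g ∈ commutator (Witt.quadIso Q)) : Even (rk Q g) := by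
  have hex : (∃ c : F, c ≠ 0 ∧ c ≠ 1) ∨ finrank F (ι → F) ≠ 4 :=
    Or.inr (by rw [Module.finrank_fintype_fun_eq_card]; omega)
  have h : (-1 : ℤˣ) ^ rk Q g = 1 :=
    MonoidHom.mem_ker.1 (Abelianization.commutator_subset_ker (Spinor.delta hB hex) hg)
  exact (neg_one_pow_eq_one_iff_even (by decide)).1 h

lemma two_le_rk {g : Witt.quadIso Q} (hg : g ∈ commutator (Witt.quadIso Q)) (h1 : g ≠ 1) :
    2 ≤ rk Q g := by
  obtain ⟨k, hk⟩ := even_rk hB hn hg
  have : rk Q g ≠ 0 := fun h => h1 (Reflections.rk_eq_zero h)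
  omega

omit [DecidableEq ι] in
omit hn in
lemma refl_pair_mem {a b : ι → F} (ha : Q a ≠ 0) (h : Q a = Q b) :
    refl Q a * refl Q b ∈ commutator (Witt.quadIso Q) := by
  obtain ⟨g, hg⟩ := Spinor.conj_of_class hB ha (h ▸ ha : Q b ≠ 0) (by rw [h])
  rw [← hg, ← mul_assoc, ← mul_assoc]
  nth_rw 2 [← Reflections.refl_inv Q a]
  rw [commutator_def]
  have := Subgroup.commutator_mem_commutator (H₁ := (⊤ : Subgroup (Witt.quadIso Q))) (H₂ := ⊤)
    (Subgroup.mem_top (refl Q a)) (Subgroup.mem_top g)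
  rwa [commutatorElement_def] at this

include hrat

lemma exists_next (h2 : (2 : F) ≠ 0) {k : ℕ} {r : Fin k → ι → F₀} (hk : k ≤ 5) (hr : AO Q r) :
    ∃ a : ι → F₀, Q (co a) = 1 ∧ (∀ i, β (co (r i)) (co a) = 0) ∧ AO Q (Fin.cons a r : Fin (k + 1) → ι → F₀) := by
  obtain ⟨a, ha, hra⟩ := exists_one hrat hB hn r hk (no_radical hrat hB h2 r hr.1 hr.2)
  refine ⟨a, ha, hra, fun i => ?_, fun i j hij => ?_⟩
  · refine Fin.cases ?_ ?_ i
    · simp [ha]
    · intro i; simpa using hr.1 i
  · induction i using Fin.cases <;> induction j using Fin.cases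
    · exact absurd rfl hij
    · rename_i j; simpa [Witt.polar_symm' Q (co a)] using hra j
    · rename_i i; simpa using hra i
    · rename_i i j; simpa using hr.2 i j (fun h => hij (h ▸ rfl))

omit hn in
/-- The moved plane of a rational involution of rank two. -/
lemma exists_frame (h2 : (2 : F) ≠ 0) {Z : Witt.quadIso Q} (hZ : RatIso F₀ Z) (hZZ : Z * Z = 1)
    (hk : rk Q Z = 2) :
    ∃ r : Fin 2 → ι → F₀, AO Q r ∧ (∀ i, Z.1 (co (r i)) = -co (r i)) ∧
      (∀ a : ι → F₀, (∀ i, β (co (r i)) (co a) = 0) → Z.1 (co a) = co a) ∧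
      ∀ g : Witt.quadIso Q, (∀ i, g.1 (co (r i)) = co (r i)) → ∀ x, g.1 (Z.1 x - x) = Z.1 x - x := by
  classical
  set R := LinearMap.range (lin₀ hZ) with hR
  have hRd : finrank F₀ R = 2 := by rw [hR, finrank_range_lin₀ hrat hB hZ, hk]
  have hneg : ∀ w ∈ R, Z.1 (co w) = -co w := by
    rintro _ ⟨p, rfl⟩
    have e2 : Z.1 (Z.1 (co p)) = co p := congrArg (fun t : Witt.quadIso Q => t.1 (co p)) hZZ
    rw [co_lin₀, map_sub, e2, neg_sub]
  -- a vector of the plane orthogonal to the plane vanishes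
  have hzero : ∀ w ∈ R, (∀ u ∈ R, β (co w) (co u) = 0) → w = 0 := by
    intro w hw hwR
    refine co_injective ((eq_zero_of_orth (F₀ := F₀) hB fun x => ?_).trans co_zero.symm)
    have h1 := Reflections.polar_apply Q Z (co w) (co x)
    have h3 := hwR _ ⟨x, rfl⟩
    rw [hneg w hw, map_neg, LinearMap.neg_apply] at h1
    rw [co_lin₀, map_sub, sub_eq_zero] at h3
    rw [h3] at h1
    exact (mul_eq_zero.1 (show (2 : F) * β (co w) (co x) = 0 by linear_combination -h1)).resolve_left h2
  obtain ⟨w₁, hw₁, q₁⟩ : ∃ w ∈ R, Q (co w) ≠ 0 := by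
    by_contra! hall
    have : R = ⊥ := (Submodule.eq_bot_iff _).2 fun w hw => hzero w hw fun u hu => by
      have := hall _ (R.add_mem hw hu)
      rw [co_add, Witt.quad_add, hall w hw, hall u hu] at this
      simpa using this
    rw [this, finrank_bot] at hRd
    omega
  obtain ⟨x, hxR, hxw⟩ := SetLike.not_le_iff_exists.1
    (show ¬ R ≤ Submodule.span F₀ {w₁} from fun h => by
      have := Submodule.finrank_mono h
      have h1 := finrank_span_le_card (R := F₀) ({w₁} : Set (ι → F₀))
      simp at h1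
      omega)
  set c : F₀ := ⟨_, F₀.div_mem (rat_polar hrat w₁ x) (rat_polar hrat w₁ w₁)⟩
  set w₂ := x - c • w₁ with hw₂
  have hw₂R : w₂ ∈ R := R.sub_mem hxR (R.smul_mem _ hw₁)
  have h12 : β (co w₁) (co w₂) = 0 := by
    rw [hw₂, co_sub, co_smul, map_sub, map_smul, smul_eq_mul]
    show _ - β (co w₁) (co x) / β (co w₁) (co w₁) * _ = 0
    rw [div_mul_cancel₀ _ (by rw [Witt.polar_self']; exact mul_ne_zero h2 q₁), sub_self]
  have hw₂w : w₂ ∉ Submodule.span F₀ {w₁} := fun h => hxw (by
    have := Submodule.add_mem _ h (Submodule.smul_mem _ c (Submodule.mem_span_singleton_self w₁))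
    rwa [hw₂, sub_add_cancel] at this)
  have hspan : R = Submodule.span F₀ (Set.range ![w₁, w₂]) := by
    refine (Submodule.eq_of_le_of_finrank_le (Submodule.span_le.2 ?_) ?_).symm
    · rintro _ ⟨i, rfl⟩
      fin_cases i
      · exact hw₁
      · exact hw₂R
    · have hw₁0 : w₁ ≠ 0 := fun h => q₁ (by rw [h, co_zero, QuadraticMap.map_zero])
      rw [hRd, finrank_span_eq_card (li_pair hw₁0 hw₂w), Fintype.card_fin]
  have horthR : ∀ a : ι → F₀, β (co w₁) (co a) = 0 → β (co w₂) (co a) = 0 →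
      ∀ w ∈ R, β (co w) (co a) = 0 := by
    intro a h1 h3 w hw
    rw [hspan] at hw
    obtain ⟨d, rfl⟩ := (Submodule.mem_span_range_iff_exists_fun F₀).1 hw
    simp [Fin.sum_univ_two, -QuadraticMap.polarBilin_apply_apply, h1, h3]
  have q₂ : Q (co w₂) ≠ 0 := by
    intro hq
    refine hw₂w ?_
    have : w₂ = 0 := hzero w₂ hw₂R fun u hu => by
      rw [Witt.polar_symm']
      exact horthR w₂ h12 (by rw [Witt.polar_self', hq, mul_zero]) u hu
    rw [this]
    exact zero_mem _
  refine ⟨![w₁, w₂], ⟨?_, ?_⟩, ?_, fun a ha => ?_, fun g hg x => ?_⟩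
  · intro i; fin_cases i
    · exact q₁
    · exact q₂
  · intro i j hij
    fin_cases i <;> fin_cases j
    · exact absurd rfl hij
    · exact h12
    · show β (co w₂) (co w₁) = 0
      rw [Witt.polar_symm']; exact h12
    · exact absurd rfl hij
  · intro i; fin_cases i
    · exact hneg _ hw₁
    · exact hneg _ hw₂R
  · exact fixed_of_orth hrat hB hZ (horthR a (ha 0) (ha 1))
  · have hx := movSp_le hZ (mem_movSp.2 ⟨x, rfl⟩)
    generalize Z.1 x - x = y at hx
    induction hx using Submodule.span_induction with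
    | mem y hy =>
      obtain ⟨w, hw, rfl⟩ := hy
      rw [SetLike.mem_coe, ← hR, hspan] at hw
      obtain ⟨d, rfl⟩ := (Submodule.mem_span_range_iff_exists_fun F₀).1 hw
      have h0 : g.1 (co w₁) = co w₁ := hg 0
      have h1 : g.1 (co w₂) = co w₂ := hg 1
      simp [Fin.sum_univ_two, h0, h1]
    | zero => rw [map_zero]
    | add y z _ _ hy hz => rw [map_add, hy, hz]
    | smul t y _ hy => rw [map_smul, hy]

end Cfsg.Lib.Classical.OrthSub
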