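import Mathlib
import Cfsg.Agent.Lib.Classical.OrthSubfieldFrame

/-!
An element of `M` carrying a rational involution of small rank to a rational one is rational up to a
scalar.
-/

set_option autoImplicit false

namespace Cfsg.Lib.Classical.OrthSub

open Module SiegelElements Matrix
open Reflections (movSp fixSp rk refl mem_movSp mem_fixSp)
open scoped MatrixGroups

variable {ι : Type} [Fintype ι] [DecidableEq ι] {F : Type*} [Field F] [Finite F] {F₀ : Subfield F}
  {Q : QuadraticForm F (ι → F)} (hrat : ∀ v : ι → F₀, Q (co v) ∈ F₀)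
  (hB : (QuadraticMap.polarBilin Q).Nondegenerate) {M : Subgroup (Witt.quadIso Q)}

variable (hM : ∀ g : Witt.quadIso Q, g ∈ commutator (Witt.quadIso Q) →
    (∀ v : ι → F₀, ∃ w : ι → F₀, g.1 (co v) = co w) → g ∈ M)
  (hn : 13 ≤ Fintype.card ι) (hS : ∀ c, Root M F₀ c → c ∈ F₀)

local notation "β" => QuadraticMap.polarBilin Q

omit [Finite F] in
lemma RatIso.of_mul_left {g h : Witt.quadIso Q} (hg : RatIso F₀ (g * h)) (hh : RatIso F₀ h)
    (hhh : h * h = 1) : RatIso F₀ g := by
  have := hg.mul hh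
  rwa [mul_assoc, hhh, mul_one] at this

/-- A conjugate of a rational involution of small rank which is rational up to a scalar is rational. -/
lemma ratIso_of_scal {W S y : Witt.quadIso Q} (hS : RatIso F₀ S) {k : ℕ} (hk : rk Q S ≤ k)
    (hk2 : 2 * k < Fintype.card ι) (hW : y * S * y⁻¹ = W) (hWW : W * W = 1)
    (hs : ScalRat F₀ (tgl Q W : Matrix ι ι F)) : RatIso F₀ W := by
  refine ratMat_of_scalRat hS (by rwa [← rk_eq_rank]) hk2 (y := tgl Q y) ?_ ?_ hs
  · rw [← map_inv, ← Units.val_mul, ← Units.val_mul, ← map_mul, ← map_mul, hW]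
  · rw [← Units.val_mul, ← map_mul, hWW, map_one, Units.val_one]

include hrat hB hM hn hS

/-- The intertwining lemma, when the moved rational space has a singular vector. -/
lemma hint_good {Z y : Witt.quadIso Q} (hy : y ∈ M) (hZ : RatIso F₀ Z)
    (hZ' : RatIso F₀ (y * Z * y⁻¹))
    (hr : 2 * rk Q Z + 3 ≤ Fintype.card ι ∨ (rk Q Z + 3 ≤ Fintype.card ι ∧ (2 : F) ≠ 0 ∧ Z * Z = 1))
    (h3 : 3 ≤ rk Q Z ∨ (rk Q Z = 2 ∧ (2 : F) = 0 ∧ Z * Z = 1)) :
    ScalRat F₀ (tgl Q y : Matrix ι ι F) := by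
  refine scalRat_good hrat hB hM hn hS hy (exists_fixed_pair hrat hB hn hZ hr) ?_
  set R := LinearMap.range (lin₀ hZ') with hR
  have hRd : finrank F₀ R = rk Q Z := by rw [hR, finrank_range_lin₀ hrat hB hZ', rk_conj]
  obtain ⟨e, he, he0, hq⟩ : ∃ e ∈ R, e ≠ 0 ∧ Q (co e) = 0 := by
    rcases h3 with h3 | ⟨h3, h2, hZZ⟩
    · obtain ⟨e, he, he0, hq⟩ := SingularVectors.exists_zero (Q₀ hrat) R (by omega)
      exact ⟨e, he, he0, (Q₀_zero_iff hrat e).1 hq⟩
    -- in even characteristic the moved space is totally isotropic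
    have hiso : ∀ u ∈ R, ∀ w ∈ R, β (co u) (co w) = 0 := by
      rintro _ ⟨a, rfl⟩ _ ⟨b, rfl⟩
      set Z' := y * Z * y⁻¹ with hZ'def
      have hinv : Z' * Z' = 1 := by
        rw [hZ'def, show y * Z * y⁻¹ * (y * Z * y⁻¹) = y * (Z * Z) * y⁻¹ by group, hZZ]
        group
      have e2 : Z'.1 (Z'.1 (co b)) = co b := congrArg (fun t : Witt.quadIso Q => t.1 (co b)) hinv
      have e3 := Reflections.polar_apply Q Z' (co a) (co b)
      have e4 := Reflections.polar_apply Q Z' (co a) (Z'.1 (co b))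
      rw [e2] at e4
      rw [co_lin₀, co_lin₀]
      simp only [map_sub, LinearMap.sub_apply]
      linear_combination e3 + e4 + (β (co a) (co b) - β (Z'.1 (co a)) (co b)) * h2
    obtain ⟨w₁, hw₁, hw₁0⟩ := Submodule.exists_mem_ne_zero_of_ne_bot
      (p := R) (fun h => by rw [h, finrank_bot] at hRd; omega)
    obtain ⟨w₂, hw₂, hw₂n⟩ := SetLike.not_le_iff_exists.1
      (show ¬ R ≤ Submodule.span F₀ {w₁} from fun h => by
        have := Submodule.finrank_mono h
        have h1 := finrank_span_le_card (R := F₀) ({w₁} : Set (ι → F₀))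
        simp at h1
        omega)
    by_cases hq : Q (co w₁) = 0
    · exact ⟨w₁, hw₁, hw₁0, hq⟩
    have h20 : (2 : F₀) = 0 := Subtype.ext h2
    haveI : CharP F₀ 2 := CharTwo.of_one_ne_zero_of_two_eq_zero one_ne_zero h20
    obtain ⟨s, hs⟩ := FiniteField.isSquare_of_char_two (ringChar.eq F₀ 2)
      (⟨Q (co w₂) / Q (co w₁), F₀.div_mem (hrat w₂) (hrat w₁)⟩ : F₀)
    have hs' : Q (co w₂) / Q (co w₁) = (s : F) * s := congrArg Subtype.val hs
    rw [div_eq_iff hq] at hs'
    refine ⟨w₂ + s • w₁, R.add_mem hw₂ (R.smul_mem _ hw₁), fun h => hw₂n ?_, ?_⟩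
    · exact Submodule.mem_span_singleton.2 ⟨-s, by linear_combination (norm := module) -h⟩
    · rw [co_add, co_smul, Witt.quad_add, Witt.quad_smul, map_smul, hiso w₂ hw₂ w₁ hw₁, smul_zero, hs']
      linear_combination ((s : F) * s * Q (co w₁)) * h2
  obtain ⟨p, rfl⟩ := he
  exact ⟨_, p, he0, hq, co_lin₀ hZ' p⟩

set_option maxHeartbeats 2000000 in
/-- The intertwining lemma. -/
theorem hint (hMC : M ≤ commutator (Witt.quadIso Q)) {Z y : Witt.quadIso Q} (hZM : Z ∈ M) (hy : y ∈ M)
    (hZ : RatIso F₀ Z) (hZ' : RatIso F₀ (y * Z * y⁻¹)) (hZZ : Z * Z = 1) (hZ1 : Z ≠ 1)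
    (hr : ((2 : F) ≠ 0 ∧ rk Q Z ≤ 10) ∨ rk Q Z ≤ 4) :
    ScalRat F₀ (tgl Q y : Matrix ι ι F) := by
  classical
  have h2r := two_le_rk hB hn (hMC hZM) hZ1
  by_cases hchar : (2 : F) = 0
  · have hr' : rk Q Z ≤ 4 := hr.elim (fun h => absurd hchar h.1) id
    refine hint_good hrat hB hM hn hS hy hZ hZ' (Or.inl (by omega)) ?_
    rcases eq_or_lt_of_le h2r with h | h
    · exact Or.inr ⟨h.symm, hchar, hZZ⟩
    · exact Or.inl h
  have hr' : rk Q Z ≤ 10 := hr.elim And.right (by omega)
  rcases eq_or_lt_of_le h2r with hk | hk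
  swap
  · exact hint_good hrat hB hM hn hS hy hZ hZ' (Or.inr ⟨by omega, hchar, hZZ⟩) (Or.inl hk)
  -- rank two in odd characteristic
  have := finite_iso (Q := Q)
  have memM : ∀ {g : Witt.quadIso Q}, g ∈ commutator (Witt.quadIso Q) → RatIso F₀ g → g ∈ M :=
    fun hg hgr => hM _ hg hgr.apply
  set Z' := y * Z * y⁻¹ with hZ'def
  have hZ'M : Z' ∈ M := mul_mem (mul_mem hy hZM) (inv_mem hy)
  have hZ'Z' : Z' * Z' = 1 := by
    rw [hZ'def, show y * Z * y⁻¹ * (y * Z * y⁻¹) = y * (Z * Z) * y⁻¹ by group, hZZ]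
    group
  obtain ⟨r, hr₁, hneg, hfix, hmov⟩ := exists_frame hrat hB hchar hZ hZZ hk.symm
  obtain ⟨r', hr'₁, hneg', hfix', -⟩ := exists_frame hrat hB hchar hZ' hZ'Z'
    (by rw [rk_conj]; exact hk.symm)
  -- a rational pair orthogonal to the moved plane
  obtain ⟨a, ha, hra, har⟩ := exists_next hrat hB hn hchar (by omega) hr₁
  obtain ⟨b, hb, hrb, -⟩ := exists_next hrat hB hn hchar (by omega) har
  have hab : β (co a) (co b) = 0 := hrb 0
  have hrb' : ∀ i, β (co (r i)) (co b) = 0 := fun i => hrb i.succ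
  have qa : Q (co a) ≠ 0 := by rw [ha]; exact one_ne_zero
  have qb : Q (co b) ≠ 0 := by rw [hb]; exact one_ne_zero
  set s := refl Q (co a) * refl Q (co b) with hs
  have hsR : RatIso F₀ s := (refl_rat hrat a).mul (refl_rat hrat b)
  have hsC : s ∈ commutator (Witt.quadIso Q) := refl_pair_mem hB qa (by rw [ha, hb])
  have hsM : s ∈ M := memM hsC hsR
  have hss : s * s = 1 := by
    rw [hs, (refl_comm hab).symm.mul_mul_mul_comm, Reflections.refl_mul_self, Reflections.refl_mul_self,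
      one_mul]
  have hsrk : rk Q s ≤ 2 :=
    (rk_mul_le _ _).trans (add_le_add (rk_refl_le _) (rk_refl_le _))
  have hsr : ∀ i, s.1 (co (r i)) = co (r i) := fun i => by
    show (refl Q (co a)).1 ((refl Q (co b)).1 (co (r i))) = _
    rw [Reflections.refl_fix Q (show β (co b) (co (r i)) = 0 by rw [Witt.polar_symm', hrb' i]),
      Reflections.refl_fix Q (show β (co a) (co (r i)) = 0 by rw [Witt.polar_symm', hra i])]
  have hsZ : Commute s Z := by
    have e1 : Commute Z (refl Q (co a)) := by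
      have := Reflections.conj_refl Q Z (co a)
      rw [hfix a hra] at this
      exact mul_inv_eq_iff_eq_mul.1 this
    have e2 : Commute Z (refl Q (co b)) := by
      have := Reflections.conj_refl Q Z (co b)
      rw [hfix b hrb'] at this
      exact mul_inv_eq_iff_eq_mul.1 this
    exact (e1.mul_right e2).symm
  set t := y * s * y⁻¹ with ht
  have htM : t ∈ M := mul_mem (mul_mem hy hsM) (inv_mem hy)
  have htt : t * t = 1 := by
    rw [ht, show y * s * y⁻¹ * (y * s * y⁻¹) = y * (s * s) * y⁻¹ by group, hss]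
    group
  have htZ : Commute t Z' := by
    show t * Z' = Z' * t
    rw [ht, hZ'def, show y * s * y⁻¹ * (y * Z * y⁻¹) = y * (s * Z) * y⁻¹ by group,
      show y * Z * y⁻¹ * (y * s * y⁻¹) = y * (Z * s) * y⁻¹ by group, hsZ.eq]
  have htr : ∀ i, t.1 (co (r' i)) = co (r' i) := by
    intro i
    obtain ⟨x, hx⟩ : ∃ x, Z.1 x - x = y.1.symm (co (r' i)) := by
      refine ⟨y.1.symm ((-(2 : F)⁻¹) • co (r' i)), ?_⟩
      have e : Z.1 (y.1.symm ((-(2 : F)⁻¹) • co (r' i))) =
          y.1.symm (Z'.1 ((-(2 : F)⁻¹) • co (r' i))) := by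
        show _ = y.1.symm (y.1 (Z.1 (y.1.symm _)))
        rw [LinearEquiv.symm_apply_apply]
      rw [e, map_smul Z'.1, hneg' i, ← map_sub]
      congr 1
      match_scalars
      field_simp
      norm_num
    show y.1 (s.1 (y.1.symm (co (r' i)))) = _
    rw [← hx, hmov s hsr, hx, LinearEquiv.apply_symm_apply]
  -- a rational rank four involution fixing the moved plane of `Z'`
  obtain ⟨a₁, ha₁, h1r, h1A⟩ := exists_next hrat hB hn hchar (by omega) hr'₁
  obtain ⟨a₂, ha₂, h2r', h2A⟩ := exists_next hrat hB hn hchar (by omega) h1A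
  obtain ⟨a₃, ha₃, h3r, h3A⟩ := exists_next hrat hB hn hchar (by omega) h2A
  obtain ⟨a₄, ha₄, h4r, -⟩ := exists_next hrat hB hn hchar (by omega) h3A
  have o12 : β (co a₁) (co a₂) = 0 := h2r' 0
  have o13 : β (co a₁) (co a₃) = 0 := h3r 1
  have o23 : β (co a₂) (co a₃) = 0 := h3r 0
  have o14 : β (co a₁) (co a₄) = 0 := h4r 2
  have o24 : β (co a₂) (co a₄) = 0 := h4r 1
  have o34 : β (co a₃) (co a₄) = 0 := h4r 0
  have w1 : ∀ i, β (co (r' i)) (co a₁) = 0 := h1r
  have w2 : ∀ i, β (co (r' i)) (co a₂) = 0 := fun i => h2r' i.succ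
  have w3 : ∀ i, β (co (r' i)) (co a₃) = 0 := fun i => h3r i.succ.succ
  have w4 : ∀ i, β (co (r' i)) (co a₄) = 0 := fun i => h4r i.succ.succ.succ
  set s₂ := refl Q (co a₁) * refl Q (co a₂) * (refl Q (co a₃) * refl Q (co a₄)) with hs₂
  have hs₂R : RatIso F₀ s₂ :=
    ((refl_rat hrat a₁).mul (refl_rat hrat a₂)).mul ((refl_rat hrat a₃).mul (refl_rat hrat a₄))
  have hs₂C : s₂ ∈ commutator (Witt.quadIso Q) :=
    mul_mem (refl_pair_mem hB (by rw [ha₁]; exact one_ne_zero) (by rw [ha₁, ha₂]))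
      (refl_pair_mem hB (by rw [ha₃]; exact one_ne_zero) (by rw [ha₃, ha₄]))
  have hs₂M : s₂ ∈ M := memM hs₂C hs₂R
  have hs₂s : s₂ * s₂ = 1 := by
    have c : Commute (refl Q (co a₃) * refl Q (co a₄)) (refl Q (co a₁) * refl Q (co a₂)) :=
      (((refl_comm o13).symm.mul_left (refl_comm o14).symm).mul_right
        ((refl_comm o23).symm.mul_left (refl_comm o24).symm))
    rw [hs₂, c.mul_mul_mul_comm, (refl_comm o12).symm.mul_mul_mul_comm,
      (refl_comm o34).symm.mul_mul_mul_comm]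
    simp [Reflections.refl_mul_self]
  have hs₂k : rk Q s₂ ≤ 4 := (rk_mul_le _ _).trans (add_le_add
    ((rk_mul_le _ _).trans (add_le_add (rk_refl_le _) (rk_refl_le _)))
    ((rk_mul_le _ _).trans (add_le_add (rk_refl_le _) (rk_refl_le _))))
  have hs₂3 : 3 ≤ rk Q s₂ := by
    refine three_le_rk hchar (v := ![co a₁, co a₂, co a₃]) ?_ ?_ ?_
    · intro i; fin_cases i <;> simp [ha₁, ha₂, ha₃]
    · intro i j hij
      fin_cases i <;> fin_cases j <;> first
        | exact absurd rfl hij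
        | assumption
        | (rw [Witt.polar_symm']; assumption)
    · intro i
      have q : ∀ {u : ι → F₀}, Q (co u) = 1 → (refl Q (co u)).1 (co u) = -co u :=
        fun h => Reflections.refl_self Q (by rw [h]; exact one_ne_zero)
      have f : ∀ {u v : ι → F₀}, β (co u) (co v) = 0 → (refl Q (co u)).1 (co v) = co v :=
        fun h => Reflections.refl_fix Q h
      have f' : ∀ {u v : ι → F₀}, β (co v) (co u) = 0 → (refl Q (co u)).1 (co v) = co v :=
        fun h => Reflections.refl_fix Q (by rw [Witt.polar_symm']; exact h)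
      show (refl Q (co a₁)).1 ((refl Q (co a₂)).1 ((refl Q (co a₃)).1 ((refl Q (co a₄)).1 _))) = _
      fin_cases i
      · show (refl Q (co a₁)).1 ((refl Q (co a₂)).1 ((refl Q (co a₃)).1 ((refl Q (co a₄)).1 (co a₁)))) = -co a₁
        rw [f' o14, f' o13, f' o12, q ha₁]
      · show (refl Q (co a₁)).1 ((refl Q (co a₂)).1 ((refl Q (co a₃)).1 ((refl Q (co a₄)).1 (co a₂)))) = -co a₂
        rw [f' o24, f' o23, q ha₂, map_neg, f o12]
      · show (refl Q (co a₁)).1 ((refl Q (co a₂)).1 ((refl Q (co a₃)).1 ((refl Q (co a₄)).1 (co a₃)))) = -co a₃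
        rw [f' o34, q ha₃, map_neg, f o23, map_neg, f o13]
  have hs₂r : ∀ i, s₂.1 (co (r' i)) = co (r' i) := fun i => by
    show (refl Q (co a₁)).1 ((refl Q (co a₂)).1 ((refl Q (co a₃)).1 ((refl Q (co a₄)).1 _))) = _
    rw [Reflections.refl_fix Q (show β (co a₄) (co (r' i)) = 0 by rw [Witt.polar_symm', w4 i]),
      Reflections.refl_fix Q (show β (co a₃) (co (r' i)) = 0 by rw [Witt.polar_symm', w3 i]),
      Reflections.refl_fix Q (show β (co a₂) (co (r' i)) = 0 by rw [Witt.polar_symm', w2 i]),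
      Reflections.refl_fix Q (show β (co a₁) (co (r' i)) = 0 by rw [Witt.polar_symm', w1 i])]
  have hs₂Z : Commute s₂ Z' := by
    have e : ∀ {u : ι → F₀}, (∀ i, β (co (r' i)) (co u) = 0) → Commute (refl Q (co u)) Z' := by
      intro u hu
      have := Reflections.conj_refl Q Z' (co u)
      rw [hfix' u hu] at this
      exact (mul_inv_eq_iff_eq_mul.1 this).symm
    exact ((e w1).mul_left (e w2)).mul_left ((e w3).mul_left (e w4))
  obtain ⟨z, hz, hz1, hzz, hzs, hzt, c, hc⟩ := exists_dihedral_invol hs₂s htt fun g hg => by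
    have : rk Q t = rk Q s₂ := by rw [← hg, rk_conj]
    rw [ht, rk_conj] at this
    omega
  have hzM : z ∈ M :=
    (Subgroup.closure_le M).2 (by simp [Set.insert_subset_iff, hs₂M, htM]) hz
  have hzr : (∀ i, z.1 (co (r' i)) = co (r' i)) ∧ Commute z Z' := by
    clear hz1 hzz hzs hzt hc hzM
    induction hz using Subgroup.closure_induction with
    | mem x hx =>
      rcases hx with rfl | rfl
      · exact ⟨hs₂r, hs₂Z⟩
      · exact ⟨htr, htZ⟩
    | one => exact ⟨fun _ => rfl, Commute.one_left _⟩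
    | mul u v _ _ hu hv =>
      exact ⟨fun i => by show u.1 (v.1 _) = _; rw [hv.1 i, hu.1 i], hu.2.mul_left hv.2⟩
    | inv u _ hu =>
      exact ⟨fun i => u.1.injective (by
        show u.1 (u.1.symm _) = _
        rw [LinearEquiv.apply_symm_apply, hu.1 i]), hu.2.inv_left⟩
  obtain ⟨hzfix, hzZ⟩ := hzr
  -- `z` is rational
  set w := z * s₂ with hw
  have hwM : w ∈ M := mul_mem hzM hs₂M
  have hwconj : w * s₂ * w⁻¹ = s₂ := mul_inv_eq_iff_eq_mul.2 (by
    rw [hw, mul_assoc, hs₂s, mul_one, ← mul_assoc, ← hzs, mul_assoc, hs₂s, mul_one])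
  have hww : w * w = 1 := by
    rw [hw, mul_assoc, ← mul_assoc s₂, ← hzs, mul_assoc z s₂, hs₂s, mul_one, hzz]
  have hwS : ScalRat F₀ (tgl Q w : Matrix ι ι F) :=
    hint_good hrat hB hM hn hS hwM hs₂R (by rw [hwconj]; exact hs₂R)
      (Or.inr ⟨by omega, hchar, hs₂s⟩) (Or.inl hs₂3)
  obtain ⟨hwR, hwk⟩ : RatIso F₀ w ∧ rk Q w ≤ 4 := by
    rcases hc with hc | hc
    · exact ⟨ratIso_of_scal hs₂R hs₂k (by omega) hc hww hwS, by rw [← hc, rk_conj]; exact hs₂k⟩
    · have e : c * y * s * (c * y)⁻¹ = w := by rw [← hc, ht]; group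
      exact ⟨ratIso_of_scal hsR (hsrk.trans (by omega : (2 : ℕ) ≤ 4)) (by omega) e hww hwS,
        by rw [← e, rk_conj]; omega⟩
  have hzR : RatIso F₀ z := hwR.of_mul_left hs₂R hs₂s
  have hzk : rk Q z ≤ 8 := by
    have e : z = w * s₂ := by rw [hw, mul_assoc, hs₂s, mul_one]
    rw [e]
    exact (rk_mul_le _ _).trans (by omega)
  -- a third negated vector
  obtain ⟨p, hp⟩ : ∃ p, Q (co (lin₀ hzR p)) ≠ 0 := by
    by_contra! hall
    apply hz1
    refine SiegelElements.ext' Q fun x => ?_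
    show z.1 x = x
    have h0 : ∀ v : ι → F₀, z.1 (co v) = co v := by
      intro v
      have e : ∀ q : ι → F₀, z.1 (z.1 (co q)) = co q := fun q =>
        congrArg (fun g : Witt.quadIso Q => g.1 (co q)) hzz
      rw [← sub_eq_zero, ← co_lin₀ hzR]
      refine eq_zero_of_orth (F₀ := F₀) hB fun u => ?_
      have h1 := hall (v + u)
      rw [map_add, co_add, Witt.quad_add, hall v, hall u, zero_add, zero_add, co_lin₀, co_lin₀] at h1
      simp only [map_sub, LinearMap.sub_apply, Reflections.polar_apply] at h1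
      have h4 : β (z.1 (co v)) (co u) = β (co v) (z.1 (co u)) := by
        have := Reflections.polar_apply Q z (co v) (z.1 (co u))
        rwa [e u] at this
      rw [co_lin₀, map_sub, LinearMap.sub_apply]
      have h5 : (2 : F) * (β (z.1 (co v)) (co u) - β (co v) (co u)) = 0 := by
        linear_combination -h1 + h4
      exact (mul_eq_zero.1 h5).resolve_left hchar
    rw [pi_eq_sum_univ' x, map_sum]
    refine Finset.sum_congr rfl fun i _ => ?_
    have := h0 (Pi.single i 1)
    rw [co_single, OneMemClass.coe_one] at this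
    rw [map_smul, this]
  have hzp : z.1 (co (lin₀ hzR p)) = -co (lin₀ hzR p) := by
    have e2 : z.1 (z.1 (co p)) = co p := congrArg (fun t : Witt.quadIso Q => t.1 (co p)) hzz
    rw [co_lin₀, map_sub, e2, neg_sub]
  have hrp : ∀ i, β (co (r' i)) (co (lin₀ hzR p)) = 0 := fun i => by
    have h := Reflections.polar_apply Q z (co (r' i)) (co p)
    rw [hzfix i] at h
    rw [co_lin₀, map_sub, h, sub_self]
  have hu3 : 3 ≤ rk Q (z * Z') := by
    refine three_le_rk hchar (v := ![co (r' 0), co (r' 1), co (lin₀ hzR p)]) ?_ ?_ ?_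
    · intro i; fin_cases i
      · exact hr'₁.1 0
      · exact hr'₁.1 1
      · exact hp
    · intro i j hij
      have o : β (co (r' 0)) (co (r' 1)) = 0 := hr'₁.2 0 1 (by decide)
      fin_cases i <;> fin_cases j <;> first
        | exact absurd rfl hij
        | exact o
        | exact hrp _
        | (show β _ _ = 0; rw [Witt.polar_symm']; first | exact o | exact hrp _)
    · intro i
      show z.1 (Z'.1 _) = _
      fin_cases i
      · show z.1 (Z'.1 (co (r' 0))) = -co (r' 0)
        rw [hneg' 0, map_neg, hzfix 0]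
      · show z.1 (Z'.1 (co (r' 1))) = -co (r' 1)
        rw [hneg' 1, map_neg, hzfix 1]
      · show z.1 (Z'.1 (co (lin₀ hzR p))) = -co (lin₀ hzR p)
        rw [hfix' _ hrp, hzp]
  have huu : z * Z' * (z * Z') = 1 := by rw [hzZ.symm.mul_mul_mul_comm, hzz, hZ'Z', one_mul]
  have hu10 : rk Q (z * Z') ≤ 10 := (rk_mul_le _ _).trans (by rw [rk_conj]; omega)
  have huconj : t * (z * Z') * t⁻¹ = z * Z' :=
    mul_inv_eq_iff_eq_mul.2 (Commute.mul_right (show Commute t z from hzt.symm) htZ).eq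
  have htS : ScalRat F₀ (tgl Q t : Matrix ι ι F) :=
    hint_good hrat hB hM hn hS htM (hzR.mul hZ') (by rw [huconj]; exact hzR.mul hZ')
      (Or.inr ⟨by omega, hchar, huu⟩) (Or.inl hu3)
  have htR : RatIso F₀ t := ratIso_of_scal hsR hsrk (by omega) ht.symm htt htS
  -- the product of the two planes
  have hsZ3 : 3 ≤ rk Q (s * Z) := by
    refine three_le_rk hchar (v := ![co a, co b, co (r 0)]) ?_ ?_ ?_
    · intro i; fin_cases i
      · exact qa
      · exact qb
      · exact hr₁.1 0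
    · intro i j hij
      fin_cases i <;> fin_cases j <;> first
        | exact absurd rfl hij
        | exact hab
        | (show β _ _ = 0; first
            | exact hra 0
            | exact hrb' 0
            | (rw [Witt.polar_symm']; first | exact hab | exact hra 0 | exact hrb' 0))
    · intro i
      show s.1 (Z.1 _) = _
      fin_cases i
      · show (refl Q (co a)).1 ((refl Q (co b)).1 (Z.1 (co a))) = -co a
        rw [hfix a hra,
          Reflections.refl_fix Q (show β (co b) (co a) = 0 by rw [Witt.polar_symm']; exact hab),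
          Reflections.refl_self Q qa]
      · show (refl Q (co a)).1 ((refl Q (co b)).1 (Z.1 (co b))) = -co b
        rw [hfix b hrb', Reflections.refl_self Q qb, map_neg, Reflections.refl_fix Q hab]
      · show s.1 (Z.1 (co (r 0))) = -co (r 0)
        rw [hneg 0, map_neg, hsr 0]
  have hsZ4 : rk Q (s * Z) ≤ 4 := (rk_mul_le _ _).trans (by omega)
  refine hint_good hrat hB hM hn hS hy (hsR.mul hZ) ?_
    (Or.inr ⟨by omega, hchar, by rw [hsZ.symm.mul_mul_mul_comm, hss, hZZ, one_mul]⟩) (Or.inl hsZ3)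
  rw [show y * (s * Z) * y⁻¹ = t * Z' by rw [ht, hZ'def]; group]
  exact htR.mul hZ'

end Cfsg.Lib.Classical.OrthSub
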