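import Mathlib
import Cfsg.Prelude.Def_GeometricClasses
import Cfsg.Agent.Lib.Classical.SubfieldMax

/-!
Membership in the subfield group.
-/

set_option autoImplicit false

namespace Cfsg.Lib.Classical

open Matrix Module
open scoped MatrixGroups

variable {ι : Type} [Fintype ι] [DecidableEq ι] {F : Type*} [Field F]

/-- An element is in the subfield group iff its conjugate is a multiple of a rational matrix. -/
lemma mem_subfieldSubgroup_iff {F₀ : Subfield F} {P g : GL ι F} :
    g ∈ Cfsg.Geo.subfieldSubgroup F₀ P ↔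
      ScalRat F₀ ((P⁻¹ * g * P : GL ι F) : Matrix ι ι F) := by
  constructor
  · rintro ⟨h, hh, rfl⟩
    have hN : (Cfsg.Geo.scalars ι F).Normal := by
      refine ⟨fun a ha b => ?_⟩
      obtain ⟨c, hc⟩ := (Cfsg.Geo.mem_scalars_iff _).1 ha
      refine (Cfsg.Geo.mem_scalars_iff _).2 ⟨c, ?_⟩
      simp [Units.val_mul, hc]
    obtain ⟨a, ⟨A, rfl⟩, b, hb, rfl⟩ := Subgroup.mem_sup_of_normal_right.1 hh
    obtain ⟨c, hc⟩ := (Cfsg.Geo.mem_scalars_iff _).1 hb
    refine ⟨(c : F)⁻¹, inv_ne_zero c.ne_zero, ?_⟩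
    rw [MulEquiv.coe_toMonoidHom, MulAut.conj_apply,
      show P⁻¹ * (P * (Matrix.GeneralLinearGroup.map F₀.subtype A * b) * P⁻¹) * P =
        Matrix.GeneralLinearGroup.map F₀.subtype A * b by group, Units.val_mul, hc,
      Matrix.mul_smul, mul_one, smul_smul, inv_mul_cancel₀ c.ne_zero, one_smul]
    exact fun i j => SetLike.coe_mem _
  · rintro ⟨c, hc, hcX⟩
    set X : GL ι F := P⁻¹ * g * P with hX
    let A₀ : Matrix ι ι F₀ := fun i j => ⟨_, hcX i j⟩
    have hmap : A₀.map F₀.subtype = c • (X : Matrix ι ι F) := rfl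
    have hdet : A₀.det ≠ 0 := by
      intro h
      have h1 := RingHom.map_det F₀.subtype A₀
      rw [h, map_zero, RingHom.mapMatrix_apply, hmap, det_smul] at h1
      exact mul_ne_zero (pow_ne_zero _ hc) (Matrix.GeneralLinearGroup.det X).ne_zero h1.symm
    let A : GL ι F₀ := Matrix.GeneralLinearGroup.mkOfDetNeZero A₀ hdet
    let b : GL ι F := Units.map (Matrix.scalar ι : F →+* _).toMonoidHom (Units.mk0 c hc)⁻¹
    refine ⟨Matrix.GeneralLinearGroup.map F₀.subtype A * b,
      Subgroup.mul_mem_sup ⟨A, rfl⟩ ⟨(Units.mk0 c hc)⁻¹, rfl⟩, ?_⟩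
    have e : Matrix.GeneralLinearGroup.map F₀.subtype A * b = X := by
      ext1
      rw [Units.val_mul]
      change A₀.map F₀.subtype * Matrix.scalar ι (c⁻¹) = _
      rw [hmap, scalar_apply, ← smul_one_eq_diagonal, Matrix.mul_smul, mul_one, smul_smul,
        inv_mul_cancel₀ hc, one_smul]
    rw [e, hX, MulEquiv.coe_toMonoidHom, MulAut.conj_apply]
    group

/-- A subfield of prime index is proper. -/
lemma exists_not_mem_subfield [Finite F] {F₀ : Subfield F} {r : ℕ} (hr : r.Prime)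
    (hcard : Nat.card F = Nat.card F₀ ^ r) : ∃ l : F, l ∉ F₀ := by
  by_contra! hall
  have h1 := Nat.card_congr (Equiv.subtypeUnivEquiv hall)
  rw [hcard] at h1
  have h2 : 1 < Nat.card F₀ := Finite.one_lt_card
  nth_rw 1 [← pow_one (Nat.card F₀)] at h1
  exact hr.one_lt.ne (Nat.pow_right_injective h2 h1)

end Cfsg.Lib.Classical
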