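import Mathlib
import Cfsg.Agent.Lib.Classical.OrthSubfieldHint
import Cfsg.Agent.Lib.Classical.SubfieldMem
import Cfsg.Agent.Lib.Classical.OmegaBridge

/-!
The elements of `omegaGL` in a subfield group form a maximal subgroup.
-/

set_option autoImplicit false

namespace Cfsg.Lib.Classical.OrthSub

open Module SiegelElements Matrix
open Reflections (movSp fixSp rk refl mem_movSp mem_fixSp)
open scoped MatrixGroups

variable {ι : Type} [Fintype ι] [DecidableEq ι] {F : Type*} [Field F] [Finite F] {F₀ : Subfield F}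
  {Q : QuadraticForm F (ι → F)} (hrat : ∀ v : ι → F₀, Q (co v) ∈ F₀)
  (hB : (QuadraticMap.polarBilin Q).Nondegenerate) {M : Subgroup (Witt.quadIso Q)}

variable (hM : ∀ g : Witt.quadIso Q, g ∈ commutator (Witt.quadIso Q) →
    (∀ v : ι → F₀, ∃ w : ι → F₀, g.1 (co v) = co w) → g ∈ M)
  (hn : 13 ≤ Fintype.card ι) (hS : ∀ c, Root M F₀ c → c ∈ F₀)

local notation "β" => QuadraticMap.polarBilin Q

include hrat hB hn

/-- Two non-conjugate rational involutions. -/
lemma exists_two :
    ∃ s s₀ : Witt.quadIso Q, RatIso F₀ s ∧ RatIso F₀ s₀ ∧ s ∈ commutator (Witt.quadIso Q) ∧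
      s₀ ∈ commutator (Witt.quadIso Q) ∧ s * s = 1 ∧ s₀ * s₀ = 1 ∧ s ≠ 1 ∧ s₀ ≠ 1 ∧ rk Q s ≤ 2 ∧
      (((2 : F) ≠ 0 ∧ rk Q s₀ ≤ 4) ∨ rk Q s₀ ≤ 2) ∧ ∀ g, g * s * g⁻¹ ≠ s₀ := by
  classical
  have hB₀ := nondeg₀ hrat hB
  have hn₀ := finrank₀ (ι := ι) (F₀ := F₀)
  by_cases hchar : (2 : F) = 0
  · have h20 : (2 : F₀) = 0 := Subtype.ext hchar
    obtain ⟨a, ha, -⟩ := exists_one hrat hB hn (![] : Fin 0 → ι → F₀) (by omega) fun p hp _ _ => by
      simpa [Matrix.range_empty] using hp
    have ha0 : a ≠ 0 := fun h => by rw [h, co_zero, QuadraticMap.map_zero] at ha; exact zero_ne_one ha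
    obtain ⟨x, hx⟩ := exists_values hrat hB (r := ![a]) (LinearIndependent.of_subsingleton (0 : Fin 1) ha0) ![1]
    have hxa : β (co x) (co a) = 1 := hx 0
    obtain ⟨b, hb, hbr⟩ := exists_one hrat hB hn ![a, x] (by omega) fun p hp hpr _ => by
      obtain ⟨c, rfl⟩ := (Submodule.mem_span_range_iff_exists_fun F₀).1 hp
      have h0 := hpr 0
      have h1 := hpr 1
      simp [Fin.sum_univ_two, -QuadraticMap.polarBilin_apply_apply, Witt.polar_self', hchar, hxa,
        Witt.polar_symm' Q (co a) (co x)] at h0 h1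
      simp [Fin.sum_univ_two, h0, h1]
    have hab : β (co a) (co b) = 0 := hbr 0
    have hbx : β (co b) (co x) = 0 := by rw [Witt.polar_symm']; exact hbr 1
    have qa : Q (co a) ≠ 0 := by rw [ha]; exact one_ne_zero
    set s := refl Q (co a) * refl Q (co b) with hs
    have hmov : s.1 (co x) - co x = -co a := by
      show (refl Q (co a)).1 ((refl Q (co b)).1 (co x)) - co x = _
      rw [Reflections.refl_fix Q hbx, Reflections.refl_apply, Witt.polar_symm' Q (co a) (co x), hxa,
        ha, inv_one, one_mul, one_smul]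
      abel
    obtain ⟨p, hp, -, hpa⟩ := SingularVectors.exists_sing (Q₀ hrat) hB₀ (![] : Fin 0 → ι → F₀)
      (by omega) (v := a) (by simpa [Matrix.range_empty] using ha0)
    have hp0 : p ≠ 0 := by rintro rfl; simp at hpa
    have qp := (Q₀_zero_iff hrat p).1 hp
    obtain ⟨w, hw⟩ := exists_outside hrat hB hn ![p] (by omega)
    obtain ⟨u, hu, hur, -, hus⟩ :=
      SingularVectors.exists_sing_avoid (Q₀ hrat) hB₀ ![p] (by omega) hw ![p] (by omega)
    have qu := (Q₀_zero_iff hrat u).1 hu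
    have hpu : β (co p) (co u) = 0 := by
      rw [Witt.polar_symm']; exact (polar_zero_iff hrat _ _).1 (hur 0)
    set s₀ := siegel Q (co p) (co u) with hs₀
    have hsing : ∀ z, Q (s₀.1 z - z) = 0 := fun z => by
      rw [hs₀, siegel_apply Q qp hpu, show ∀ A B : ι → F, z + A - B - z = A - B from fun _ _ => by abel]
      simp only [sub_eq_add_neg, Witt.quad_add, QuadraticMap.map_neg, Witt.quad_smul, qp, qu, map_neg,
        map_smul, LinearMap.smul_apply, Witt.polar_symm' Q (co u) (co p), hpu, smul_zero, mul_zero,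
        neg_zero, add_zero]
    obtain ⟨z, hz⟩ := exists_values hrat hB (r := ![p, u]) (li_pair hp0 (fun hc => hus
      (Submodule.span_mono (by rintro _ rfl; exact ⟨0, rfl⟩) hc))) ![1, 0]
    have hzp : β (co z) (co p) = 1 := hz 0
    have hzu : β (co z) (co u) = 0 := hz 1
    refine ⟨s, s₀, (refl_rat hrat a).mul (refl_rat hrat b), ratIso_of (siegel_rat hrat qp hpu),
      refl_pair_mem hB qa (by rw [ha, hb]),
      siegel_mem_commutator Q hB (by rw [Module.finrank_fintype_fun_eq_card]; omega) qp hpu, ?_, ?_, ?_,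
      ?_, (rk_mul_le _ _).trans (add_le_add (rk_refl_le _) (rk_refl_le _)), Or.inr ?_, fun g hg => ?_⟩
    · rw [hs, (refl_comm hab).symm.mul_mul_mul_comm, Reflections.refl_mul_self,
        Reflections.refl_mul_self, one_mul]
    · rw [hs₀, siegel_mul Q qp hpu hpu, ← two_smul F (co u), hchar, zero_smul, siegel_zero Q qp]
    · intro h
      rw [h] at hmov
      exact co_ne_zero ha0 (neg_eq_zero.1 (hmov.symm.trans (sub_self _)))
    · intro h
      have e : s₀.1 (co z) - co z = co u := by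
        rw [hs₀, siegel_apply Q qp hpu, hzp, hzu, qu]
        simp
      rw [h] at e
      refine hus ?_
      rw [co_injective ((e.symm.trans (sub_self _)).trans co_zero.symm)]
      exact zero_mem _
    · have hle : movSp Q s₀ ≤ Submodule.span F (Set.range ![co p, co u]) := by
        rintro _ ⟨v, rfl⟩
        refine (Submodule.mem_span_range_iff_exists_fun F).2
          ⟨![-(β v (co u) + Q (co u) * β v (co p)), β v (co p)], ?_⟩
        show _ = s₀.1 v - v
        rw [hs₀, siegel_apply Q qp hpu]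
        simp [Fin.sum_univ_two]
        module
      refine (Submodule.finrank_mono hle).trans ?_
      exact (finrank_range_le_card (R := F) ![co p, co u]).trans (by simp)
    · have h1 : s₀.1 (g.1 (co x)) = g.1 (s.1 (co x)) := by
        rw [← hg]
        show g.1 (s.1 (g.1.symm (g.1 (co x)))) = _
        rw [LinearEquiv.symm_apply_apply]
      have h2 := hsing (g.1 (co x))
      rw [h1, ← map_sub, g.2, hmov, QuadraticMap.map_neg, ha] at h2
      exact one_ne_zero h2
  · obtain ⟨a, ha, -, har⟩ := exists_next hrat hB hn hchar (k := 0) (r := ![]) (by omega)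
      ⟨fun i => i.elim0, fun i => i.elim0⟩
    obtain ⟨b, hb, hrb, hbA⟩ := exists_next hrat hB hn hchar (by omega) har
    obtain ⟨c, hc, hrc, hcA⟩ := exists_next hrat hB hn hchar (by omega) hbA
    obtain ⟨d, hd, hrd, -⟩ := exists_next hrat hB hn hchar (by omega) hcA
    have oab : β (co a) (co b) = 0 := hrb 0
    have oac : β (co a) (co c) = 0 := hrc 1
    have obc : β (co b) (co c) = 0 := hrc 0
    have oad : β (co a) (co d) = 0 := hrd 2
    have obd : β (co b) (co d) = 0 := hrd 1
    have ocd : β (co c) (co d) = 0 := hrd 0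
    have q : ∀ {u : ι → F₀}, Q (co u) = 1 → (refl Q (co u)).1 (co u) = -co u :=
      fun h => Reflections.refl_self Q (by rw [h]; exact one_ne_zero)
    have f : ∀ {u v : ι → F₀}, β (co u) (co v) = 0 → (refl Q (co u)).1 (co v) = co v :=
      fun h => Reflections.refl_fix Q h
    have f' : ∀ {u v : ι → F₀}, β (co v) (co u) = 0 → (refl Q (co u)).1 (co v) = co v :=
      fun h => Reflections.refl_fix Q (by rw [Witt.polar_symm']; exact h)
    set s := refl Q (co a) * refl Q (co b) with hs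
    set s₀ := refl Q (co a) * refl Q (co b) * (refl Q (co c) * refl Q (co d)) with hs₀
    have hsk : rk Q s ≤ 2 := (rk_mul_le _ _).trans (add_le_add (rk_refl_le _) (rk_refl_le _))
    have hs₀k : rk Q s₀ ≤ 4 := (rk_mul_le _ _).trans (add_le_add hsk
      ((rk_mul_le _ _).trans (add_le_add (rk_refl_le _) (rk_refl_le _))))
    have h3 : 3 ≤ rk Q s₀ := by
      refine three_le_rk hchar (v := ![co a, co b, co c]) ?_ ?_ ?_
      · intro i; fin_cases i <;> simp [ha, hb, hc]
      · intro i j hij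
        fin_cases i <;> fin_cases j <;> first
          | exact absurd rfl hij
          | assumption
          | (rw [Witt.polar_symm']; assumption)
      · intro i
        fin_cases i
        · show (refl Q (co a)).1 ((refl Q (co b)).1 ((refl Q (co c)).1 ((refl Q (co d)).1 (co a)))) = -co a
          rw [f' oad, f' oac, f' oab, q ha]
        · show (refl Q (co a)).1 ((refl Q (co b)).1 ((refl Q (co c)).1 ((refl Q (co d)).1 (co b)))) = -co b
          rw [f' obd, f' obc, q hb, map_neg, f oab]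
        · show (refl Q (co a)).1 ((refl Q (co b)).1 ((refl Q (co c)).1 ((refl Q (co d)).1 (co c)))) = -co c
          rw [f' ocd, q hc, map_neg, f obc, map_neg, f oac]
    have e1 : rk Q (1 : Witt.quadIso Q) = 0 := Spinor.rk_one
    refine ⟨s, s₀, (refl_rat hrat a).mul (refl_rat hrat b),
      ((refl_rat hrat a).mul (refl_rat hrat b)).mul ((refl_rat hrat c).mul (refl_rat hrat d)),
      refl_pair_mem hB (by rw [ha]; exact one_ne_zero) (by rw [ha, hb]),
      mul_mem (refl_pair_mem hB (by rw [ha]; exact one_ne_zero) (by rw [ha, hb]))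
        (refl_pair_mem hB (by rw [hc]; exact one_ne_zero) (by rw [hc, hd])), ?_, ?_, ?_, ?_, hsk,
      Or.inl ⟨hchar, hs₀k⟩, fun g hg => ?_⟩
    · rw [hs, (refl_comm oab).symm.mul_mul_mul_comm, Reflections.refl_mul_self,
        Reflections.refl_mul_self, one_mul]
    · have hcomm : Commute (refl Q (co c) * refl Q (co d)) (refl Q (co a) * refl Q (co b)) :=
        (((refl_comm oac).symm.mul_left (refl_comm oad).symm).mul_right
          ((refl_comm obc).symm.mul_left (refl_comm obd).symm))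
      rw [hs₀, hcomm.mul_mul_mul_comm, (refl_comm oab).symm.mul_mul_mul_comm,
        (refl_comm ocd).symm.mul_mul_mul_comm]
      simp [Reflections.refl_mul_self]
    · intro h
      have e : (refl Q (co a)).1 ((refl Q (co b)).1 (co a)) = co a :=
        congrArg (fun t : Witt.quadIso Q => t.1 (co a)) h
      rw [f' oab, q ha] at e
      have : (2 : F) • co a = 0 := by linear_combination (norm := module) -e
      rcases smul_eq_zero.1 this with h' | h'
      · exact hchar h'
      · rw [h', QuadraticMap.map_zero] at ha; exact zero_ne_one ha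
    · intro h
      rw [h, e1] at h3
      omega
    · have : rk Q s₀ = rk Q s := by rw [← hg, rk_conj]
      omega

include hM hS

/-- Without irrational root parameters everything is rational up to scalars. -/
theorem forall_scalRat (hMC : M ≤ commutator (Witt.quadIso Q)) :
    ∀ g ∈ M, ScalRat F₀ (tgl Q g : Matrix ι ι F) := by
  classical
  have := finite_iso (Q := Q)
  obtain ⟨s, s₀, hsR, hs₀R, hsC, hs₀C, hss, hs₀s, hs1, hs₀1, hsk, hs₀k, hne⟩ := exists_two hrat hB hn
  have hsM : s ∈ M := hM _ hsC hsR.apply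
  have hs₀M : s₀ ∈ M := hM _ hs₀C hs₀R.apply
  intro g hg
  set t := g * s₀ * g⁻¹ with ht
  have htM : t ∈ M := mul_mem (mul_mem hg hs₀M) (inv_mem hg)
  have htt : t * t = 1 := by
    rw [ht, show g * s₀ * g⁻¹ * (g * s₀ * g⁻¹) = g * (s₀ * s₀) * g⁻¹ by group, hs₀s]
    group
  obtain ⟨z, hz, hz1, hzz, hzs, hzt, c, hc⟩ := exists_dihedral_invol hss htt fun y hy => by
    apply hne (g⁻¹ * y)
    rw [show g⁻¹ * y * s * (g⁻¹ * y)⁻¹ = g⁻¹ * (y * s * y⁻¹) * g by group, hy, ht]
    group
  have hzM : z ∈ M := (Subgroup.closure_le M).2 (by simp [Set.insert_subset_iff, hsM, htM]) hz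
  set w := z * s with hw
  have hwM : w ∈ M := mul_mem hzM hsM
  have hwconj : w * s * w⁻¹ = s := mul_inv_eq_iff_eq_mul.2 (by
    rw [hw, mul_assoc, hss, mul_one, ← mul_assoc, ← hzs, mul_assoc, hss, mul_one])
  have hww : w * w = 1 := by
    rw [hw, mul_assoc, ← mul_assoc s, ← hzs, mul_assoc z s, hss, mul_one, hzz]
  have hwS : ScalRat F₀ (tgl Q w : Matrix ι ι F) :=
    hint hrat hB hM hn hS hMC hsM hwM hsR (by rw [hwconj]; exact hsR) hss hs1 (Or.inr (by omega))
  obtain ⟨hwR, hwk⟩ : RatIso F₀ w ∧ (((2 : F) ≠ 0 ∧ rk Q w ≤ 4) ∨ rk Q w ≤ 2) := by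
    rcases hc with hc | hc
    · exact ⟨ratIso_of_scal hsR hsk (by omega) hc hww hwS, Or.inr (by rw [← hc, rk_conj]; exact hsk)⟩
    · have e : c * g * s₀ * (c * g)⁻¹ = w := by rw [← hc, ht]; group
      refine ⟨ratIso_of_scal hs₀R (k := 4) ?_ (by omega) e hww hwS, ?_⟩
      · rcases hs₀k with h | h <;> omega
      · rw [← e, rk_conj]; exact hs₀k
  have hzR : RatIso F₀ z := hwR.of_mul_left hsR hss
  have hzk : ((2 : F) ≠ 0 ∧ rk Q z ≤ 10) ∨ rk Q z ≤ 4 := by
    have e : z = w * s := by rw [hw, mul_assoc, hss, mul_one]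
    have := rk_mul_le w s
    rw [← e] at this
    rcases hwk with ⟨h, h'⟩ | h'
    · exact Or.inl ⟨h, by omega⟩
    · exact Or.inr (by omega)
  have hzconj : t * z * t⁻¹ = z := mul_inv_eq_iff_eq_mul.2 hzt.symm
  have htS : ScalRat F₀ (tgl Q t : Matrix ι ι F) :=
    hint hrat hB hM hn hS hMC hzM htM hzR (by rw [hzconj]; exact hzR) hzz hz1 hzk
  have htR : RatIso F₀ t :=
    ratIso_of_scal hs₀R (k := 4) (by rcases hs₀k with h | h <;> omega) (by omega) ht.symm htt htS
  exact hint hrat hB hM hn hS hMC hs₀M hg hs₀R htR hs₀s hs₀1 (by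
    rcases hs₀k with ⟨h, h'⟩ | h'
    · exact Or.inr h'
    · exact Or.inr (by omega))

omit hM hS

/-- The rational elements form a maximal subgroup. -/
theorem isMaximalIn_one {r : ℕ} (hr : r.Prime) (hcard : Nat.card F = Nat.card F₀ ^ r) :
    Cfsg.Geo.IsMaximalIn (Cfsg.Geo.omegaGL ⇑Q)
      (Cfsg.Geo.subfieldSubgroup F₀ (1 : GL ι F) ⊓ Cfsg.Geo.omegaGL ⇑Q) := by
  classical
  have hB₀ := nondeg₀ hrat hB
  have hn₀ := finrank₀ (ι := ι) (F₀ := F₀)
  have hiff : ∀ g : Witt.quadIso Q, OmegaBridge.toGL (f := ⇑Q) (fun _ => rfl) g ∈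
      Cfsg.Geo.subfieldSubgroup F₀ (1 : GL ι F) ↔ ScalRat F₀ (tgl Q g : Matrix ι ι F) := fun g => by
    rw [mem_subfieldSubgroup_iff, inv_one, one_mul, mul_one]; rfl
  refine OmegaBridge.isMaximalIn (f := ⇑Q) (fun _ => rfl) _ ?_ fun H hH g hgH hgC hgN => ?_
  · obtain ⟨l, hl⟩ := exists_not_mem_subfield hr hcard
    obtain ⟨x₀, hx₀⟩ := exists_outside hrat hB hn (![] : Fin 0 → ι → F₀) (by omega)
    obtain ⟨p, hp, -, hpx⟩ := SingularVectors.exists_sing (Q₀ hrat) hB₀ (![] : Fin 0 → ι → F₀)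
      (by omega) hx₀
    have hp0 : p ≠ 0 := by rintro rfl; simp at hpx
    have qp := (Q₀_zero_iff hrat p).1 hp
    obtain ⟨w, hw⟩ := exists_outside hrat hB hn ![p] (by omega)
    obtain ⟨u, hu, hur, -, hus⟩ :=
      SingularVectors.exists_sing_avoid (Q₀ hrat) hB₀ ![p] (by omega) hw ![p] (by omega)
    have qu := (Q₀_zero_iff hrat u).1 hu
    have hpu : β (co p) (co u) = 0 := by
      rw [Witt.polar_symm']; exact (polar_zero_iff hrat _ _).1 (hur 0)
    have hpl : β (co p) (l • co u) = 0 := by rw [map_smul, hpu, smul_zero]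
    refine ⟨siegel Q (co p) (l • co u),
      siegel_mem_commutator Q hB (by rw [Module.finrank_fintype_fun_eq_card]; omega) qp hpl, fun hN => ?_⟩
    obtain ⟨c, hc, hcR⟩ := (hiff _).1 hN
    set σ := siegel Q (co p) (l • co u) with hσ
    have key : ∀ v : ι → F₀, ∀ i, c * (σ.1 (co v)) i ∈ F₀ := fun v i => by
      rw [← tgl_mulVec, ← smul_eq_mul, ← Pi.smul_apply, ← smul_mulVec]
      exact F₀.sum_mem fun j _ => F₀.mul_mem (hcR i j) (v j).2
    obtain ⟨k, hk⟩ := Function.ne_iff.1 hp0
    have hk' : (p k : F) ≠ 0 := fun e => hk (Subtype.ext e)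
    have hcF : c ∈ F₀ := by
      have h1 := key p k
      rw [hσ, siegel_apply Q qp hpl, hpl, Witt.polar_self', qp] at h1
      have h2 := F₀.div_mem (show c * (p k : F) ∈ F₀ by simpa [co] using h1) (p k).2
      rwa [mul_div_cancel_right₀ _ hk'] at h2
    obtain ⟨z, hz⟩ := exists_values hrat hB (r := ![p, u]) (li_pair hp0 (fun hc => hus
      (Submodule.span_mono (by rintro _ rfl; exact ⟨0, rfl⟩) hc))) ![1, 0]
    have hzp : β (co z) (co p) = 1 := hz 0
    have hzu : β (co z) (co u) = 0 := hz 1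
    have hu0 : u ≠ 0 := fun h => hus (h ▸ zero_mem _)
    obtain ⟨j, hj⟩ := Function.ne_iff.1 hu0
    have hj' : (u j : F) ≠ 0 := fun e => hj (Subtype.ext e)
    have h1 := key z j
    rw [hσ, siegel_apply Q qp hpl, hzp, map_smul, hzu, Witt.quad_smul, qu] at h1
    have h2 : c * ((z j : F) + l * (u j : F)) ∈ F₀ := by simpa [co] using h1
    have h3 : (z j : F) + l * (u j : F) ∈ F₀ := by
      have := F₀.mul_mem (F₀.inv_mem hcF) h2
      rwa [inv_mul_cancel_left₀ hc] at this
    have h4 := F₀.div_mem (F₀.sub_mem h3 (z j).2) (u j).2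
    rw [add_sub_cancel_left, mul_div_cancel_right₀ _ hj'] at h4
    exact hl h4
  · set M := H ⊓ commutator (Witt.quadIso Q) with hMdef
    have hM : ∀ g : Witt.quadIso Q, g ∈ commutator (Witt.quadIso Q) →
        (∀ v : ι → F₀, ∃ w : ι → F₀, g.1 (co v) = co w) → g ∈ M := fun g hg hr' =>
      ⟨hH g hg ((hiff g).2 ⟨1, one_ne_zero, by rw [one_smul]; exact ratIso_of hr'⟩), hg⟩
    by_cases hS : ∀ c, Root M F₀ c → c ∈ F₀
    · exact absurd ((hiff g).2 (forall_scalRat hrat hB hM hn hS inf_le_right g ⟨hgH, hgC⟩)) hgN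
    · push Not at hS
      obtain ⟨c, hc, hcn⟩ := hS
      exact (commutator_le_of_root hrat hB hM hn (root_all hrat hB hM hn hr hcard hcn hc)).trans
        inf_le_left

end Cfsg.Lib.Classical.OrthSub
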