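import Mathlib
import Cfsg.Agent.Lib.Classical.OrthSubfieldMax
import Cfsg.Agent.Lib.Classical.SphereMod

/-!
Subfield groups are maximal in `omegaGL` for an arbitrary rational structure.
-/

set_option autoImplicit false

namespace Cfsg.Lib.Classical.OrthSub

open Module Matrix
open scoped MatrixGroups

/-- Maximality is preserved by an automorphism. -/
lemma isMaximalIn_map {A B : Type*} [Group A] [Group B] (e : A ≃* B) {K H : Subgroup A}
    (h : Cfsg.Geo.IsMaximalIn K H) :
    Cfsg.Geo.IsMaximalIn (K.map e.toMonoidHom) (H.map e.toMonoidHom) := by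
  have hinj : Function.Injective e.toMonoidHom := e.injective
  refine ⟨lt_of_le_of_ne (Subgroup.map_mono h.1.le) fun he => h.1.ne (Subgroup.map_injective hinj he),
    fun M hHM hMK => ?_⟩
  have hM : (M.comap e.toMonoidHom).map e.toMonoidHom = M :=
    Subgroup.map_comap_eq_self_of_surjective e.surjective M
  rcases h.2 (M.comap e.toMonoidHom) (Subgroup.map_le_iff_le_comap.1 hHM)
    (fun x hx => by
      obtain ⟨y, hy, hyx⟩ := hMK hx
      rwa [← hinj hyx]) with h' | h'
  · exact Or.inl (hM ▸ congrArg (Subgroup.map e.toMonoidHom) h')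
  · exact Or.inr (hM ▸ congrArg (Subgroup.map e.toMonoidHom) h')

variable {ι : Type} [Fintype ι] [DecidableEq ι] {F : Type*} [Field F]

lemma omegaGL_eq (f : (ι → F) → F) :
    Cfsg.Geo.omegaGL f = ⁅Cfsg.isometryGroup F f, Cfsg.isometryGroup F f⁆ :=
  Subgroup.map_subtype_commutator _

lemma mem_isometryGroup (f : (ι → F) → F) (g : GL ι F) :
    g ∈ Cfsg.isometryGroup F f ↔ ∀ v, f ((g : Matrix ι ι F) *ᵥ v) = f v :=
  ⟨fun h v => h v v, fun h v _ => h v⟩

variable {f f' : (ι → F) → F} {ζ : F} {P : GL ι F}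

lemma map_isometryGroup (hζ : ζ ≠ 0) (h : ∀ x, f' x = ζ * f ((P : Matrix ι ι F) *ᵥ x)) :
    (Cfsg.isometryGroup F f').map (MulAut.conj P).toMonoidHom = Cfsg.isometryGroup F f := by
  ext g
  constructor
  · rintro ⟨g', hg', rfl⟩
    rw [mem_isometryGroup]
    intro v
    have h1 := (mem_isometryGroup f' g').1 hg' (((P⁻¹ : GL ι F) : Matrix ι ι F) *ᵥ v)
    rw [h, h] at h1
    have h2 := mul_left_cancel₀ hζ h1
    rw [mulVec_mulVec, mulVec_mulVec, mulVec_mulVec, Units.mul_inv, one_mulVec] at h2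
    simpa [mul_assoc] using h2
  · intro hg
    refine ⟨P⁻¹ * g * P, (mem_isometryGroup f' _).2 fun x => ?_, by simp [mul_assoc]⟩
    rw [h, h, mulVec_mulVec, ← Units.val_mul, show P * (P⁻¹ * g * P) = g * P by group, Units.val_mul,
      ← mulVec_mulVec, (mem_isometryGroup f g).1 hg]

lemma map_subfieldSubgroup (F₀ : Subfield F) :
    (Cfsg.Geo.subfieldSubgroup F₀ (1 : GL ι F)).map (MulAut.conj P).toMonoidHom =
      Cfsg.Geo.subfieldSubgroup F₀ P := by
  rw [Cfsg.Geo.subfieldSubgroup, Cfsg.Geo.subfieldSubgroup, Subgroup.map_map]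
  congr 1
  ext x
  simp

/-- The elements of `omegaGL` in a subfield group form a maximal subgroup. -/
theorem isMaximalIn_subfield [Finite F] {F₀ : Subfield F} {Q : QuadraticForm F (ι → F)}
    (hQ : ∀ v, Q v = f v) (hB : (QuadraticMap.polarBilin Q).Nondegenerate) (hn : 13 ≤ Fintype.card ι)
    {r : ℕ} (hr : r.Prime) (hcard : Nat.card F = Nat.card F₀ ^ r) (hζ : ζ ≠ 0)
    (hP : Cfsg.Geo.IsQuadFormRationalStructure (fun v => ζ * f v) F₀ P) :
    Cfsg.Geo.IsMaximalIn (Cfsg.Geo.omegaGL f)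
      (Cfsg.Geo.subfieldSubgroup F₀ P ⊓ Cfsg.Geo.omegaGL f) := by
  let e : (ι → F) ≃ₗ[F] (ι → F) :=
    LinearMap.GeneralLinearGroup.generalLinearEquiv F _ (Matrix.GeneralLinearGroup.toLin P)
  have he : ∀ x, e x = (P : Matrix ι ι F) *ᵥ x := fun x => by simp [e]
  let Q' : QuadraticForm F (ι → F) := ζ • Q.comp e.toLinearMap
  have hQ' : ∀ x, Q' x = ζ * f ((P : Matrix ι ι F) *ᵥ x) := fun x => by
    simp [Q', hQ, he]
  have hB' : (QuadraticMap.polarBilin Q').Nondegenerate := by
    have h1 := QuadOrders.nondeg_comp e hB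
    refine QuadOrders.nondeg_of_left (fun x y => Witt.polar_symm' _ x y) fun x hx => h1.1 x fun y => ?_
    have h2 := hx y
    simp only [Q', QuadraticMap.polarBilin_apply_apply, QuadraticMap.polar, QuadraticMap.smul_apply,
      smul_eq_mul] at h2 ⊢
    rw [← mul_sub, ← mul_sub] at h2
    exact (mul_eq_zero.1 h2).resolve_left hζ
  have hrat : ∀ v : ι → F₀, Q' (co v) ∈ F₀ := fun v => by
    rw [hQ']; exact hP (co v) fun i => (v i).2
  have h := isMaximalIn_map (MulAut.conj P) (isMaximalIn_one hrat hB' hn hr hcard)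
  have hΩ : (Cfsg.Geo.omegaGL ⇑Q').map (MulAut.conj P).toMonoidHom = Cfsg.Geo.omegaGL f := by
    rw [omegaGL_eq, omegaGL_eq, Subgroup.map_commutator, map_isometryGroup hζ hQ']
  rwa [Subgroup.map_inf _ _ _ (MulAut.conj P).injective, hΩ, map_subfieldSubgroup] at h

end Cfsg.Lib.Classical.OrthSub
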