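import Mathlib
import Cfsg.Agent.Lib.Classical.OrthUnitaryField
import Cfsg.Agent.Lib.Classical.NotMax

/-!
The normaliser of a quadratic subfield with non-trivial adjoint involution is maximal in `omegaGL`.
-/

set_option autoImplicit false

namespace Cfsg.Lib.Classical.OrthUnitaryField

open Matrix Module SiegelElements
open scoped MatrixGroups

section gen

variable {ι : Type} [Fintype ι] [DecidableEq ι] {F : Type*} [Field F]

/-- A generator of a quadratic subfield of the matrix algebra. -/
theorem exists_gen [Nonempty ι] {K : Subalgebra F (Matrix ι ι F)}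
    (hK : Cfsg.Geo.IsFieldSubalgebra 2 K) :
    ∃ (J : Matrix ι ι F) (τ N : F), J ∈ K ∧ J * J = τ • J - N • (1 : Matrix ι ι F) ∧
      (∀ t : F, t * t - τ * t + N ≠ 0) ∧
      ∀ k ∈ K, ∃ a b : F, k = a • (1 : Matrix ι ι F) + b • J := by
  obtain ⟨k, hk, hks⟩ : ∃ k ∈ K, k ∉ Submodule.span F {(1 : Matrix ι ι F)} := by
    by_contra hc
    push Not at hc
    have h := Submodule.finrank_mono (s := Subalgebra.toSubmodule K) hc
    have h' : finrank F (Subalgebra.toSubmodule K) = 2 := hK.finrank_eq
    rw [h', finrank_span_singleton one_ne_zero] at h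
    omega
  have hli : LinearIndependent F ![(1 : Matrix ι ι F), k] := by
    rw [LinearIndependent.pair_iff' one_ne_zero]
    exact fun a ha => hks (ha ▸ Submodule.smul_mem _ a (Submodule.mem_span_singleton_self 1))
  have hsp : Submodule.span F (Set.range ![(1 : Matrix ι ι F), k]) = Subalgebra.toSubmodule K := by
    refine Submodule.eq_of_le_of_finrank_eq ?_ ?_
    · rw [Submodule.span_le]
      rintro x ⟨i, rfl⟩
      fin_cases i
      · exact K.one_mem
      · exact hk
    · rw [finrank_span_eq_card hli, Fintype.card_fin]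
      exact hK.finrank_eq.symm
  have hrep : ∀ x ∈ K, ∃ a b : F, x = a • (1 : Matrix ι ι F) + b • k := fun x hx => by
    have hx' : x ∈ Submodule.span F (Set.range ![(1 : Matrix ι ι F), k]) := hsp ▸ hx
    obtain ⟨c, hc⟩ := (Submodule.mem_span_range_iff_exists_fun F).1 hx'
    exact ⟨c 0, c 1, by rw [← hc, Fin.sum_univ_two]; rfl⟩
  obtain ⟨a, b, hkk⟩ := hrep (k * k) (K.mul_mem hk hk)
  refine ⟨k, b, -a, hk, by rw [hkk]; module, fun t ht => ?_, hrep⟩
  have h0 : (k - t • 1) * (k - (b - t) • 1) = 0 := by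
    simp only [mul_sub, sub_mul, mul_smul_comm, smul_mul_assoc, mul_one, one_mul, hkk]
    match_scalars
    · linear_combination -ht
    · ring
  by_cases h1 : k - t • (1 : Matrix ι ι F) = 0
  · exact hks (sub_eq_zero.1 h1 ▸ Submodule.smul_mem _ t (Submodule.mem_span_singleton_self 1))
  · obtain ⟨y, hy, hy1⟩ := hK.inv _ (K.sub_mem hk (K.smul_mem K.one_mem t)) h1
    have h3 : k - (b - t) • (1 : Matrix ι ι F) = 0 := by
      have h5 := congrArg (y * ·) h0
      simp only [mul_zero, ← mul_assoc] at h5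
      rwa [hK.comm y hy _ (K.sub_mem hk (K.smul_mem K.one_mem t)), hy1, one_mul] at h5
    exact hks (sub_eq_zero.1 h3 ▸ Submodule.smul_mem _ _ (Submodule.mem_span_singleton_self 1))

end gen

theorem maximal {F : Type*} [Field F] [Fintype F] {n : ℕ} (hn : 13 ≤ n) (heven : Even n)
    (f : (Fin n → F) → F) (hf : Cfsg.Geo.IsNondegenerateQuadraticForm f)
    (K : Subalgebra F (Matrix (Fin n) (Fin n) F)) (hK : Cfsg.Geo.IsFieldSubalgebra 2 K)
    (hac : Cfsg.Geo.IsAdjointClosedFor (QuadraticMap.polar f) K)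
    (hnsa : ¬ Cfsg.Geo.IsSelfAdjointFor (QuadraticMap.polar f) K)
    (hsc : ∀ k ∈ K, ∃ c : F, ∀ v : (Fin n → F), f (Matrix.mulVec k v) = c * f v) :
    Cfsg.Geo.IsMaximalIn (Cfsg.Geo.omegaGL f) (Cfsg.Geo.subalgebraNormalizer K ⊓ Cfsg.Geo.omegaGL f) := by
  have : Nonempty (Fin n) := ⟨⟨0, by omega⟩⟩
  have hfr : 14 ≤ finrank F (Fin n → F) := by
    obtain ⟨m, hm⟩ := heven
    rw [Module.finrank_fin_fun]
    omega
  set Q := NotMax.quadOf hf with hQdef
  have h : ∀ v, Q v = f v := fun v => rfl
  have hB := NotMax.quadOf_nondeg hf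
  have hpol : ∀ x y, QuadraticMap.polarBilin Q x y = QuadraticMap.polar f x y := fun x y => rfl
  have hsym : ∀ x y, QuadraticMap.polarBilin Q x y = QuadraticMap.polarBilin Q y x :=
    Witt.polar_symm' Q
  obtain ⟨A, τ, N, hAK, hAA, hroot, hrep⟩ := exists_gen hK
  set J := Matrix.toLin' A with hJdef
  have hJ : ∀ x, J x = A *ᵥ x := fun x => Matrix.toLin'_apply A x
  have hsq : ∀ x, J (J x) = τ • J x - N • x := fun x => by
    rw [hJ, hJ, mulVec_mulVec, hAA, sub_mulVec, smul_mulVec, smul_mulVec, one_mulVec]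
  obtain ⟨z, hz⟩ := exists_notMem (F := F) (![] : Fin 0 → Fin n → F) (by omega)
  have hz0 : z ≠ 0 := fun h => hz (h ▸ Submodule.zero_mem _)
  -- linear independence of `z` and `J z` for any nonzero `z`
  have hkill : ∀ p q : F, (∀ x y, p * QuadraticMap.polarBilin Q x y + q * QuadraticMap.polarBilin Q x (J y) = 0) →
      p = 0 ∧ q = 0 := by
    intro p q hpq
    have hv : p • z + q • J z = 0 := hB.2 _ fun x => by simpa using hpq x z
    by_contra hne
    have hq : q ≠ 0 := by
      intro hq
      rw [hq, zero_smul, add_zero, smul_eq_zero] at hv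
      exact hne ⟨hv.resolve_right hz0, hq⟩
    have hz1 : J z = (-p / q) • z := by
      rw [← inv_smul_smul₀ hq (J z), show q • J z = -(p • z) from eq_neg_of_add_eq_zero_right hv]
      module
    have h5 := hsq z
    rw [hz1, map_smul, hz1] at h5
    refine hroot (-p / q) ((smul_eq_zero.1 ?_).resolve_right hz0)
    linear_combination (norm := module) h5
  obtain ⟨A', hA'K, hadj⟩ := hac A hAK
  obtain ⟨u, w, rfl⟩ := hrep A' hA'K
  have hadjB : ∀ x y, QuadraticMap.polarBilin Q (J x) y =
      u * QuadraticMap.polarBilin Q x y + w * QuadraticMap.polarBilin Q x (J y) := fun x y => by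
    rw [hpol, hJ, hadj, ← hpol, add_mulVec, smul_mulVec, smul_mulVec, one_mulVec, map_add, map_smul,
      map_smul, ← hJ, smul_eq_mul, smul_eq_mul]
  have hns : ¬ (u = 0 ∧ w = 1) := by
    rintro ⟨rfl, rfl⟩
    refine hnsa fun k hk x y => ?_
    obtain ⟨a, b, rfl⟩ := hrep k hk
    simp only [← hpol, add_mulVec, smul_mulVec, one_mulVec, map_add, map_smul, LinearMap.add_apply,
      LinearMap.smul_apply, ← hJ, hadjB, zero_mul, zero_add, one_mul]
  obtain ⟨e1, e2⟩ : u + w * u = 0 ∧ w * w - 1 = 0 := hkill _ _ fun x y => by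
    have h1 := hadjB y x
    have h3 := hadjB x y
    rw [hsym (J y) x, hsym y x, hsym y (J x)] at h1
    linear_combination -h1 - w * h3
  have hw : w = -1 := by
    rcases mul_self_eq_one_iff.1 (sub_eq_zero.1 e2) with rfl | rfl
    · have hu : u ≠ 0 := fun hu => hns ⟨hu, rfl⟩
      have h2 : (2 : F) = 0 :=
        (mul_eq_zero.1 (show (2 : F) * u = 0 by linear_combination e1)).resolve_right hu
      linear_combination h2
    · rfl
  subst hw
  obtain ⟨e3, e4⟩ : u * u - τ * u = 0 ∧ 2 * (τ - u) = 0 := hkill _ _ fun x y => by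
    have h1 := hadjB (J x) y
    have h3 := hadjB x y
    have h4 := hadjB x (J y)
    simp only [hsq, map_sub, map_smul, LinearMap.sub_apply, LinearMap.smul_apply, smul_eq_mul] at h1 h4
    linear_combination -h1 + (τ - u) * h3 + h4
  have hu : u = τ := by
    rcases mul_eq_zero.1 (show u * (u - τ) = 0 by linear_combination e3) with hu | hu
    · subst hu
      by_cases h2 : (2 : F) = 0
      · exact absurd ⟨rfl, by linear_combination -h2⟩ hns
      · have := (mul_eq_zero.1 e4).resolve_left h2
        linear_combination -this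
    · exact sub_eq_zero.1 hu
  subst hu
  have hadj' : ∀ x y, QuadraticMap.polarBilin Q (J x) y =
      u * QuadraticMap.polarBilin Q x y - QuadraticMap.polarBilin Q x (J y) := fun x y => by
    rw [hadjB]; ring
  have hpolar : ∀ x y c, (∀ v, Q (J v) = c * Q v) →
      QuadraticMap.polarBilin Q (J x) (J y) = c * QuadraticMap.polarBilin Q x y := by
    intro x y c hc
    rw [QuadraticMap.polarBilin_apply_apply, QuadraticMap.polarBilin_apply_apply, QuadraticMap.polar,
      QuadraticMap.polar, ← map_add, hc, hc, hc]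
    ring
  have hquad : ∀ x, Q (J x) = N * Q x := by
    obtain ⟨c, hc⟩ := hsc A hAK
    have hc' : ∀ v, Q (J v) = c * Q v := fun v => by rw [h, h, hJ]; exact hc v
    have h6 := (hkill (N - c) 0 fun x y => by
      have h5 := hpolar x y c hc'
      have h7 := hadj' x (J y)
      rw [hsq, map_sub, map_smul, map_smul, smul_eq_mul, smul_eq_mul] at h7
      linear_combination h5 - h7).1
    intro x
    rw [hc', sub_eq_zero.1 h6]
  have hcross : ∀ x, QuadraticMap.polarBilin Q x (J x) = u * Q x := by
    obtain ⟨c, hc⟩ := hsc (1 + A) (K.add_mem K.one_mem hAK)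
    have hc' : ∀ v, Q (v + J v) = c * Q v := fun v => by
      rw [h, h, ← hc v, add_mulVec, one_mulVec, hJ]
    have h6 := (hkill (1 + u + N - c) 0 fun x y => by
      have h5 : QuadraticMap.polarBilin Q (x + J x) (y + J y) =
          c * QuadraticMap.polarBilin Q x y := by
        rw [QuadraticMap.polarBilin_apply_apply, QuadraticMap.polarBilin_apply_apply,
          QuadraticMap.polar, QuadraticMap.polar,
          show x + J x + (y + J y) = (x + y) + J (x + y) by rw [map_add]; abel, hc', hc', hc']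
        ring
      simp only [map_add, LinearMap.add_apply, hadj', hsq, map_sub, map_smul, smul_eq_mul] at h5
      linear_combination h5).1
    intro x
    have h5 := hc' x
    rw [Witt.quad_add, hquad] at h5
    linear_combination h5 - Q x * h6
  have D : Data Q J u N := ⟨hsq, hadj', hquad, hcross, hroot⟩
  -- transport
  set e := OrthMatrix.eI h with he
  have happ : ∀ (g : Witt.quadIso Q) (x : Fin n → F),
      (((e.symm g : Cfsg.isometryGroup F f) : GL (Fin n) F) : Matrix (Fin n) (Fin n) F) *ᵥ x = g.1 x := by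
    intro g x
    rw [← OrthMatrix.eI_apply h, ← he, MulEquiv.apply_symm_apply]
  have hmemO : ∀ g : Witt.quadIso Q, g ∈ commutator (Witt.quadIso Q) →
      ((e.symm g : Cfsg.isometryGroup F f) : GL (Fin n) F) ∈ Cfsg.Geo.omegaGL f := by
    intro g hg
    refine ⟨e.symm g, ?_, rfl⟩
    show e.symm g ∈ Cfsg.Omega F f
    rw [OrthMatrix.omega_eq h, Subgroup.mem_comap]
    show e (e.symm g) ∈ _
    rwa [MulEquiv.apply_symm_apply]
  have hnorm : ∀ g : GL (Fin n) F, g ∈ Cfsg.Geo.subalgebraNormalizer K → (∀ x, Q ((g : Matrix (Fin n) (Fin n) F) *ᵥ x) = Q x) →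
      (∀ x, J ((g : Matrix (Fin n) (Fin n) F) *ᵥ x) = (g : Matrix (Fin n) (Fin n) F) *ᵥ (J x)) ∨
      (∀ x, J ((g : Matrix (Fin n) (Fin n) F) *ᵥ x) = u • (g : Matrix (Fin n) (Fin n) F) *ᵥ x - (g : Matrix (Fin n) (Fin n) F) *ᵥ (J x)) := by
    intro g hg _
    obtain ⟨a, b, hab⟩ := hrep _ (((Cfsg.Geo.subalgebraNormalizer K).inv_mem hg A).1 hAK)
    rw [inv_inv] at hab
    have hJg : ∀ x, J ((g : Matrix (Fin n) (Fin n) F) *ᵥ x) =
        a • (g : Matrix (Fin n) (Fin n) F) *ᵥ x + b • (g : Matrix (Fin n) (Fin n) F) *ᵥ (J x) := by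
      intro x
      have h5 := congrArg ((g : Matrix (Fin n) (Fin n) F) * ·) hab
      simp only [← mul_assoc, Units.mul_inv, one_mul, mul_add, mul_smul_comm, mul_one] at h5
      rw [hJ, hJ, mulVec_mulVec, h5, add_mulVec, smul_mulVec, smul_mulVec, mulVec_mulVec]
    have hgz : (g : Matrix (Fin n) (Fin n) F) *ᵥ z ≠ 0 := mulVec_ne_zero g hz0
    have h5 := hsq ((g : Matrix (Fin n) (Fin n) F) *ᵥ z)
    rw [hJg, map_add, map_smul, map_smul, hJg, hJg (J z), hsq] at h5
    have hinj : ((a * a - b * b * N - u * a + N) • z + (b * (2 * a + b * u - u)) • J z) = 0 := by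
      apply (mulVec_inj g).1
      simp only [mulVec_add, mulVec_smul, mulVec_sub, mulVec_zero] at h5 ⊢
      linear_combination (norm := module) h5
    obtain ⟨k1, k2⟩ := eq_zero_of_pair D hz0 hinj
    have hb : b ≠ 0 := fun hb => hroot a (by rw [hb] at k1; linear_combination k1)
    rcases coeff_cases D hb k2 k1 with ⟨rfl, rfl⟩ | ⟨rfl, rfl⟩
    · exact Or.inl fun x => by rw [hJg]; module
    · exact Or.inr fun x => by rw [hJg]; module
  have hnorm' : ∀ g : GL (Fin n) F,
      ((∀ x, J ((g : Matrix (Fin n) (Fin n) F) *ᵥ x) = (g : Matrix (Fin n) (Fin n) F) *ᵥ (J x)) ∨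
      (∀ x, J ((g : Matrix (Fin n) (Fin n) F) *ᵥ x) = u • (g : Matrix (Fin n) (Fin n) F) *ᵥ x - (g : Matrix (Fin n) (Fin n) F) *ᵥ (J x))) →
      g ∈ Cfsg.Geo.subalgebraNormalizer K := by
    intro g hg
    have key : ∀ k ∈ K, (g : Matrix (Fin n) (Fin n) F) * k * ((g⁻¹ : GL (Fin n) F) : Matrix (Fin n) (Fin n) F) ∈ K ∧
        ((g⁻¹ : GL (Fin n) F) : Matrix (Fin n) (Fin n) F) * k * (g : Matrix (Fin n) (Fin n) F) ∈ K := by
      intro k hk
      obtain ⟨a, b, rfl⟩ := hrep k hk
      rcases hg with hg | hg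
      · have hc : A * (g : Matrix (Fin n) (Fin n) F) = (g : Matrix (Fin n) (Fin n) F) * A :=
          ext_mulVec fun x => by rw [← mulVec_mulVec, ← mulVec_mulVec, ← hJ, ← hJ, hg]
        constructor
        · simp only [mul_add, add_mul, mul_smul_comm, smul_mul_assoc, mul_one, Units.mul_inv, ← hc]
          rw [mul_assoc A, Units.mul_inv, mul_one]
          exact hk
        · simp only [mul_add, add_mul, mul_smul_comm, smul_mul_assoc, mul_one, Units.inv_mul,
            mul_assoc _ A, hc]
          rw [← mul_assoc _ _ A, Units.inv_mul, one_mul]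
          exact hk
      · have hc : A * (g : Matrix (Fin n) (Fin n) F) = u • (g : Matrix (Fin n) (Fin n) F) - (g : Matrix (Fin n) (Fin n) F) * A :=
          ext_mulVec fun x => by
            rw [← mulVec_mulVec, sub_mulVec, smul_mulVec, ← mulVec_mulVec, ← hJ, ← hJ, hg]
        have hc' : (g : Matrix (Fin n) (Fin n) F) * A = u • (g : Matrix (Fin n) (Fin n) F) - A * (g : Matrix (Fin n) (Fin n) F) := by
          rw [hc]; abel
        have hres : a • (1 : Matrix (Fin n) (Fin n) F) + b • (u • 1 - A) ∈ K :=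
          K.add_mem (K.smul_mem K.one_mem _) (K.smul_mem (K.sub_mem (K.smul_mem K.one_mem _) hAK) _)
        constructor
        · simp only [mul_add, add_mul, mul_smul_comm, smul_mul_assoc, mul_one, Units.mul_inv, hc',
            sub_mul]
          rw [mul_assoc A, Units.mul_inv, mul_one]
          exact hres
        · simp only [mul_add, add_mul, mul_smul_comm, smul_mul_assoc, mul_one, Units.inv_mul,
            mul_assoc _ A, hc, mul_sub]
          rw [← mul_assoc _ _ A, Units.inv_mul, one_mul]
          exact hres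
    refine fun k => ⟨fun hk => (key k hk).1, fun hk => ?_⟩
    have h5 := (key _ hk).2
    simpa [mul_assoc] using h5
  have hTmem : ∀ v, Q v = 0 → ∀ s : F,
      ((e.symm (siegel Q v (s • J v)) : Cfsg.isometryGroup F f) : GL (Fin n) F) ∈
        Cfsg.Geo.subalgebraNormalizer K ⊓ Cfsg.Geo.omegaGL f := by
    intro v hv s
    have hvJ : QuadraticMap.polarBilin Q v (s • J v) = 0 := by
      rw [map_smul, sing_cross D hv, smul_zero]
    refine ⟨hnorm' _ (Or.inl fun x => ?_), hmemO _ (siegel_mem_commutator Q hB (by omega) hv hvJ)⟩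
    rw [happ, happ, siegel_apply Q hv hvJ, siegel_apply Q hv hvJ]
    simp only [Witt.quad_smul, sing_J D hv, map_sub, map_add, map_smul, hsq, hadj', smul_eq_mul,
      hsym v x]
    module
  refine ⟨lt_of_le_of_ne inf_le_right fun heq => ?_, fun M hNM hMS => ?_⟩
  · -- some Siegel element does not normalise
    obtain ⟨z', hz'⟩ := exists_notMem (F := F) (![] : Fin 0 → Fin n → F) (by omega)
    obtain ⟨b, hb, -, hbz⟩ := SingularVectors.exists_sing Q hB (![] : Fin 0 → Fin n → F) (by omega) hz'
    have hb0 : b ≠ 0 := fun h => by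
      rw [h, map_zero, LinearMap.zero_apply] at hbz
      exact zero_ne_one hbz
    obtain ⟨z'', hz''⟩ := exists_notMem (F := F) ![b, J b] (by omega)
    obtain ⟨w, hw, hwr, -, hws⟩ := SingularVectors.exists_sing_avoid Q hB _ (by omega) hz''
      ![b, J b] (by omega)
    have hbw : QuadraticMap.polarBilin Q b w = 0 := by rw [hsym]; exact hwr 0
    have hbJw : QuadraticMap.polarBilin Q (J b) w = 0 := by rw [hsym]; exact hwr 1
    have hwK : ¬ InK J b w := notInK_of_avoid _ 0 1 rfl rfl hws
    have hE : ((e.symm (siegel Q b w) : Cfsg.isometryGroup F f) : GL (Fin n) F) ∈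
        Cfsg.Geo.subalgebraNormalizer K ⊓ Cfsg.Geo.omegaGL f :=
      heq.symm ▸ hmemO _ (siegel_mem_commutator Q hB (by omega) hb hbw)
    rcases hnorm _ hE.1 (fun x => by rw [happ]; exact (siegel Q b w).2 x) with hc | hc
    · have hspan : b ∉ Submodule.span F (Set.range ![w]) := by
        intro hm
        obtain ⟨c, hm⟩ := (Submodule.mem_span_range_iff_exists_fun F).1 hm
        simp only [Fin.sum_univ_one, Matrix.cons_val_zero] at hm
        exact hwK (inK_symm D hb0 ⟨c 0, 0, by rw [← hm]; simp⟩)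
      obtain ⟨x, hx, hxr, hxb⟩ := SingularVectors.exists_sing Q hB ![w] (by omega) hspan
      have := hc x
      rw [happ, happ, siegel_apply Q hb hbw, siegel_apply Q hb hbw, hw,
        show QuadraticMap.polarBilin Q x w = 0 from hxr 0, hxb] at this
      simp only [map_sub, map_add, map_smul] at this
      obtain ⟨-, -, -, k4⟩ := quad_indep D hb0 hwK
        (x := QuadraticMap.polarBilin Q (J x) w) (y := 0)
        (z := -QuadraticMap.polarBilin Q (J x) b) (w := 1)
        (by linear_combination (norm := module) this)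
      exact one_ne_zero k4
    · have := hc b
      have hbb : QuadraticMap.polarBilin Q b b = 0 := by rw [Witt.polar_self', hb, mul_zero]
      have hJbb : QuadraticMap.polarBilin Q (J b) b = 0 := by rw [hsym, sing_cross D hb]
      rw [happ, happ, siegel_apply Q hb hbw, siegel_apply Q hb hbw, hw, hbb, hbw, hJbb, hbJw] at this
      simp only [zero_smul, mul_zero, add_zero, sub_zero] at this
      obtain ⟨k1, k2⟩ := eq_zero_of_pair D hb0 (x := -u) (y := 2)
        (by linear_combination (norm := module) this)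
      exact disc_ne D (by linear_combination (2 * N) * k2 + u * k1)
  · by_cases hex : ∀ g ∈ M, g ∈ Cfsg.Geo.subalgebraNormalizer K
    · exact Or.inl (le_antisymm (fun g hg => ⟨hex g hg, hMS hg⟩) hNM)
    · push Not at hex
      obtain ⟨g, hgM, hgN⟩ := hex
      obtain ⟨g', -, hg'⟩ := hMS hgM
      obtain ⟨g'', rfl⟩ : ∃ g'', g' = e.symm g'' := ⟨e g', (e.symm_apply_apply g').symm⟩
      let H : Subgroup (Witt.quadIso Q) :=
        M.comap ((Cfsg.isometryGroup F f).subtype.comp e.symm.toMonoidHom)
      have hg'' : g'' ∈ H := by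
        show ((e.symm g'' : Cfsg.isometryGroup F f) : GL (Fin n) F) ∈ M
        exact (show ((e.symm g'' : Cfsg.isometryGroup F f) : GL (Fin n) F) = g from hg') ▸ hgM
      have hgx : ∀ x, (g : Matrix (Fin n) (Fin n) F) *ᵥ x = g''.1 x := fun x => by
        rw [← happ, show ((e.symm g'' : Cfsg.isometryGroup F f) : GL (Fin n) F) = g from hg']
      have hle := commutator_le D hB hfr (H := H) (fun v hv s => hNM (hTmem v hv s)) hg''
        (fun hc => hgN (hnorm' g (Or.inl fun x => by rw [hgx, hgx]; exact hc x)))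
        (fun hc => hgN (hnorm' g (Or.inr fun x => by rw [hgx, hgx]; exact hc x)))
      refine Or.inr (le_antisymm hMS ?_)
      rintro y ⟨y', hy', rfl⟩
      have hy'' : e y' ∈ commutator (Witt.quadIso Q) := by
        have := (OrthMatrix.omega_eq h).le hy'
        exact this
      have h5 : ((e.symm (e y') : Cfsg.isometryGroup F f) : GL (Fin n) F) ∈ M := hle hy''
      rw [MulEquiv.symm_apply_apply] at h5
      exact h5

end Cfsg.Lib.Classical.OrthUnitaryField
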