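import Mathlib
import Cfsg.Agent.Lib.Classical.OrthNondegStab

/-!
Overgroups of the stabiliser of an orthogonal decomposition into isometric subspaces of dimension at least three
in odd characteristic.
-/

set_option autoImplicit false

namespace Cfsg.Lib.Classical.OrthWreath

open Module SiegelElements OrthNondegStab

variable {F V : Type*} [Field F] [Finite F] [AddCommGroup V] [Module F V] [FiniteDimensional F V]
  (Q : QuadraticForm F V)

local notation "β" => QuadraticMap.polarBilin Q
local notation "perp" => fun S => LinearMap.BilinForm.orthogonal (QuadraticMap.polarBilin Q) S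

omit [Finite F] [FiniteDimensional F V] in
lemma siegel_smul {p u : V} (hp : Q p = 0) (hu : β p u = 0) {c : F} (hc : c ≠ 0) :
    siegel Q (c • p) u = siegel Q p (c • u) := by
  refine ext' Q fun x => ?_
  rw [siegel_apply Q (by rw [Witt.quad_smul, hp, mul_zero]) (by rw [map_smul, LinearMap.smul_apply, hu, smul_zero]),
    siegel_apply Q hp (by rw [map_smul, hu, smul_zero]), Witt.quad_smul, map_smul, map_smul, smul_eq_mul, smul_eq_mul]
  module

/-- Every multiple of the root element `(a, b)` lies in `H`. -/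
def Ln (H : Subgroup (Witt.quadIso Q)) (a b : V) : Prop :=
  Q a = 0 ∧ β a b = 0 ∧ ∀ c : F, siegel Q a (c • b) ∈ H

section lineLemmas

variable {Q} {H : Subgroup (Witt.quadIso Q)} {a b b' : V}

omit [Finite F] [FiniteDimensional F V]

lemma Ln.smul (h : Ln Q H a b) (c : F) : Ln Q H a (c • b) :=
  ⟨h.1, by rw [map_smul, h.2.1, smul_zero], fun d => by rw [smul_smul]; exact h.2.2 _⟩

lemma Ln.add (h : Ln Q H a b) (h' : Ln Q H a b') : Ln Q H a (b + b') :=
  ⟨h.1, by rw [map_add, h.2.1, h'.2.1, add_zero], fun c => by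
    rw [smul_add, ← siegel_mul Q h.1 (by rw [map_smul, h.2.1, smul_zero]) (by rw [map_smul, h'.2.1, smul_zero])]
    exact H.mul_mem (h.2.2 c) (h'.2.2 c)⟩

lemma Ln.sub (h : Ln Q H a b) (h' : Ln Q H a b') : Ln Q H a (b - b') := by
  have h1 := h.add (h'.smul (-1))
  rwa [neg_one_smul, ← sub_eq_add_neg] at h1

lemma Ln.of_smul {c : F} (hc : c ≠ 0) (h : Ln Q H a (c • b)) : Ln Q H a b := by
  have h1 := h.smul c⁻¹
  rwa [inv_smul_smul₀ hc] at h1

lemma Ln.map (h : Ln Q H a b) {g : Witt.quadIso Q} (hg : g ∈ H) : Ln Q H (g.1 a) (g.1 b) :=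
  ⟨by rw [g.2, h.1], by rw [Reflections.polar_apply, h.2.1], fun c => by
    rw [← map_smul, ← siegel_conj Q g h.1 (by rw [map_smul, h.2.1, smul_zero])]
    exact H.mul_mem (H.mul_mem hg (h.2.2 c)) (H.inv_mem hg)⟩

lemma Ln.swap (h : Ln Q H a b) (hb : Q b = 0) : Ln Q H b a :=
  ⟨hb, by rw [Witt.polar_symm', h.2.1], fun c => by
    by_cases hc : c = 0
    · rw [hc, zero_smul, siegel_zero Q hb]; exact one_mem H
    have hba : β b a = 0 := by rw [Witt.polar_symm', h.2.1]
    rw [siegel_swap Q hb (by rw [Witt.quad_smul, h.1, mul_zero]) (by rw [map_smul, hba, smul_zero]),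
      siegel_smul Q h.1 (by rw [map_neg, h.2.1, neg_zero]) hc, smul_neg, ← neg_smul]
    exact h.2.2 _⟩

end lineLemmas

/-- A fixed field element whose square avoids a given value. -/
lemma exists_sq_avoid (hq : 5 ≤ Nat.card F) (d : F) : ∃ s : F, s ≠ 0 ∧ s * s ≠ d := by
  classical
  haveI := Fintype.ofFinite F
  by_contra hcon
  push Not at hcon
  obtain ⟨r, hr⟩ : ∃ r : F, r * r = d := ⟨1, hcon 1 one_ne_zero⟩
  have h3 : (Finset.univ : Finset F).card ≤ ({0, r, -r} : Finset F).card :=
    Finset.card_le_card fun x _ => by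
      by_cases hx : x = 0
      · simp [hx]
      · rcases mul_self_eq_mul_self_iff.1 ((hcon x hx).trans hr.symm) with h | h <;> simp [h]
  have h4 := h3.trans Finset.card_le_three
  rw [Finset.card_univ, ← Nat.card_eq_fintype_card] at h4
  omega

omit [Finite F] in
/-- An anisotropic vector of a nondegenerate nonzero subspace. -/
lemma exists_aniso (h2 : (2 : F) ≠ 0) {P : Submodule F V} (hP : P ⊓ perp P = ⊥) (hP0 : 1 ≤ finrank F P) :
    ∃ y ∈ P, Q y ≠ 0 := by
  by_contra hcon
  push Not at hcon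
  have : P ≤ P ⊓ perp P := fun x hx => ⟨hx, (OrthNondegStab.mem_perp Q).2 fun y hy => by
    rw [QuadraticMap.polarBilin_apply_apply, QuadraticMap.polar, hcon _ (P.add_mem hy hx), hcon _ hy, hcon _ hx]
    ring⟩
  rw [hP, le_bot_iff] at this
  rw [this, finrank_bot] at hP0
  omega

omit [Finite F] in
/-- Cutting by an anisotropic vector. -/
lemma cut (h2 : (2 : F) ≠ 0) {P : Submodule F V} (hP : P ⊓ perp P = ⊥) {y : V} (hy : y ∈ P) (hQy : Q y ≠ 0) :
    (P ⊓ perp (Submodule.span F {y})) ⊓ perp (P ⊓ perp (Submodule.span F {y})) = ⊥ ∧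
      finrank F (P ⊓ perp (Submodule.span F {y}) : Submodule F V) + 1 = finrank F P ∧
      ∀ x ∈ P, β y x = 0 → x ∈ P ⊓ perp (Submodule.span F {y}) := by
  have hmem : ∀ x ∈ P, β y x = 0 → x ∈ P ⊓ perp (Submodule.span F {y}) := fun x hx hyx =>
    ⟨hx, (OrthNondegStab.mem_perp Q).2 fun z hz => by
      obtain ⟨c, rfl⟩ := Submodule.mem_span_singleton.1 hz
      rw [map_smul, LinearMap.smul_apply, hyx, smul_zero]⟩
  have hyy : β y y ≠ 0 := by rw [Witt.polar_self']; exact mul_ne_zero h2 hQy
  have hself : ∀ x ∈ perp (Submodule.span F {y}), β y x = 0 := fun x hx =>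
    (OrthNondegStab.mem_perp Q).1 hx y (Submodule.mem_span_singleton_self y)
  have hsplit : (P ⊓ perp (Submodule.span F {y})) ⊔ Submodule.span F {y} = P := by
    refine le_antisymm (sup_le inf_le_left ((Submodule.span_singleton_le_iff_mem _ _).2 hy)) fun x hx => ?_
    refine Submodule.mem_sup.2 ⟨x - ((β y y)⁻¹ * β y x) • y, hmem _ (P.sub_mem hx (P.smul_mem _ hy)) ?_,
      _, Submodule.smul_mem _ _ (Submodule.mem_span_singleton_self y), sub_add_cancel _ _⟩
    rw [map_sub, map_smul, smul_eq_mul]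
    field_simp
    ring
  have hdisj : (P ⊓ perp (Submodule.span F {y})) ⊓ Submodule.span F {y} = ⊥ := by
    refine (Submodule.eq_bot_iff _).2 fun x hx => ?_
    obtain ⟨c, rfl⟩ := Submodule.mem_span_singleton.1 hx.2
    have h1 := hself _ hx.1.2
    rw [map_smul, smul_eq_mul, mul_eq_zero, or_iff_left hyy] at h1
    rw [h1, zero_smul]
  refine ⟨(Submodule.eq_bot_iff _).2 fun x hx => ?_, ?_, hmem⟩
  · refine (Submodule.eq_bot_iff _).1 hP x ⟨hx.1.1, (OrthNondegStab.mem_perp Q).2 fun z hz => ?_⟩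
    rw [← hsplit] at hz
    obtain ⟨u, hu, w, hw, rfl⟩ := Submodule.mem_sup.1 hz
    rw [map_add, LinearMap.add_apply, (OrthNondegStab.mem_perp Q).1 hx.2 u hu, zero_add]
    exact (OrthNondegStab.mem_perp Q).1 hx.1.2 w hw
  · have h := Submodule.finrank_sup_add_finrank_inf_eq (P ⊓ perp (Submodule.span F {y})) (Submodule.span F {y})
    rw [hsplit, hdisj, finrank_bot, finrank_span_singleton (fun h => hQy (by rw [h, QuadraticMap.map_zero]))] at h
    omega

/-- A nondegenerate subspace of dimension at least two represents every nonzero value. -/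
lemma exists_level (h2 : (2 : F) ≠ 0) {P : Submodule F V} (hP : P ⊓ perp P = ⊥) (hP2 : 2 ≤ finrank F P) {c : F}
    (hc : c ≠ 0) : ∃ z ∈ P, Q z = c := by
  haveI := Fintype.ofFinite F
  have hodd : Fintype.card F % 2 = 1 := by
    refine FiniteField.odd_card_of_char_ne_two fun hch => h2 ?_
    have := hch ▸ (ringChar.Nat.cast_ringChar (R := F))
    exact_mod_cast this
  obtain ⟨y, hy, hQy⟩ := exists_aniso Q h2 hP (by omega)
  obtain ⟨hP', hd, -⟩ := cut Q h2 hP hy hQy
  obtain ⟨w, hw, hQw⟩ := exists_aniso Q h2 hP' (by omega)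
  obtain ⟨r, s, hrs⟩ := FiniteField.exists_root_sum_quadratic
    (f := (Polynomial.C (Q y) * Polynomial.X ^ 2 + Polynomial.C (-c) : Polynomial F))
    (g := Polynomial.C (Q w) * Polynomial.X ^ 2)
    (by rw [Polynomial.degree_add_C (by rw [Polynomial.degree_C_mul_X_pow 2 hQy]; decide),
          Polynomial.degree_C_mul_X_pow 2 hQy]; rfl)
    (by rw [Polynomial.degree_C_mul_X_pow 2 hQw]; rfl) hodd
  refine ⟨r • y + s • w, P.add_mem (P.smul_mem _ hy) (P.smul_mem _ hw.1), ?_⟩
  simp only [Polynomial.eval_add, Polynomial.eval_mul, Polynomial.eval_C, Polynomial.eval_pow,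
    Polynomial.eval_X] at hrs
  rw [Witt.quad_add, Witt.quad_smul, Witt.quad_smul, map_smul, map_smul, LinearMap.smul_apply,
    (OrthNondegStab.mem_perp Q).1 hw.2 y (Submodule.mem_span_singleton_self y)]
  linear_combination (norm := (simp only [smul_eq_mul]; ring)) hrs

/-- A vector orthogonal to a given anisotropic one which can be added to it. -/
lemma exists_mix (h2 : (2 : F) ≠ 0) {P : Submodule F V} (hP : P ⊓ perp P = ⊥) (hP2 : 2 ≤ finrank F P)
    (hq : 3 ≤ finrank F P ∨ 5 ≤ Nat.card F) {x : V} (hx : x ∈ P) (hQx : Q x ≠ 0) :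
    ∃ y ∈ P, β x y = 0 ∧ Q y ≠ 0 ∧ Q x + Q y ≠ 0 := by
  obtain ⟨hP', hd, -⟩ := cut Q h2 hP hx hQx
  have hperp : ∀ y ∈ P ⊓ perp (Submodule.span F {x}), β x y = 0 := fun y hy =>
    (OrthNondegStab.mem_perp Q).1 hy.2 x (Submodule.mem_span_singleton_self x)
  rcases hq with h3 | h5
  · obtain ⟨y, hy, hQy⟩ := exists_level Q h2 hP' (by omega) hQx
    refine ⟨y, hy.1, hperp y hy, hQy ▸ hQx, ?_⟩
    rw [hQy, ← two_mul]
    exact mul_ne_zero h2 hQx
  · obtain ⟨y, hy, hQy⟩ := exists_aniso Q h2 hP' (by omega)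
    obtain ⟨s, hs, hsd⟩ := exists_sq_avoid h5 (-Q x / Q y)
    refine ⟨s • y, P.smul_mem _ hy.1, by rw [map_smul, hperp y hy, smul_zero], ?_, fun h => hsd ?_⟩
    · rw [Witt.quad_smul]; exact mul_ne_zero (mul_ne_zero hs hs) hQy
    · rw [Witt.quad_smul] at h
      field_simp
      linear_combination h

/-- Two vectors of equal value are seen differently by any nonzero vector. -/
lemma exists_two_levels (h2 : (2 : F) ≠ 0) {P : Submodule F V} (hP : P ⊓ perp P = ⊥) (hP2 : 2 ≤ finrank F P)
    (hq : 3 ≤ finrank F P ∨ 5 ≤ Nat.card F) {y : V} (hy : y ∈ P) (hy0 : y ≠ 0) {c : F} (hc : c ≠ 0) :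
    ∃ z ∈ P, ∃ z' ∈ P, Q z = c ∧ Q z' = c ∧ β z y • z ≠ β z' y • z' := by
  by_contra hcon
  push Not at hcon
  obtain ⟨z, hz, hQz⟩ := exists_level Q h2 hP hP2 hc
  have hz0 : z ≠ 0 := fun h => hc (by rw [← hQz, h, QuadraticMap.map_zero])
  by_cases hzy : β z y = 0
  · -- every vector of that value is orthogonal to `y`
    have hall : ∀ w ∈ P, Q w = c → β w y = 0 := fun w hw hQw => by
      have h := hcon z hz w hw hQz hQw
      rw [hzy, zero_smul, eq_comm, smul_eq_zero] at h
      exact h.resolve_right fun h0 => hc (by rw [← hQw, h0, QuadraticMap.map_zero])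
    obtain ⟨u, hu, huy⟩ : ∃ u ∈ P, β u y ≠ 0 := by
      by_contra hno
      push Not at hno
      exact hy0 ((Submodule.eq_bot_iff _).1 hP y ⟨hy, (OrthNondegStab.mem_perp Q).2 hno⟩)
    have hmix : ∀ w ∈ P, Q w ≠ 0 → β w z ≠ 0 → β w y = 0 := fun w hw hQw hwz => by
      have hQr : Q ((Reflections.refl Q w).1 z) = c := by rw [(Reflections.refl Q w).2, hQz]
      have h := hall _ (by rw [Reflections.refl_apply]; exact P.sub_mem hz (P.smul_mem _ hw)) hQr
      rw [Reflections.refl_apply, map_sub, LinearMap.sub_apply, map_smul, LinearMap.smul_apply, hzy, smul_eq_mul,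
        zero_sub, neg_eq_zero, mul_eq_zero] at h
      exact h.resolve_left (mul_ne_zero (inv_ne_zero hQw) hwz)
    obtain ⟨hP', -, hmem⟩ := cut Q h2 hP hz (by rw [hQz]; exact hc)
    obtain ⟨v, hv, hzv, hQv, hzQv⟩ := exists_mix Q h2 hP hP2 hq hz (by rw [hQz]; exact hc)
    have hvy : β v y = 0 := by
      have h := hmix (z + v) (P.add_mem hz hv) (by rw [Witt.quad_add, hzv, add_zero]; exact hzQv) (by
        rw [map_add, LinearMap.add_apply, Witt.polar_self', Witt.polar_symm' Q v z, hzv, hQz, add_zero]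
        exact mul_ne_zero h2 hc)
      rwa [map_add, LinearMap.add_apply, hzy, zero_add] at h
    -- every vector orthogonal to `z`
    have hperp : ∀ w ∈ P, β z w = 0 → β w y = 0 := by
      intro w hw hzw
      by_cases hbad : Q z + Q w = 0
      · have h := hmix (z + v + w) (P.add_mem (P.add_mem hz hv) hw)
        simp only [map_add, LinearMap.add_apply, hzy, hvy, add_zero, zero_add] at h
        by_cases hs : Q (z + v + w) = 0
        · have h' := hmix (z + v - w) (P.sub_mem (P.add_mem hz hv) hw) (fun h' => hQv ?_) (by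
            rw [map_sub, map_add, LinearMap.sub_apply, LinearMap.add_apply, Witt.polar_self',
              Witt.polar_symm' Q v z, hzv, Witt.polar_symm' Q w z, hzw, hQz, add_zero, sub_zero]
            exact mul_ne_zero h2 hc)
          · rw [map_sub, map_add, LinearMap.sub_apply, LinearMap.add_apply, hzy, hvy, add_zero, zero_sub,
              neg_eq_zero] at h'
            exact h'
          · rw [Witt.quad_add, Witt.quad_add, map_add, LinearMap.add_apply, hzw, hzv, zero_add] at hs
            rw [sub_eq_add_neg, Witt.quad_add, Witt.quad_add, QuadraticMap.map_neg, map_neg, map_add,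
              LinearMap.add_apply, hzw, hzv, zero_add] at h'
            refine mul_left_cancel₀ h2 ?_
            linear_combination hs + h' - 2 * hbad
        · exact h hs (by
            rw [Witt.polar_self', Witt.polar_symm' Q v z, hzv, Witt.polar_symm' Q w z, hzw, hQz, add_zero,
              add_zero]
            exact mul_ne_zero h2 hc)
      · have h := hmix (z + w) (P.add_mem hz hw) (by rw [Witt.quad_add, hzw, add_zero]; exact hbad) (by
          rw [map_add, LinearMap.add_apply, Witt.polar_self', Witt.polar_symm' Q w z, hzw, hQz, add_zero]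
          exact mul_ne_zero h2 hc)
        rwa [map_add, LinearMap.add_apply, hzy, zero_add] at h
    refine huy ?_
    have h := hperp (u - ((2 * c)⁻¹ * β z u) • z) (P.sub_mem hu (P.smul_mem _ hz)) (by
      rw [map_sub, map_smul, Witt.polar_self', hQz, smul_eq_mul]
      field_simp
      ring)
    rwa [map_sub, LinearMap.sub_apply, map_smul, LinearMap.smul_apply, hzy, smul_zero, sub_zero] at h
  · -- every vector of that value is proportional to `z`
    obtain ⟨v, hv, hzv, hQv, hzQv⟩ := exists_mix Q h2 hP hP2 hq hz (by rw [hQz]; exact hc)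
    have hQs : Q (z + v) ≠ 0 := by rw [Witt.quad_add, hzv, add_zero]; exact hzQv
    have h := hcon z hz _ (by rw [Reflections.refl_apply]; exact P.sub_mem hz (P.smul_mem _ (P.add_mem hz hv)))
      hQz ((Reflections.refl Q (z + v)).2 z |>.trans hQz)
    set d := (Q (z + v))⁻¹ * β (z + v) z with hd
    have hd0 : d ≠ 0 := mul_ne_zero (inv_ne_zero hQs) (by
      rw [map_add, LinearMap.add_apply, Witt.polar_self', Witt.polar_symm' Q v z, hzv, hQz, add_zero]
      exact mul_ne_zero h2 hc)
    rw [Reflections.refl_apply, ← hd] at h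
    -- compare the components along `v`
    have h' := congrArg (β v) h
    have hvz : β v z = 0 := by rw [Witt.polar_symm', hzv]
    simp only [map_sub, map_smul, map_add, hvz, Witt.polar_self', LinearMap.sub_apply, LinearMap.smul_apply,
      LinearMap.add_apply, smul_eq_mul, mul_zero, zero_sub, zero_add] at h'
    have hy' : β z y - d * (β z y + β v y) = 0 := by
      by_contra hne
      exact mul_ne_zero hne (neg_ne_zero.2 (mul_ne_zero hd0 (mul_ne_zero h2 hQv))) h'.symm
    rw [map_sub, LinearMap.sub_apply, map_smul, LinearMap.smul_apply, map_add, LinearMap.add_apply,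
      smul_eq_mul, hy', zero_smul, smul_eq_zero] at h
    exact (h.resolve_right hz0 |> hzy)

variable (hB : (QuadraticMap.polarBilin Q).Nondegenerate) (hn : 13 ≤ finrank F V) (h2 : (2 : F) ≠ 0)
  {t : ℕ} {D : Fin t → Submodule F V} {k : ℕ} (hk : 3 ≤ k) (hd : ∀ i, finrank F (D i) = k)
  (hnd : ∀ i, D i ⊓ LinearMap.BilinForm.orthogonal (QuadraticMap.polarBilin Q) (D i) = ⊥)
  (horth : ∀ i j, i ≠ j → ∀ x ∈ D i, ∀ y ∈ D j, QuadraticMap.polarBilin Q x y = 0) (htop : iSup D = ⊤)
  (hiso : ∀ i j, ∃ e : D i ≃ₗ[F] D j, ∀ w : D i, Q (e w : V) = Q (w : V))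
  (hq : 4 ≤ k ∨ 5 ≤ Nat.card F) {H : Subgroup (Witt.quadIso Q)}
  (hH : ∀ g ∈ commutator (Witt.quadIso Q),
    (∃ π : Equiv.Perm (Fin t), ∀ i, ∀ x ∈ D i, g.1 x ∈ D (π i)) → g ∈ H)

omit [Finite F] [FiniteDimensional F V] in
include htop in
lemma ext_zero (hB : (QuadraticMap.polarBilin Q).Nondegenerate) {x : V}
    (h : ∀ i, ∀ y ∈ D i, β y x = 0) : x = 0 := by
  refine hB.2 x fun y => ?_
  have hy : y ∈ iSup D := htop ▸ Submodule.mem_top
  induction hy using Submodule.iSup_induction' with
  | mem i y hy => exact h i y hy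
  | zero => simp
  | add a b _ _ ha hb => rw [map_add, LinearMap.add_apply, ha, hb, add_zero]

omit [Finite F] in
include hB hnd in
lemma exists_comp (i : Fin t) (x : V) : ∃ c ∈ D i, ∀ y ∈ D i, β y x = β y c := by
  obtain ⟨a, ha, b, hb, rfl⟩ := decompose Q hB (hnd i) x
  exact ⟨a, ha, fun y hy => by rw [map_add, (OrthNondegStab.mem_perp Q).1 hb y hy, add_zero]⟩

omit [Finite F] in
include hB horth htop hnd in
lemma mem_of_perp {i : Fin t} {x : V} (h : ∀ j, j ≠ i → ∀ y ∈ D j, β y x = 0) : x ∈ D i := by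
  obtain ⟨c, hc, hcx⟩ := exists_comp Q hB hnd i x
  have h0 : x - c = 0 := ext_zero Q htop hB fun j y hy => by
    rw [map_sub]
    by_cases hj : j = i
    · subst hj; rw [hcx y hy, sub_self]
    · rw [h j hj y hy, horth j i hj y hy c hc, sub_self]
  rw [sub_eq_zero.1 h0]
  exact hc

include hB hn h2 hk hd hnd horth htop hiso hq hH

/-- Root elements inside one member. -/
lemma root_mem {m : Fin t} {p v : V} (hp : p ∈ D m) (hv : v ∈ D m) (hQp : Q p = 0) (hpv : β p v = 0) :
    siegel Q p v ∈ H :=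
  hH _ (siegel_mem_commutator Q hB (by omega) hQp hpv) ⟨1, fun i x hx => by
    rw [Equiv.Perm.one_apply, siegel_apply Q hQp hpv]
    by_cases hi : i = m
    · subst hi; exact (D i).sub_mem ((D i).add_mem hx ((D i).smul_mem _ hv)) ((D i).smul_mem _ hp)
    · rw [horth i m hi x hx p hp, horth i m hi x hx v hv]; simpa using hx⟩

/-- The second difference of conjugation by root elements. -/
lemma ln_root {a b : V} (h : Ln Q H a b) {m : Fin t} {p : V} (hp : p ∈ D m) (hQp : Q p = 0) (hap : β a p = 0)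
    (hav : ∀ v ∈ D m, β p v = 0 → β a v = 0) (hbp : β b p ≠ 0) : Ln Q H a p := by
  by_cases hp0 : p = 0
  · exact absurd (by rw [hp0, map_zero]) hbp
  obtain ⟨q, hq', hQq, hpq⟩ := exists_pair Q hB (hnd m) hp hQp hp0
  -- an anisotropic vector orthogonal to the hyperbolic pair
  obtain ⟨v, hv, hpv, hQv⟩ : ∃ v ∈ D m, β p v = 0 ∧ Q v ≠ 0 := by
    by_contra hcon
    push Not at hcon
    have hpe : p + q ∈ D m := (D m).add_mem hp hq'
    have hQe : Q (p + q) ≠ 0 := by rw [Witt.quad_add, hQp, hQq, hpq]; simp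
    obtain ⟨hP', hd', -⟩ := cut Q h2 (hnd m) hpe hQe
    have hmm : q - p ∈ D m ⊓ perp (Submodule.span F {p + q}) := ⟨(D m).sub_mem hq' hp,
      (OrthNondegStab.mem_perp Q).2 fun z hz => by
        obtain ⟨c, rfl⟩ := Submodule.mem_span_singleton.1 hz
        simp only [map_smul, map_add, map_sub, LinearMap.add_apply, LinearMap.smul_apply, Witt.polar_self', hQp,
          hQq, hpq, Witt.polar_symm' Q q p, smul_eq_mul]
        ring⟩
    obtain ⟨hP'', hd'', -⟩ := cut Q h2 hP' hmm (by
      rw [sub_eq_add_neg, Witt.quad_add, QuadraticMap.map_neg, hQp, hQq, map_neg, Witt.polar_symm' Q q p, hpq]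
      simp)
    rw [hd] at hd'
    obtain ⟨v, hv, hQv⟩ := exists_aniso Q h2 hP'' (by omega)
    have e1 := (OrthNondegStab.mem_perp Q).1 hv.1.2 _ (Submodule.mem_span_singleton_self _)
    have e2 := (OrthNondegStab.mem_perp Q).1 hv.2 _ (Submodule.mem_span_singleton_self _)
    rw [map_add, LinearMap.add_apply] at e1
    rw [map_sub, LinearMap.sub_apply] at e2
    exact hQv (hcon v hv.1.1 (mul_left_cancel₀ h2 (by linear_combination e1 - e2)))
  have hd1 : ∀ w ∈ D m, β p w = 0 → Ln Q H a (β b p • w - (β b w + Q w * β b p) • p) := by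
    intro w hw hpw
    have h1 := h.map (root_mem Q hB hn h2 hk hd hnd horth htop hiso hq hH hp hw hQp hpw)
    rw [siegel_apply Q hQp hpw a, hap, hav w hw hpw, mul_zero, add_zero, zero_smul, zero_smul, add_zero,
      sub_zero, siegel_apply Q hQp hpw b] at h1
    convert h1.sub h using 1
    abel
  have h3 := ((hd1 (v + v) ((D m).add_mem hv hv) (by rw [map_add, hpv, add_zero])).sub (hd1 v hv hpv)).sub
    (hd1 v hv hpv)
  refine Ln.of_smul (c := -(β b p * (2 * Q v))) (neg_ne_zero.2 (mul_ne_zero hbp (mul_ne_zero h2 hQv))) ?_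
  convert h3 using 1
  rw [Witt.quad_add, Witt.polar_self', map_add]
  module

/-- The first difference of conjugation by root elements. -/
lemma ln_root' {a b : V} (h : Ln Q H a b) {m : Fin t} {p v : V} (hp : p ∈ D m) (hv : v ∈ D m) (hQp : Q p = 0)
    (hpv : β p v = 0) (hap : β a p = 0) (hav : β a v = 0) (hbp : β b p = 0) (hbv : β b v ≠ 0) :
    Ln Q H a p := by
  have h1 := h.map (root_mem Q hB hn h2 hk hd hnd horth htop hiso hq hH hp hv hQp hpv)
  rw [siegel_apply Q hQp hpv a, hap, hav, mul_zero, add_zero, zero_smul, zero_smul, add_zero, sub_zero,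
    siegel_apply Q hQp hpv b, hbp, zero_smul, add_zero, mul_zero, add_zero] at h1
  refine Ln.of_smul (c := -β b v) (neg_ne_zero.2 hbv) ?_
  convert h1.sub h using 1
  module

omit hH in
/-- A transposition of members, corrected inside a third one. -/
lemma exists_perm {m l j : Fin t} (hlm : l ≠ m) (hjm : j ≠ m) (hlj : l ≠ j) :
    ∃ g ∈ commutator (Witt.quadIso Q), (∃ π : Equiv.Perm (Fin t), ∀ i, ∀ x ∈ D i, g.1 x ∈ D (π i)) ∧
      (∀ x ∈ D m, g.1 x ∈ D m) ∧ ∀ y ∈ D j, ∃ x ∈ D l, g.1 x = y := by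
  obtain ⟨e, he⟩ := hiso l j
  have hc : ∀ i, IsCompl (D i) (perp (D i)) := fun i => ⟨disjoint_iff.2 (hnd i),
    codisjoint_iff.2 (Submodule.eq_top_iff'.2 fun x => by
      obtain ⟨a, ha, b, hb, rfl⟩ := decompose Q hB (hnd i) x
      exact Submodule.add_mem_sup ha hb)⟩
  let pl := (D l).projectionOnto _ (hc l)
  let pj := (D j).projectionOnto _ (hc j)
  let f : V →ₗ[F] V := LinearMap.id - (D l).subtype ∘ₗ pl - (D j).subtype ∘ₗ pj
    + (D j).subtype ∘ₗ (e : D l →ₗ[F] D j) ∘ₗ pl + (D l).subtype ∘ₗ (e.symm : D j →ₗ[F] D l) ∘ₗ pj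
  have hf : ∀ x, f x = x - (pl x : V) - (pj x : V) + (e (pl x) : V) + (e.symm (pj x) : V) := fun x => rfl
  have hpl : ∀ x (y : D l), β (y : V) x = β (y : V) (pl x : V) := fun x y => by
    have hx := fun b hb => (Submodule.projectionOnto_apply_eq_zero_iff (hc l) (x := b)).2 hb
    obtain ⟨a, ha, b, hb, rfl⟩ := decompose Q hB (hnd l) x
    rw [map_add pl, Submodule.projectionOnto_apply_left (hc l) ⟨a, ha⟩, hx b hb, add_zero, map_add,
      (OrthNondegStab.mem_perp Q).1 hb _ y.2, add_zero]
  have hpj : ∀ x (y : D j), β (y : V) x = β (y : V) (pj x : V) := fun x y => by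
    have hx := fun b hb => (Submodule.projectionOnto_apply_eq_zero_iff (hc j) (x := b)).2 hb
    obtain ⟨a, ha, b, hb, rfl⟩ := decompose Q hB (hnd j) x
    rw [map_add pj, Submodule.projectionOnto_apply_left (hc j) ⟨a, ha⟩, hx b hb, add_zero, map_add,
      (OrthNondegStab.mem_perp Q).1 hb _ y.2, add_zero]
  have hfl : ∀ x ∈ D l, f x = (e (pl x) : V) ∧ (pl x : V) = x := fun x hx => by
    have h1 : (pl x : V) = x :=
      congrArg Subtype.val (Submodule.projectionOnto_apply_left (hc l) ⟨x, hx⟩)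
    have h0 : pj x = 0 := (Submodule.projectionOnto_apply_eq_zero_iff (hc j)).2
      ((OrthNondegStab.mem_perp Q).2 fun y hy => horth j l hlj.symm y hy x hx)
    refine ⟨?_, h1⟩
    rw [hf, h1, h0, map_zero]
    simp
  have hfj : ∀ x ∈ D j, f x = (e.symm (pj x) : V) ∧ (pj x : V) = x := fun x hx => by
    have h1 : (pj x : V) = x :=
      congrArg Subtype.val (Submodule.projectionOnto_apply_left (hc j) ⟨x, hx⟩)
    have h0 : pl x = 0 := (Submodule.projectionOnto_apply_eq_zero_iff (hc l)).2
      ((OrthNondegStab.mem_perp Q).2 fun y hy => horth l j hlj y hy x hx)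
    refine ⟨?_, h1⟩
    rw [hf, h1, h0, map_zero]
    simp
  have hfo : ∀ i, i ≠ l → i ≠ j → ∀ x ∈ D i, f x = x := fun i hil hij x hx => by
    have h0 : pl x = 0 := (Submodule.projectionOnto_apply_eq_zero_iff (hc l)).2
      ((OrthNondegStab.mem_perp Q).2 fun y hy => horth l i hil.symm y hy x hx)
    have h1 : pj x = 0 := (Submodule.projectionOnto_apply_eq_zero_iff (hc j)).2
      ((OrthNondegStab.mem_perp Q).2 fun y hy => horth j i hij.symm y hy x hx)
    rw [hf, h0, h1, map_zero, map_zero]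
    simp
  have hQf : ∀ x, Q (f x) = Q x := by
    intro x
    set r := x - (pl x : V) - (pj x : V) with hr
    have hrl : ∀ y : D l, β (y : V) r = 0 := fun y => by
      rw [hr, map_sub, map_sub, hpl, horth l j hlj _ y.2 _ (pj x).2, sub_self, sub_zero]
    have hrj : ∀ y : D j, β (y : V) r = 0 := fun y => by
      rw [hr, map_sub, map_sub, hpj, horth j l hlj.symm _ y.2 _ (pl x).2, sub_zero, sub_self]
    have key : ∀ (a : D l) (b : D j), Q (r + (a : V) + (b : V)) = Q r + Q (a : V) + Q (b : V) := fun a b => by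
      rw [Witt.quad_add, Witt.quad_add, map_add, LinearMap.add_apply, Witt.polar_symm' Q r, hrl,
        Witt.polar_symm' Q r, hrj, horth l j hlj _ a.2 _ b.2]
      ring
    have e1 : f x = r + (e.symm (pj x) : V) + (e (pl x) : V) := by rw [hf, hr]; abel
    have e2 : Q (e.symm (pj x) : V) = Q (pj x : V) := by rw [← he, e.apply_symm_apply]
    rw [e1, key, e2, he]
    conv_rhs => rw [show x = r + (pl x : V) + (pj x : V) by rw [hr]; abel, key]
    ring
  obtain ⟨σ, hσ⟩ := Witt.exists_mem_quadIso hB f hQf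
  -- compensate inside the member `m`
  let S : Subgroup (Witt.quadIso Q) :=
    { carrier := {a | ∀ i, i ≠ m → ∀ x ∈ D i, a.1 x = x}
      one_mem' := fun _ _ _ _ => rfl
      mul_mem' := fun {a b} ha hb i hi x hx => by show a.1 (b.1 x) = x; rw [hb i hi x hx, ha i hi x hx]
      inv_mem' := fun {a} ha i hi x hx => by show a.1.symm x = x; rw [LinearEquiv.symm_apply_eq, ha i hi x hx] }
  have hsup : (⊤ : Subgroup (Witt.quadIso Q)) ≤ commutator (Witt.quadIso Q) ⊔ S := by
    rw [← Reflections.closure_refl hB (Or.inr (by omega)), Subgroup.closure_le]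
    rintro _ ⟨z, hz, rfl⟩
    obtain ⟨x, hx, hQx⟩ := exists_level Q h2 (hnd m) (by rw [hd]; omega) hz
    have h1 : Reflections.refl Q x ∈ S := fun i hi y hy =>
      Reflections.refl_fix Q (horth m i hi.symm x hx y hy)
    have h3 := Subgroup.mul_mem_sup (OmegaCentre.refl_mul_mem_commutator hB hz hQx.symm) h1
    rwa [mul_assoc, Reflections.refl_mul_self, mul_one] at h3
  obtain ⟨σ', hσ'⟩ : ∃ σ' : Witt.quadIso Q, ∀ x, σ'.1 x = f x := ⟨⟨σ, hσ.1⟩, hσ.2⟩
  obtain ⟨c, hc', a, ha, hca⟩ := Subgroup.mem_sup_of_normal_left.1 (hsup (Subgroup.mem_top σ'))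
  have hcf : ∀ i, i ≠ m → ∀ x ∈ D i, c.1 x = f x := fun i hi x hx => by
    rw [← hσ', ← hca]
    show c.1 x = c.1 (a.1 x)
    rw [ha i hi x hx]
  have hcm : ∀ x ∈ D m, c.1 x ∈ D m := by
    intro x hx
    refine mem_of_perp Q hB hnd horth htop fun i hi y hy => ?_
    obtain ⟨z, i', hi', hz, rfl⟩ : ∃ z, ∃ i', i' ≠ m ∧ z ∈ D i' ∧ c.1 z = y := by
      by_cases hil : i = l
      · subst hil
        refine ⟨(e ⟨y, hy⟩ : V), j, hjm, (e ⟨y, hy⟩).2, ?_⟩
        rw [hcf j hjm _ (e ⟨y, hy⟩).2, (hfj _ (e ⟨y, hy⟩).2).1,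
          show pj (e ⟨y, hy⟩ : V) = e ⟨y, hy⟩ from Subtype.ext (hfj _ (e ⟨y, hy⟩).2).2, e.symm_apply_apply]
      by_cases hij : i = j
      · subst hij
        refine ⟨(e.symm ⟨y, hy⟩ : V), l, hlm, (e.symm ⟨y, hy⟩).2, ?_⟩
        rw [hcf l hlm _ (e.symm ⟨y, hy⟩).2, (hfl _ (e.symm ⟨y, hy⟩).2).1,
          show pl (e.symm ⟨y, hy⟩ : V) = e.symm ⟨y, hy⟩ from Subtype.ext (hfl _ (e.symm ⟨y, hy⟩).2).2,
          e.apply_symm_apply]
      exact ⟨y, i, hi, hy, by rw [hcf i hi y hy, hfo i hil hij y hy]⟩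
    rw [Reflections.polar_apply]
    exact horth i' m hi' z hz x hx
  refine ⟨c, hc', ⟨Equiv.swap l j, fun i x hx => ?_⟩, hcm, fun y hy => ?_⟩
  · by_cases him : i = m
    · subst him; rw [Equiv.swap_apply_of_ne_of_ne hlm.symm hjm.symm]; exact hcm x hx
    rw [hcf i him x hx]
    by_cases hil : i = l
    · subst hil; rw [Equiv.swap_apply_left, (hfl x hx).1]; exact (e (pl x)).2
    by_cases hij : i = j
    · subst hij; rw [Equiv.swap_apply_right, (hfj x hx).1]; exact (e.symm (pj x)).2
    rw [Equiv.swap_apply_of_ne_of_ne hil hij, hfo i hil hij x hx]; exact hx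
  · refine ⟨(e.symm ⟨y, hy⟩ : V), (e.symm ⟨y, hy⟩).2, ?_⟩
    rw [hcf l hlm _ (e.symm ⟨y, hy⟩).2, (hfl _ (e.symm ⟨y, hy⟩).2).1,
      show pl (e.symm ⟨y, hy⟩ : V) = e.symm ⟨y, hy⟩ from Subtype.ext (hfl _ (e.symm ⟨y, hy⟩).2).2,
      e.apply_symm_apply]

/-- A root line at a singular point of one member leaving that member generates everything. -/
theorem le_of_leaving {m : Fin t} {p x : V} (hp : p ∈ D m) (hp0 : p ≠ 0) (h : Ln Q H p x) (hx : x ∉ D m) :
    commutator (Witt.quadIso Q) ≤ H := by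
  have hroot := fun {i : Fin t} {p v : V} => root_mem Q hB hn h2 hk hd hnd horth htop hiso hq hH
    (m := i) (p := p) (v := v)
  have hQp := h.1
  -- a root line towards one singular point of a member spreads to the whole member
  have hspread : ∀ (i l : Fin t), i ≠ l → ∀ p ∈ D i, ∀ r ∈ D l, r ≠ 0 → Q r = 0 → Ln Q H p r →
      ∀ y ∈ D l, Ln Q H p y := by
    intro i l hil p hp r hr hr0 hQr hl
    let M : Submodule F V :=
      { carrier := {y | y ∈ D l ∧ Ln Q H p y}
        zero_mem' := ⟨(D l).zero_mem, hl.1, map_zero _, fun c => by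
          rw [smul_zero, siegel_zero Q hl.1]; exact one_mem H⟩
        add_mem' := fun {a b} ha hb => ⟨(D l).add_mem ha.1 hb.1, ha.2.add hb.2⟩
        smul_mem' := fun c a ha => ⟨(D l).smul_mem c ha.1, ha.2.smul c⟩ }
    have hstep : ∀ r ∈ M, ∀ s ∈ D l, Q s = 0 → β r s ≠ 0 → s ∈ M := fun r hr s hs hQs hrs =>
      ⟨hs, ln_root Q hB hn h2 hk hd hnd horth htop hiso hq hH hr.2 hs hQs (horth i l hil p hp s hs)
        (fun v hv _ => horth i l hil p hp v hv) hrs⟩
    have hrM : r ∈ M := ⟨hr, hl⟩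
    obtain ⟨f, hf, hQf, hrf⟩ := exists_pair Q hB (hnd l) hr hQr hr0
    have hfM : f ∈ M := hstep r hrM f hf hQf (by rw [hrf]; exact one_ne_zero)
    intro y hy
    refine (le_of_singular Q hB (hnd l) hr hQr hr0 M (fun s hs hQs hs0 => ?_) hy).2
    by_cases hrs : β r s = 0
    · by_cases hfs : β f s = 0
      · obtain ⟨w, hw, hsw, -⟩ := exists_dual Q hB (hnd l) (![] : Fin 0 → V) hs (fun i => i.elim0)
          (by simpa [Matrix.range_empty] using hs0)
        set w' := w - β f w • r - β r w • f with hw'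
        have hwl : w' ∈ D l := (D l).sub_mem ((D l).sub_mem hw ((D l).smul_mem _ hr)) ((D l).smul_mem _ hf)
        have e1 : β r w' = 0 := by
          simp only [hw', map_sub, map_smul, Witt.polar_self', hQr, hrf, smul_eq_mul]; ring
        have e2 : β f w' = 0 := by
          simp only [hw', map_sub, map_smul, Witt.polar_self', hQf, Witt.polar_symm' Q f r, hrf, smul_eq_mul]
          ring
        have e3 : β s w' = 1 := by
          simp only [hw', map_sub, map_smul, hsw, Witt.polar_symm' Q s r, Witt.polar_symm' Q s f, hrs, hfs,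
            smul_eq_mul]
          ring
        set z := f + w' - Q w' • r with hz
        have hzl : z ∈ D l := (D l).sub_mem ((D l).add_mem hf hwl) ((D l).smul_mem _ hr)
        have hQz : Q z = 0 := by
          rw [hz, sub_eq_add_neg, ← neg_smul, Witt.quad_add, Witt.quad_add, Witt.quad_smul, hQr, hQf, map_smul,
            map_add, LinearMap.add_apply, e2, Witt.polar_symm' Q w' r, e1, Witt.polar_symm' Q f r, hrf,
            smul_eq_mul]
          ring
        have hzM : z ∈ M := hstep r hrM z hzl hQz (by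
          simp only [hz, map_sub, map_add, map_smul, Witt.polar_self', hQr, hrf, e1, smul_eq_mul]
          simp)
        refine hstep z hzM s hs hQs ?_
        simp only [hz, map_sub, map_add, map_smul, LinearMap.sub_apply, LinearMap.add_apply,
          LinearMap.smul_apply, hfs, hrs, Witt.polar_symm' Q w' s, e3, smul_eq_mul]
        simp
      · exact hstep f hfM s hs hQs hfs
    · exact hstep r hrM s hs hQs hrs
  -- the member met by `x`
  obtain ⟨l, hlm, y, hy, hyx⟩ : ∃ l, l ≠ m ∧ ∃ y ∈ D l, β y x ≠ 0 := by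
    by_contra hcon
    push Not at hcon
    exact hx (mem_of_perp Q hB hnd horth htop hcon)
  obtain ⟨e, he, he0, hQe⟩ := SingularVectors.exists_zero Q (D l) (by rw [hd]; exact hk)
  obtain ⟨r, hr, hQr, hr0, hrx⟩ : ∃ r ∈ D l, Q r = 0 ∧ r ≠ 0 ∧ β x r ≠ 0 := by
    by_contra hcon
    push Not at hcon
    have h1 := le_of_singular Q hB (hnd l) he hQe he0
      (LinearMap.ker (β x)) (fun s hs hQs hs0 => LinearMap.mem_ker.2 (hcon s hs hQs hs0)) hy
    exact hyx (by rw [Witt.polar_symm']; exact LinearMap.mem_ker.1 h1)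
  have hpr : Ln Q H p r := ln_root Q hB hn h2 hk hd hnd horth htop hiso hq hH h hr hQr
    (horth m l hlm.symm p hp r hr) (fun v hv _ => horth m l hlm.symm p hp v hv) hrx
  have hall : ∀ j, j ≠ m → ∀ y ∈ D j, Ln Q H p y := by
    intro j hjm y hy
    by_cases hjl : l = j
    · subst hjl
      exact hspread m l hlm.symm p hp r hr hr0 hQr hpr y hy
    obtain ⟨g, hg, hπ, hgm, hgl⟩ := exists_perm Q hB hn h2 hk hd hnd horth htop hiso hq hlm hjm hjl
    have hgH := hH g hg hπ
    obtain ⟨z, hz, rfl⟩ := hgl y hy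
    obtain ⟨p', hp', hpp⟩ : ∃ p' ∈ D m, g.1 p' = p := by
      obtain ⟨p', hp'⟩ := LinearMap.surjective_of_injective
        (f := (g.1 : V →ₗ[F] V).restrict (p := D m) (q := D m) hgm)
        (fun u u' e => Subtype.ext (g.1.injective (congrArg Subtype.val e))) ⟨p, hp⟩
      exact ⟨p'.1, p'.2, congrArg Subtype.val hp'⟩
    have hQp' : Q p' = 0 := by rw [← g.2, hpp, hQp]
    have h1 : Ln Q H r p' := hspread l m hlm r hr p hp hp0 hQp (hpr.swap hQr) p' hp'
    have hp'0 : p' ≠ 0 := fun e => hp0 (by rw [← hpp, e, map_zero])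
    have h3 := (hspread m l hlm.symm p' hp' r hr hr0 hQr (h1.swap hQp') z hz).map hgH
    rwa [hpp] at h3
  have hfull : SiegelFull.Full Q H p := by
    refine ⟨hQp, fun u hu => ?_⟩
    choose c hc hcu using fun j => exists_comp Q hB hnd j u
    have hsum : u = ∑ j, c j := by
      refine sub_eq_zero.1 (ext_zero Q htop hB fun i y hy => ?_)
      rw [map_sub, hcu i y hy, map_sum, Finset.sum_eq_single i
        (fun j _ hj => horth i j hj.symm y hy _ (hc j)) (by simp), sub_self]
    have hz : β p (c m) = 0 := by rw [← hcu m p hp]; exact hu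
    have h1 : ∀ j, β p (c j) = 0 ∧ siegel Q p (c j) ∈ H := fun j => by
      by_cases hj : j = m
      · subst hj; exact ⟨hz, hroot hp (hc j) hQp hz⟩
      · have h2' := (hall j hj _ (hc j))
        exact ⟨h2'.2.1, by simpa using h2'.2.2 1⟩
    have h2' : ∀ s : Finset (Fin t), β p (∑ j ∈ s, c j) = 0 ∧ siegel Q p (∑ j ∈ s, c j) ∈ H := by
      classical
      intro s
      induction s using Finset.induction_on with
      | empty => simp only [Finset.sum_empty, map_zero, true_and]; rw [siegel_zero Q hQp]; exact one_mem H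
      | insert a s ha ih =>
        rw [Finset.sum_insert ha, ← siegel_mul Q hQp (h1 a).1 ih.1]
        exact ⟨by rw [map_add, (h1 a).1, ih.1, add_zero], H.mul_mem (h1 a).2 ih.2⟩
    rw [hsum]
    exact (h2' Finset.univ).2
  obtain ⟨q, hq', hQq, hpq⟩ := exists_pair Q hB (hnd m) hp hQp hp0
  obtain ⟨b, hb, hqb, hQb⟩ : ∃ b ∈ D m, β q b = 0 ∧ Q b ≠ 0 := by
    by_contra hcon
    push Not at hcon
    have hq0 : q ≠ 0 := fun e => by rw [e, map_zero] at hpq; exact zero_ne_one hpq
    have h1 := OrthSingularStab.finrank_ts Q hB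
    have hts : ∀ x ∈ D m ⊓ perp (Submodule.span F {q}), ∀ y ∈ D m ⊓ perp (Submodule.span F {q}), β x y = 0 := by
      intro x hx y hy
      have hh : ∀ x ∈ D m ⊓ perp (Submodule.span F {q}), Q x = 0 := fun x hx =>
        hcon x hx.1 ((OrthNondegStab.mem_perp Q).1 hx.2 q (Submodule.mem_span_singleton_self q))
      rw [QuadraticMap.polarBilin_apply_apply, QuadraticMap.polar, hh _ (Submodule.add_mem _ hx hy), hh _ hx,
        hh _ hy]
      ring
    obtain ⟨w, hw, hqw, -⟩ := exists_dual Q hB (hnd m) (![] : Fin 0 → V) hq' (fun i => i.elim0)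
      (by simpa [Matrix.range_empty] using hq0)
    -- the hyperplane orthogonal to `q` is then the line through `q`
    have hle : D m ⊓ perp (Submodule.span F {q}) ≤ Submodule.span F {q} := by
      intro x hx
      have hx' : x - β x w • q = 0 := by
        refine (Submodule.eq_bot_iff _).1 (hnd m) _ ⟨(D m).sub_mem hx.1 ((D m).smul_mem _ hq'),
          (OrthNondegStab.mem_perp Q).2 fun y hy => ?_⟩
        have hy' : y - β q y • w ∈ D m ⊓ perp (Submodule.span F {q}) := ⟨(D m).sub_mem hy ((D m).smul_mem _ hw),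
          (OrthNondegStab.mem_perp Q).2 fun z hz => by
            obtain ⟨d, rfl⟩ := Submodule.mem_span_singleton.1 hz
            simp only [map_smul, map_sub, LinearMap.smul_apply, hqw, smul_eq_mul]
            ring⟩
        have e1 := hts _ hy' x hx
        have e2 : β q x = 0 := (OrthNondegStab.mem_perp Q).1 hx.2 q (Submodule.mem_span_singleton_self q)
        rw [map_sub, LinearMap.sub_apply, map_smul, LinearMap.smul_apply, smul_eq_mul, Witt.polar_symm' Q w x]
          at e1
        rw [map_sub, map_smul, Witt.polar_symm' Q y q, smul_eq_mul]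
        linear_combination e1
      rw [sub_eq_zero.1 hx']
      exact Submodule.smul_mem _ _ (Submodule.mem_span_singleton_self q)
    have hqe : Q (p + q) ≠ 0 := by rw [Witt.quad_add, hQp, hQq, hpq]; simp
    have h3 := Submodule.finrank_mono hle
    rw [finrank_span_singleton hq0] at h3
    have h4 := Submodule.finrank_sup_add_finrank_inf_eq (D m) (perp (Submodule.span F {q}))
    have h5 : finrank F (perp (Submodule.span F {q})) = finrank F V - finrank F (Submodule.span F {q}) :=
      LinearMap.BilinForm.finrank_orthogonal hB (W := Submodule.span F {q})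
    rw [finrank_span_singleton hq0] at h5
    have h6 := (D m ⊔ perp (Submodule.span F {q})).finrank_le
    have h7 := hd m
    omega
  exact SiegelFull.commutator_le_of_mover Q hB (by omega) hfull hQq hqb (hroot hq' hb hQq hqb)
    (by rw [hpq]; exact one_ne_zero) hQb

/-- A root line with an anisotropic component not proportional to that of its point. -/
theorem le_of_aniso {a b : V} (h : Ln Q H a b) {m : Fin t} {am bm : V} (ham : am ∈ D m) (hbm : bm ∈ D m)
    (hac : ∀ y ∈ D m, β y a = β y am) (hbc : ∀ y ∈ D m, β y b = β y bm) (hQam : Q am ≠ 0)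
    (hind : ∀ μ : F, bm ≠ μ • am) : commutator (Witt.quadIso Q) ≤ H := by
  choose A hA hAa using fun j => exists_comp Q hB hnd j a
  have hA' : A m = am := sub_eq_zero.1 ((Submodule.eq_bot_iff _).1 (hnd m) _
    ⟨(D m).sub_mem (hA m) ham, (OrthNondegStab.mem_perp Q).2 fun y hy => by
      rw [map_sub, ← hAa m y hy, hac y hy, sub_self]⟩)
  subst hA'
  -- a second anisotropic component
  obtain ⟨l, hlm, hQl⟩ : ∃ l, l ≠ m ∧ Q (A l) ≠ 0 := by
    by_contra hcon
    push Not at hcon
    classical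
    have hsum : a = ∑ j, A j := by
      refine sub_eq_zero.1 (ext_zero Q htop hB fun i y hy => ?_)
      rw [map_sub, hAa i y hy, map_sum, Finset.sum_eq_single i
        (fun j _ hj => horth i j hj.symm y hy _ (hA j)) (by simp), sub_self]
    have hQs : ∀ s : Finset (Fin t), Q (∑ j ∈ s, A j) = ∑ j ∈ s, Q (A j) := fun s => by
      induction s using Finset.induction_on with
      | empty => simp
      | insert c s hc ih =>
        rw [Finset.sum_insert hc, Finset.sum_insert hc, Witt.quad_add, ih, map_sum,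
          Finset.sum_eq_zero fun j hj => horth c j (fun e => hc (e ▸ hj)) _ (hA c) _ (hA j), add_zero]
    refine hQam ?_
    have h1 := h.1
    rw [hsum, hQs, Finset.sum_eq_single m (fun j _ hj => hcon j hj) (by simp)] at h1
    exact h1
  set P := fun i => D i ⊓ perp (Submodule.span F {A i}) with hP
  have hQA : ∀ i ∈ ({m, l} : Set (Fin t)), Q (A i) ≠ 0 := by
    rintro i (rfl | rfl)
    exacts [hQam, hQl]
  have hPnd : ∀ i ∈ ({m, l} : Set (Fin t)), P i ⊓ perp (P i) = ⊥ ∧ finrank F (P i) + 1 = k ∧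
      (∀ x ∈ D i, β (A i) x = 0 → x ∈ P i) := fun i hi => by
    obtain ⟨h1, h3, h4⟩ := cut Q h2 (hnd i) (hA i) (hQA i hi)
    exact ⟨h1, by rw [h3, hd], h4⟩
  have hPA : ∀ i, ∀ x ∈ P i, β x a = 0 := fun i x hx => by
    rw [hAa i x hx.1, Witt.polar_symm']
    exact (OrthNondegStab.mem_perp Q).1 hx.2 _ (Submodule.mem_span_singleton_self _)
  have hPq : ∀ i ∈ ({m, l} : Set (Fin t)), 3 ≤ finrank F (P i) ∨ 5 ≤ Nat.card F := fun i hi => by
    have := (hPnd i hi).2.1
    omega
  -- conjugation by a compensated pair of reflections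
  have hpair : ∀ i j, i ≠ j → ∀ z ∈ P i, ∀ z' ∈ P j, Q z ≠ 0 → Q z = Q z' → ∀ x, Ln Q H a x →
      Ln Q H a (((Q z)⁻¹ * β z x) • z + ((Q z')⁻¹ * β z' x) • z') := by
    intro i j hij z hz z' hz' hQz hzz x hx
    have hzz' : β z z' = 0 := horth i j hij z hz.1 z' hz'.1
    have hg : Reflections.refl Q z * Reflections.refl Q z' ∈ H := by
      refine hH _ (OmegaCentre.refl_mul_mem_commutator hB hQz hzz) ⟨1, fun r y hy => ?_⟩
      rw [Equiv.Perm.one_apply]
      show (Reflections.refl Q z).1 ((Reflections.refl Q z').1 y) ∈ D r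
      have step : ∀ (s : Fin t) (u : V), u ∈ D s → ∀ y ∈ D r, (Reflections.refl Q u).1 y ∈ D r := by
        intro s u hu y hy
        by_cases hsr : s = r
        · subst hsr; rw [Reflections.refl_apply]; exact (D s).sub_mem hy ((D s).smul_mem _ hu)
        · rw [Reflections.refl_fix Q (horth s r hsr u hu y hy)]; exact hy
      exact step i z hz.1 _ (step j z' hz'.1 y hy)
    have h1 := hx.map hg
    rw [show (Reflections.refl Q z * Reflections.refl Q z').1 a = a by
      show (Reflections.refl Q z).1 ((Reflections.refl Q z').1 a) = a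
      rw [Reflections.refl_fix Q (hPA j z' hz'), Reflections.refl_fix Q (hPA i z hz)]] at h1
    convert hx.sub h1 using 1
    show _ = x - (Reflections.refl Q z).1 ((Reflections.refl Q z').1 x)
    rw [Reflections.refl_apply Q z', map_sub, map_smul, Reflections.refl_fix Q hzz', Reflections.refl_apply]
    abel
  -- a root line inside one member, orthogonal to the point
  obtain ⟨i, j, hij, hi, hj, x, hx, hx0, hxl⟩ : ∃ i j, i ≠ j ∧ i ∈ ({m, l} : Set (Fin t)) ∧
      j ∈ ({m, l} : Set (Fin t)) ∧ ∃ x ∈ P i, x ≠ 0 ∧ Ln Q H a x := by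
    obtain ⟨hPm, hPmd, hPm'⟩ := hPnd m (by simp)
    obtain ⟨hPl, hPld, hPl'⟩ := hPnd l (by simp)
    set y := bm - ((β (A m) (A m))⁻¹ * β (A m) bm) • A m with hy
    have hyP : y ∈ P m := by
      refine hPm' _ ((D m).sub_mem hbm ((D m).smul_mem _ (hA m))) ?_
      have : β (A m) (A m) ≠ 0 := by rw [Witt.polar_self']; exact mul_ne_zero h2 hQam
      rw [map_sub, map_smul, smul_eq_mul]
      field_simp
      ring
    have hy0 : y ≠ 0 := sub_ne_zero.2 (hind _)
    have hzy : ∀ z ∈ P m, β z b = β z y := fun z hz => by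
      rw [hbc z hz.1, hy, map_sub, map_smul, Witt.polar_symm' Q z (A m),
        (OrthNondegStab.mem_perp Q).1 hz.2 _ (Submodule.mem_span_singleton_self _), smul_zero, sub_zero]
    obtain ⟨u, hu, huy⟩ : ∃ u ∈ P m, β u y ≠ 0 := by
      by_contra hno
      push Not at hno
      exact hy0 ((Submodule.eq_bot_iff _).1 hPm y ⟨hyP, (OrthNondegStab.mem_perp Q).2 hno⟩)
    obtain ⟨z, hz, hQz, hzb⟩ : ∃ z ∈ P m, Q z ≠ 0 ∧ β z b ≠ 0 := by
      obtain ⟨w, hw, hQw⟩ := exists_aniso Q h2 hPm (by omega)
      obtain ⟨z, hz, z', hz', hQz, hQz', hne⟩ :=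
        exists_two_levels Q h2 hPm (by omega) (hPq m (by simp)) hyP hy0 hQw
      by_cases h0 : β z y = 0
      · refine ⟨z', hz', hQz' ▸ hQw, fun h' => hne ?_⟩
        rw [h0, ← hzy z' hz', h', zero_smul, zero_smul]
      · exact ⟨z, hz, hQz ▸ hQw, by rwa [hzy z hz]⟩
    by_cases hbl : ∀ w ∈ P l, β w b = 0
    · obtain ⟨w, hw, hQw⟩ := exists_level Q h2 hPl (by omega) hQz
      refine ⟨m, l, hlm.symm, by simp, by simp, ((Q z)⁻¹ * β z b) • z, (P m).smul_mem _ hz, ?_, ?_⟩
      · exact smul_ne_zero (mul_ne_zero (inv_ne_zero hQz) hzb) fun e => hQz (by rw [e, QuadraticMap.map_zero])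
      · have h1 := hpair m l hlm.symm z hz w hw hQz hQw.symm b h
        rwa [hbl w hw, mul_zero, zero_smul, add_zero] at h1
    · push Not at hbl
      obtain ⟨v, hv, hvb⟩ := hbl
      choose B hBm hBb using fun i => exists_comp Q hB hnd i b
      set yl := B l - ((β (A l) (A l))⁻¹ * β (A l) (B l)) • A l with hyl
      have hAll : β (A l) (A l) ≠ 0 := by rw [Witt.polar_self']; exact mul_ne_zero h2 hQl
      have hylP : yl ∈ P l := by
        refine hPl' _ ((D l).sub_mem (hBm l) ((D l).smul_mem _ (hA l))) ?_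
        rw [map_sub, map_smul, smul_eq_mul]
        field_simp
        ring
      have hzyl : ∀ z ∈ P l, β z b = β z yl := fun z hz => by
        rw [hBb l z hz.1, hyl, map_sub, map_smul, Witt.polar_symm' Q z (A l),
          (OrthNondegStab.mem_perp Q).1 hz.2 _ (Submodule.mem_span_singleton_self _), smul_zero, sub_zero]
      obtain ⟨w, hw, w', hw', hQw, hQw', hne⟩ := exists_two_levels Q h2 hPl (by omega) (hPq l (by simp)) hylP
        (fun e => hvb (by rw [hzyl v hv, e, map_zero])) hQz
      refine ⟨l, m, hlm, by simp, by simp, ((Q w)⁻¹ * β w b) • w - ((Q w')⁻¹ * β w' b) • w',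
        (P l).sub_mem ((P l).smul_mem _ hw) ((P l).smul_mem _ hw'), ?_, ?_⟩
      · rw [hQw, hQw', hzyl w hw, hzyl w' hw', mul_smul, mul_smul, ← smul_sub]
        exact smul_ne_zero (inv_ne_zero hQz) (sub_ne_zero.2 hne)
      · have h1 := (hpair m l hlm.symm z hz w hw hQz hQw.symm b h).sub
          (hpair m l hlm.symm z hz w' hw' hQz hQw'.symm b h)
        rwa [add_sub_add_left_eq_sub] at h1
  obtain ⟨hPi, hPid, hPi'⟩ := hPnd i hi
  obtain ⟨hPj, hPjd, -⟩ := hPnd j hj
  have hai : a ∉ D i := fun hc => hQA j hj (by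
    have : A j = 0 := (Submodule.eq_bot_iff _).1 (hnd j) _ ⟨hA j, (OrthNondegStab.mem_perp Q).2 fun y hy => by
      rw [← hAa j y hy]; exact horth j i hij.symm y hy a hc⟩
    rw [this, QuadraticMap.map_zero])
  have hsing : ∀ s ∈ P i, s ≠ 0 → Q s = 0 → Ln Q H a s → commutator (Witt.quadIso Q) ≤ H :=
    fun s hs hs0 hQs hl =>
      le_of_leaving Q hB hn h2 hk hd hnd horth htop hiso hq hH hs.1 hs0 (hl.swap hQs) hai
  by_cases hQx : Q x = 0
  · exact hsing x hx hx0 hQx hxl
  -- every compensated reflection preserves the lines found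
  have hinv : ∀ z ∈ P i, Q z ≠ 0 → ∀ x ∈ P i, Ln Q H a x → β z x ≠ 0 → Ln Q H a z := by
    intro z hz hQz x hx hxl hzx
    obtain ⟨w, hw, hQw⟩ := exists_level Q h2 hPj (by omega) hQz
    have h1 := hpair i j hij z hz w hw hQz hQw.symm x hxl
    rw [horth j i hij.symm w hw.1 x hx.1, mul_zero, zero_smul, add_zero] at h1
    exact Ln.of_smul (mul_ne_zero (inv_ne_zero hQz) hzx) h1
  have hxx : β x x ≠ 0 := by rw [Witt.polar_self']; exact mul_ne_zero h2 hQx
  obtain ⟨y, hy, hxy, hQy, hxyQ⟩ := exists_mix Q h2 hPi (by omega) (hPq i hi) hx hQx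
  have hadd : ∀ u ∈ P i, β x u = 0 → Q x + Q u ≠ 0 → Ln Q H a u := fun u hu hxu hne => by
    have h1 := (hinv (x + u) ((P i).add_mem hx hu) (by rw [Witt.quad_add, hxu, add_zero]; exact hne) x hx hxl
      (by rw [map_add, LinearMap.add_apply, Witt.polar_symm' Q u x, hxu, add_zero]; exact hxx)).sub hxl
    rwa [add_sub_cancel_left] at h1
  have hyl := hadd y hy hxy hxyQ
  -- the whole of `P i` carries root lines
  have hall : ∀ u ∈ P i, Ln Q H a u := by
    have hperp : ∀ u ∈ P i, β x u = 0 → Ln Q H a u := by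
      intro u hu hxu
      by_cases hne : Q x + Q u = 0
      · by_cases hs : Q x + Q (y + u) = 0
        · have h1 := hadd (y - u) ((P i).sub_mem hy hu) (by rw [map_sub, hxy, hxu, sub_zero]) fun h' => hQy (by
            rw [Witt.quad_add] at hs
            rw [sub_eq_add_neg, Witt.quad_add, QuadraticMap.map_neg, map_neg] at h'
            refine mul_left_cancel₀ h2 ?_
            linear_combination hs + h' - 2 * hne)
          have h3 := hyl.sub h1
          rwa [sub_sub_cancel] at h3
        · have h1 := (hadd (y + u) ((P i).add_mem hy hu) (by rw [map_add, hxy, hxu, add_zero]) hs).sub hyl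
          rwa [add_sub_cancel_left] at h1
      · exact hadd u hu hxu hne
    intro u hu
    have h1 := (hperp (u - ((β x x)⁻¹ * β x u) • x) ((P i).sub_mem hu ((P i).smul_mem _ hx)) (by
      rw [map_sub, map_smul, smul_eq_mul]
      field_simp
      ring)).add (hxl.smul ((β x x)⁻¹ * β x u))
    rwa [sub_add_cancel] at h1
  by_cases hsi : ∃ s ∈ P i, s ≠ 0 ∧ Q s = 0
  · obtain ⟨s, hs, hs0, hQs⟩ := hsi
    exact hsing s hs hs0 hQs (hall s hs)
  push Not at hsi
  -- the anisotropic plane case
  obtain ⟨e, he, he0, hQe⟩ := SingularVectors.exists_zero Q (D i) (by rw [hd]; exact hk)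
  have hαa : ∀ v ∈ D i, β v a = β v (A i) := hAa i
  have hea : β e (A i) ≠ 0 := fun h0 => hsi e (hPi' e he (by rw [Witt.polar_symm', h0])) he0 hQe
  set z0 := e - ((β (A i) (A i))⁻¹ * β (A i) e) • A i with hz0
  have hAii : β (A i) (A i) ≠ 0 := by rw [Witt.polar_self']; exact mul_ne_zero h2 (hQA i hi)
  have hz0P : z0 ∈ P i := hPi' _ ((D i).sub_mem he ((D i).smul_mem _ (hA i))) (by
    rw [hz0, map_sub, map_smul, smul_eq_mul]
    field_simp
    ring)
  have hz0n : z0 ≠ 0 := fun h0 => by
    rw [hz0, sub_eq_zero] at h0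
    have h1 := hQe
    rw [h0, Witt.quad_smul, mul_eq_zero, mul_self_eq_zero] at h1
    rcases h1 with h1 | h1
    · exact he0 (by rw [h0, h1, zero_smul])
    · exact hQA i hi h1
  have hQz0 : Q z0 ≠ 0 := fun h0 => hsi z0 hz0P hz0n h0
  obtain ⟨yp, hyp, hzy, hQyp, hzyQ⟩ := exists_mix Q h2 hPi (by omega) (hPq i hi) hz0P hQz0
  set w := z0 + yp with hw
  have hwP : w ∈ P i := (P i).add_mem hz0P hyp
  have hQw : Q w ≠ 0 := by rw [hw, Witt.quad_add, hzy, add_zero]; exact hzyQ
  have hAw : ∀ u ∈ P i, β u (A i) = 0 := fun u hu => by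
    rw [Witt.polar_symm']; exact (OrthNondegStab.mem_perp Q).1 hu.2 _ (Submodule.mem_span_singleton_self _)
  have hew : β e w = 2 * Q z0 := by
    obtain ⟨co, h0⟩ : ∃ co : F, e = z0 + co • A i := ⟨_, (sub_add_cancel e _).symm⟩
    rw [h0, hw]
    simp only [map_add, map_smul, LinearMap.add_apply, LinearMap.smul_apply, Witt.polar_symm' Q (A i) z0,
      Witt.polar_symm' Q (A i) yp, hAw z0 hz0P, hAw yp hyp, Witt.polar_self', hzy, smul_zero, add_zero]
  have hew0 : β e w ≠ 0 := by rw [hew]; exact mul_ne_zero h2 hQz0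
  set c := -β e w / (Q w * β e a) with hc
  have hea' : β e a ≠ 0 := by rw [hαa e he]; exact hea
  have hc0 : c ≠ 0 := div_ne_zero (neg_ne_zero.2 hew0) (mul_ne_zero hQw hea')
  have hwl := hall w hwP
  have hcoef : c * β e w + c * c * Q w * β e a = 0 := by
    rw [hc]; field_simp; ring
  have hh : siegel Q a (c • w) ∈ H := hwl.2.2 c
  have hacw : β a (c • w) = 0 := by rw [map_smul, hwl.2.1, smul_zero]
  have hmap : ∀ v, (siegel Q a (c • w)).1 v =
      v + (β v a * c) • w - (c * β v w + c * c * Q w * β v a) • a := fun v => by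
    rw [siegel_apply Q hwl.1 hacw, Witt.quad_smul, map_smul, smul_eq_mul, smul_smul]
  set u := w + (c * Q w) • A i with hu
  have huD : u ∈ D i := (D i).add_mem hwP.1 ((D i).smul_mem _ (hA i))
  obtain ⟨v, hv, huv, hev⟩ := exists_dual Q hB (hnd i) (![e] : Fin 1 → V) huD (fun _ => by simpa using he) (by
    intro hcon
    obtain ⟨r, hr⟩ := (Submodule.mem_span_range_iff_exists_fun F).1 hcon
    rw [Fin.sum_univ_one, Matrix.cons_val_zero] at hr
    -- project to `P i`
    have hyy : β yp u = 2 * Q yp := by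
      rw [hu, map_add, map_smul, hAw yp hyp, smul_zero, add_zero, hw, map_add, Witt.polar_symm' Q yp z0, hzy,
        Witt.polar_self', zero_add]
    refine mul_ne_zero h2 hQyp ?_
    rw [← hyy, ← hr, map_smul]
    have h0 : β yp e = 0 := by
      have h0 : e = z0 + ((β (A i) (A i))⁻¹ * β (A i) e) • A i := by rw [hz0, sub_add_cancel]
      rw [h0, map_add, map_smul, hAw yp hyp, Witt.polar_symm' Q yp z0, hzy, smul_zero, add_zero]
    rw [h0, smul_zero])
  have hev' : β e v = 0 := hev 0
  have hl : Ln Q H e v := ⟨hQe, hev', fun d => root_mem Q hB hn h2 hk hd hnd horth htop hiso hq hH he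
    ((D i).smul_mem d hv) hQe (by rw [map_smul, hev', smul_zero])⟩
  have h1 := hl.map hh
  rw [hmap, hmap, hcoef, zero_smul, sub_zero] at h1
  have hp' : e + (β e a * c) • w ∈ D i := (D i).add_mem he ((D i).smul_mem _ hwP.1)
  have hp'0 : e + (β e a * c) • w ≠ 0 := fun h0 => by
    have := congrArg (β (A i)) h0
    rw [map_add, map_smul, Witt.polar_symm' Q (A i) w, hAw w hwP, smul_zero, add_zero, map_zero,
      Witt.polar_symm'] at this
    exact hea this
  refine le_of_leaving Q hB hn h2 hk hd hnd horth htop hiso hq hH hp' hp'0 h1 fun hc' => hai ?_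
  have hne : c * β v w + c * c * Q w * β v a ≠ 0 := by
    have e1 : β v u = 1 := by rw [Witt.polar_symm', huv]
    rw [hu, map_add, map_smul, ← hαa v hv, smul_eq_mul] at e1
    rw [show c * β v w + c * c * Q w * β v a = c * (β v w + c * Q w * β v a) by ring, e1, mul_one]
    exact hc0
  have h3 := (D i).sub_mem ((D i).add_mem hv ((D i).smul_mem (β v a * c) hwP.1)) hc'
  rw [sub_sub_cancel] at h3
  exact ((D i).smul_mem_iff hne).1 h3

/-- Overgroups of the stabiliser of the decomposition. -/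
theorem commutator_le_of_wreath {g : Witt.quadIso Q} (hg : g ∈ H)
    (hgN : ¬ ∃ π : Equiv.Perm (Fin t), ∀ i, ∀ x ∈ D i, g.1 x ∈ D (π i)) : commutator (Witt.quadIso Q) ≤ H := by
  have hdisj : ∀ i j, i ≠ j → ∀ x ∈ D i, x ∈ D j → x = 0 := fun i j hij x hx hxj =>
    (Submodule.eq_bot_iff _).1 (hnd i) x ⟨hx, (OrthNondegStab.mem_perp Q).2 fun y hy => horth i j hij y hy x hxj⟩
  -- a singular point sent outside the union of the members
  obtain ⟨i, p, hp, hp0, hQp, hout⟩ | hdone :
      (∃ i, ∃ p ∈ D i, p ≠ 0 ∧ Q p = 0 ∧ ∀ j, g.1 p ∉ D j) ∨ commutator (Witt.quadIso Q) ≤ H := by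
    by_contra hcon
    push Not at hcon
    obtain ⟨hin, hnot⟩ := hcon
    apply hgN
    have hstep : ∀ i, ∀ p ∈ D i, p ≠ 0 → Q p = 0 → ∀ j, g.1 p ∈ D j → ∀ v ∈ D i, β p v = 0 → g.1 v ∈ D j := by
      intro i p hp hp0 hQp j hj v hv hpv
      by_contra hc
      have hl : Ln Q H p v := ⟨hQp, hpv, fun c => root_mem Q hB hn h2 hk hd hnd horth htop hiso hq hH hp
        ((D i).smul_mem c hv) hQp (by rw [map_smul, hpv, smul_zero])⟩
      exact hnot (le_of_leaving Q hB hn h2 hk hd hnd horth htop hiso hq hH hj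
        (fun e => hp0 (g.1.injective (e.trans (map_zero _).symm))) (hl.map hg) hc)
    have hmaps : ∀ i, ∃ j, ∀ x ∈ D i, g.1 x ∈ D j := by
      intro i
      obtain ⟨e, he, he0, hQe⟩ := SingularVectors.exists_zero Q (D i) (by rw [hd]; exact hk)
      obtain ⟨f, hf, hQf, hef⟩ := exists_pair Q hB (hnd i) he hQe he0
      have hf0 : f ≠ 0 := fun h => by rw [h, map_zero] at hef; exact zero_ne_one hef
      obtain ⟨j, hj⟩ := hin i e he he0 hQe
      obtain ⟨j', hj'⟩ := hin i f hf hf0 hQf
      obtain ⟨v, hv, hev, hfv, hv0⟩ : ∃ v ∈ D i, β e v = 0 ∧ β f v = 0 ∧ v ≠ 0 := by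
        by_contra hno
        push Not at hno
        have hle : D i ≤ Submodule.span F (Set.range ![e, f]) := fun x hx => by
          have h0 := hno (x - β f x • e - β e x • f)
            ((D i).sub_mem ((D i).sub_mem hx ((D i).smul_mem _ he)) ((D i).smul_mem _ hf))
            (by simp only [map_sub, map_smul, Witt.polar_self', hQe, hef, smul_eq_mul]; ring)
            (by simp only [map_sub, map_smul, Witt.polar_self', hQf, Witt.polar_symm' Q f e, hef, smul_eq_mul]
                ring)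
          refine (Submodule.mem_span_range_iff_exists_fun F).2 ⟨![β f x, β e x], ?_⟩
          simp only [Fin.sum_univ_two, Matrix.cons_val_zero, Matrix.cons_val_one]
          linear_combination (norm := module) -h0
        have h1 := Submodule.finrank_mono hle
        have h3 := finrank_range_le_card (R := F) ![e, f]
        rw [Set.finrank] at h3
        simp only [Fintype.card_fin] at h3
        rw [hd] at h1
        omega
      have h1 := hstep i e he he0 hQe j hj v hv hev
      have h3 := hstep i f hf hf0 hQf j' hj' v hv hfv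
      have hjj : j = j' := by
        by_contra hne
        exact hv0 (g.1.injective ((hdisj j j' hne _ h1 h3).trans (map_zero _).symm))
      subst hjj
      refine ⟨j, fun x hx => ?_⟩
      have h4 := hstep i e he he0 hQe j hj (x - β e x • f) ((D i).sub_mem hx ((D i).smul_mem _ hf))
        (by rw [map_sub, map_smul, hef, smul_eq_mul, mul_one, sub_self])
      have h5 := (D j).add_mem h4 ((D j).smul_mem (β e x) hj')
      rwa [← map_smul, ← map_add, sub_add_cancel] at h5
    choose π hπ using hmaps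
    have hinj : Function.Injective π := by
      intro i i' hii
      by_contra hne
      obtain ⟨x, hx, hQx⟩ := exists_aniso Q h2 (hnd i) (by rw [hd]; omega)
      have hfull : ∀ y ∈ D (π i), ∃ z ∈ D i', g.1 z = y := fun y hy => by
        let f := (g.1 : V →ₗ[F] V).restrict (p := D i') (q := D (π i)) (fun z hz => hii ▸ hπ i' z hz)
        have hf : Function.Injective f := fun u u' e => Subtype.ext (g.1.injective (congrArg Subtype.val e))
        obtain ⟨z, hz⟩ := (LinearMap.injective_iff_surjective_of_finrank_eq_finrank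
          (show finrank F (D i') = finrank F (D (π i)) by rw [hd, hd])).1 hf ⟨y, hy⟩
        exact ⟨z.1, z.2, congrArg Subtype.val hz⟩
      obtain ⟨z, hz, hzx⟩ := hfull _ (hπ i x hx)
      rw [g.1.injective hzx] at hz
      exact hQx (by rw [hdisj i i' hne x hx hz, QuadraticMap.map_zero])
    exact ⟨Equiv.ofBijective π (Finite.injective_iff_bijective.1 hinj), hπ⟩
  swap
  · exact hdone
  choose A hA hAa using fun j => exists_comp Q hB hnd j (g.1 p)
  set a := g.1 p with ha
  have hQa : Q a = 0 := by rw [ha, g.2, hQp]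
  have hlines : ∀ v ∈ D i, β p v = 0 → Ln Q H a (g.1 v) := fun v hv hpv =>
    (show Ln Q H p v from ⟨hQp, hpv, fun c => root_mem Q hB hn h2 hk hd hnd horth htop hiso hq hH hp
      ((D i).smul_mem c hv) hQp (by rw [map_smul, hpv, smul_zero])⟩).map hg
  by_contra hnot
  -- consequences of the failure: components are proportional
  have hprop : ∀ b, Ln Q H a b → ∀ m, ∀ bm ∈ D m, (∀ y ∈ D m, β y b = β y bm) →
      ∃ μ : F, bm = μ • A m := by
    intro b hb m bm hbm hbc
    by_cases hQm : Q (A m) ≠ 0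
    · by_contra hcon
      push Not at hcon
      exact hnot (le_of_aniso Q hB hn h2 hk hd hnd horth htop hiso hq hH hb (hA m) hbm (hAa m) hbc hQm hcon)
    push Not at hQm
    by_cases hA0 : A m = 0
    · refine ⟨0, ?_⟩
      rw [zero_smul]
      by_contra hb0
      obtain ⟨e, he, he0, hQe⟩ := SingularVectors.exists_zero Q (D m) (by rw [hd]; exact hk)
      obtain ⟨r, hr, hQr, hr0, hrb⟩ : ∃ r ∈ D m, Q r = 0 ∧ r ≠ 0 ∧ β b r ≠ 0 := by
        by_contra hcon
        push Not at hcon
        refine hb0 ((Submodule.eq_bot_iff _).1 (hnd m) bm ⟨hbm, (OrthNondegStab.mem_perp Q).2 fun y hy => ?_⟩)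
        have h1 := le_of_singular Q hB (hnd m) he hQe he0 (LinearMap.ker (β b))
          (fun s hs hQs hs0 => LinearMap.mem_ker.2 (hcon s hs hQs hs0)) hy
        rw [← hbc y hy, Witt.polar_symm']
        exact LinearMap.mem_ker.1 h1
      have hperp : ∀ v ∈ D m, β a v = 0 := fun v hv => by
        rw [Witt.polar_symm', hAa m v hv, hA0, map_zero]
      have h1 := ln_root Q hB hn h2 hk hd hnd horth htop hiso hq hH hb hr hQr (hperp r hr)
        (fun v hv _ => hperp v hv) hrb
      exact hnot (le_of_leaving Q hB hn h2 hk hd hnd horth htop hiso hq hH hr hr0 (h1.swap hQr) (hout m))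
    · have hperp : ∀ v ∈ D m, β (A m) v = 0 → β a v = 0 := fun v hv hAv => by
        rw [Witt.polar_symm', hAa m v hv, Witt.polar_symm', hAv]
      have hAA : β a (A m) = 0 := hperp _ (hA m) (by rw [Witt.polar_self', hQm, mul_zero])
      by_cases hbA : β b (A m) = 0
      · by_contra hcon
        push Not at hcon
        obtain ⟨v, hv, hbv, hAv⟩ := exists_dual Q hB (hnd m) (![A m] : Fin 1 → V) hbm
          (fun _ => by simpa using hA m) (fun hc => by
            obtain ⟨r, hr⟩ := (Submodule.mem_span_range_iff_exists_fun F).1 hc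
            rw [Fin.sum_univ_one, Matrix.cons_val_zero] at hr
            exact hcon (r 0) hr.symm)
        have hAv' : β (A m) v = 0 := hAv 0
        have h1 := ln_root' Q hB hn h2 hk hd hnd horth htop hiso hq hH hb (hA m) hv hQm hAv' hAA
          (hperp v hv hAv') hbA (by rw [Witt.polar_symm', hbc v hv, Witt.polar_symm', hbv]; exact one_ne_zero)
        exact hnot (le_of_leaving Q hB hn h2 hk hd hnd horth htop hiso hq hH (hA m) hA0 (h1.swap hQm) (hout m))
      · have h1 := ln_root Q hB hn h2 hk hd hnd horth htop hiso hq hH hb (hA m) hQm hAA hperp hbA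
        exact absurd (le_of_leaving Q hB hn h2 hk hd hnd horth htop hiso hq hH (hA m) hA0 (h1.swap hQm)
          (hout m)) hnot
  -- a hyperbolic pair and its complement in `D i`
  obtain ⟨q, hq', hQq, hpq⟩ := exists_pair Q hB (hnd i) hp hQp hp0
  have hpqQ : Q (p + q) ≠ 0 := by rw [Witt.quad_add, hQp, hQq, hpq]; simp
  obtain ⟨hR1, hR1d, -⟩ := cut Q h2 (hnd i) ((D i).add_mem hp hq') hpqQ
  have hmm : q - p ∈ D i ⊓ perp (Submodule.span F {p + q}) := ⟨(D i).sub_mem hq' hp, (OrthNondegStab.mem_perp Q).2 fun z hz => by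
    obtain ⟨c, rfl⟩ := Submodule.mem_span_singleton.1 hz
    simp only [map_smul, map_add, map_sub, LinearMap.add_apply, LinearMap.smul_apply, Witt.polar_self', hQp,
      hQq, hpq, Witt.polar_symm' Q q p, smul_eq_mul]
    ring⟩
  obtain ⟨hR, hRd, -⟩ := cut Q h2 hR1 hmm (by
    rw [sub_eq_add_neg, Witt.quad_add, QuadraticMap.map_neg, hQp, hQq, map_neg, Witt.polar_symm' Q q p, hpq]
    simp)
  set R := D i ⊓ perp (Submodule.span F {p + q}) ⊓ perp (Submodule.span F {q - p}) with hRdef
  rw [hd] at hR1d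
  have hRp : ∀ v ∈ R, β p v = 0 := fun v hv => by
    have e1 := (OrthNondegStab.mem_perp Q).1 hv.1.2 _ (Submodule.mem_span_singleton_self _)
    have e2 := (OrthNondegStab.mem_perp Q).1 hv.2 _ (Submodule.mem_span_singleton_self _)
    rw [map_add, LinearMap.add_apply] at e1
    rw [map_sub, LinearMap.sub_apply] at e2
    exact mul_left_cancel₀ h2 (by linear_combination e1 - e2)
  -- an anisotropic component
  obtain ⟨l, hl⟩ : ∃ l, Q (A l) ≠ 0 := by
    by_contra hcon
    push Not at hcon
    obtain ⟨v, hv, hQv⟩ := exists_aniso Q h2 hR (by omega)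
    classical
    set b := g.1 v
    choose B hBm hBb using fun j => exists_comp Q hB hnd j b
    have hB0 : ∀ j, Q (B j) = 0 := fun j => by
      obtain ⟨μ, hμ⟩ := hprop b (hlines v hv.1.1 (hRp v hv)) j (B j) (hBm j) (hBb j)
      rw [hμ, Witt.quad_smul, hcon, mul_zero]
    have hsum : b = ∑ j, B j := by
      refine sub_eq_zero.1 (ext_zero Q htop hB fun r y hy => ?_)
      rw [map_sub, hBb r y hy, map_sum, Finset.sum_eq_single r
        (fun j _ hj => horth r j hj.symm y hy _ (hBm j)) (by simp), sub_self]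
    have hQs : ∀ s : Finset (Fin t), Q (∑ j ∈ s, B j) = 0 := fun s => by
      induction s using Finset.induction_on with
      | empty => simp
      | insert c s hc ih =>
        rw [Finset.sum_insert hc, Witt.quad_add, ih, hB0, map_sum,
          Finset.sum_eq_zero fun j hj => horth c j (fun e => hc (e ▸ hj)) _ (hBm c) _ (hBm j), add_zero, add_zero]
    refine hQv ?_
    rw [← g.2 v, show g.1 v = b from rfl, hsum, hQs]
  set α := Q (A l) with hα
  obtain ⟨v, c, hv, hc0, hQv, hcv⟩ : ∃ v c, v ∈ R ∧ c ≠ 0 ∧ Q v ≠ 0 ∧ c * c * Q v * α ≠ 1 := by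
    rcases hq with h4 | h5
    · obtain ⟨v, hv, hQv⟩ := exists_level Q h2 hR (by omega) (c := -α⁻¹) (neg_ne_zero.2 (inv_ne_zero hl))
      refine ⟨v, 1, hv, one_ne_zero, hQv ▸ neg_ne_zero.2 (inv_ne_zero hl), fun h => h2 ?_⟩
      rw [hQv, one_mul, one_mul, neg_mul, inv_mul_cancel₀ hl] at h
      linear_combination -h
    · obtain ⟨v, hv, hQv⟩ := exists_aniso Q h2 hR (by omega)
      obtain ⟨c, hc0, hc⟩ := exists_sq_avoid h5 (Q v * α)⁻¹
      refine ⟨v, c, hv, hc0, hQv, fun h => hc (eq_inv_of_mul_eq_one_left ?_)⟩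
      rw [← h]; ring
  set b := g.1 v with hbv
  have hQb : Q b = Q v := g.2 v
  have hbl := hlines v hv.1.1 (hRp v hv)
  obtain ⟨bl, hblm, hblc⟩ := exists_comp Q hB hnd l b
  obtain ⟨μ, hμ⟩ := hprop b hbl l bl hblm hblc
  -- a singular point of `D l` not orthogonal to the point
  obtain ⟨e, he, he0, hQe⟩ := SingularVectors.exists_zero Q (D l) (by rw [hd]; exact hk)
  obtain ⟨r, hr, hQr, hr0, hra⟩ : ∃ r ∈ D l, Q r = 0 ∧ r ≠ 0 ∧ β a r ≠ 0 := by
    by_contra hcon
    push Not at hcon
    refine hl ?_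
    have h1 : ∀ y ∈ D l, β y (A l) = 0 := fun y hy => by
      have h1 := le_of_singular Q hB (hnd l) he hQe he0 (LinearMap.ker (β a))
        (fun s hs hQs hs0 => LinearMap.mem_ker.2 (hcon s hs hQs hs0)) hy
      rw [← hAa l y hy, Witt.polar_symm']
      exact LinearMap.mem_ker.1 h1
    rw [hα, show A l = 0 from (Submodule.eq_bot_iff _).1 (hnd l) _ ⟨hA l, (OrthNondegStab.mem_perp Q).2 h1⟩,
      QuadraticMap.map_zero]
  obtain ⟨f, hf, hQf, hrf⟩ := exists_pair Q hB (hnd l) hr hQr hr0
  -- a vector orthogonal to `r`, outside its line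
  obtain ⟨w, hw, hrw, hwr⟩ : ∃ w ∈ D l, β r w = 0 ∧ ∀ x : F, w ≠ x • r := by
    by_contra hno
    push Not at hno
    have hle : D l ≤ Submodule.span F (Set.range ![r, f]) := fun x hx => by
      obtain ⟨d, hd'⟩ := hno (x - β r x • f) ((D l).sub_mem hx ((D l).smul_mem _ hf))
        (by rw [map_sub, map_smul, hrf, smul_eq_mul, mul_one, sub_self])
      refine (Submodule.mem_span_range_iff_exists_fun F).2 ⟨![d, β r x], ?_⟩
      simp only [Fin.sum_univ_two, Matrix.cons_val_zero, Matrix.cons_val_one]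
      rw [← hd', sub_add_cancel]
    have h1 := Submodule.finrank_mono hle
    have h3 := finrank_range_le_card (R := F) ![r, f]
    rw [Set.finrank] at h3
    simp only [Fintype.card_fin] at h3
    rw [hd] at h1
    omega
  have hrl : Ln Q H r w := ⟨hQr, hrw, fun d => root_mem Q hB hn h2 hk hd hnd horth htop hiso hq hH hr
    ((D l).smul_mem d hw) hQr (by rw [map_smul, hrw, smul_zero])⟩
  set s := siegel Q a (c • b) with hs
  have h' := hrl.map (hbl.2.2 c)
  set ρ := β r a with hρ
  have hρ0 : ρ ≠ 0 := by rw [hρ, Witt.polar_symm']; exact hra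
  -- components in `D l` of the moved point and vector
  have hcomp : ∀ z ∈ D l, ∀ y ∈ D l, β y (s.1 z) = β y (z - (c * c * Q v * β z a) • A l) := fun z hz y hy => by
    have hzb : β z b = μ * β z a := by rw [hblc z hz, hμ, map_smul, smul_eq_mul, hAa l z hz]
    rw [hs, siegel_apply Q hQa (hbl.smul c).2.1, Witt.quad_smul, hQb, map_smul (β z), hzb, smul_eq_mul,
      map_sub, map_add, map_smul, map_smul, map_smul, map_sub, map_smul, hblc y hy, hμ, map_smul, hAa l y hy]
    simp only [smul_eq_mul]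
    ring
  have hA' : r - (c * c * Q v * ρ) • A l ∈ D l := (D l).sub_mem hr ((D l).smul_mem _ (hA l))
  have hW' : w - (c * c * Q v * β w a) • A l ∈ D l := (D l).sub_mem hw ((D l).smul_mem _ (hA l))
  have hQA' : Q (r - (c * c * Q v * ρ) • A l) ≠ 0 := by
    rw [sub_eq_add_neg, ← neg_smul, Witt.quad_add, Witt.quad_smul, hQr, map_smul, ← hAa l r hr, ← hρ, ← hα,
      smul_eq_mul]
    have e1 : (0 : F) + -(c * c * Q v * ρ) * -(c * c * Q v * ρ) * α + -(c * c * Q v * ρ) * ρ =
        (c * c * Q v * ρ * ρ) * (c * c * Q v * α - 1) := by ring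
    rw [e1]
    exact mul_ne_zero (mul_ne_zero (mul_ne_zero (mul_ne_zero (mul_ne_zero hc0 hc0) hQv) hρ0) hρ0)
      (sub_ne_zero.2 hcv)
  refine hnot (le_of_aniso Q hB hn h2 hk hd hnd horth htop hiso hq hH h' hA' hW' (hcomp r hr) (hcomp w hw)
    hQA' fun x hx => ?_)
  have h3 : w - x • r = (c * c * Q v * β w a - x * (c * c * Q v * ρ)) • A l := by
    linear_combination (norm := module) hx
  have h4 := congrArg (β r) h3
  rw [map_sub, hrw, map_smul, Witt.polar_self', hQr, map_smul, ← hAa l r hr, ← hρ] at h4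
  simp only [smul_eq_mul, mul_zero, sub_zero] at h4
  rw [(mul_eq_zero.1 h4.symm).resolve_right hρ0, zero_smul, sub_eq_zero] at h3
  exact hwr x h3

omit hH in
/-- Some element of the commutator subgroup does not permute the members. -/
theorem exists_moving {m l : Fin t} (hml : m ≠ l) :
    ∃ g ∈ commutator (Witt.quadIso Q), ¬ ∃ π : Equiv.Perm (Fin t), ∀ i, ∀ x ∈ D i, g.1 x ∈ D (π i) := by
  obtain ⟨p, hp, hp0, hQp⟩ := SingularVectors.exists_zero Q (D m) (by rw [hd]; exact hk)
  obtain ⟨q, hq', hQq, hpq⟩ := exists_pair Q hB (hnd m) hp hQp hp0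
  obtain ⟨u, hu, hQu⟩ := exists_aniso Q h2 (hnd l) (by rw [hd]; omega)
  have hpu : β p u = 0 := horth m l hml p hp u hu
  refine ⟨siegel Q p u, siegel_mem_commutator Q hB (by omega) hQp hpu, ?_⟩
  rintro ⟨π, hπ⟩
  have h1 := hπ m q hq'
  rw [siegel_apply Q hQp hpu, Witt.polar_symm' Q q p, hpq, one_smul, horth m l hml q hq' u hu, zero_add,
    mul_one] at h1
  by_cases hm : π m = m
  · rw [hm] at h1
    have h3 : u ∈ D m := by
      have h3 := (D m).sub_mem ((D m).add_mem h1 ((D m).smul_mem (Q u) hp)) hq'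
      rwa [show q + u - Q u • p + Q u • p - q = u by abel] at h3
    refine hQu ?_
    rw [(Submodule.eq_bot_iff _).1 (hnd m) u ⟨h3, (OrthNondegStab.mem_perp Q).2 fun y hy => horth m l hml y hy u hu⟩,
      QuadraticMap.map_zero]
  · -- the component in `D m` is then zero
    have h3 := horth m (π m) (Ne.symm hm) p hp _ h1
    rw [map_sub, map_add, map_smul, hpq, hpu, Witt.polar_self', hQp] at h3
    simp at h3

end Cfsg.Lib.Classical.OrthWreath
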