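import Mathlib
import Cfsg.Agent.Lib.Classical.OrthWreath
import Cfsg.Agent.Lib.Classical.OmegaBridge

/-!
Stabilisers of orthogonal decompositions are maximal in `omegaGL`.
-/

set_option autoImplicit false

namespace Cfsg.Lib.Classical.OrthWreath

open Module
open scoped MatrixGroups

variable {ι : Type} [Fintype ι] [DecidableEq ι] {F : Type*} [Field F] [Fintype F] {f : (ι → F) → F}
  {Q : QuadraticForm F (ι → F)}

lemma finrank_eq {t k : ℕ} {D : Fin t → Submodule F (ι → F)} (hD : Cfsg.Geo.IsMDecomposition k D) :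
    finrank F (ι → F) = t * k := by
  classical
  have h := DirectSum.isInternal_submodule_of_iSupIndep_of_iSup_eq_top hD.indep hD.iSup_eq_top
  rw [finrank_eq_card_basis (h.collectedBasis fun i => Module.finBasisOfFinrankEq F (D i) (hD.finrank_eq i))]
  simp

lemma toGL_mem_decomp (h : ∀ v, Q v = f v) {t k : ℕ} (D : Fin t → Submodule F (ι → F))
    (hd : ∀ i, finrank F (D i) = k) (g : Witt.quadIso Q) :
    OmegaBridge.toGL h g ∈ Cfsg.Geo.decompositionStabilizer D ↔
      ∃ π : Equiv.Perm (Fin t), ∀ i, ∀ x ∈ D i, g.1 x ∈ D (π i) := by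
  constructor
  · rintro ⟨π, hπ⟩
    refine ⟨π, fun i x hx => ?_⟩
    rw [← hπ i]
    exact ⟨x, hx, by rw [Matrix.toLin'_apply, OmegaBridge.toGL_mulVec]⟩
  · rintro ⟨π, hπ⟩
    refine ⟨π, fun i => Submodule.eq_of_le_of_finrank_eq ?_ ?_⟩
    · rintro _ ⟨x, hx, rfl⟩
      rw [Matrix.toLin'_apply, OmegaBridge.toGL_mulVec]
      exact hπ i x hx
    · have hinj : Function.Injective
          (Matrix.toLin' ((OmegaBridge.toGL h g : GL ι F) : Matrix ι ι F)) := fun x y e => by
        rw [Matrix.toLin'_apply, Matrix.toLin'_apply, OmegaBridge.toGL_mulVec, OmegaBridge.toGL_mulVec] at e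
        exact g.1.injective e
      rw [← LinearEquiv.finrank_eq (Submodule.equivMapOfInjective _ hinj (D i)), hd, hd]

/-- The stabiliser of an orthogonal decomposition is maximal. -/
theorem maximal (h : ∀ v, Q v = f v) (hB : (QuadraticMap.polarBilin Q).Nondegenerate)
    (hn : 13 ≤ finrank F (ι → F)) (h2 : (2 : F) ≠ 0) {t k : ℕ} (hk : 3 ≤ k) (hq : 4 ≤ k ∨ 5 ≤ Nat.card F)
    (D : Fin t → Submodule F (ι → F)) (hD : Cfsg.Geo.IsOrthogonalMDecomposition f k D) :
    Cfsg.Geo.IsMaximalIn (Cfsg.Geo.omegaGL f) (Cfsg.Geo.decompositionStabilizer D ⊓ Cfsg.Geo.omegaGL f) := by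
  have hd := hD.decomp.decomp.finrank_eq
  have hfun : ∀ x y, QuadraticMap.polarBilin Q x y = QuadraticMap.polar f x y := fun x y => by
    simp [QuadraticMap.polar, h]
  have hnd : ∀ i, D i ⊓ LinearMap.BilinForm.orthogonal (QuadraticMap.polarBilin Q) (D i) = ⊥ := fun i =>
    (Submodule.eq_bot_iff _).2 fun x hx => by_contra fun hx0 => by
      obtain ⟨⟨y, hy, hyx⟩, -⟩ := hD.decomp.nondegenerate i x hx.1 hx0
      exact hyx (by rw [← hfun]; exact (OrthNondegStab.mem_perp Q).1 hx.2 y hy)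
  have horth : ∀ i j, i ≠ j → ∀ x ∈ D i, ∀ y ∈ D j, QuadraticMap.polarBilin Q x y = 0 :=
    fun i j hij x hx y hy => by rw [hfun]; exact hD.decomp.orthogonal i j hij x hx y hy
  have htop := hD.decomp.decomp.iSup_eq_top
  have hiso : ∀ i j, ∃ e : D i ≃ₗ[F] D j, ∀ w : D i, Q (e w : ι → F) = Q (w : ι → F) := fun i j => by
    obtain ⟨e, he⟩ := hD.isometric i j
    exact ⟨e, fun w => by rw [h, h, he]⟩
  have ht := hD.decomp.decomp.two_le
  refine OmegaBridge.isMaximalIn h _ ?_ fun H hH g hg _ hgN => ?_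
  · obtain ⟨g, hg, hgD⟩ := exists_moving Q hB hn h2 hk hd hnd horth htop hiso hq
      (m := ⟨0, by omega⟩) (l := ⟨1, by omega⟩) (by simp)
    exact ⟨g, hg, fun hc => hgD ((toGL_mem_decomp h D hd g).1 hc)⟩
  · exact commutator_le_of_wreath Q hB hn h2 hk hd hnd horth htop hiso hq
      (fun g hg hgD => hH g hg ((toGL_mem_decomp h D hd g).2 hgD)) hg
      fun hgD => hgN ((toGL_mem_decomp h D hd g).2 hgD)

end Cfsg.Lib.Classical.OrthWreath
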