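import Mathlib
import Cfsg.Agent.Lib.Classical.Transvection
import Cfsg.Agent.Lib.Classical.SymplecticMatrix
import Cfsg.Agent.Lib.Classical.CommonZero
import Cfsg.Agent.Lib.Classical.LagrangianPair

/-!
A subgroup of `GL` containing the Siegel elements of a symmetric form in odd characteristic and a
further element that is not a similitude contains `SL`.
-/

set_option autoImplicit false

namespace Cfsg.Lib.Classical

open Matrix Module
open scoped MatrixGroups

variable {ι : Type} [Fintype ι] [DecidableEq ι] {F : Type*} [Field F]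
  {B : LinearMap.BilinForm F (ι → F)} (hS : B.IsSymm) (hB : B.Nondegenerate) (h2 : (2 : F) ≠ 0)

include hS

omit [Fintype ι] [DecidableEq ι] in
lemma sy (x y : ι → F) : B x y = B y x := hS.eq x y

include hB

lemma exists_rightVecS (ψ : ι → F) : ∃ w, rightVec B w = ψ := by
  let L : (ι → F) →ₗ[F] (ι → F) :=
    { toFun := rightVec B
      map_add' := fun x y => by funext i; simp [rightVec]
      map_smul' := fun c x => by funext i; simp [rightVec] }
  have hinj : Function.Injective L := by
    rw [← LinearMap.ker_eq_bot, LinearMap.ker_eq_bot']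
    intro w hw
    refine hB.2 w fun x => ?_
    rw [← rightVec_dot, show rightVec B w = 0 from hw, zero_dotProduct]
  exact LinearMap.surjective_of_injective hinj ψ

lemma exists_functional_vec (L : (ι → F) →ₗ[F] F) : ∃ w, ∀ x, B x w = L x := by
  obtain ⟨w, hw⟩ := exists_rightVecS hS hB fun i => L (Pi.single i 1)
  refine ⟨w, fun x => ?_⟩
  rw [← rightVec_dot, hw]
  conv_rhs => rw [pi_eq_sum_univ' x]
  simp [dotProduct, map_sum, mul_comm]

/-- The orthogonal of a finite family. -/
def famOrth (B : LinearMap.BilinForm F (ι → F)) {k : ℕ} (r : Fin k → ι → F) :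
    Submodule F (ι → F) :=
  B.orthogonal (Submodule.span F (Set.range r))

omit hB in
lemma mem_famOrth {k : ℕ} {r : Fin k → ι → F} {x : ι → F} :
    x ∈ famOrth B r ↔ ∀ i, B x (r i) = 0 := by
  rw [famOrth, LinearMap.BilinForm.mem_orthogonal_iff]
  refine ⟨fun h i => ?_, fun h y hy => ?_⟩
  · rw [sy hS]
    exact h _ (Submodule.subset_span (Set.mem_range_self i))
  · change B y x = 0
    induction hy using Submodule.span_induction with
    | mem y hy => obtain ⟨i, rfl⟩ := hy; rw [sy hS]; exact h i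
    | zero => simp
    | add a b _ _ ha hb => simp [ha, hb]
    | smul c a _ ha => simp [ha]

lemma finrank_famOrth {k : ℕ} (r : Fin k → ι → F) :
    Fintype.card ι ≤ finrank F (famOrth B r) + k := by
  rw [famOrth, LinearMap.BilinForm.finrank_orthogonal hB, Module.finrank_fintype_fun_eq_card]
  have := finrank_range_le_card r (R := F)
  rw [Set.finrank] at this
  simp only [Fintype.card_fin] at this
  omega

variable [Finite F]

include h2

lemma span_singular {U : Submodule F (ι → F)}
    (hU : finrank F ↥(U ⊓ B.orthogonal U) + 3 ≤ finrank F U) :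
    Submodule.span F {x | x ∈ U ∧ B x x = 0} = U := by
  set K := Submodule.span F {x | x ∈ U ∧ B x x = 0} with hK
  have hKU : K ≤ U := Submodule.span_le.2 fun x hx => hx.1
  refine le_antisymm hKU fun x hx => ?_
  by_contra hxK
  have orth : ∀ u ∈ U, u ∉ K → ∀ y ∈ U, B y y = 0 → B u y = 0 := by
    intro u hu huK y hy hyy
    by_contra h
    apply huK
    set t := -(B u u) / (2 * B u y) with ht
    have h1 : B (u + t • y) (u + t • y) = 0 := by
      simp only [map_add, map_smul, LinearMap.add_apply, LinearMap.smul_apply, smul_eq_mul,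
        sy hS y u, hyy, mul_zero, add_zero]
      have := div_mul_cancel₀ (-(B u u)) (mul_ne_zero h2 h)
      rw [← ht] at this
      linear_combination this
    have h3 := K.sub_mem (Submodule.subset_span (show u + t • y ∈ {x | x ∈ U ∧ B x x = 0} from
      ⟨U.add_mem hu (U.smul_mem _ hy), h1⟩)) (K.smul_mem t (Submodule.subset_span
        (show y ∈ {x | x ∈ U ∧ B x x = 0} from ⟨hy, hyy⟩)))
    rwa [add_sub_cancel_right] at h3
  have hrad : ∀ y ∈ U, B y y = 0 → y ∈ U ⊓ B.orthogonal U := by
    refine fun y hy hyy => ⟨hy, LinearMap.BilinForm.mem_orthogonal_iff.2 ?_⟩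
    intro u hu
    change B u y = 0
    by_cases huK : u ∈ K
    · have h1 := orth (u + x) (U.add_mem hu hx) (fun h => hxK ((K.add_mem_iff_right huK).1 h)) y hy hyy
      rw [map_add, LinearMap.add_apply, orth x hx hxK y hy hyy, add_zero] at h1
      exact h1
    · exact orth u hu huK y hy hyy
  obtain ⟨C, hC⟩ := Submodule.exists_isCompl ((U ⊓ B.orthogonal U).comap U.subtype)
  have hd := Submodule.finrank_add_eq_of_isCompl hC
  rw [LinearEquiv.finrank_eq (Submodule.comapSubtypeEquivOfLe inf_le_left)] at hd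
  have hC' : finrank F (C.map U.subtype) = finrank F C :=
    (LinearEquiv.finrank_eq (Submodule.equivMapOfInjective _ U.injective_subtype C)).symm
  obtain ⟨p, hp, hp0, hpp⟩ : ∃ p ∈ C.map U.subtype, p ≠ 0 ∧ B p p = 0 := by
    exact exists_quad_zero h2 B _ (by omega)
  obtain ⟨c, hc, rfl⟩ := hp
  exact hp0 (by rw [Submodule.disjoint_def.1 hC.disjoint c (hrad _ c.2 hpp) hc, map_zero])

/-- A singular vector orthogonal to a family, with a prescribed nonzero value at a vector outside
its span. -/
lemma exists_sing {k : ℕ} (r : Fin k → ι → F) (hn : 2 * k + 3 ≤ Fintype.card ι) {v : ι → F}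
    (hv : v ∉ Submodule.span F (Set.range r)) :
    ∃ p, B p p = 0 ∧ (∀ i, B p (r i) = 0) ∧ B p v = 1 := by
  have hU : Submodule.span F {x | x ∈ famOrth B r ∧ B x x = 0} = famOrth B r := by
    refine span_singular hS hB h2 ?_
    have h1 := finrank_famOrth hS hB r
    have h3 : famOrth B r ⊓ B.orthogonal (famOrth B r) ≤ Submodule.span F (Set.range r) := by
      rw [famOrth, LinearMap.BilinForm.orthogonal_orthogonal hB hS.isRefl]
      exact inf_le_right
    have h4 := Submodule.finrank_mono h3
    have h5 := finrank_range_le_card r (R := F)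
    rw [Set.finrank] at h5
    simp only [Fintype.card_fin] at h5
    omega
  by_contra! hcon
  apply hv
  rw [← LinearMap.BilinForm.orthogonal_orthogonal hB hS.isRefl (Submodule.span F (Set.range r)),
    LinearMap.BilinForm.mem_orthogonal_iff]
  intro y hy
  change y ∈ famOrth B r at hy
  change B y v = 0
  rw [← hU] at hy
  induction hy using Submodule.span_induction with
  | mem p hp =>
    obtain ⟨hpU, hpp⟩ := hp
    by_contra h
    refine hcon ((B p v)⁻¹ • p) (by simp [hpp]) (fun i => ?_) (by simp [h])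
    simp [(mem_famOrth hS).1 hpU i]
  | zero => simp
  | add a b _ _ ha hb => simp [ha, hb]
  | smul c a _ ha => simp [ha]

/-- A singular vector orthogonal to a family, outside a given subspace. -/
lemma exists_sing_avoid {k : ℕ} (r : Fin k → ι → F) (hn : 2 * k + 3 ≤ Fintype.card ι)
    (S : Submodule F (ι → F)) (hS' : finrank F S + k < Fintype.card ι) :
    ∃ p, B p p = 0 ∧ (∀ i, B p (r i) = 0) ∧ p ∉ S := by
  by_contra! hcon
  have hU : Submodule.span F {x | x ∈ famOrth B r ∧ B x x = 0} = famOrth B r := by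
    refine span_singular hS hB h2 ?_
    have h1 := finrank_famOrth hS hB r
    have h3 : famOrth B r ⊓ B.orthogonal (famOrth B r) ≤ Submodule.span F (Set.range r) := by
      rw [famOrth, LinearMap.BilinForm.orthogonal_orthogonal hB hS.isRefl]
      exact inf_le_right
    have h4 := Submodule.finrank_mono h3
    have h5 := finrank_range_le_card r (R := F)
    rw [Set.finrank] at h5
    simp only [Fintype.card_fin] at h5
    omega
  have hle : famOrth B r ≤ S := by
    rw [← hU, Submodule.span_le]
    exact fun p hp => hcon p hp.2 ((mem_famOrth hS).1 hp.1)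
  have h1 := Submodule.finrank_mono hle
  have h3 := finrank_famOrth hS hB r
  omega

/-- Existence of the Siegel elements. -/
lemma exists_siegel {p e : ι → F} (hp : B p p = 0) (he : B p e = 0) :
    ∃ R : GL ι F, Matrix.GeneralLinearGroup.det R = 1 ∧
      (∀ x y, B ((R : Matrix ι ι F) *ᵥ x) ((R : Matrix ι ι F) *ᵥ y) = B x y) ∧
      ∀ x, (R : Matrix ι ι F) *ᵥ x = x + B x p • e - (B x e + B e e / 2 * B x p) • p := by
  have h1 : rightVec B p ⬝ᵥ e = 0 := by rw [rightVec_dot, sy hS, he]
  have h3 : (-(rightVec B e + (B e e / 2) • rightVec B p)) ⬝ᵥ p = 0 := by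
    rw [neg_dotProduct, add_dotProduct, smul_dotProduct, rightVec_dot, rightVec_dot, he, hp,
      smul_zero, add_zero, neg_zero]
  have hR : ∀ x, ((tvGL e (rightVec B p) h1 * tvGL p _ h3 : GL ι F) : Matrix ι ι F) *ᵥ x =
      x + B x p • e - (B x e + B e e / 2 * B x p) • p := by
    intro x
    rw [Units.val_mul, ← mulVec_mulVec, coe_tvGL, coe_tvGL, tv_mulVec, tv_mulVec, rightVec_dot,
      neg_dotProduct, add_dotProduct, smul_dotProduct, rightVec_dot, rightVec_dot, map_add,
      LinearMap.add_apply, map_smul, LinearMap.smul_apply, hp, smul_zero, add_zero, smul_eq_mul]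
    module
  refine ⟨_, by rw [map_mul, tvGL_mem_ker_det e _ h1, tvGL_mem_ker_det p _ h3, one_mul],
    fun x y => ?_, hR⟩
  rw [hR, hR]
  simp only [map_add, map_sub, map_smul, LinearMap.add_apply, LinearMap.sub_apply,
    LinearMap.smul_apply, smul_eq_mul, hp, he, sy hS e p, sy hS p y, sy hS e y]
  field_simp
  ring

variable {M : Subgroup (GL ι F)}
  (hM : ∀ R : GL ι F, Matrix.GeneralLinearGroup.det R = 1 →
    (∀ x y, B ((R : Matrix ι ι F) *ᵥ x) ((R : Matrix ι ι F) *ᵥ y) = B x y) → R ∈ M)

omit hS hB h2 [Finite F] in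
/-- The transvection `x ↦ x + B(x,w) v` lies in `M`. -/
def TvIn (B : LinearMap.BilinForm F (ι → F)) (M : Subgroup (GL ι F)) (v w : ι → F) : Prop :=
  ∃ h : rightVec B w ⬝ᵥ v = 0, tvGL v (rightVec B w) h ∈ M

omit hS hB h2 [Finite F] in
lemma TvIn.orth {v w : ι → F} (h : TvIn B M v w) : B v w = 0 := by
  rw [← rightVec_dot]; exact h.1

omit hS hB h2 [Finite F] in
lemma tvIn_iff {v w : ι → F} {g : GL ι F} (hvw : B v w = 0)
    (hg : ∀ x, (g : Matrix ι ι F) *ᵥ x = x + B x w • v) : g ∈ M ↔ TvIn B M v w := by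
  have h : rightVec B w ⬝ᵥ v = 0 := by rw [rightVec_dot, hvw]
  have e : g = tvGL v (rightVec B w) h :=
    Units.ext (ext_mulVec fun x => by rw [hg, coe_tvGL, tv_mulVec, rightVec_dot])
  exact ⟨fun hgM => ⟨h, e ▸ hgM⟩, fun ⟨_, h'⟩ => e ▸ h'⟩

omit hS hB h2 [Finite F] in
lemma TvIn.sub_left {v v' w : ι → F} (h : TvIn B M v w) (h' : TvIn B M v' w) :
    TvIn B M (v' - v) w := by
  obtain ⟨h1, hm⟩ := h
  obtain ⟨h1', hm'⟩ := h'
  have hz : rightVec B w ⬝ᵥ (v' - v) = 0 := by rw [dotProduct_sub, h1, h1', sub_zero]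
  refine ⟨hz, ?_⟩
  have : tvGL (v' - v) (rightVec B w) hz =
      tvGL v' (rightVec B w) h1' * (tvGL v (rightVec B w) h1)⁻¹ := by
    rw [eq_mul_inv_iff_mul_eq]
    exact Units.ext (by rw [Units.val_mul, coe_tvGL, coe_tvGL, coe_tvGL, tv_mul_left _ _ _ h1,
      sub_add_cancel])
  rw [this]
  exact mul_mem hm' (inv_mem hm)

omit hS hB h2 [Finite F] in
lemma TvIn.sub_right {v w w' : ι → F} (h : TvIn B M v w) (h' : TvIn B M v w') :
    TvIn B M v (w' - w) := by
  obtain ⟨h1, hm⟩ := h
  obtain ⟨h1', hm'⟩ := h'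
  have hrv : rightVec B (w' - w) = rightVec B w' - rightVec B w := by
    funext i; simp [rightVec]
  have hz : rightVec B (w' - w) ⬝ᵥ v = 0 := by rw [hrv, sub_dotProduct, h1, h1', sub_zero]
  refine ⟨hz, ?_⟩
  have : tvGL v (rightVec B (w' - w)) hz =
      tvGL v (rightVec B w') h1' * (tvGL v (rightVec B w) h1)⁻¹ := by
    rw [eq_mul_inv_iff_mul_eq]
    exact Units.ext (by rw [Units.val_mul, coe_tvGL, coe_tvGL, coe_tvGL,
      tv_mul_right _ _ _ hz, hrv, sub_add_cancel])
  rw [this]
  exact mul_mem hm' (inv_mem hm)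

omit hS hB h2 [Finite F] in
lemma TvIn.map {v w : ι → F} (h : TvIn B M v w) {R : GL ι F} (hR : R ∈ M)
    (hi : ∀ x y, B ((R : Matrix ι ι F) *ᵥ x) ((R : Matrix ι ι F) *ᵥ y) = B x y) :
    TvIn B M ((R : Matrix ι ι F) *ᵥ v) ((R : Matrix ι ι F) *ᵥ w) := by
  obtain ⟨h1, hm⟩ := h
  refine (tvIn_iff (g := R * tvGL v (rightVec B w) h1 * R⁻¹)
    (by rw [hi, ← rightVec_dot, h1]) fun x => ?_).1 (mul_mem (mul_mem hR hm) (inv_mem hR))
  rw [Units.val_mul, Units.val_mul, ← mulVec_mulVec, ← mulVec_mulVec, coe_tvGL, tv_mulVec,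
    mulVec_add, mulVec_smul, mulVec_inv_mulVec, rightVec_dot]
  conv_rhs => rw [← mulVec_inv_mulVec R x, hi, mulVec_inv_mulVec]

omit hS hB h2 [Finite F] in
/-- All multiples of a transvection lie in `M`. -/
def LineIn (B : LinearMap.BilinForm F (ι → F)) (M : Subgroup (GL ι F)) (a b : ι → F) : Prop :=
  ∀ c : F, TvIn B M (c • a) b

omit hS hB h2 [Finite F] in
lemma lineIn_right {a b : ι → F} (h : LineIn B M a b) (c : F) : TvIn B M a (c • b) := by
  obtain ⟨h1, hm⟩ := h c
  have hrv : rightVec B (c • b) = c • rightVec B b := by funext i; simp [rightVec]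
  have hz : rightVec B (c • b) ⬝ᵥ a = 0 := by
    rw [hrv, smul_dotProduct, ← dotProduct_smul, h1]
  refine ⟨hz, ?_⟩
  have : tvGL a (rightVec B (c • b)) hz = tvGL (c • a) (rightVec B b) h1 :=
    Units.ext (by rw [coe_tvGL, coe_tvGL, tv_smul, hrv])
  rwa [this]

include hM

/-- Changing the centre of a full line of transvections. -/
lemma lineIn_left {a a' b : ι → F} (hn : 7 ≤ Fintype.card ι) (h : TvIn B M a b)
    (ha : B a' a' = 0) (ha'a : B a' a = 0) (ha'b : B a' b = 0)
    (hind : a ∉ Submodule.span F (Set.range ![a', b])) : LineIn B M a' b := by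
  obtain ⟨p, hpp, hpv, hpa⟩ := exists_sing hS hB h2 ![a', b] (by omega) hind
  have hpa' : B p a' = 0 := hpv 0
  have hpb : B p b = 0 := hpv 1
  intro c
  obtain ⟨R, hd, hi, hR⟩ := exists_siegel hS hB h2 (p := p) (e := c • a') hpp
    (by rw [map_smul, hpa', smul_zero])
  have hac : B a (c • a') = 0 := by rw [map_smul, sy hS a a', ha'a, smul_zero]
  have hbc : B b (c • a') = 0 := by rw [map_smul, sy hS b a', ha'b, smul_zero]
  have hcc : B (c • a') (c • a') = 0 := by simp [ha]
  have hRa : (R : Matrix ι ι F) *ᵥ a = a + c • a' := by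
    rw [hR, sy hS a p, hpa, hac, hcc]
    simp
  have hRb : (R : Matrix ι ι F) *ᵥ b = b := by
    rw [hR, sy hS b p, hpb, hbc]
    simp
  have h1 := h.map (hM R hd hi) hi
  rw [hRa, hRb] at h1
  simpa using h.sub_left h1

/-- Changing the functional of a full line of transvections. -/
lemma lineIn_right' {a b b' : ι → F} (hn : 7 ≤ Fintype.card ι) (h : TvIn B M a b)
    (hb : B b' b' = 0) (hb'b : B b' b = 0) (hb'a : B b' a = 0)
    (hind : b ∉ Submodule.span F (Set.range ![a, b'])) : LineIn B M a b' := by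
  obtain ⟨p, hpp, hpv, hpb⟩ := exists_sing hS hB h2 ![a, b'] (by omega) hind
  have hpa : B p a = 0 := hpv 0
  have hpb' : B p b' = 0 := hpv 1
  intro c
  obtain ⟨R, hd, hi, hR⟩ := exists_siegel hS hB h2 (p := p) (e := c • b') hpp
    (by rw [map_smul, hpb', smul_zero])
  have hac : B a (c • b') = 0 := by rw [map_smul, sy hS a b', hb'a, smul_zero]
  have hbc : B b (c • b') = 0 := by rw [map_smul, sy hS b b', hb'b, smul_zero]
  have hcc : B (c • b') (c • b') = 0 := by simp [hb]
  have hRa : (R : Matrix ι ι F) *ᵥ a = a := by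
    rw [hR, sy hS a p, hpa, hac]
    simp
  have hRb : (R : Matrix ι ι F) *ᵥ b = b + c • b' := by
    rw [hR, sy hS b p, hpb, hbc, hcc]
    simp
  have h1 := h.map (hM R hd hi) hi
  rw [hRa, hRb] at h1
  obtain ⟨h3, h4⟩ := h.sub_right h1
  have hz : rightVec B b' ⬝ᵥ (c • a) = 0 := by
    rw [dotProduct_smul, rightVec_dot, sy hS, hb'a, smul_zero]
  refine ⟨hz, ?_⟩
  have : tvGL (c • a) (rightVec B b') hz = tvGL a (rightVec B (b + c • b' - b)) h3 := by
    refine Units.ext ?_
    rw [coe_tvGL, coe_tvGL, tv_smul, add_sub_cancel_left]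
    congr 1
    funext i
    simp [rightVec]
  rwa [this]

/-- One transvection with independent centre and functional gives `SL`. -/
theorem ker_det_le_of_tvIn (hn : 13 ≤ Fintype.card ι) {v w : ι → F} (h : TvIn B M v w)
    (hv : v ≠ 0) (hw : ∀ c : F, c • v ≠ w) :
    (Matrix.GeneralLinearGroup.det : GL ι F →* Fˣ).ker ≤ M := by
  have hvw : B v w = 0 := h.orth
  have hr : ∀ {k : ℕ} (r : Fin k → ι → F), finrank F (Submodule.span F (Set.range r)) ≤ k := by
    intro k r
    have := finrank_range_le_card r (R := F)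
    rw [Set.finrank] at this
    simpa using this
  -- a full line
  obtain ⟨a, haa, hav, haS⟩ := exists_sing_avoid hS hB h2 ![v, w] (by omega)
    (Submodule.span F (Set.range ![v, w])) (by have := hr ![v, w]; omega)
  have hav0 : B a v = 0 := hav 0
  have haw0 : B a w = 0 := hav 1
  have hind : v ∉ Submodule.span F (Set.range ![a, w]) := by
    intro hc
    rw [Matrix.range_cons, Matrix.range_cons, Matrix.range_empty, Set.union_empty,
      Set.singleton_union] at hc
    obtain ⟨x, y, hxy⟩ := Submodule.mem_span_pair.1 hc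
    by_cases hx : x = 0
    · rw [hx, zero_smul, zero_add] at hxy
      have hy : y ≠ 0 := fun e => hv (by rw [← hxy, e, zero_smul])
      exact hw y⁻¹ (by rw [← hxy, smul_smul, inv_mul_cancel₀ hy, one_smul])
    · apply haS
      have : a = x⁻¹ • (v - y • w) := by
        rw [← hxy, add_sub_cancel_right, smul_smul, inv_mul_cancel₀ hx, one_smul]
      rw [this]
      exact Submodule.smul_mem _ _ (Submodule.sub_mem _ (Submodule.subset_span ⟨0, rfl⟩)
        (Submodule.smul_mem _ _ (Submodule.subset_span ⟨1, rfl⟩)))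
  have h1 := lineIn_left hS hB h2 hM (by omega) h haa hav0 haw0 hind
  obtain ⟨b, hbb, hbv, hbS⟩ := exists_sing_avoid hS hB h2 ![a, w] (by omega)
    (Submodule.span F (Set.range ![a, w])) (by have := hr ![a, w]; omega)
  have hba : B b a = 0 := hbv 0
  have hbw : B b w = 0 := hbv 1
  have ha0 : a ≠ 0 := fun e => haS (e ▸ Submodule.zero_mem _)
  have hwind : w ∉ Submodule.span F (Set.range ![a, b]) := by
    intro hc
    rw [Matrix.range_cons, Matrix.range_cons, Matrix.range_empty, Set.union_empty,
      Set.singleton_union] at hc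
    obtain ⟨x, y, hxy⟩ := Submodule.mem_span_pair.1 hc
    by_cases hy : y = 0
    · rw [hy, zero_smul, add_zero] at hxy
      by_cases hx : x = 0
      · rw [hx, zero_smul] at hxy
        exact hw 0 (by rw [zero_smul, hxy])
      · apply haS
        rw [show a = x⁻¹ • w by rw [← hxy, smul_smul, inv_mul_cancel₀ hx, one_smul]]
        exact Submodule.smul_mem _ _ (Submodule.subset_span ⟨1, rfl⟩)
    · apply hbS
      rw [show b = y⁻¹ • (w - x • a) by
        rw [← hxy, add_sub_cancel_left, smul_smul, inv_mul_cancel₀ hy, one_smul]]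
      exact Submodule.smul_mem _ _ (Submodule.sub_mem _ (Submodule.subset_span ⟨1, rfl⟩)
        (Submodule.smul_mem _ _ (Submodule.subset_span ⟨0, rfl⟩)))
  have hab := lineIn_right' hS hB h2 hM (by omega) (show TvIn B M a w by simpa using h1 1)
    hbb hbw hba hwind
  -- every singular orthogonal independent pair
  have pair : ∀ a' b', B a' a' = 0 → B b' b' = 0 → B a' b' = 0 →
      LinearIndependent F ![a', b'] → LineIn B M a' b' := by
    intro a' b' ha' hb' hab' hli
    obtain ⟨a₃, h33, h3v, h3S⟩ := exists_sing_avoid hS hB h2 ![a, b, a', b'] (by omega)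
      (Submodule.span F (Set.range ![a, b, a', b'])) (by have := hr ![a, b, a', b']; omega)
    obtain ⟨b₃, h44, h4v, h4S⟩ := exists_sing_avoid hS hB h2 ![a, b, a', b', a₃] (by omega)
      (Submodule.span F (Set.range ![a, b, a', b', a₃]))
      (by have := hr ![a, b, a', b', a₃]; omega)
    have li : ∀ x y : ι → F, x ∉ Submodule.span F {y} → y ≠ 0 →
        LinearIndependent F ![y, x] := fun x y hx hy =>
      (LinearIndependent.pair_iff' hy).2 fun c e => hx (Submodule.mem_span_singleton.2 ⟨c, e⟩)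
    have hb0 : b ≠ 0 := fun e => hbS (e ▸ Submodule.zero_mem _)
    -- `x` independent of a family is outside the span of two of its members
    have out : ∀ x y z : ι → F, LinearIndependent F ![x, y] →
        z ∉ Submodule.span F {x} ⊔ Submodule.span F {y} →
        x ∉ Submodule.span F (Set.range ![z, y]) ∧ y ∉ Submodule.span F (Set.range ![x, z]) := by
      intro x y z hxy hz
      have key : ∀ u v' : ι → F, LinearIndependent F ![u, v'] →
          z ∉ Submodule.span F {u} ⊔ Submodule.span F {v'} →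
          ∀ p q : F, p • z + q • v' ≠ u := by
        intro u v' huv hz p q e
        by_cases hp : p = 0
        · rw [hp, zero_smul, zero_add] at e
          have := LinearIndependent.pair_iff.1 huv 1 (-q) (by rw [← e]; module)
          exact one_ne_zero this.1
        · apply hz
          rw [show z = p⁻¹ • u + (-(p⁻¹ * q)) • v' by
            rw [← e, smul_add, smul_smul, smul_smul, inv_mul_cancel₀ hp, one_smul, neg_smul,
              add_neg_cancel_right]]
          exact Submodule.add_mem_sup (Submodule.smul_mem _ _ (Submodule.mem_span_singleton_self u))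
            (Submodule.smul_mem _ _ (Submodule.mem_span_singleton_self v'))
      constructor <;> intro hc <;>
        rw [Matrix.range_cons, Matrix.range_cons, Matrix.range_empty, Set.union_empty,
          Set.singleton_union] at hc <;>
        obtain ⟨p, q, hpq⟩ := Submodule.mem_span_pair.1 hc
      · exact key x y hxy hz p q hpq
      · exact key y x (LinearIndependent.pair_symm_iff.1 hxy) (by rwa [sup_comm]) q p
          (by rw [← hpq, add_comm])
    have sub2 : ∀ {k : ℕ} (r : Fin k → ι → F) (i j : Fin k),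
        Submodule.span F {r i} ⊔ Submodule.span F {r j} ≤ Submodule.span F (Set.range r) :=
      fun r i j => sup_le (Submodule.span_le.2 (by simpa using Submodule.subset_span (R := F) (Set.mem_range_self (f := r) i)))
        (Submodule.span_le.2 (by simpa using Submodule.subset_span (R := F) (Set.mem_range_self (f := r) j)))
    have hba' : LinearIndependent F ![a, b] := li b a (fun hc => hbS
      ((Submodule.span_le.2 (by simpa using Submodule.subset_span (R := F) (Set.mem_range_self (f := ![a, w]) 0))) hc)) ha0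
    -- step one: `(a₃, b)`
    have s1 : LineIn B M a₃ b := lineIn_left hS hB h2 hM (by omega)
      (show TvIn B M a b by simpa using hab 1) h33 (h3v 0) (h3v 1)
      (out a b a₃ hba' fun hc => h3S (sub2 ![a, b, a', b'] 0 1 hc)).1
    -- step two: `(a₃, b₃)`
    have hli3b : LinearIndependent F ![a₃, b] :=
      LinearIndependent.pair_symm_iff.1 (li a₃ b (fun hc => h3S
        (sub2 ![a, b, a', b'] 1 1 (Submodule.mem_sup_left hc))) hb0)
    have s2 : LineIn B M a₃ b₃ := lineIn_right' hS hB h2 hM (by omega)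
      (show TvIn B M a₃ b by simpa using s1 1) h44 (h4v 1) (h4v 4)
      (out a₃ b b₃ hli3b fun hc => h4S (sub2 ![a, b, a', b', a₃] 4 1 hc)).2
    -- step three: `(a', b₃)`
    have ha'0 : a' ≠ 0 := hli.ne_zero 0
    have hli33 : LinearIndependent F ![a₃, b₃] := li b₃ a₃ (fun hc => h4S
      (sub2 ![a, b, a', b', a₃] 4 4 (Submodule.mem_sup_left hc)))
      (fun e => h3S (e ▸ Submodule.zero_mem _))
    have n3 : a' ∉ Submodule.span F {a₃} ⊔ Submodule.span F {b₃} := by
      intro hc
      obtain ⟨u, hu, w', hw', huw⟩ := Submodule.mem_sup.1 hc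
      obtain ⟨x, rfl⟩ := Submodule.mem_span_singleton.1 hu
      obtain ⟨y, rfl⟩ := Submodule.mem_span_singleton.1 hw'
      by_cases hy : y = 0
      · by_cases hx : x = 0
        · exact ha'0 (by rw [← huw, hx, hy]; simp)
        · apply h3S
          rw [show a₃ = x⁻¹ • a' by
            rw [← huw, hy, zero_smul, add_zero, smul_smul, inv_mul_cancel₀ hx, one_smul]]
          exact Submodule.smul_mem _ _ (Submodule.subset_span ⟨2, rfl⟩)
      · apply h4S
        rw [show b₃ = y⁻¹ • (a' - x • a₃) by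
          rw [← huw, add_sub_cancel_left, smul_smul, inv_mul_cancel₀ hy, one_smul]]
        exact Submodule.smul_mem _ _ (Submodule.sub_mem _ (Submodule.subset_span ⟨2, rfl⟩)
          (Submodule.smul_mem _ _ (Submodule.subset_span ⟨4, rfl⟩)))
    have s3 : LineIn B M a' b₃ := lineIn_left hS hB h2 hM (by omega)
      (show TvIn B M a₃ b₃ by simpa using s2 1) ha'
      (by rw [sy hS]; exact h3v 2) (by rw [sy hS]; exact h4v 2) (out a₃ b₃ a' hli33 n3).1
    -- step four: `(a', b')`
    have hli3' : LinearIndependent F ![a', b₃] := li b₃ a' (fun hc => h4S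
      (sub2 ![a, b, a', b', a₃] 2 2 (Submodule.mem_sup_left hc))) ha'0
    refine lineIn_right' hS hB h2 hM (by omega) (show TvIn B M a' b₃ by simpa using s3 1) hb'
      (by rw [sy hS]; exact h4v 3) (by rw [sy hS]; exact hab') (out a' b₃ b' hli3' fun hc => ?_).2
    obtain ⟨u, hu, w', hw', huw⟩ := Submodule.mem_sup.1 hc
    obtain ⟨x, rfl⟩ := Submodule.mem_span_singleton.1 hu
    obtain ⟨y, rfl⟩ := Submodule.mem_span_singleton.1 hw'
    by_cases hy : y = 0
    · rw [hy, zero_smul, add_zero] at huw
      exact (LinearIndependent.pair_iff' ha'0).1 hli x huw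
    · apply h4S
      rw [show b₃ = y⁻¹ • (b' - x • a') by
        rw [← huw, add_sub_cancel_left, smul_smul, inv_mul_cancel₀ hy, one_smul]]
      exact Submodule.smul_mem _ _ (Submodule.sub_mem _ (Submodule.subset_span ⟨3, rfl⟩)
        (Submodule.smul_mem _ _ (Submodule.subset_span ⟨2, rfl⟩)))
  -- centres for a singular functional, then everything
  have hspan1 : ∀ z : ι → F,
      Submodule.span F {x | x ∈ famOrth B ![z] ∧ B x x = 0} = famOrth B ![z] := by
    intro z
    refine span_singular hS hB h2 ?_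
    have h1 := finrank_famOrth hS hB ![z]
    have h3 : famOrth B ![z] ⊓ B.orthogonal (famOrth B ![z]) ≤
        Submodule.span F (Set.range ![z]) := by
      rw [famOrth, LinearMap.BilinForm.orthogonal_orthogonal hB hS.isRefl]
      exact inf_le_right
    have h4 := Submodule.finrank_mono h3
    have h5 := hr ![z]
    omega
  have addL : ∀ {x y z : ι → F}, LineIn B M x z → LineIn B M y z → LineIn B M (x + y) z := by
    intro x y z hx hy c
    have := (hx (-c)).sub_left (hy c)
    rwa [show c • y - (-c) • x = c • (x + y) by module] at this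
  have sing : ∀ z, B z z = 0 → ∀ x, B x z = 0 → LineIn B M x z := by
    intro z hz x hx
    by_cases hz0 : z = 0
    · intro c
      refine (tvIn_iff (g := 1) (by simp [hz0]) fun y => ?_).1 (one_mem M)
      simp [hz0]
    have base : ∀ y, B y y = 0 → B y z = 0 → LineIn B M y z := by
      intro y hy hyz
      by_cases hyd : ∃ t : F, t • z = y
      · obtain ⟨t, rfl⟩ := hyd
        obtain ⟨u, huu, huv, huS⟩ := exists_sing_avoid hS hB h2 ![z] (by omega)
          (Submodule.span F {z}) (by rw [finrank_span_singleton hz0]; omega)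
        have huz : B u z = 0 := huv 0
        have l1 := pair u z huu hz huz (LinearIndependent.pair_symm_iff.1
          ((LinearIndependent.pair_iff' hz0).2 fun c e =>
            huS (Submodule.mem_span_singleton.2 ⟨c, e⟩)))
        have l2 := pair (t • z + u) z (by simp [hz, huu, huz, sy hS z u]) hz
          (by simp [hz, huz]) (LinearIndependent.pair_symm_iff.1
            ((LinearIndependent.pair_iff' hz0).2 fun c e => huS
              (Submodule.mem_span_singleton.2 ⟨c - t, by rw [sub_smul, e, add_sub_cancel_left]⟩)))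
        intro c
        have := (l1 c).sub_left (l2 c)
        rwa [show c • (t • z + u) - c • u = c • (t • z) by module] at this
      · push Not at hyd
        exact pair y z hy hz hyz
          (LinearIndependent.pair_symm_iff.1 ((LinearIndependent.pair_iff' hz0).2 hyd))
    have hx' : x ∈ famOrth B ![z] := (mem_famOrth hS).2 fun i => by fin_cases i; exact hx
    rw [← hspan1 z] at hx'
    have : ∀ y ∈ Submodule.span F {x | x ∈ famOrth B ![z] ∧ B x x = 0}, LineIn B M y z := by
      intro y hy
      induction hy using Submodule.span_induction with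
      | mem y hy => exact base y hy.2 ((mem_famOrth hS).1 hy.1 0)
      | zero => exact base 0 (by simp) (by simp)
      | add a b _ _ ha hb => exact addL ha hb
      | smul t a _ ha =>
        intro c
        rw [smul_smul]
        exact ha _
    exact this x hx'
  refine ker_det_le_of_tvGL_mem M fun x φ hφ _ _ => ?_
  obtain ⟨z, rfl⟩ := exists_rightVecS hS hB φ
  have hxz : B z x = 0 := by rw [sy hS, ← rightVec_dot, hφ]
  have hz' : z ∈ famOrth B ![x] := (mem_famOrth hS).2 fun i => by fin_cases i; exact hxz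
  rw [← hspan1 x] at hz'
  have : ∀ y ∈ Submodule.span F {u | u ∈ famOrth B ![x] ∧ B u u = 0}, TvIn B M x y := by
    intro y hy
    have hzero : TvIn B M x 0 := (tvIn_iff (g := 1) (by simp) fun y => by simp).1 (one_mem M)
    induction hy using Submodule.closure_induction with
    | zero => exact hzero
    | add a b _ _ ha hb =>
      have := (hzero.sub_right ha)
      rw [sub_zero] at this
      have hna : TvIn B M x (0 - a) := ha.sub_right hzero
      have := hna.sub_right hb
      rwa [show b - (0 - a) = a + b by module] at this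
    | smul_mem t a ha =>
      exact lineIn_right (sing a ha.2 x (by rw [sy hS]; exact (mem_famOrth hS).1 ha.1 0)) t
  obtain ⟨_, hm⟩ := this z hz'
  exact hm

/-- The key statement. -/
theorem ker_det_le_of_not_similitude_symm (hn : 13 ≤ Fintype.card ι) {g : GL ι F} (hg : g ∈ M)
    (hgn : ¬ ∃ μ : F, ∀ x y,
      B ((g : Matrix ι ι F) *ᵥ x) ((g : Matrix ι ι F) *ᵥ y) = μ * B x y) :
    (Matrix.GeneralLinearGroup.det : GL ι F →* Fˣ).ker ≤ M := by
  let gl : (ι → F) →ₗ[F] (ι → F) := Matrix.mulVecLin (g : Matrix ι ι F)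
  let gi : (ι → F) →ₗ[F] (ι → F) := Matrix.mulVecLin ((g⁻¹ : GL ι F) : Matrix ι ι F)
  let B' : LinearMap.BilinForm F (ι → F) := B.compl₁₂ gl gl
  have one : ∀ p : ι → F, p ≠ 0 → ∀ x, x ∈ Submodule.span F (Set.range ![p]) → ∃ t : F, t • p = x := by
    intro p _ x hx
    rw [Matrix.range_cons, Matrix.range_empty, Set.union_empty] at hx
    exact Submodule.mem_span_singleton.1 hx
  -- the transvection from a common zero
  have step : ∀ p q, p ≠ 0 → B p p = 0 → B' p p = 0 → B q q = 0 → B p q = 0 →
      (B ((g : Matrix ι ι F) *ᵥ q) ((g : Matrix ι ι F) *ᵥ p) ≠ 0 ∨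
        ∃ μ : F, μ ≠ 0 ∧ (∀ y, B' y p = μ * B y p) ∧ ∀ t : F, ¬ ∀ y, B' y q = μ * B y q + t * B y p) →
      (Matrix.GeneralLinearGroup.det : GL ι F →* Fˣ).ker ≤ M := by
    intro p q hp0 hpp hpp' hqq hpq hor
    set c := (g : Matrix ι ι F) *ᵥ p with hc
    set d := (g : Matrix ι ι F) *ᵥ q with hd
    have hc0 : c ≠ 0 := mulVec_ne_zero g hp0
    have hcc : B c c = 0 := hpp'
    obtain ⟨wp, hwp⟩ := exists_functional_vec hS hB ((B.flip p).comp gi)
    obtain ⟨wq, hwq⟩ := exists_functional_vec hS hB ((B.flip q).comp gi)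
    have hwp' : ∀ y, B ((g : Matrix ι ι F) *ᵥ y) wp = B y p := fun y => by
      rw [hwp]; simp [gi]
    have hwq' : ∀ y, B ((g : Matrix ι ι F) *ᵥ y) wq = B y q := fun y => by
      rw [hwq]; simp [gi]
    have hcwp : B c wp = 0 := by rw [hc, hwp', hpp]
    have hcwq : B c wq = 0 := by rw [hc, hwq', hpq]
    have hdwp : B d wp = 0 := by rw [hd, hwp', sy hS, hpq]
    have hdwq : B d wq = 0 := by rw [hd, hwq', hqq]
    obtain ⟨R₀, hd₀, hi₀, hR₀⟩ := exists_siegel hS hB h2 (p := p) (e := q) hpp hpq
    set s := g * R₀ * g⁻¹ with hs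
    have hsM : s ∈ M := mul_mem (mul_mem hg (hM R₀ hd₀ hi₀)) (inv_mem hg)
    have hsx : ∀ x, (s : Matrix ι ι F) *ᵥ x = x + B x wp • d - B x wq • c := by
      intro x
      rw [hs, Units.val_mul, Units.val_mul, ← mulVec_mulVec, ← mulVec_mulVec, hR₀, hqq, mulVec_sub,
        mulVec_add, mulVec_smul, mulVec_smul, mulVec_inv_mulVec, ← hc, ← hd, hwp x, hwq x]
      simp [gi]
    by_cases hdc : B d c = 0
    · obtain ⟨μ, hμ, hμp, hμq⟩ := hor.resolve_left (fun h => h hdc)
      obtain ⟨d', hd'⟩ : ∃ d', d' = μ⁻¹ • d := ⟨_, rfl⟩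
      have hcd' : B c d' = 0 := by rw [hd', map_smul, sy hS c d, hdc, smul_zero]
      obtain ⟨R, hdR, hiR, hRx⟩ := exists_siegel hS hB h2 (p := c) (e := d') hcc hcd'
      obtain ⟨k, hk⟩ : ∃ k, k = B d' d' / 2 := ⟨_, rfl⟩
      have hwpc : ∀ x, B x wp = μ⁻¹ * B x c := by
        intro x
        obtain ⟨y, rfl⟩ : ∃ y, (g : Matrix ι ι F) *ᵥ y = x :=
          ⟨((g⁻¹ : GL ι F) : Matrix ι ι F) *ᵥ x, mulVec_inv_mulVec g x⟩
        rw [hwp', hc, show B ((g : Matrix ι ι F) *ᵥ y) ((g : Matrix ι ι F) *ᵥ p) = B' y p from rfl,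
          hμp, inv_mul_cancel_left₀ hμ]
      set w := -wq + d' + k • c with hw
      have hcw : B c w = 0 := by
        rw [hw, map_add, map_add, map_neg, map_smul, hcwq, hcd', hcc]
        simp
      have hRc : (R : Matrix ι ι F) *ᵥ c = c := by
        rw [hRx, hcc, hcd']
        simp
      have ht : ∀ x, (((R⁻¹ * s : GL ι F)) : Matrix ι ι F) *ᵥ x = x + B x w • c := by
        intro x
        refine (mulVec_inj R).1 ?_
        rw [Units.val_mul, ← mulVec_mulVec, mulVec_inv_mulVec, hsx, mulVec_add, mulVec_smul, hRc,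
          hRx, ← hk, hwpc, hw, map_add, map_add, map_neg, map_smul, hd']
        simp only [LinearMap.smul_apply, map_smul, smul_eq_mul]
        module
      refine ker_det_le_of_tvIn hS hB h2 hM hn
        ((tvIn_iff hcw ht).1 (mul_mem (inv_mem (hM R hdR hiR)) hsM)) hc0 fun t e => ?_
      apply hμq (μ ^ 2 * (t - k))
      intro y
      have h1 : B ((g : Matrix ι ι F) *ᵥ y) (t • c) = B ((g : Matrix ι ι F) *ᵥ y) w := by rw [e]
      rw [hw, map_smul, map_add, map_add, map_neg, map_smul, hd', map_smul, hwq'] at h1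
      simp only [smul_eq_mul] at h1
      change B' y q = _
      have hyd : B ((g : Matrix ι ι F) *ᵥ y) d = B' y q := rfl
      have hyc : B ((g : Matrix ι ι F) *ᵥ y) c = μ * B y p := hμp y
      rw [hyd, hyc] at h1
      have h3 : μ⁻¹ * μ = 1 := inv_mul_cancel₀ hμ
      linear_combination -μ * h1 - (B' y q) * h3
    · obtain ⟨e, heo, heS⟩ : ∃ e, (∀ i, B e (![c, wp, wq] i) = 0) ∧
          e ∉ Submodule.span F (Set.range ![c, wp]) := by
        obtain ⟨e, -, he, heS⟩ := exists_sing_avoid hS hB h2 ![c, wp, wq] (by omega)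
          (Submodule.span F (Set.range ![c, wp])) (by
            have := finrank_range_le_card ![c, wp] (R := F)
            rw [Set.finrank] at this
            simp only [Fintype.card_fin] at this
            omega)
        exact ⟨e, he, heS⟩
      have hec : B e c = 0 := heo 0
      have hewp : B e wp = 0 := heo 1
      have hewq : B e wq = 0 := heo 2
      obtain ⟨R, hdR, hiR, hRx⟩ := exists_siegel hS hB h2 (p := c) (e := e) hcc
        (by rw [sy hS, hec])
      have hRM := hM R hdR hiR
      set v := (R : Matrix ι ι F) *ᵥ d - d with hv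
      have hvx : v = B d c • e - (B d e + B e e / 2 * B d c) • c := by
        rw [hv, hRx]; abel
      have hvwp : B v wp = 0 := by
        rw [hvx, map_sub, map_smul, map_smul, LinearMap.sub_apply, LinearMap.smul_apply,
          LinearMap.smul_apply, hewp, hcwp, smul_zero, smul_zero, sub_zero]
      have hRwp : (R : Matrix ι ι F) *ᵥ wp = wp := by
        rw [hRx, sy hS wp c, hcwp, sy hS wp e, hewp]; simp
      have hRwq : (R : Matrix ι ι F) *ᵥ wq = wq := by
        rw [hRx, sy hS wq c, hcwq, sy hS wq e, hewq]; simp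
      have hRc : (R : Matrix ι ι F) *ᵥ c = c := by
        rw [hRx, hcc, sy hS c e, hec]; simp
      have ht : ∀ x, ((R * s * R⁻¹ * s⁻¹ : GL ι F) : Matrix ι ι F) *ᵥ x = x + B x wp • v := by
        intro x
        obtain ⟨y, rfl⟩ : ∃ y, (s : Matrix ι ι F) *ᵥ y = x :=
          ⟨((s⁻¹ : GL ι F) : Matrix ι ι F) *ᵥ x, mulVec_inv_mulVec s x⟩
        have hy : ∀ w, (R : Matrix ι ι F) *ᵥ w = w →
            B (((R⁻¹ : GL ι F) : Matrix ι ι F) *ᵥ y) w = B y w := fun w hw => by
          rw [← hiR, mulVec_inv_mulVec, hw]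
        rw [Units.val_mul, Units.val_mul, Units.val_mul, ← mulVec_mulVec, ← mulVec_mulVec,
          ← mulVec_mulVec, inv_mulVec_mulVec, hsx, hsx, mulVec_sub, mulVec_add, mulVec_smul,
          mulVec_smul, mulVec_inv_mulVec, hRc, hy wp hRwp, hy wq hRwq, map_sub, map_add, map_smul,
          map_smul, LinearMap.sub_apply, LinearMap.add_apply, LinearMap.smul_apply,
          LinearMap.smul_apply, hdwp, hcwp, hv]
        module
      refine ker_det_le_of_tvIn hS hB h2 hM hn ((tvIn_iff hvwp ht).1
        (mul_mem (mul_mem (mul_mem hRM hsM) (inv_mem hRM)) (inv_mem hsM))) ?_ ?_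
      · intro h0
        rw [hvx, sub_eq_zero] at h0
        apply heS
        rw [show e = (B d c)⁻¹ • ((B d e + B e e / 2 * B d c) • c) by
          rw [← h0, smul_smul, inv_mul_cancel₀ hdc, one_smul]]
        exact Submodule.smul_mem _ _ (Submodule.smul_mem _ _ (Submodule.subset_span ⟨0, rfl⟩))
      · intro t ht'
        have hwp0 : wp ≠ 0 := fun h0 => hp0 (hB.2 p fun y => by rw [← hwp' y, h0, map_zero])
        have ht0 : t ≠ 0 := fun h0 => hwp0 (by rw [← ht', h0, zero_smul])
        apply heS
        rw [show e = (B d c)⁻¹ • (t⁻¹ • wp + (B d e + B e e / 2 * B d c) • c) by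
          rw [← ht', smul_smul t⁻¹, inv_mul_cancel₀ ht0, one_smul, hvx, sub_add_cancel, smul_smul,
            inv_mul_cancel₀ hdc, one_smul]]
        exact Submodule.smul_mem _ _ (Submodule.add_mem _ (Submodule.smul_mem _ _
          (Submodule.subset_span ⟨1, rfl⟩)) (Submodule.smul_mem _ _ (Submodule.subset_span ⟨0, rfl⟩)))
  by_contra hne
  -- every common zero is an eigenvector
  have hspan1 : ∀ p : ι → F,
      Submodule.span F {x | x ∈ famOrth B ![p] ∧ B x x = 0} = famOrth B ![p] := by
    intro z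
    refine span_singular hS hB h2 ?_
    have h1 := finrank_famOrth hS hB ![z]
    have h3 : famOrth B ![z] ⊓ B.orthogonal (famOrth B ![z]) ≤
        Submodule.span F (Set.range ![z]) := by
      rw [famOrth, LinearMap.BilinForm.orthogonal_orthogonal hB hS.isRefl]
      exact inf_le_right
    have h4 := Submodule.finrank_mono h3
    have h5 := finrank_range_le_card ![z] (R := F)
    rw [Set.finrank] at h5
    simp only [Fintype.card_fin] at h5
    omega
  have eig : ∀ p, p ≠ 0 → B p p = 0 → B' p p = 0 → ∃ μ : F, μ ≠ 0 ∧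
      (∀ y, B' y p = μ * B y p) ∧
      ∀ q, B q p = 0 → ∃ t : F, ∀ y, B' y q = μ * B y q + t * B y p := by
    intro p hp0 hpp hpp'
    have hzero : ∀ q, B q p = 0 → B' q p = 0 := by
      intro q hq
      have hq' : q ∈ famOrth B ![p] := (mem_famOrth hS).2 fun i => by fin_cases i; exact hq
      rw [← hspan1 p] at hq'
      clear hq
      induction hq' using Submodule.span_induction with
      | mem x hx =>
        by_contra h
        exact hne (step p x hp0 hpp hpp' hx.2 (by rw [sy hS]; exact (mem_famOrth hS).1 hx.1 0)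
          (Or.inl h))
      | zero => simp
      | add a b _ _ ha hb => simp [ha, hb]
      | smul t a _ ha => simp [ha]
    obtain ⟨y₀, hy₀⟩ : ∃ y₀, B y₀ p = 1 := by
      by_contra! h
      refine hp0 (hB.2 p fun y => ?_)
      by_contra hy
      exact h ((B y p)⁻¹ • y) (by simp [hy])
    have hμ : ∀ y, B' y p = B' y₀ p * B y p := fun y => by
      have := hzero (y - B y p • y₀) (by simp [hy₀])
      simp only [map_sub, map_smul, LinearMap.sub_apply, LinearMap.smul_apply, smul_eq_mul] at this
      linear_combination this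
    have hμ0 : B' y₀ p ≠ 0 := by
      intro h0
      refine mulVec_ne_zero g hp0 (hB.2 _ fun x => ?_)
      have := hμ (((g⁻¹ : GL ι F) : Matrix ι ι F) *ᵥ x)
      simp only [B', LinearMap.compl₁₂_apply, gl, Matrix.mulVecLin_apply, mulVec_inv_mulVec] at this
      rw [this]
      have h0' := h0
      simp only [B', LinearMap.compl₁₂_apply, gl, Matrix.mulVecLin_apply] at h0'
      rw [h0', zero_mul]
    refine ⟨B' y₀ p, hμ0, hμ, fun q hq => ?_⟩
    have hq' : q ∈ famOrth B ![p] := (mem_famOrth hS).2 fun i => by fin_cases i; exact hq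
    rw [← hspan1 p] at hq'
    clear hq
    induction hq' using Submodule.span_induction with
    | mem x hx =>
      by_contra! h
      refine hne (step p x hp0 hpp hpp' hx.2 (by rw [sy hS]; exact (mem_famOrth hS).1 hx.1 0)
        (Or.inr ⟨_, hμ0, hμ, fun t ht => ?_⟩))
      obtain ⟨y, hy⟩ := h t
      exact hy (ht y)
    | zero => exact ⟨0, fun y => by simp⟩
    | add a b _ _ ha hb =>
      obtain ⟨s, hs⟩ := ha
      obtain ⟨t, ht⟩ := hb
      exact ⟨s + t, fun y => by simp only [map_add, hs y, ht y]; ring⟩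
    | smul c a _ ha =>
      obtain ⟨s, hs⟩ := ha
      exact ⟨c * s, fun y => by simp only [map_smul, smul_eq_mul, hs y]; ring⟩
  -- three independent common zeros
  have avoid : ∀ S : Submodule F (ι → F), finrank F S ≤ 2 →
      ∃ p, p ∉ S ∧ B p p = 0 ∧ B' p p = 0 := by
    intro S hSd
    obtain ⟨C, hC⟩ := Submodule.exists_isCompl S
    have hd := Submodule.finrank_add_eq_of_isCompl hC
    rw [Module.finrank_fintype_fun_eq_card] at hd
    obtain ⟨p, hp, hp0, h1, h3⟩ := exists_common_zero B B' C (by omega)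
    exact ⟨p, fun h => hp0 (Submodule.disjoint_def.1 hC.disjoint p h hp), h1, h3⟩
  obtain ⟨p₁, hp₁, h11, h11'⟩ := avoid ⊥ (by rw [finrank_bot]; omega)
  have hp₁0 : p₁ ≠ 0 := fun e => hp₁ (e ▸ Submodule.zero_mem _)
  obtain ⟨p₂, hp₂, h22, h22'⟩ := avoid (Submodule.span F {p₁})
    (by rw [finrank_span_singleton hp₁0]; omega)
  have hp₂0 : p₂ ≠ 0 := fun e => hp₂ (e ▸ Submodule.zero_mem _)
  obtain ⟨p₃, hp₃, h33, h33'⟩ := avoid (Submodule.span F {p₁} ⊔ Submodule.span F {p₂}) (by
    have := Submodule.finrank_add_le_finrank_add_finrank (Submodule.span F {p₁}) (Submodule.span F {p₂})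
    rw [finrank_span_singleton hp₁0, finrank_span_singleton hp₂0] at this
    omega)
  have hp₃0 : p₃ ≠ 0 := fun e => hp₃ (e ▸ Submodule.zero_mem _)
  obtain ⟨μ₁, -, -, e₁⟩ := eig p₁ hp₁0 h11 h11'
  obtain ⟨μ₂, -, -, e₂⟩ := eig p₂ hp₂0 h22 h22'
  obtain ⟨μ₃, -, -, e₃⟩ := eig p₃ hp₃0 h33 h33'
  have agree : ∀ p p' : ι → F, ∀ μ μ' : F, p ≠ 0 → p' ∉ Submodule.span F {p} →
      (∀ q, B q p = 0 → ∃ t : F, ∀ y, B' y q = μ * B y q + t * B y p) →
      (∀ q, B q p' = 0 → ∃ t : F, ∀ y, B' y q = μ' * B y q + t * B y p') →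
      μ = μ' ∧ ∀ q, B q p = 0 → B q p' = 0 → ∀ y, B' y q = μ * B y q := by
    intro p p' μ μ' hp hp' e e'
    have main : ∀ q, B q p = 0 → B q p' = 0 → q ∉ Submodule.span F {p} ⊔ Submodule.span F {p'} →
        μ = μ' ∧ ∀ y, B' y q = μ * B y q := by
      intro q hqp hqp' hqn
      obtain ⟨t, ht⟩ := e q hqp
      obtain ⟨t', ht'⟩ := e' q hqp'
      have hvec : (μ - μ') • q + t • p - t' • p' = 0 := hB.2 _ fun y => by
        simp only [map_sub, map_add, map_smul, smul_eq_mul]
        linear_combination -(ht y) + ht' y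
      have hμ : μ = μ' := by
        by_contra hμ
        apply hqn
        rw [show q = (μ - μ')⁻¹ • ((-t) • p + t' • p') by
          rw [show (-t) • p + t' • p' = (μ - μ') • q by
            linear_combination (norm := module) -hvec,
            smul_smul, inv_mul_cancel₀ (sub_ne_zero.2 hμ), one_smul]]
        exact Submodule.smul_mem _ _ (Submodule.add_mem_sup
          (Submodule.smul_mem _ _ (Submodule.mem_span_singleton_self p))
          (Submodule.smul_mem _ _ (Submodule.mem_span_singleton_self p')))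
      refine ⟨hμ, fun y => ?_⟩
      rw [hμ, sub_self, zero_smul, zero_add, sub_eq_zero] at hvec
      have ht0 : t' = 0 := by
        by_contra h0
        refine hp' (Submodule.mem_span_singleton.2 ⟨t'⁻¹ * t, ?_⟩)
        rw [← smul_smul, hvec, smul_smul, inv_mul_cancel₀ h0, one_smul]
      rw [ht' y, ht0, zero_mul, add_zero, hμ]
    obtain ⟨q₀, -, hq₀, hq₀n⟩ := exists_sing_avoid hS hB h2 ![p, p'] (by omega)
      (Submodule.span F {p} ⊔ Submodule.span F {p'}) (by
        have h1 := Submodule.finrank_add_le_finrank_add_finrank (Submodule.span F {p})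
          (Submodule.span F {p'})
        have hp'0 : p' ≠ 0 := fun e => hp' (e ▸ Submodule.zero_mem _)
        rw [finrank_span_singleton hp, finrank_span_singleton hp'0] at h1
        omega)
    obtain ⟨hμ, hq₀B⟩ := main q₀ (hq₀ 0) (hq₀ 1) hq₀n
    refine ⟨hμ, fun q hqp hqp' y => ?_⟩
    by_cases hqn : q ∈ Submodule.span F {p} ⊔ Submodule.span F {p'}
    · have h1 := (main (q + q₀) (by simp [hqp, show B q₀ p = 0 from hq₀ 0])
        (by simp [hqp', show B q₀ p' = 0 from hq₀ 1])
        fun h => hq₀n ((Submodule.add_mem_iff_right _ hqn).1 h)).2 y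
      rw [map_add, map_add, hq₀B y] at h1
      linear_combination h1
    · exact (main q hqp hqp' hqn).2 y
  have n13 : p₃ ∉ Submodule.span F {p₁} := fun h => hp₃ (Submodule.mem_sup_left h)
  have n23 : p₃ ∉ Submodule.span F {p₂} := fun h => hp₃ (Submodule.mem_sup_right h)
  obtain ⟨-, h12⟩ := agree p₁ p₂ μ₁ μ₂ hp₁0 hp₂ e₁ e₂
  obtain ⟨-, h13⟩ := agree p₁ p₃ μ₁ μ₃ hp₁0 n13 e₁ e₃
  obtain ⟨hμ12, -⟩ := agree p₁ p₂ μ₁ μ₂ hp₁0 hp₂ e₁ e₂
  obtain ⟨-, h23⟩ := agree p₂ p₃ μ₂ μ₃ hp₂0 n23 e₂ e₃
  -- every vector decomposes along the pairwise intersections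
  have li : ∀ x y : ι → F, x ∉ Submodule.span F (Set.range ![y]) → ∀ z, ∃ w, B w y = 0 ∧ B w x = z := by
    intro x y hx z
    obtain ⟨w, -, hw, hwx⟩ := exists_sing hS hB h2 ![y] (by omega) hx
    exact ⟨z • w, by simp [show B w y = 0 from hw 0], by simp [hwx]⟩
  refine hgn ⟨μ₁, fun y x => ?_⟩
  obtain ⟨w₃, -, hw₃v, hw₃⟩ := exists_sing hS hB h2 ![p₁, p₂] (by omega) (v := p₃) (by
    intro h
    apply hp₃
    rw [Matrix.range_cons, Matrix.range_cons, Matrix.range_empty, Set.union_empty,
      Submodule.span_union] at h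
    exact h)
  obtain ⟨w₂, -, hw₂v, hw₂⟩ := exists_sing hS hB h2 ![p₁, p₃] (by omega) (v := p₂) (by
    intro h
    rw [Matrix.range_cons, Matrix.range_cons, Matrix.range_empty, Set.union_empty,
      Submodule.span_union] at h
    obtain ⟨u, hu, v', hv', huv⟩ := Submodule.mem_sup.1 h
    obtain ⟨a, rfl⟩ := Submodule.mem_span_singleton.1 hu
    obtain ⟨b', rfl⟩ := Submodule.mem_span_singleton.1 hv'
    by_cases hb : b' = 0
    · exact hp₂ (Submodule.mem_span_singleton.2 ⟨a, by rw [← huv, hb, zero_smul, add_zero]⟩)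
    · apply hp₃
      rw [show p₃ = b'⁻¹ • (p₂ - a • p₁) by
        rw [← huv, add_sub_cancel_left, smul_smul, inv_mul_cancel₀ hb, one_smul]]
      exact Submodule.smul_mem _ _ (Submodule.sub_mem _
        (Submodule.mem_sup_right (Submodule.mem_span_singleton_self p₂))
        (Submodule.smul_mem _ _ (Submodule.mem_sup_left (Submodule.mem_span_singleton_self p₁)))))
  obtain ⟨w₁, -, hw₁v, hw₁⟩ := exists_sing hS hB h2 ![p₂, p₃] (by omega) (v := p₁) (by
    intro h
    rw [Matrix.range_cons, Matrix.range_cons, Matrix.range_empty, Set.union_empty,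
      Submodule.span_union] at h
    obtain ⟨u, hu, v', hv', huv⟩ := Submodule.mem_sup.1 h
    obtain ⟨a, rfl⟩ := Submodule.mem_span_singleton.1 hu
    obtain ⟨b', rfl⟩ := Submodule.mem_span_singleton.1 hv'
    by_cases hb : b' = 0
    · rw [hb, zero_smul, add_zero] at huv
      have ha : a ≠ 0 := fun e => hp₁0 (by rw [← huv, e, zero_smul])
      exact hp₂ (Submodule.mem_span_singleton.2 ⟨a⁻¹, by
        rw [← huv, smul_smul, inv_mul_cancel₀ ha, one_smul]⟩)
    · apply hp₃
      rw [show p₃ = b'⁻¹ • (p₁ - a • p₂) by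
        rw [← huv, add_sub_cancel_left, smul_smul, inv_mul_cancel₀ hb, one_smul]]
      exact Submodule.smul_mem _ _ (Submodule.sub_mem _
        (Submodule.mem_sup_left (Submodule.mem_span_singleton_self p₁))
        (Submodule.smul_mem _ _ (Submodule.mem_sup_right (Submodule.mem_span_singleton_self p₂)))))
  have a₁ : B w₁ p₂ = 0 := hw₁v 0
  have a₁' : B w₁ p₃ = 0 := hw₁v 1
  have a₂ : B w₂ p₁ = 0 := hw₂v 0
  have a₂' : B w₂ p₃ = 0 := hw₂v 1
  have a₃ : B w₃ p₁ = 0 := hw₃v 0
  have a₃' : B w₃ p₂ = 0 := hw₃v 1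
  set r := x - B x p₁ • w₁ - B x p₂ • w₂ - B x p₃ • w₃ with hr
  have r1 : B r p₁ = 0 := by simp [hr, hw₁, a₂, a₃]
  have r2 : B r p₂ = 0 := by simp [hr, a₁, hw₂, a₃']
  have er := h12 r r1 r2 y
  have e1 := h23 w₁ a₁ a₁' y
  have e2 := h13 w₂ a₂ a₂' y
  have e3 := h12 w₃ a₃ a₃' y
  change B' y x = _
  rw [show x = r + B x p₁ • w₁ + B x p₂ • w₂ + B x p₃ • w₃ by rw [hr]; abel]
  simp only [map_add, map_smul, smul_eq_mul, er, e1, e2, e3, hμ12]
  ring

end Cfsg.Lib.Classical
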