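import Mathlib
import Cfsg.Agent.Lib.Classical.UnitarySpace

/-!
The special unitary group is generated by unitary transvections, in dimension at least three
except `SU₃(2)`.
-/

set_option autoImplicit false

namespace Cfsg.Lib.Classical

open Matrix Module
open scoped MatrixGroups

variable {ι : Type} [Fintype ι] [DecidableEq ι] {F : Type*} [Field F] {σ : F ≃+* F}
  {f : (ι → F) → (ι → F) → F} (hf : Cfsg.Geo.IsUnitaryForm σ f)

include hf

lemma exists_nonfixed : ∃ m : F, m ≠ 0 ∧ σ m ≠ m := by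
  obtain ⟨m, hm⟩ : ∃ m, σ m ≠ m := by
    by_contra! h
    exact hf.ne_refl (RingEquiv.ext h)
  exact ⟨m, fun e => hm (by rw [e, map_zero]), hm⟩

/-- Transvections of a hyperbolic plane are transitive on vectors of a given nonzero norm. -/
lemma exists_move_hyp {P : Submodule F (ι → F)} {u v : ι → F} (hu : u ∈ P) (hv : v ∈ P)
    (huu : f u u = 0) (hvv : f v v = 0) (huv : f u v = 1) {N x y x' y' : F} (hN : N ≠ 0)
    (h : x * σ y + y * σ x = N) (h' : x' * σ y' + y' * σ x' = N) :
    ∃ g ∈ uGen hf P, (g : Matrix ι ι F) *ᵥ (x • u + y • v) = x' • u + y' • v := by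
  have hvu : f v u = 1 := herm_eq_one_symm hf huv
  have tu : ∀ c a b : F, (utv hf u huu c : Matrix ι ι F) *ᵥ (a • u + b • v) =
      (a + c * b) • u + b • v := by
    intro c a b
    rw [utv_mulVec, hf.add_left, hf.smul_left, hf.smul_left, huu, hvu]
    module
  have tv' : ∀ c a b : F, (utv hf v hvv c : Matrix ι ι F) *ᵥ (a • u + b • v) =
      a • u + (b + c * a) • v := by
    intro c a b
    rw [utv_mulVec, hf.add_left, hf.smul_left, hf.smul_left, hvv, huv]
    module
  have stageA : ∀ a a' b : F, a * σ b + b * σ a = N → a' * σ b + b * σ a' = N →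
      ∃ g ∈ uGen hf P, (g : Matrix ι ι F) *ᵥ (a • u + b • v) = a' • u + b • v := by
    intro a a' b ha ha'
    have hb : b ≠ 0 := fun e => hN (by rw [← ha, e, map_zero]; ring)
    have hσb : σ b ≠ 0 := (map_ne_zero σ).2 hb
    refine ⟨utv hf u huu ((a' - a) / b), utv_mem_uGen hu huu ?_, ?_⟩
    · rw [map_div₀, map_sub, div_add_div _ _ hb hσb, div_eq_zero_iff]
      left
      linear_combination ha' - ha
    · rw [tu, div_mul_cancel₀ _ hb, add_sub_cancel]
  have stageB : ∀ m a b : F, σ m ≠ m → a * σ b + b * σ a = N →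
      ∃ a', a' * σ (m * b) + (m * b) * σ a' = N ∧
        ∃ g ∈ uGen hf P, (g : Matrix ι ι F) *ᵥ (a • u + b • v) = a' • u + (m * b) • v := by
    intro m a b hm ha
    have hb : b ≠ 0 := fun e => hN (by rw [← ha, e, map_zero]; ring)
    have hσb : σ b ≠ 0 := (map_ne_zero σ).2 hb
    have hk : m - σ m ≠ 0 := sub_ne_zero.2 (Ne.symm hm)
    have hNσ : σ N = N := by
      rw [← ha, map_add, map_mul, map_mul, hf.involutive, hf.involutive]
      ring
    set k := m - σ m with hkdef
    have hσk : σ k = -k := by rw [hkdef, map_sub, hf.involutive, neg_sub]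
    set a₁ := (m - 1) / k * N / σ b with ha₁
    have h1 : a₁ * σ b = (m - 1) / k * N := by rw [ha₁, div_mul_cancel₀ _ hσb]
    have h2 : b * σ a₁ = σ ((m - 1) / k * N) := by
      rw [← h1, map_mul, hf.involutive]
      ring
    have htr : a₁ * σ b + b * σ a₁ = N := by
      rw [h1, h2, map_mul, map_div₀, map_sub, map_one, hσk, hNσ]
      field_simp
      rw [hkdef]
      ring
    obtain ⟨g, hg, hge⟩ := stageA a a₁ b ha htr
    set c := k * (b * σ b) / N with hc
    have hcskew : c + σ c = 0 := by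
      rw [hc, map_div₀, map_mul, map_mul, hσk, hf.involutive, hNσ]
      ring
    have hca : c * a₁ = (m - 1) * b := by
      rw [hc, ha₁]
      field_simp
    have hmul : b + c * a₁ = m * b := by rw [hca]; ring
    refine ⟨a₁, ?_, utv hf v hvv c * g, mul_mem (utv_mem_uGen hv hvv hcskew) hg, ?_⟩
    · rw [← hmul, map_add, map_mul]
      linear_combination htr + (a₁ * σ a₁) * hcskew
    · rw [Units.val_mul, ← mulVec_mulVec, hge, tv', hmul]
  have hy : y ≠ 0 := fun e => hN (by rw [← h, e, map_zero]; ring)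
  have hy' : y' ≠ 0 := fun e => hN (by rw [← h', e, map_zero]; ring)
  obtain ⟨m₁, hm₁0, hm₁⟩ := exists_nonfixed hf
  by_cases hfix : σ (y' / y) = y' / y
  · obtain ⟨a, ha, g, hg, hge⟩ := stageB m₁ x y hm₁ h
    obtain ⟨b, hb, g', hg', hge'⟩ := stageB (y' / y / m₁) a (m₁ * y)
      (fun e => hm₁ (by
        rw [map_div₀, hfix, div_eq_div_iff ((map_ne_zero σ).2 hm₁0) hm₁0] at e
        exact (mul_left_cancel₀ (div_ne_zero hy' hy) e).symm)) ha
    have he : y' / y / m₁ * (m₁ * y) = y' := by field_simp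
    rw [he] at hb hge'
    obtain ⟨g'', hg'', hge''⟩ := stageA b x' y' hb h'
    exact ⟨g'' * g' * g, mul_mem (mul_mem hg'' hg') hg, by
      rw [Units.val_mul, Units.val_mul, ← mulVec_mulVec, ← mulVec_mulVec, hge, hge', hge'']⟩
  · obtain ⟨a, ha, g, hg, hge⟩ := stageB (y' / y) x y hfix h
    rw [div_mul_cancel₀ _ hy] at ha hge
    obtain ⟨g'', hg'', hge''⟩ := stageA a x' y' ha h'
    exact ⟨g'' * g, mul_mem hg'' hg, by rw [Units.val_mul, ← mulVec_mulVec, hge, hge'']⟩

/-- Transvections of the plane of two orthonormal vectors are transitive on its vectors of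
norm one. -/
lemma exists_move_plane [Finite F] {P : Submodule F (ι → F)} {e w : ι → F} (he : e ∈ P)
    (hw : w ∈ P) (hee : f e e = 1) (hww : f w w = 1) (hew : f e w = 0) {a b : F}
    (hp : f (a • e + b • w) (a • e + b • w) = 1) :
    ∃ g ∈ uGen hf P, (g : Matrix ι ι F) *ᵥ e = a • e + b • w := by
  have hwe : f w e = 0 := herm_eq_zero_symm hf hew
  obtain ⟨z, hz⟩ := exists_norm_eq hf.ne_refl hf.involutive (a := (-1 : F)) (by simp)
  obtain ⟨m, hm0, hm⟩ := exists_nonfixed hf
  set η := σ m / m with hη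
  have hη1 : η ≠ 1 := fun e => hm ((div_eq_one_iff_eq hm0).1 e)
  have hNη : η * σ η = 1 := by
    rw [hη, map_div₀, hf.involutive]
    have : σ m ≠ 0 := (map_ne_zero σ).2 hm0
    field_simp
  have hz0 : z ≠ 0 := fun e => by simp [e] at hz
  set t := 1 - σ η with ht
  have ht0 : t ≠ 0 := fun e => hη1 (by
    have := congrArg σ (sub_eq_zero.1 e)
    rwa [map_one, hf.involutive, eq_comm] at this)
  set v₀ := e + (η * z) • w with hv₀
  set u := e + z • w with hu
  set v := (σ t)⁻¹ • v₀ with hv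
  have huu : f u u = 0 := by
    simp only [hu, hf.add_left, hf.smul_left, herm_add_right hf, herm_smul_right hf, hee, hww,
      hew, hwe, mul_zero, mul_one, add_zero, zero_add]
    linear_combination hz
  have hvv : f v v = 0 := by
    simp only [hv, hv₀, hf.add_left, hf.smul_left, herm_add_right hf, herm_smul_right hf, hee, hww,
      hew, hwe, mul_zero, mul_one, add_zero, zero_add]
    have : (1 : F) + η * z * σ (η * z) = 0 := by
      rw [map_mul]
      linear_combination hz + z * σ z * hNη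
    linear_combination (σ t)⁻¹ * σ (σ t)⁻¹ * this
  have huv : f u v = 1 := by
    simp only [hu, hv, hv₀, hf.add_left, hf.smul_left, herm_add_right hf, herm_smul_right hf, hee,
      hww, hew, hwe, mul_zero, mul_one, add_zero, zero_add, map_inv₀, hf.involutive, map_mul]
    have : (1 : F) + z * (σ η * σ z) = t := by rw [ht]; linear_combination σ η * hz
    field_simp
    linear_combination this
  have hspan : ∀ p q : F, ∃ x y : F, p • e + q • w = x • u + y • v := by
    intro p q
    have hne : 1 - η ≠ 0 := sub_ne_zero.2 (Ne.symm hη1)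
    have hσt : σ t ≠ 0 := (map_ne_zero σ).2 ht0
    refine ⟨p - (p * z - q) / (z * (1 - η)), σ t * ((p * z - q) / (z * (1 - η))), ?_⟩
    set r := (p * z - q) / (z * (1 - η)) with hr
    have hr' : r * (z * (1 - η)) = p * z - q := div_mul_cancel₀ _ (mul_ne_zero hz0 hne)
    rw [hu, hv, hv₀, smul_smul, mul_comm (σ t) r, mul_assoc, mul_inv_cancel₀ hσt, mul_one]
    match_scalars
    · ring
    · linear_combination hr'
  have hvu : f v u = 1 := herm_eq_one_symm hf huv
  have norm : ∀ x y : F, f (x • u + y • v) (x • u + y • v) = x * σ y + y * σ x := by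
    intro x y
    simp only [hf.add_left, hf.smul_left, herm_add_right hf, herm_smul_right hf, huu, hvv, huv,
      hvu]
    ring
  obtain ⟨x, y, hxy⟩ := hspan 1 0
  obtain ⟨x', y', hxy'⟩ := hspan a b
  rw [one_smul, zero_smul, add_zero] at hxy
  rw [hxy, norm] at hee
  rw [hxy', norm] at hp
  have huP : u ∈ P := P.add_mem he (P.smul_mem _ hw)
  have hvP : v ∈ P := P.smul_mem _ (P.add_mem he (P.smul_mem _ hw))
  obtain ⟨g, hg, hge⟩ := exists_move_hyp hf huP hvP huu hvv huv one_ne_zero hee hp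
  exact ⟨g, hg, by rw [hxy', ← hge, ← hxy]⟩

/-- An element moving a frame of `SU₃(2)` to a new one, fixing the orthogonal of the frame. -/
lemma exists_move_frame (h2 : (2 : F) = 0) {ω : F} (hω : ω * ω = ω + 1) (hσω : σ ω = ω + 1)
    {e₁ e₂ e₃ e₄ : ι → F} (h11 : f e₁ e₁ = 1) (h22 : f e₂ e₂ = 1) (h33 : f e₃ e₃ = 1)
    (h44 : f e₄ e₄ = 1) (h12 : f e₁ e₂ = 0) (h13 : f e₁ e₃ = 0) (h14 : f e₁ e₄ = 0)
    (h23 : f e₂ e₃ = 0) (h24 : f e₂ e₄ = 0) (h34 : f e₃ e₄ = 0) :
    ∃ g ∈ uGen hf (⊤ : Submodule F (ι → F)), (g : Matrix ι ι F) *ᵥ e₁ = e₁ + e₂ + e₃ ∧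
      ∀ x, f x e₁ = 0 → f x e₂ = 0 → f x e₃ = 0 → (g : Matrix ι ι F) *ᵥ x = x := by
  have h21 := herm_eq_zero_symm hf h12
  have h31 := herm_eq_zero_symm hf h13
  have h41 := herm_eq_zero_symm hf h14
  have h32 := herm_eq_zero_symm hf h23
  have h42 := herm_eq_zero_symm hf h24
  have h43 := herm_eq_zero_symm hf h34
  let V : F → F → F → (ι → F) := fun p r s => p • e₁ + r • (e₂ + e₃) + s • e₄
  have iso : ∀ p r s : F, p * σ p + s * σ s = 0 → f (V p r s) (V p r s) = 0 := by
    intro p r s hps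
    simp only [V, hf.add_left, hf.smul_left, herm_add_right hf, herm_smul_right hf, h11, h22, h33,
      h44, h12, h13, h14, h23, h24, h34, h21, h31, h41, h32, h42, h43]
    linear_combination hps + r * σ r * h2
  have step : ∀ (x : ι → F) (a b d p r s : F) (hiso : f (V p r s) (V p r s) = 0),
      f x e₁ = 0 → f x e₂ = 0 → f x e₃ = 0 →
      (utv hf (V p r s) hiso 1 : Matrix ι ι F) *ᵥ (x + V a b d) =
        x + V (a + ((f x e₄ + d) * σ s + a * σ p) * p) (b + ((f x e₄ + d) * σ s + a * σ p) * r)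
          (d + ((f x e₄ + d) * σ s + a * σ p) * s) := by
    intro x a b d p r s hiso hx1 hx2 hx3
    have hval : f (x + V a b d) (V p r s) = (f x e₄ + d) * σ s + a * σ p := by
      simp only [V, hf.add_left, hf.smul_left, herm_add_right hf, herm_smul_right hf, h11, h22,
        h33, h44, h12, h13, h14, h23, h24, h34, h21, h31, h41, h32, h42, h43, hx1, hx2, hx3]
      linear_combination b * σ r * h2
    rw [utv_mulVec, one_mul, hval]
    simp only [V]
    module
  have hω2 : σ (ω + 1) = ω := by rw [map_add, map_one, hσω]; linear_combination h2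
  have i1 := iso 1 0 1 (by rw [map_one]; linear_combination h2)
  have i2 := iso 1 0 ω (by rw [map_one, hσω]; linear_combination hω + (ω + 1) * h2)
  have i3 := iso 1 (ω + 1) 1 (by rw [map_one]; linear_combination h2)
  have i4 := iso 1 (ω + 1) (ω + 1) (by rw [map_one, hω2]; linear_combination hω + (ω + 1) * h2)
  have hc : (1 : F) + σ 1 = 0 := by rw [map_one]; linear_combination h2
  have hω2' : ω ^ 2 = ω + 1 := by rw [pow_two, hω]
  have hω3 : ω ^ 3 = 1 := by linear_combination (ω + 1) * hω + ω * h2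
  have : CharP F 2 := (CharP.charP_iff_prime_eq_zero Nat.prime_two).2 (by exact_mod_cast h2)
  refine ⟨utv hf _ i4 1 * utv hf _ i3 1 * utv hf _ i2 1 * utv hf _ i1 1,
    mul_mem (mul_mem (mul_mem (utv_mem_uGen Submodule.mem_top i4 hc)
      (utv_mem_uGen Submodule.mem_top i3 hc)) (utv_mem_uGen Submodule.mem_top i2 hc))
      (utv_mem_uGen Submodule.mem_top i1 hc), ?_, fun x hx1 hx2 hx3 => ?_⟩
  · have e : e₁ = (0 : ι → F) + V 1 0 0 := by simp [V]
    conv_lhs => rw [e]
    simp only [Units.val_mul, ← mulVec_mulVec, step _ _ _ _ _ _ _ _ (herm_zero_left hf _)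
      (herm_zero_left hf _) (herm_zero_left hf _), herm_zero_left hf, map_one, hσω, hω2]
    simp only [V, zero_add]
    match_scalars <;> ring_nf <;> simp only [hω2', hω3] <;> ring_nf <;> simp [CharTwo.ofNat_eq_mod]
  · have e : x = x + V 0 0 0 := by simp [V]
    conv_lhs => rw [e]
    simp only [Units.val_mul, ← mulVec_mulVec, step _ _ _ _ _ _ _ _ hx1 hx2 hx3, map_one, hσω,
      hω2]
    simp only [V]
    match_scalars <;> ring_nf <;> simp only [hω2', hω3] <;> ring_nf <;> simp [CharTwo.ofNat_eq_mod]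

/-- If every nonzero element has norm one then `F` has four elements. -/
lemma exists_omega (h : ∀ c : F, c ≠ 0 → c * σ c = 1) :
    (2 : F) = 0 ∧ ∃ ω : F, ω * ω = ω + 1 ∧ σ ω = ω + 1 := by
  obtain ⟨x, hx0, hx⟩ := exists_nonfixed hf
  have hxm : x + 1 ≠ 0 := fun e => hx (by rw [eq_neg_of_add_eq_zero_left e, map_neg, map_one])
  have h1 := h _ hxm
  have h3 := h _ hx0
  rw [map_add, map_one] at h1
  have hq : x * x + x + 1 = 0 := by linear_combination x * h1 - (x + 1) * h3
  have h2 : (2 : F) = 0 := by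
    by_contra h2
    have h4 := h 2 h2
    rw [map_ofNat] at h4
    have : (x - 1) * (x - 1) = 0 := by linear_combination hq - x * h4
    exact hx (by rw [sub_eq_zero.1 (mul_self_eq_zero.1 this), map_one])
  refine ⟨h2, x, by linear_combination hq - (x + 1) * h2, mul_left_cancel₀ hx0 ?_⟩
  linear_combination h3 - hq + h2

/-- Transvections are transitive on vectors of norm one in `W`, fixing `W^⊥`. -/
lemma exists_move_unit [Finite F] {W : Submodule F (ι → F)} (hW : NondegOnH f W)
    (h3 : finrank F W = 3 → (∃ c : F, c ≠ 0 ∧ c * σ c ≠ 1) ∨ ∃ e₄, (∀ w ∈ W, f e₄ w = 0) ∧ f e₄ e₄ = 1)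
    (h2 : 2 ≤ finrank F W) {e e' : ι → F} (he : e ∈ W) (he' : e' ∈ W) (hee : f e e = 1)
    (hee' : f e' e' = 1) :
    ∃ g ∈ uGen hf (⊤ : Submodule F (ι → F)), (g : Matrix ι ι F) *ᵥ e = e' ∧
      ∀ x, (∀ w ∈ W, f x w = 0) → (g : Matrix ι ι F) *ᵥ x = x := by
  have plane : ∀ p q w : ι → F, p ∈ W → w ∈ W → f p p = 1 → f q q = 1 → f w w = 1 → f p w = 0 →
      (∃ a b : F, q = a • p + b • w) → ∃ g ∈ uGen hf W, (g : Matrix ι ι F) *ᵥ p = q := by
    rintro p q w hp hw hpp hqq hww hpw ⟨a, b, rfl⟩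
    exact exists_move_plane hf hp hw hpp hww hpw hqq
  have nondegCase : ∀ p q : ι → F, p ∈ W → q ∈ W → f p p = 1 → f q q = 1 →
      (f q p * σ (f q p) ≠ 1 ∨ q = f q p • p) → ∃ g ∈ uGen hf W, (g : Matrix ι ι F) *ᵥ p = q := by
    intro p q hp hq hpp hqq hor
    have hWp := hW.inf_unit hf hp hpp
    have hfr := finrank_inf_unit hf hp hpp
    rcases hor with hN | hdep
    · set y := q - f q p • p with hy
      have hyy : f y y ≠ 0 := by
        rw [hy, herm_sub_left hf, herm_sub_right hf, herm_sub_right hf, hf.smul_left,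
          hf.smul_left, herm_smul_right hf, herm_smul_right hf, hqq, hpp, ← hf.herm p q]
        intro e
        exact hN (by rw [← hf.herm p q]; linear_combination -e)
      obtain ⟨z, hz⟩ := exists_scale hf hyy (map_one σ)
      have hz0 : z ≠ 0 := fun e => by simp [e, herm_zero_left hf] at hz
      have hpy : f p y = 0 := by
        rw [hy, herm_sub_right hf, herm_smul_right hf, hpp, ← hf.herm p q, mul_one, sub_self]
      refine plane p q (z • y) hp (W.smul_mem _ (W.sub_mem hq (W.smul_mem _ hp))) hpp hqq hz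
        (by rw [herm_smul_right hf, hpy, mul_zero]) ⟨f q p, z⁻¹, ?_⟩
      rw [smul_smul, inv_mul_cancel₀ hz0, one_smul, hy, add_sub_cancel]
    · obtain ⟨r, hr, hrr⟩ := hWp.exists_aniso hf (by omega)
      obtain ⟨w, hw, hww⟩ := exists_unit_of_aniso hf hr hrr
      rw [mem_inf_unit] at hw
      exact plane p q w hp hw.1 hpp hqq hww (herm_eq_zero_symm hf hw.2)
        ⟨f q p, 0, by rw [zero_smul, add_zero]; exact hdep⟩
  have lift : ∀ {g : GL ι F}, g ∈ uGen hf W → g ∈ uGen hf (⊤ : Submodule F (ι → F)) ∧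
      ∀ x, (∀ w ∈ W, f x w = 0) → (g : Matrix ι ι F) *ᵥ x = x :=
    fun hg => ⟨uGen_mono le_top hg, fun x hx => uGen_fix hg hx⟩
  set a := f e' e with ha
  by_cases hor : a * σ a ≠ 1 ∨ e' = a • e
  · obtain ⟨g, hg, hge⟩ := nondegCase e e' he he' hee hee' hor
    exact ⟨g, (lift hg).1, hge, (lift hg).2⟩
  push Not at hor
  obtain ⟨hNa, hne⟩ := hor
  set W' := W ⊓ Cfsg.Lib.Classical.hperp hf (Submodule.span F {e}) with hW'def
  have hW' : NondegOnH f W' := hW.inf_unit hf he hee
  have hfr : finrank F W' + 1 = finrank F W := finrank_inf_unit hf he hee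
  set y := e' - a • e with hy
  have hy0 : y ≠ 0 := sub_ne_zero.2 hne
  have hyW : y ∈ W' := (mem_inf_unit hf).2 ⟨W.sub_mem he' (W.smul_mem _ he), by
    rw [hy, herm_sub_left hf, hf.smul_left, hee, mul_one, sub_self]⟩
  have hey : f e y = 0 := herm_eq_zero_symm hf ((mem_inf_unit hf).1 hyW).2
  have hyy : f y y = 0 := by
    rw [hy, herm_sub_left hf, herm_sub_right hf, herm_sub_right hf, hf.smul_left,
      hf.smul_left, herm_smul_right hf, herm_smul_right hf, hee', hee, hf.herm e e', ← ha]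
    linear_combination -hNa
  obtain ⟨z₀, hz₀, hz₀y⟩ : ∃ z₀ ∈ W', f z₀ y = 1 := by
    obtain ⟨z, hz, hne'⟩ := hW' y hyW hy0
    have : f z y ≠ 0 := fun h => hne' (herm_eq_zero_symm hf h)
    exact ⟨(f z y)⁻¹ • z, W'.smul_mem _ hz, by rw [hf.smul_left, inv_mul_cancel₀ this]⟩
  have viaMid : (∃ w ∈ W', f w w = 1 ∧ f w y * σ (f w y) ≠ 1) →
      ∃ g ∈ uGen hf W, (g : Matrix ι ι F) *ᵥ e = e' := by
    rintro ⟨w, hw, hww, hwy⟩
    rw [mem_inf_unit] at hw
    obtain ⟨g, hg, hge⟩ := plane e w w he hw.1 hee hww hww (herm_eq_zero_symm hf hw.2)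
      ⟨0, 1, by simp⟩
    obtain ⟨g', hg', hge'⟩ := nondegCase w e' hw.1 he' hww hee' (Or.inl (by
      rw [show e' = y + a • e by rw [hy, sub_add_cancel], hf.add_left, hf.smul_left,
        herm_eq_zero_symm hf hw.2, mul_zero, add_zero, hf.herm y w, hf.involutive, mul_comm]
      exact hwy))
    exact ⟨g' * g, mul_mem hg' hg, by rw [Units.val_mul, ← mulVec_mulVec, hge, hge']⟩
  by_cases hc : ∃ c : F, c ≠ 0 ∧ c * σ c ≠ 1
  · obtain ⟨c, hc0, hc1⟩ := hc
    obtain ⟨s, hs⟩ := exists_trace_eq hf.ne_refl hf.involutive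
      (a := 1 - f (c • z₀) (c • z₀)) (by rw [map_sub, map_one, herm_self_fixed hf])
    have hex : ∃ w ∈ W', f w w = 1 ∧ f w y * σ (f w y) ≠ 1 := by
      refine ⟨c • z₀ + (s / σ c) • y, W'.add_mem (W'.smul_mem _ hz₀) (W'.smul_mem _ hyW), ?_, ?_⟩
      · have hyz : f y (c • z₀) = σ c := by
          rw [herm_smul_right hf, herm_eq_one_symm hf hz₀y, mul_one]
        have hzy : f (c • z₀) y = c := by rw [hf.smul_left, hz₀y, mul_one]
        rw [hf.add_left, herm_add_right hf, herm_add_right hf, hf.smul_left (s / σ c),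
          hf.smul_left (s / σ c), herm_smul_right hf (s / σ c), herm_smul_right hf (s / σ c), hyy,
          hyz, hzy, map_div₀, hf.involutive, div_mul_cancel₀ _ ((map_ne_zero σ).2 hc0),
          div_mul_cancel₀ _ hc0]
        linear_combination hs
      · rw [hf.add_left, hf.smul_left, hf.smul_left, hyy, hz₀y]
        simpa using hc1
    obtain ⟨g, hg, hge⟩ := viaMid hex
    exact ⟨g, (lift hg).1, hge, (lift hg).2⟩
  push Not at hc
  rcases Nat.lt_or_ge 3 (finrank F W) with h4 | h4
  · let R := W' ⊓ upFam hf ![y]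
    have hdim : finrank F W' ≤ finrank F R + 1 := by
      have h1 := Submodule.finrank_sup_add_finrank_inf_eq W' (upFam hf ![y])
      have h2 := (W' ⊔ upFam hf ![y]).finrank_le
      have h3 := card_le_finrank_upFam hf ![y]
      rw [Module.finrank_fintype_fun_eq_card] at h2
      change _ ≤ finrank F ↥(W' ⊓ upFam hf ![y]) + 1
      omega
    obtain ⟨r, hr, hrr⟩ := exists_aniso_rel hf hW' (R := R) inf_le_left (by omega)
    obtain ⟨w, ⟨hwW, hwy⟩, hww⟩ := exists_unit_of_aniso hf hr hrr
    obtain ⟨g, hg, hge⟩ := viaMid ⟨w, hwW, hww, by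
      have : f w y = 0 := ((mem_upFam hf).1 hwy) 0
      rw [this]; simp⟩
    exact ⟨g, (lift hg).1, hge, (lift hg).2⟩
  rcases Nat.lt_or_ge (finrank F W) 3 with h5 | h5
  · have hone : W' = Submodule.span F {y} := (Submodule.eq_of_le_of_finrank_eq (by simpa using hyW)
      (by rw [finrank_span_singleton hy0]; omega)).symm
    obtain ⟨k, rfl⟩ := Submodule.mem_span_singleton.1 (hone ▸ hz₀)
    rw [hf.smul_left, hyy, mul_zero] at hz₀y
    exact absurd hz₀y zero_ne_one
  obtain ⟨e₄, he₄, he₄4⟩ := (h3 (by omega)).resolve_left fun ⟨c, h0, h1⟩ => h1 (hc c h0)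
  obtain ⟨h2', ω, hω, hσω⟩ := exists_omega hf hc
  obtain ⟨s, hs⟩ := exists_trace_eq hf.ne_refl hf.involutive
    (a := - f z₀ z₀) (by rw [map_neg, herm_self_fixed hf])
  set z := z₀ + s • y with hz
  have hzW : z ∈ W' := W'.add_mem hz₀ (W'.smul_mem _ hyW)
  have hzy : f z y = 1 := by rw [hz, hf.add_left, hf.smul_left, hyy, hz₀y, mul_zero, add_zero]
  have hzz : f z z = 0 := by
    rw [hz, hf.add_left, herm_add_right hf, herm_add_right hf, hf.smul_left, hf.smul_left,
      herm_smul_right hf, herm_smul_right hf, hyy, hz₀y, herm_eq_one_symm hf hz₀y]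
    linear_combination hs
  have hyz : f y z = 1 := herm_eq_one_symm hf hzy
  set e₂ := ω • y + z with he₂
  set e₃ := (ω + 1) • y + z with he₃
  have hω2 : σ (ω + 1) = ω := by rw [map_add, map_one, hσω]; linear_combination h2'
  have h22 : f e₂ e₂ = 1 := by
    simp only [he₂, hf.add_left, hf.smul_left, herm_add_right hf, herm_smul_right hf, hyy, hzz,
      hyz, hzy, hσω]
    linear_combination ω * h2'
  have h33 : f e₃ e₃ = 1 := by
    simp only [he₃, hf.add_left, hf.smul_left, herm_add_right hf, herm_smul_right hf, hyy, hzz,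
      hyz, hzy, hω2]
    linear_combination ω * h2'
  have h23 : f e₂ e₃ = 0 := by
    simp only [he₂, he₃, hf.add_left, hf.smul_left, herm_add_right hf, herm_smul_right hf, hyy,
      hzz, hyz, hzy, hσω, hω2]
    linear_combination ω * h2'
  have hm : ∀ x ∈ W', f x e = 0 := fun x hx => ((mem_inf_unit hf).1 hx).2
  have hW'W : ∀ x ∈ W', x ∈ W := fun x hx => ((mem_inf_unit hf).1 hx).1
  have he₂W : e₂ ∈ W' := W'.add_mem (W'.smul_mem _ hyW) hzW
  have he₃W : e₃ ∈ W' := W'.add_mem (W'.smul_mem _ hyW) hzW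
  have hsum : e₂ + e₃ = y := by
    rw [he₂, he₃]
    have : (2 : F) • z = 0 := by rw [h2', zero_smul]
    rw [show ω • y + z + ((ω + 1) • y + z) = ((2 : F) * ω + 1) • y + (2 : F) • z by module, this,
      h2', zero_mul, zero_add, one_smul, add_zero]
  obtain ⟨r, hr, hrr⟩ := hW'.exists_aniso hf (by omega)
  obtain ⟨w, hw, hww⟩ := exists_unit_of_aniso hf hr hrr
  obtain ⟨g, hg, hge⟩ := plane e (a • e) w he (hW'W w hw) hee
    (by rw [hf.smul_left, herm_smul_right hf, hee, mul_one, hNa]) hww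
    (herm_eq_zero_symm hf (hm w hw)) ⟨a, 0, by simp⟩
  obtain ⟨g', hg', hge', hfix'⟩ := exists_move_frame hf h2' hω hσω (e₁ := a • e) (e₂ := e₂)
    (e₃ := e₃) (e₄ := e₄)
    (by rw [hf.smul_left, herm_smul_right hf, hee, mul_one, hNa]) h22 h33 he₄4
    (by rw [hf.smul_left, herm_eq_zero_symm hf (hm _ he₂W), mul_zero])
    (by rw [hf.smul_left, herm_eq_zero_symm hf (hm _ he₃W), mul_zero])
    (by rw [hf.smul_left, herm_eq_zero_symm hf (he₄ _ he), mul_zero])
    h23 (herm_eq_zero_symm hf (he₄ _ (hW'W _ he₂W))) (herm_eq_zero_symm hf (he₄ _ (hW'W _ he₃W)))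
  refine ⟨g' * g, mul_mem hg' (lift hg).1, ?_, fun x hx => ?_⟩
  · rw [Units.val_mul, ← mulVec_mulVec, hge, hge', add_assoc, hsum, hy, add_sub_cancel]
  · rw [Units.val_mul, ← mulVec_mulVec, (lift hg).2 x hx]
    exact hfix' x (hx _ (W.smul_mem _ he)) (hx _ (hW'W _ he₂W)) (hx _ (hW'W _ he₃W))

/-- `SU` is generated by unitary transvections. -/
theorem mem_uGen_top [Finite F] (h3 : Fintype.card ι = 3 → ∃ c : F, c ≠ 0 ∧ c * σ c ≠ 1)
    {g : GL ι F}
    (hg : ∀ x y, f ((g : Matrix ι ι F) *ᵥ x) ((g : Matrix ι ι F) *ᵥ y) = f x y)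
    (hdet : Matrix.GeneralLinearGroup.det g = 1) : g ∈ uGen hf (⊤ : Submodule F (ι → F)) := by
  suffices h : ∀ (m : ℕ) (W : Submodule F (ι → F)) (g : GL ι F), NondegOnH f W → finrank F W = m →
      (∀ x y, f ((g : Matrix ι ι F) *ᵥ x) ((g : Matrix ι ι F) *ᵥ y) = f x y) →
      Matrix.GeneralLinearGroup.det g = 1 →
      (∀ x, (∀ w ∈ W, f x w = 0) → (g : Matrix ι ι F) *ᵥ x = x) →
      g ∈ uGen hf (⊤ : Submodule F (ι → F)) from
    h _ ⊤ g (nondegOnH_top hf) rfl hg hdet fun x hx => by
      have hx0 : x = 0 := by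
        by_contra h0
        obtain ⟨z, hz⟩ := (hf.nondegenerate x h0).2
        exact hz (hx z Submodule.mem_top)
      rw [hx0, mulVec_zero]
  intro m
  induction m with
  | zero =>
    intro W g _ hm _ _ hfix
    have hW0 : W = ⊥ := Submodule.finrank_eq_zero.1 hm
    have : g = 1 := Units.ext <| ext_mulVec fun x => by
      rw [hfix x fun w hw => ?_, Units.val_one, one_mulVec]
      rw [hW0, Submodule.mem_bot] at hw
      rw [hw, herm_zero_right hf]
    rw [this]
    exact one_mem _
  | succ m ih =>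
    intro W g hW hm hgi hdet hfix
    obtain ⟨r, hr, hrr⟩ := hW.exists_aniso hf (by omega)
    obtain ⟨e, he, hee⟩ := exists_unit_of_aniso hf hr hrr
    have hmap : ∀ x ∈ W, (g : Matrix ι ι F) *ᵥ x ∈ W := fun x hx => by
      rw [← hW.hperp_hperp hf]
      intro b hb
      rw [← hfix b hb, hgi]
      exact herm_eq_zero_symm hf (hb x hx)
    by_cases hm0 : m = 0
    · subst hm0
      have he0 : e ≠ 0 := fun h => by simp [h, herm_zero_left hf] at hee
      have hspan : Submodule.span F {e} = W := Submodule.eq_of_le_of_finrank_eq (by simpa using he)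
        (by rw [finrank_span_singleton he0, hm])
      obtain ⟨k, hk⟩ := Submodule.mem_span_singleton.1 (hspan.symm ▸ hmap e he :
        (g : Matrix ι ι F) *ᵥ e ∈ Submodule.span F {e})
      have htv : (g : Matrix ι ι F) = tv e ((k - 1) • hvec f e) := by
        refine ext_mulVec fun x => ?_
        obtain ⟨a, ha, b, hb, rfl⟩ := hW.exists_decomp hf x
        obtain ⟨s, rfl⟩ := Submodule.mem_span_singleton.1 (hspan.symm ▸ ha :
          a ∈ Submodule.span F {e})
        rw [mulVec_add, mulVec_smul, ← hk, hfix b hb, tv_mulVec, smul_dotProduct, hvec_dot hf,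
          hf.add_left, hf.smul_left, hee, hb e he, smul_eq_mul]
        module
      have hk1 : k = 1 := by
        have h1 := congrArg (fun u : Fˣ => (u : F)) hdet
        simp only [Matrix.GeneralLinearGroup.val_det_apply, Units.val_one] at h1
        rw [htv, det_tv, smul_dotProduct, hvec_dot hf, hee, smul_eq_mul, mul_one,
          add_sub_cancel] at h1
        exact h1
      have : g = 1 := Units.ext <| ext_mulVec fun x => by
        rw [htv, hk1, sub_self, zero_smul, tv_zero_right, Units.val_one]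
      rw [this]
      exact one_mem _
    obtain ⟨h, hh, hhe, hhfix⟩ := exists_move_unit hf hW (fun h => by
      rcases Nat.lt_or_ge 3 (Fintype.card ι) with h4 | h4
      · right
        have hP := hW.finrank_add hf
        obtain ⟨r, hr, hrr⟩ := (hW.hperp hf).exists_aniso hf (by omega)
        obtain ⟨e₄, he₄, h44⟩ := exists_unit_of_aniso hf hr hrr
        exact ⟨e₄, he₄, h44⟩
      · exact Or.inl (h3 (by
          have := W.finrank_le
          rw [Module.finrank_fintype_fun_eq_card] at this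
          omega))) (by omega) (hmap e he) he (by rw [hgi, hee]) hee
    have hW' := hW.inf_unit hf he hee
    have hfr := finrank_inf_unit hf he hee
    have hge : ((h * g : GL ι F) : Matrix ι ι F) *ᵥ e = e := by
      rw [Units.val_mul, ← mulVec_mulVec, hhe]
    have key := ih _ (h * g) hW' (by omega)
      (fun x y => by
        rw [Units.val_mul, ← mulVec_mulVec, ← mulVec_mulVec, uGen_isometry hh, hgi])
      (by rw [map_mul, uGen_det hh, hdet, one_mul])
      fun x hx => by
        obtain ⟨a, ha, b, hb, rfl⟩ := hW.exists_decomp hf x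
        have hae : a = f a e • e := by
          by_contra h0
          obtain ⟨z, hz, hne⟩ := hW' (a - f a e • e) ((mem_inf_unit hf).2
            ⟨W.sub_mem ha (W.smul_mem _ he), by
              rw [herm_sub_left hf, hf.smul_left, hee, mul_one, sub_self]⟩) (sub_ne_zero.2 h0)
          have hz' := (mem_inf_unit hf).1 hz
          apply hne
          rw [herm_sub_left hf, hf.smul_left, herm_eq_zero_symm hf hz'.2, mul_zero, sub_zero]
          have := hx z hz
          rwa [hf.add_left, hb z hz'.1, add_zero] at this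
        rw [mulVec_add, hae, mulVec_smul, hge, Units.val_mul, ← mulVec_mulVec, hfix b hb,
          hhfix b hb]
    simpa using mul_mem (inv_mem hh) key

end Cfsg.Lib.Classical
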