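import Mathlib
import Cfsg.Prelude.Def_GeometricClasses
import Cfsg.Agent.Lib.Solv.MinNormal

/-!
# Fixed spaces in primitive solvable linear groups
-/

set_option autoImplicit false
set_option linter.style.haveILetI false

namespace Cfsg.Lib.PrimSolvFix

open scoped Matrix

variable {F : Type*} [Field F] {n : ℕ}

local notation "GLn" => Matrix.GeneralLinearGroup (Fin n) F

/-- The fixed space of a matrix. -/
noncomputable def fx (g : Matrix.GeneralLinearGroup (Fin n) F) : Submodule F (Fin n → F) :=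
  Module.End.eigenspace (Matrix.toLin' (g : Matrix (Fin n) (Fin n) F)) 1

lemma mem_fx {g : Matrix.GeneralLinearGroup (Fin n) F} {v : Fin n → F} :
    v ∈ fx g ↔ (g : Matrix (Fin n) (Fin n) F) *ᵥ v = v := by
  rw [fx, Module.End.mem_eigenspace_iff, one_smul, Matrix.toLin'_apply]

lemma mul_vec (g h : Matrix.GeneralLinearGroup (Fin n) F) (v : Fin n → F) :
    ((g * h : Matrix.GeneralLinearGroup (Fin n) F) : Matrix (Fin n) (Fin n) F) *ᵥ v =
      (g : Matrix (Fin n) (Fin n) F) *ᵥ ((h : Matrix (Fin n) (Fin n) F) *ᵥ v) := by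
  rw [Units.val_mul, Matrix.mulVec_mulVec]

lemma inv_vec (g : Matrix.GeneralLinearGroup (Fin n) F) (v : Fin n → F) :
    ((g⁻¹ : Matrix.GeneralLinearGroup (Fin n) F) : Matrix (Fin n) (Fin n) F) *ᵥ ((g : Matrix (Fin n) (Fin n) F) *ᵥ v) = v := by
  rw [← mul_vec, inv_mul_cancel, Units.val_one, Matrix.one_mulVec]

lemma vec_inv (g : Matrix.GeneralLinearGroup (Fin n) F) (v : Fin n → F) :
    (g : Matrix (Fin n) (Fin n) F) *ᵥ (((g⁻¹ : Matrix.GeneralLinearGroup (Fin n) F) : Matrix (Fin n) (Fin n) F) *ᵥ v) = v := by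
  rw [← mul_vec, mul_inv_cancel, Units.val_one, Matrix.one_mulVec]

/-- The common fixed space of a subgroup. -/
noncomputable def Fix (K : Subgroup (Matrix.GeneralLinearGroup (Fin n) F)) : Submodule F (Fin n → F) := ⨅ k : K, fx k.1

lemma mem_Fix {K : Subgroup (Matrix.GeneralLinearGroup (Fin n) F)} {v : Fin n → F} :
    v ∈ Fix K ↔ ∀ k ∈ K, (k : Matrix (Fin n) (Fin n) F) *ᵥ v = v := by
  simp only [Fix, Submodule.mem_iInf, mem_fx, Subtype.forall]

lemma map_fx (g h : Matrix.GeneralLinearGroup (Fin n) F) :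
    (fx h).map (Matrix.toLin' (g : Matrix (Fin n) (Fin n) F)) = fx (g * h * g⁻¹) := by
  ext v
  rw [Submodule.mem_map, mem_fx]
  constructor
  · rintro ⟨w, hw, rfl⟩
    rw [Matrix.toLin'_apply, mul_vec, mul_vec, inv_vec, mem_fx.1 hw]
  · intro hv
    refine ⟨((g⁻¹ : GLn) : Matrix (Fin n) (Fin n) F) *ᵥ v, mem_fx.2 ?_, by rw [Matrix.toLin'_apply, vec_inv]⟩
    have := congrArg (fun u => ((g⁻¹ : GLn) : Matrix (Fin n) (Fin n) F) *ᵥ u) hv
    simp only [mul_vec, inv_vec] at this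
    exact this

lemma map_Fix (g : Matrix.GeneralLinearGroup (Fin n) F) (K : Subgroup (Matrix.GeneralLinearGroup (Fin n) F)) :
    (Fix K).map (Matrix.toLin' (g : Matrix (Fin n) (Fin n) F)) = Fix (K.map (MulAut.conj g).toMonoidHom) := by
  ext v
  rw [Submodule.mem_map, mem_Fix]
  constructor
  · rintro ⟨w, hw, rfl⟩ _ ⟨k, hk, rfl⟩
    rw [show (MulAut.conj g).toMonoidHom k = g * k * g⁻¹ from rfl, Matrix.toLin'_apply, mul_vec, mul_vec, inv_vec,
      mem_Fix.1 hw k hk]
  · intro hv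
    refine ⟨((g⁻¹ : GLn) : Matrix (Fin n) (Fin n) F) *ᵥ v, mem_Fix.2 fun k hk => ?_, by rw [Matrix.toLin'_apply, vec_inv]⟩
    have := congrArg (fun u => ((g⁻¹ : GLn) : Matrix (Fin n) (Fin n) F) *ᵥ u) (hv _ ⟨k, hk, rfl⟩)
    simp only [show (MulAut.conj g).toMonoidHom k = g * k * g⁻¹ from rfl, mul_vec, inv_vec] at this
    exact this

/-- The stabilizer of a vector. -/
def stab (v : Fin n → F) : Subgroup (Matrix.GeneralLinearGroup (Fin n) F) where
  carrier := {y | (y : Matrix (Fin n) (Fin n) F) *ᵥ v = v}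
  one_mem' := by simp
  mul_mem' := fun {x y} hx hy => by
    show ((x * y : GLn) : Matrix (Fin n) (Fin n) F) *ᵥ v = v
    rw [mul_vec, show (y : Matrix (Fin n) (Fin n) F) *ᵥ v = v from hy, hx]
  inv_mem' := fun {x} hx => by
    show ((x⁻¹ : GLn) : Matrix (Fin n) (Fin n) F) *ᵥ v = v
    conv_lhs => rw [← show (x : Matrix (Fin n) (Fin n) F) *ᵥ v = v from hx]
    rw [inv_vec]

lemma eq_one_of_fixes_all {g : Matrix.GeneralLinearGroup (Fin n) F} (h : ∀ v, (g : Matrix (Fin n) (Fin n) F) *ᵥ v = v) : g = 1 :=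
  Units.ext (Matrix.ext_of_mulVec_single fun i => by rw [h, Units.val_one, Matrix.one_mulVec])

section
variable [Fintype F] {G : Subgroup (Matrix.GeneralLinearGroup (Fin n) F)}
  (hirr : Cfsg.Geo.ActsIrreducibly (Cfsg.Geo.matrixSet G))
include hirr

/-- An invariant subspace is trivial. -/
lemma invariant {W : Submodule F (Fin n → F)} (hW : ∀ g ∈ G, W.map (Matrix.toLin' (g : Matrix (Fin n) (Fin n) F)) ≤ W) :
    W = ⊥ ∨ W = ⊤ := hirr W (by rintro _ ⟨g, hg, rfl⟩; exact hW g hg)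

/-- A normal `p`-subgroup in characteristic `p` is trivial. -/
lemma no_p {p : ℕ} [Fact p.Prime] [CharP F p] {P : Subgroup (Matrix.GeneralLinearGroup (Fin n) F)}
    (hPn : ∀ g ∈ G, P.map (MulAut.conj g).toMonoidHom = P) (hP : IsPGroup p P) : P = ⊥ := by
  classical
  by_cases hn : n = 0
  · subst hn
    exact (Subgroup.eq_bot_iff_forall _).2 fun x _ => eq_one_of_fixes_all fun v => Subsingleton.elim _ _
  letI : MulAction P (Fin n → F) :=
    { smul := fun g v => (g.1 : Matrix (Fin n) (Fin n) F) *ᵥ v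
      one_smul := fun v => by show ((1 : GLn) : Matrix (Fin n) (Fin n) F) *ᵥ v = v; rw [Units.val_one, Matrix.one_mulVec]
      mul_smul := fun a b v => mul_vec a.1 b.1 v }
  have hdvd : p ∣ Nat.card (Fin n → F) := by
    rw [Nat.card_fun, Nat.card_fin]
    refine dvd_pow ?_ hn
    obtain ⟨m, -, hm⟩ := FiniteField.card F p
    rw [Nat.card_eq_fintype_card, hm]
    exact dvd_pow_self p m.ne_zero
  haveI : Fintype (MulAction.fixedPoints P (Fin n → F)) := Fintype.ofFinite _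
  have h0 : (0 : Fin n → F) ∈ MulAction.fixedPoints P (Fin n → F) := fun g => Matrix.mulVec_zero _
  obtain ⟨v, hv, hv0⟩ := hP.exists_fixed_point_of_prime_dvd_card_of_fixed_point _ hdvd h0
  have hne : Fix P ≠ ⊥ := fun e => hv0 (by
    have : v ∈ Fix P := mem_Fix.2 fun k hk => hv ⟨k, hk⟩
    rw [e, Submodule.mem_bot] at this
    exact this.symm)
  have htop := (invariant hirr (W := Fix P) fun g hg => by rw [map_Fix, hPn g hg]).resolve_left hne
  exact (Subgroup.eq_bot_iff_forall _).2 fun x hx => eq_one_of_fixes_all fun v => mem_Fix.1 (htop.ge (Submodule.mem_top (x := v))) x hx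

variable (hprim : ∀ (m t : ℕ) (D : Fin t → Submodule F (Fin n → F)), 2 ≤ t → Cfsg.Geo.IsMDecomposition m D →
  ¬ G ≤ Cfsg.Geo.decompositionStabilizer D)
include hprim

/-- Abelian normal subgroups act fixed-point-freely. -/
lemma abelian_fpf {A : Subgroup (Matrix.GeneralLinearGroup (Fin n) F)} (hAc : ∀ x ∈ A, ∀ y ∈ A, x * y = y * x)
    (hAn : ∀ g ∈ G, A.map (MulAut.conj g).toMonoidHom = A) {a : Matrix.GeneralLinearGroup (Fin n) F} (ha : a ∈ A) (ha1 : a ≠ 1) :
    fx a = ⊥ := by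
  classical
  obtain ⟨p, _⟩ := CharP.exists F
  haveI : Fact p.Prime := ⟨CharP.char_is_prime F p⟩
  -- `A` has order prime to `p`
  have hcop : ∀ K : Subgroup (Matrix.GeneralLinearGroup (Fin n) F), K ≤ A → ((Nat.card K : ℕ) : F) ≠ 0 := by
    intro K hK h
    obtain ⟨x, hx⟩ := exists_prime_orderOf_dvd_card' (G := K) p ((CharP.cast_eq_zero_iff F p _).1 h)
    let P : Subgroup (Matrix.GeneralLinearGroup (Fin n) F) :=
      { carrier := {y | y ∈ A ∧ y ^ p = 1}
        one_mem' := ⟨A.one_mem, one_pow p⟩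
        mul_mem' := fun {u v} hu hv => ⟨A.mul_mem hu.1 hv.1, by
          rw [(show Commute u v from hAc u hu.1 v hv.1).mul_pow, hu.2, hv.2, one_mul]⟩
        inv_mem' := fun {u} hu => ⟨A.inv_mem hu.1, by rw [inv_pow, hu.2, inv_one]⟩ }
    have hP := no_p hirr (p := p) (P := P) (fun g hg => by
      refine Subgroup.eq_of_le_of_card_ge ?_ (Nat.card_congr (P.equivMapOfInjective _ (MulAut.conj g).injective).toEquiv).le
      rintro _ ⟨y, hy, rfl⟩
      exact ⟨(hAn g hg).le ⟨y, hy.1, rfl⟩, by rw [← map_pow, hy.2, map_one]⟩)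
      (fun y => ⟨1, Subtype.ext (by simpa using y.2.2)⟩)
    have hxP : x.1 ∈ P := ⟨hK x.2, by
      have := pow_orderOf_eq_one x
      rw [hx] at this
      exact congrArg Subtype.val this⟩
    rw [hP, Subgroup.mem_bot] at hxP
    rw [show x = 1 from Subtype.ext hxP, orderOf_one] at hx
    exact (Fact.out : p.Prime).ne_one hx.symm
  by_contra hne
  have hKa : Subgroup.zpowers a ≤ A ∧ Fix (Subgroup.zpowers a) ≠ ⊥ := ⟨Subgroup.zpowers_le.2 ha, fun e => hne (eq_bot_iff.2 fun v hv => e ▸ mem_Fix.2 (fun k hk => by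
    have hle : Subgroup.zpowers a ≤ stab v := Subgroup.zpowers_le.2 (mem_fx.1 hv)
    exact hle hk))⟩
  obtain ⟨K, haK, ⟨hKA, hKne⟩, hKmax⟩ : ∃ K, Subgroup.zpowers a ≤ K ∧ (K ≤ A ∧ Fix K ≠ ⊥) ∧
      ∀ L, L ≤ A → Fix L ≠ ⊥ → K ≤ L → L = K := by
    obtain ⟨K, hK⟩ := ((Set.toFinite {L : Subgroup GLn | Subgroup.zpowers a ≤ L ∧ L ≤ A ∧ Fix L ≠ ⊥}).exists_maximal
      ⟨_, le_rfl, hKa.1, hKa.2⟩)
    exact ⟨K, hK.1.1, hK.1.2, fun L h1 h2 h3 => le_antisymm (hK.2 ⟨hK.1.1.trans h3, h1, h2⟩ h3) h3⟩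
  -- the conjugates of `K`
  let S : Finset (Subgroup GLn) := (Finset.univ : Finset G).image fun g => K.map (MulAut.conj g.1).toMonoidHom
  have hKS : K ∈ S := Finset.mem_image.2 ⟨1, Finset.mem_univ _, by
    ext x; simp⟩
  have hmapS : ∀ g ∈ G, ∀ L ∈ S, L.map (MulAut.conj g).toMonoidHom ∈ S := by
    intro g hg L hL
    obtain ⟨h, -, rfl⟩ := Finset.mem_image.1 hL
    refine Finset.mem_image.2 ⟨⟨g, hg⟩ * h, Finset.mem_univ _, ?_⟩
    rw [Subgroup.map_map]
    congr 1
    ext x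
    simp [mul_assoc]
  have hSA : ∀ L ∈ S, L ≤ A ∧ Fix L ≠ ⊥ ∧ Module.finrank F (Fix L) = Module.finrank F (Fix K) ∧
      ∀ L', L' ≤ A → Fix L' ≠ ⊥ → L ≤ L' → L' = L := by
    intro L hL
    obtain ⟨⟨h, hh⟩, -, rfl⟩ := Finset.mem_image.1 hL
    have hfr : Module.finrank F (Fix (K.map (MulAut.conj h).toMonoidHom)) = Module.finrank F (Fix K) := by
      rw [← map_Fix]
      exact (Submodule.equivMapOfInjective _ (fun u v huv => by
        simp only [Matrix.toLin'_apply] at huv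
        rw [← inv_vec h u, huv, inv_vec]) (Fix K)).finrank_eq.symm
    refine ⟨(Subgroup.map_mono hKA).trans (hAn h hh).le, ?_, hfr, fun L' h1 h2 h3 => ?_⟩
    · intro e
      apply hKne
      rw [← Submodule.finrank_eq_zero, ← hfr, e, finrank_bot]
    · have h4 := hKmax (L'.map (MulAut.conj h⁻¹).toMonoidHom) ((Subgroup.map_mono h1).trans (hAn h⁻¹ (G.inv_mem hh)).le) (by
        rw [← map_Fix]
        intro e
        refine h2 (eq_bot_iff.2 fun v hv => ?_)
        have : Matrix.toLin' ((h⁻¹ : GLn) : Matrix (Fin n) (Fin n) F) v ∈ (Fix L').map (Matrix.toLin' ((h⁻¹ : GLn) : Matrix (Fin n) (Fin n) F)) :=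
          ⟨v, hv, rfl⟩
        rw [e, Submodule.mem_bot, Matrix.toLin'_apply] at this
        rw [Submodule.mem_bot, ← vec_inv h v, this, Matrix.mulVec_zero])
        (fun x hx => ⟨h * x * h⁻¹, h3 ⟨x, hx, rfl⟩, by simp [mul_assoc]⟩)
      rw [← h4, Subgroup.map_map]
      refine (Subgroup.map_id L').symm.trans ?_
      congr 1
      ext x
      simp [mul_assoc]
  -- independence
  let ee : Subgroup GLn → Module.End F (Fin n → F) := fun L =>
    ((Nat.card L : ℕ) : F)⁻¹ • ∑ k : L, Matrix.toLin' (k.1 : Matrix (Fin n) (Fin n) F)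
  have hee : ∀ L v, ee L v = ((Nat.card L : ℕ) : F)⁻¹ • ∑ k : L, (k.1 : Matrix (Fin n) (Fin n) F) *ᵥ v := by
    intro L v
    simp only [ee, LinearMap.smul_apply, LinearMap.sum_apply, Matrix.toLin'_apply]
  have he1 : ∀ L ∈ S, ∀ v ∈ Fix L, ee L v = v := by
    intro L hL v hv
    rw [hee, Finset.sum_congr rfl (fun k _ => mem_Fix.1 hv k.1 k.2), Finset.sum_const, Finset.card_univ,
      ← Nat.card_eq_fintype_card, ← Nat.cast_smul_eq_nsmul F, smul_smul, inv_mul_cancel₀ (hcop L (hSA L hL).1), one_smul]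
  have he0 : ∀ L ∈ S, ∀ L' ∈ S, L' ≠ L → ∀ v ∈ Fix L', ee L v = 0 := by
    intro L hL L' hL' hne' v hv
    have h1 : ee L v ∈ Fix L := mem_Fix.2 fun k hk => by
      rw [hee, Matrix.mulVec_smul, Matrix.mulVec_sum]
      congr 1
      exact Fintype.sum_equiv (Equiv.mulLeft (⟨k, hk⟩ : L)) _ _ (fun x => (mul_vec k x.1 v).symm)
    have h2 : ee L v ∈ Fix L' := mem_Fix.2 fun k hk => by
      rw [hee, Matrix.mulVec_smul, Matrix.mulVec_sum]
      congr 1
      refine Finset.sum_congr rfl fun x _ => ?_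
      rw [← mul_vec, hAc k ((hSA L' hL').1 hk) x.1 ((hSA L hL).1 x.2), mul_vec, mem_Fix.1 hv k hk]
    by_contra hne0
    have h3 : Fix (L ⊔ L') ≠ ⊥ := fun e => hne0 (by
      have : ee L v ∈ Fix (L ⊔ L') := mem_Fix.2 fun k hk => by
        have hle : L ⊔ L' ≤ stab (ee L v) := sup_le (fun k hk => mem_Fix.1 h1 k hk) (fun k hk => mem_Fix.1 h2 k hk)
        exact hle hk
      rw [e, Submodule.mem_bot] at this
      exact this)
    have h4 := (hSA L hL).2.2.2 _ (sup_le (hSA L hL).1 (hSA L' hL').1) h3 le_sup_left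
    have h5 := (hSA L' hL').2.2.2 _ (sup_le (hSA L hL).1 (hSA L' hL').1) h3 le_sup_right
    exact hne' (h5.symm.trans h4)
  let eq := S.equivFin.symm
  let D : Fin S.card → Submodule F (Fin n → F) := fun i => Fix (eq i).1
  have hperm : ∀ g ∈ G, ∃ σ : Equiv.Perm (Fin S.card), ∀ i, (D i).map (Matrix.toLin' (g : Matrix (Fin n) (Fin n) F)) = D (σ i) := by
    intro g hg
    let f : Fin S.card → Fin S.card := fun i => eq.symm ⟨_, hmapS g hg _ (eq i).2⟩
    have hf : Function.Injective f := fun i j e => eq.injective (Subtype.ext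
      (Subgroup.map_injective (MulAut.conj g).injective (congrArg Subtype.val (eq.symm.injective e))))
    refine ⟨Equiv.ofBijective f (Finite.injective_iff_bijective.1 hf), fun i => ?_⟩
    show (Fix (eq i).1).map _ = Fix (eq (eq.symm _)).1
    rw [Equiv.apply_symm_apply, map_Fix]
  rcases Nat.lt_or_ge S.card 2 with ht | ht
  · -- `K` is normal
    have hnorm : ∀ g ∈ G, K.map (MulAut.conj g).toMonoidHom = K := fun g hg =>
      Finset.card_le_one.1 (by omega) _ (hmapS g hg K hKS) _ hKS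
    have htop := (invariant hirr (W := Fix K) fun g hg => by rw [map_Fix, hnorm g hg]).resolve_left hKne
    exact ha1 (eq_one_of_fixes_all fun v => mem_Fix.1 (htop.ge (Submodule.mem_top (x := v))) a (haK (Subgroup.mem_zpowers a)))
  · refine hprim (Module.finrank F (Fix K)) S.card D ht ⟨ht, Nat.pos_of_ne_zero (fun e => hKne (Submodule.finrank_eq_zero.1 e)),
      fun i => (hSA _ (eq i).2).2.2.1, ?_, ?_⟩ (fun g hg => hperm g hg)
    · rw [iSupIndep_def]
      intro i
      rw [Submodule.disjoint_def]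
      intro x hx hx'
      have hle : (⨆ j ≠ i, D j) ≤ LinearMap.ker (ee (eq i).1) := iSup₂_le fun j hj v hv =>
        LinearMap.mem_ker.2 (he0 _ (eq i).2 _ (eq j).2 (fun e => hj (eq.injective (Subtype.ext e))) v hv)
      rw [← he1 _ (eq i).2 x hx]
      exact LinearMap.mem_ker.1 (hle hx')
    · refine (invariant hirr fun g hg => ?_).resolve_left ?_
      · obtain ⟨σ, hσ⟩ := hperm g hg
        rw [Submodule.map_iSup]
        exact iSup_le fun i => (hσ i).le.trans (le_iSup D (σ i))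
      · intro e
        have := (hSA _ (eq ⟨0, by omega⟩).2).2.1
        exact this (le_bot_iff.1 (e ▸ le_iSup D ⟨0, by omega⟩))

set_option maxHeartbeats 800000 in
/-- The fixed space of a non-identity element has dimension at most `3n/4`. -/
theorem main (hsol : Group.IsSolvable G) {g : Matrix.GeneralLinearGroup (Fin n) F} (hg : g ∈ G) (hg1 : g ≠ 1) :
    4 * Module.finrank F (fx g) ≤ 3 * n := by
  classical
  -- a maximal normal subgroup of class at most two
  let good : Subgroup G → Prop := fun E => E.Normal ∧ ∀ x ∈ E, ∀ y ∈ E, ∀ z ∈ E, Commute (x * y * x⁻¹ * y⁻¹) z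
  obtain ⟨E, hE⟩ := (Set.toFinite {E : Subgroup G | good E}).exists_maximal
    ⟨⊥, inferInstance, fun x hx y hy z hz => by rw [Subgroup.mem_bot] at hx hy hz; simp [hx, hy, hz]⟩
  haveI := hE.1.1
  have hE2 := hE.1.2
  let A : Subgroup G := E ⊓ Subgroup.centralizer (E : Set G)
  have hCE : Subgroup.centralizer (E : Set G) ≤ E := by
    by_contra hle
    haveI : A.Normal := inferInstance
    let C : Subgroup (G ⧸ A) := (Subgroup.centralizer (E : Set G)).map (QuotientGroup.mk' A)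
    haveI : C.Normal := (inferInstance : (Subgroup.centralizer (E : Set G)).Normal).map _ (QuotientGroup.mk'_surjective A)
    have hC : C ≠ ⊥ := fun e => hle fun x hx => by
      have : QuotientGroup.mk' A x ∈ C := ⟨x, hx, rfl⟩
      rw [e, Subgroup.mem_bot, QuotientGroup.mk'_apply, QuotientGroup.eq_one_iff] at this
      exact this.1
    obtain ⟨M, hMn, hMC, hM1, hMmin⟩ := Cfsg.Lib.Solv.exists_minimal_normal_le hC
    haveI := hMn
    haveI : Group.IsSolvable G := hsol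
    obtain ⟨hMc, -⟩ := Cfsg.Lib.Solv.minimal_normal_elementary hM1 inferInstance hMmin
    let D : Subgroup G := M.comap (QuotientGroup.mk' A)
    have hAD : A ≤ D := fun x hx => by
      show QuotientGroup.mk' A x ∈ M
      rw [show QuotientGroup.mk' A x = 1 from (QuotientGroup.eq_one_iff x).2 hx]; exact M.one_mem
    have hDC : D ≤ Subgroup.centralizer (E : Set G) := fun x hx => by
      obtain ⟨c, hc, hcx⟩ := hMC hx
      have hA : c⁻¹ * x ∈ A := (QuotientGroup.eq_one_iff _).1 (by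
        show QuotientGroup.mk' A (c⁻¹ * x) = 1
        rw [map_mul, map_inv, hcx, inv_mul_cancel])
      have := (Subgroup.centralizer (E : Set G)).mul_mem hc hA.2
      rwa [mul_inv_cancel_left] at this
    have hDA : ∀ x ∈ D, ∀ y ∈ D, x * y * x⁻¹ * y⁻¹ ∈ A := fun x hx y hy => (QuotientGroup.eq_one_iff _).1 (by
      show QuotientGroup.mk' A (x * y * x⁻¹ * y⁻¹) = 1
      have := congrArg Subtype.val (hMc.is_comm.comm (⟨_, hx⟩ : M) (⟨_, hy⟩ : M))
      simp only [Subgroup.coe_mul] at this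
      rw [map_mul, map_mul, map_mul, map_inv, map_inv, this]
      group)
    have hnotle : ¬ D ≤ E := fun hDE => hM1 ((Subgroup.eq_bot_iff_forall _).2 fun m hm => by
      obtain ⟨x, rfl⟩ := QuotientGroup.mk'_surjective A m
      exact (QuotientGroup.eq_one_iff x).2 ⟨hDE hm, hDC hm⟩)
    haveI : D.Normal := hMn.comap _
    have hgood : good (E ⊔ D) := by
      refine ⟨inferInstance, ?_⟩
      have hdec : ∀ x ∈ E ⊔ D, ∃ e ∈ E, ∃ d ∈ D, x = e * d := fun x hx => by
        have : x ∈ ((E ⊔ D : Subgroup G) : Set G) := hx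
        rw [Subgroup.normal_mul] at this
        obtain ⟨e, he, d, hd, rfl⟩ := this
        exact ⟨e, he, d, hd, rfl⟩
      intro x hx y hy z hz
      obtain ⟨e, he, d, hd, rfl⟩ := hdec x hx
      obtain ⟨e', he', d', hd', rfl⟩ := hdec y hy
      obtain ⟨e'', he'', d'', hd'', rfl⟩ := hdec z hz
      have hc : ∀ u ∈ E, ∀ v ∈ D, Commute u v := fun u hu v hv => Subgroup.mem_centralizer_iff.1 (hDC hv) u hu
      have e1 : e * d * (e' * d') * (e * d)⁻¹ * (e' * d')⁻¹ = (e * e' * e⁻¹ * e'⁻¹) * (d * d' * d⁻¹ * d'⁻¹) := by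
        have h1 : d * e' = e' * d := (hc e' he' d hd).eq.symm
        have h2 : d⁻¹ * e⁻¹ = e⁻¹ * d⁻¹ := (hc _ (E.inv_mem he) _ (D.inv_mem hd)).eq.symm
        have h3 : d'⁻¹ * e'⁻¹ = e'⁻¹ * d'⁻¹ := (hc _ (E.inv_mem he') _ (D.inv_mem hd')).eq.symm
        have h4 : d * d' * e⁻¹ = e⁻¹ * (d * d') := (hc _ (E.inv_mem he) _ (D.mul_mem hd hd')).eq.symm
        have h5 : d * d' * d⁻¹ * e'⁻¹ = e'⁻¹ * (d * d' * d⁻¹) := (hc _ (E.inv_mem he') _ (D.mul_mem (D.mul_mem hd hd') (D.inv_mem hd))).eq.symm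
        calc e * d * (e' * d') * (e * d)⁻¹ * (e' * d')⁻¹
            = e * (d * e') * d' * (d⁻¹ * e⁻¹) * (d'⁻¹ * e'⁻¹) := by group
          _ = e * e' * (d * d' * e⁻¹) * d⁻¹ * (e'⁻¹ * d'⁻¹) := by rw [h1, h2, h3]; group
          _ = e * e' * e⁻¹ * (d * d' * d⁻¹ * e'⁻¹) * d'⁻¹ := by rw [h4]; group
          _ = _ := by rw [h5]; group
      rw [e1]
      refine Commute.mul_left ?_ ?_
      · exact (hE2 e he e' he' e'' he'').mul_right (hc _ (E.mul_mem (E.mul_mem (E.mul_mem he he') (E.inv_mem he)) (E.inv_mem he')) _ hd'')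
      · have hA := hDA d hd d' hd'
        exact (show Commute e'' _ from Subgroup.mem_centralizer_iff.1 hA.2 e'' he'').symm.mul_right (hc _ hA.1 _ hd'')
    exact hnotle (le_sup_right.trans (hE.2 hgood le_sup_left))
  -- abelian normal subgroup `A`
  have hfpf : ∀ a ∈ A, a ≠ 1 → fx (a : GLn) = ⊥ := by
    intro a ha ha1
    refine abelian_fpf hirr hprim (A := A.map G.subtype) ?_ ?_ ⟨a, ha, rfl⟩ (fun e => ha1 (Subtype.ext e))
    · rintro _ ⟨x, hx, rfl⟩ _ ⟨y, hy, rfl⟩
      exact congrArg Subtype.val (Subgroup.mem_centralizer_iff.1 hy.2 x hx.1)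
    · intro h hh
      refine Subgroup.eq_of_le_of_card_ge ?_ (Nat.card_congr ((A.map G.subtype).equivMapOfInjective _ (MulAut.conj h).injective).toEquiv).le
      rintro _ ⟨_, ⟨x, hx, rfl⟩, rfl⟩
      exact ⟨⟨h, hh⟩ * x * ⟨h, hh⟩⁻¹, (inferInstance : A.Normal).conj_mem x hx _, rfl⟩
  have hhalf : ∀ x y : G, 2 * Module.finrank F (fx (x : GLn)) ≤ n + Module.finrank F (fx ((x * y * x⁻¹ * y⁻¹ : G) : GLn)) := by
    intro x y
    have h1 : Module.finrank F (fx ((y * x * y⁻¹ : G) : GLn)) = Module.finrank F (fx (x : GLn)) := by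
      simp only [Subgroup.coe_mul, Subgroup.coe_inv]
      refine (congrArg (fun W : Submodule F (Fin n → F) => Module.finrank F W) (map_fx (y : GLn) (x : GLn)).symm).trans ?_
      exact (Submodule.equivMapOfInjective _ (fun u v huv => by
        simp only [Matrix.toLin'_apply] at huv
        rw [← inv_vec (y : GLn) u, huv, inv_vec]) _).finrank_eq.symm
    have h2 := Submodule.finrank_sup_add_finrank_inf_eq (fx (x : GLn)) (fx ((y * x * y⁻¹ : G) : GLn))
    have h3 : Module.finrank F ((fx (x : GLn) ⊔ fx ((y * x * y⁻¹ : G) : GLn)) : Submodule F (Fin n → F)) ≤ n :=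
      (Submodule.finrank_le _).trans (by rw [Module.finrank_fin_fun])
    have h4 : fx (x : GLn) ⊓ fx ((y * x * y⁻¹ : G) : GLn) ≤ fx ((x * y * x⁻¹ * y⁻¹ : G) : GLn) := by
      rintro v ⟨hv, hv'⟩
      rw [SetLike.mem_coe, mem_fx] at hv hv'
      rw [mem_fx, show x * y * x⁻¹ * y⁻¹ = x * (y * x * y⁻¹)⁻¹ by group, Subgroup.coe_mul, mul_vec, Subgroup.coe_inv]
      conv_lhs => rw [← hv', inv_vec]
      exact hv
    have h5 := Submodule.finrank_mono h4
    omega
  have hEhalf : ∀ e ∈ E, e ≠ 1 → 2 * Module.finrank F (fx (e : GLn)) ≤ n := by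
    intro e he he1
    by_cases hc : e ∈ Subgroup.centralizer (E : Set G)
    · rw [hfpf e ⟨he, hc⟩ he1, finrank_bot]; omega
    · obtain ⟨f, hf, hne⟩ : ∃ f ∈ E, f * e ≠ e * f := by
        by_contra! hall
        exact hc (Subgroup.mem_centralizer_iff.2 hall)
      have h := hhalf e f
      rw [hfpf (e * f * e⁻¹ * f⁻¹) ⟨E.mul_mem (E.mul_mem (E.mul_mem he hf) (E.inv_mem he)) (E.inv_mem hf),
        Subgroup.mem_centralizer_iff.2 fun z hz => (hE2 e he f hf z hz).eq.symm⟩ (fun h1 => hne (by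
          rw [mul_inv_eq_one, mul_inv_eq_iff_eq_mul] at h1
          exact h1.symm)), finrank_bot] at h
      omega
  have hG1 : (⟨g, hg⟩ : G) ≠ 1 := fun e => hg1 (congrArg Subtype.val e)
  by_cases hc : (⟨g, hg⟩ : G) ∈ Subgroup.centralizer (E : Set G)
  · have := hfpf _ ⟨hCE hc, hc⟩ hG1
    rw [show g = ((⟨g, hg⟩ : G) : GLn) from rfl, this, finrank_bot]
    omega
  · obtain ⟨f, hf, hne⟩ : ∃ f ∈ E, f * (⟨g, hg⟩ : G) ≠ ⟨g, hg⟩ * f := by
      by_contra! hall
      exact hc (Subgroup.mem_centralizer_iff.2 hall)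
    have h := hhalf ⟨g, hg⟩ f
    have h2 := hEhalf ((⟨g, hg⟩ : G) * f * (⟨g, hg⟩ : G)⁻¹ * f⁻¹) (E.mul_mem (hE.1.1.conj_mem f hf _) (E.inv_mem hf)) (fun h1 => hne (by
      rw [mul_inv_eq_one, mul_inv_eq_iff_eq_mul] at h1
      exact h1.symm))
    change 2 * Module.finrank F (fx g) ≤ _ at h
    omega

end

end Cfsg.Lib.PrimSolvFix
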