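import Mathlib
import Cfsg.Prelude.Def_SporadicB
import Cfsg.Agent.Lib.Classical.OrthMatrix

/-!
Reflections of equal norm as 3-transpositions; orthogonal transvections over the field with two elements.
-/

set_option autoImplicit false

namespace Cfsg.Lib.Classical.ReflTriples

open Module Reflections
open scoped Matrix

section general

variable {F V : Type*} [Field F] [AddCommGroup V] [Module F V] {Q : QuadraticForm F V}

local notation "β" => QuadraticMap.polarBilin Q

/-- the braid relation for two reflections of the same norm whose normalised product is a sign -/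
theorem refl_cube {u v : V} (huv : Q u = Q v) (h : ((Q u)⁻¹ * β u v) * ((Q u)⁻¹ * β u v) = 1) :
    (refl Q u * refl Q v) ^ 3 = 1 := by
  set k := (Q u)⁻¹ * β u v with hk
  have hk0 : k ≠ 0 := fun e => by rw [e, zero_mul] at h; exact zero_ne_one h
  have h1 : refl Q u * refl Q v * refl Q u = refl Q ((refl Q u).1 v) := by
    conv_lhs => arg 2; rw [← refl_inv Q u]
    rw [conj_refl]
  have h2 : refl Q v * refl Q u * refl Q v = refl Q ((refl Q v).1 u) := by
    conv_lhs => arg 2; rw [← refl_inv Q v]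
    rw [conj_refl]
  have h3 : (refl Q v).1 u = (-k) • (refl Q u).1 v := by
    rw [refl_apply, refl_apply, ← hk, ← huv, Witt.polar_symm' Q v u, ← hk, smul_sub, smul_smul]
    rw [show (-k) * k = -1 by rw [neg_mul, h]]
    module
  rw [h3, refl_smul Q (neg_ne_zero.mpr hk0)] at h2
  have h4 : (refl Q u * refl Q v) ^ 3 =
      (refl Q u * refl Q v * refl Q u) * (refl Q v * refl Q u * refl Q v) := by
    simp only [pow_succ, pow_zero, one_mul, mul_assoc]
  rw [h4, h1, h2, refl_mul_self]

/-- two reflections of the same norm whose normalised product is zero or a sign -/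
theorem refl_pair {u v : V} (huv : Q u = Q v)
    (h : β u v = 0 ∨ ((Q u)⁻¹ * β u v) * ((Q u)⁻¹ * β u v) = 1) :
    (refl Q u * refl Q v) ^ 2 = 1 ∨ (refl Q u * refl Q v) ^ 3 = 1 := by
  rcases h with h | h
  · left
    have h1 : refl Q u * refl Q v * refl Q u = refl Q v := by
      conv_lhs => arg 2; rw [← refl_inv Q u]
      rw [conj_refl, refl_fix Q h]
    rw [pow_two, ← mul_assoc, h1, refl_mul_self]
  · exact Or.inr (refl_cube huv h)

theorem refl_ne_one (hB : (β).Nondegenerate) {v : V} (hv : Q v ≠ 0) : refl Q v ≠ 1 := fun e => by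
  have hv0 : v ≠ 0 := fun h => hv (by rw [h, map_zero])
  refine hv0 (hB.1 v fun y => ?_)
  have h1 : (refl Q v).1 y = y := by rw [e]; rfl
  rw [refl_apply, sub_eq_self, smul_eq_zero] at h1
  rcases h1 with h1 | h1
  · exact (mul_eq_zero.mp h1).resolve_left (inv_ne_zero hv)
  · exact absurd h1 hv0

theorem rk_refl_mem [FiniteDimensional F V] (hB : (β).Nondegenerate) {g : Witt.quadIso Q} (hg : rk Q g = 1) :
    ∃ v, Q v ≠ 0 ∧ g = refl Q v := by
  obtain ⟨v, hv, hq⟩ := not_totally_of_rk_one hB hg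
  refine ⟨v, hq, ?_⟩
  have h := rk_eq_zero (g := refl Q v * g) (by have := rk_mul_of_mem hB g hq hv; omega)
  rw [← refl_inv Q v]
  exact (inv_eq_of_mul_eq_one_right h).symm

theorem rk_refl [FiniteDimensional F V] (hB : (β).Nondegenerate) {v : V} (hv : Q v ≠ 0) : rk Q (refl Q v) = 1 := by
  have hle : movSp Q (refl Q v) ≤ Submodule.span F {v} := by
    rintro x hx
    obtain ⟨z, rfl⟩ := mem_movSp.1 hx
    rw [refl_apply, sub_sub_cancel_left]
    exact Submodule.neg_mem _ (Submodule.smul_mem _ _ (Submodule.mem_span_singleton_self v))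
  have h1 := Submodule.finrank_mono hle
  rw [finrank_span_singleton (fun e => hv (by rw [e, map_zero]))] at h1
  have h2 : rk Q (refl Q v) ≠ 0 := fun e => refl_ne_one hB hv (rk_eq_zero e)
  unfold rk at h2 ⊢
  omega

end general

section classes

variable {ι : Type} [Fintype ι] [DecidableEq ι] {F : Type*} [Field F] {f : (ι → F) → F}
  {Q : QuadraticForm F (ι → F)}

theorem rk_eq_rank (h : ∀ v, Q v = f v) (g : Cfsg.isometryGroup F f) :
    rk Q (OrthMatrix.eI h g) =
      (((g : Matrix.GeneralLinearGroup ι F) : Matrix ι ι F) - 1).rank := by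
  unfold rk Matrix.rank
  have : movSp Q (OrthMatrix.eI h g) =
      LinearMap.range (((g : Matrix.GeneralLinearGroup ι F) : Matrix ι ι F) - 1).mulVecLin := by
    ext x
    rw [mem_movSp, LinearMap.mem_range]
    simp [OrthMatrix.eI_apply, Matrix.sub_mulVec]
  rw [this]

/-- The rank-one elements form a generating class of 3-transpositions when every non-singular vector has norm one. -/
theorem threeTranspositionClass (h : ∀ v, Q v = f v) (hB : (QuadraticMap.polarBilin Q).Nondegenerate)
    (hex : (∃ c : F, c ≠ 0 ∧ c ≠ 1) ∨ finrank F (ι → F) ≠ 4) (hone : ∀ v, Q v ≠ 0 → Q v = 1)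
    (hsq : ∀ x : F, x = 0 ∨ x * x = 1) (hne : ∃ v, Q v ≠ 0) :
    Cfsg.IsThreeTranspositionClass {g : Cfsg.isometryGroup F f |
      (((g : Matrix.GeneralLinearGroup ι F) : Matrix ι ι F) - 1).rank = 1} := by
  set e := OrthMatrix.eI h with he
  have hD : ∀ g : Cfsg.isometryGroup F f,
      (((g : Matrix.GeneralLinearGroup ι F) : Matrix ι ι F) - 1).rank = 1 ↔ ∃ v, Q v ≠ 0 ∧ e g = refl Q v := by
    intro g
    rw [← rk_eq_rank h]
    exact ⟨rk_refl_mem hB, fun ⟨v, hv, hg⟩ => by rw [← he, hg]; exact rk_refl hB hv⟩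
  refine ⟨⟨fun d hd => ?_, fun d hd d' hd' => ?_⟩, ?_, ?_⟩
  · obtain ⟨v, hv, hg⟩ := (hD d).1 hd
    refine orderOf_eq_prime (e.injective ?_) fun h1 => ?_
    · rw [map_pow, hg, pow_two, refl_mul_self, map_one]
    · rw [h1, map_one] at hg
      exact refl_ne_one hB hv hg.symm
  · obtain ⟨u, hu, hg⟩ := (hD d).1 hd
    obtain ⟨v, hv, hg'⟩ := (hD d').1 hd'
    rcases refl_pair (Q := Q) (u := u) (v := v) (by rw [hone u hu, hone v hv])
      ((hsq _).imp_left fun e0 => by simpa [hone u hu] using e0) with h1 | h1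
    · exact Or.inl (e.injective (by rw [map_pow, map_mul, hg, hg', h1, map_one]))
    · exact Or.inr (e.injective (by rw [map_pow, map_mul, hg, hg', h1, map_one]))
  · obtain ⟨v0, hv0⟩ := hne
    refine ⟨e.symm (refl Q v0), (hD _).2 ⟨v0, hv0, e.apply_symm_apply _⟩, Set.ext fun d => ⟨fun hd => ?_, fun hd => ?_⟩⟩
    · obtain ⟨v, hv, hg⟩ := (hD d).1 hd
      obtain ⟨g, hgm, -, hgv⟩ := Witt.quad_step hB ⊥ (u := v0) (v := v)
        (by simpa using fun e0 : v0 = 0 => hv0 (by rw [e0, map_zero]))
        (by simpa using fun e0 : v = 0 => hv (by rw [e0, map_zero]))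
        (by rw [hone v0 hv0, hone v hv]) (fun s hs => by rw [(Submodule.mem_bot F).1 hs, map_zero, LinearMap.zero_apply, LinearMap.zero_apply])
      refine isConj_iff.mpr ⟨e.symm ⟨g, hgm⟩, e.injective ?_⟩
      rw [map_mul, map_mul, map_inv, e.apply_symm_apply, e.apply_symm_apply, conj_refl, hg]
      exact congrArg (refl Q) hgv
    · obtain ⟨k, hk⟩ := isConj_iff.mp hd
      subst hk
      refine (hD _).2 ⟨(e k).1 v0, ?_, ?_⟩
      · rw [(e k).2 v0]; exact hv0
      · rw [map_mul, map_mul, map_inv, e.apply_symm_apply, conj_refl]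
  · rw [eq_top_iff, ← OrthMatrix.closure_matrix h hB hex]
    refine Subgroup.closure_mono fun g hg => ?_
    obtain ⟨v, hv, hg⟩ := hg
    exact (hD g).2 ⟨v, by rwa [h], (OrthMatrix.eI_eq_refl_iff h g v).2 hg⟩

end classes

end Cfsg.Lib.Classical.ReflTriples
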