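import Mathlib

/-! Shintani descent bookkeeping. -/

set_option autoImplicit false

namespace Cfsg.Lib.Classical.Shintani

variable {X : Type*} [Group X] (σ : MulAut X)

lemma pow_apply_fixed {x : X} (hx : σ x = x) (n : ℕ) : (σ ^ n) x = x := by
  induction n with
  | zero => rfl
  | succ n ih => rw [pow_succ', MulAut.mul_apply, ih, hx]

lemma prod_eq {g a : X} (ha : g = a * (σ a)⁻¹) (d : ℕ) :
    ((List.range d).map (fun i => (σ ^ i) g)).prod = a * ((σ ^ d) a)⁻¹ := by
  induction d with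
  | zero => simp
  | succ d ih =>
    rw [List.range_succ, List.map_append, List.prod_append, ih, List.map_singleton, List.prod_singleton, ha, map_mul, map_inv,
      ← MulAut.mul_apply, ← pow_succ]
    group

lemma fixed_of_eq {a b : X} (h : b * (σ b)⁻¹ = a * (σ a)⁻¹) : σ (a⁻¹ * b) = a⁻¹ * b := by
  rw [map_mul, map_inv, eq_inv_mul_iff_mul_eq, ← mul_assoc, ← h]
  group

lemma norm_fixed {e : ℕ} {g a : X} (hg : (σ ^ e) g = g) (ha : g = a * (σ a)⁻¹) :
    σ (((σ ^ e) a)⁻¹ * a) = ((σ ^ e) a)⁻¹ * a := by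
  have h := hg
  rw [ha, map_mul, map_inv, ← MulAut.mul_apply, ← pow_succ, pow_succ', MulAut.mul_apply] at h
  exact fixed_of_eq σ h.symm

lemma fixed_pow {e : ℕ} {g : X} (hg : (σ ^ e) g = g) (d : ℕ) : ((σ ^ d) ^ e) g = g := by
  rw [← pow_mul, mul_comm, pow_mul]
  exact pow_apply_fixed _ hg d

end Cfsg.Lib.Classical.Shintani
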