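import Mathlib
import Cfsg.Agent.Lib.Classical.SiegelElements

/-!
Siegel elements of two orthogonal singular vectors: they are commutators and they generate `Omega`.
-/

set_option autoImplicit false

namespace Cfsg.Lib.Classical.SiegelSingular

open Module SiegelElements
open scoped Matrix commutatorElement

section Abstract

variable {F V : Type*} [Field F] [Finite F] [AddCommGroup V] [Module F V] [FiniteDimensional F V]
  (Q : QuadraticForm F V) (hB : (QuadraticMap.polarBilin Q).Nondegenerate)

local notation "β" => QuadraticMap.polarBilin Q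
local notation "G" => Witt.quadIso Q

include hB

theorem siegel_mem_commutatorSet (h2 : (2 : F) ≠ 0) {p w : V} (hp : Q p = 0) (hw : Q w = 0)
    (hpw : β p w = 0) : siegel Q p w ∈ commutatorSet G := by
  by_cases hli : LinearIndependent F ![p, w]
  · have hpp : β p p = 0 := by rw [Witt.polar_self', hp, mul_zero]
    have hww : β w w = 0 := by rw [Witt.polar_self', hw, mul_zero]
    have hwp : β w p = 0 := by rw [Witt.polar_symm', hpw]
    have hli2 : LinearIndependent F ![p, (2 : F) • w] := by
      rw [LinearIndependent.pair_iff] at hli ⊢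
      intro s t e
      rw [smul_smul] at e
      have := hli s (t * 2) e
      exact ⟨this.1, (mul_eq_zero.1 this.2).resolve_right h2⟩
    obtain ⟨g, hg, hge⟩ := Witt.quad_witt hB ![p, w] ![p, (2 : F) • w] hli hli2
      (fun i => by fin_cases i <;> simp [Witt.quad_smul, hp, hw])
      (fun i j => by fin_cases i <;> fin_cases j <;>
        simp [map_smul, LinearMap.smul_apply, hpp, hww, hpw, hwp])
    refine ⟨⟨g, hg⟩, siegel Q p w, ?_⟩
    have e0 : g p = p := hge 0
    have e1 : g w = (2 : F) • w := hge 1
    have hc := siegel_conj Q ⟨g, hg⟩ hp hpw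
    rw [e0, e1] at hc
    rw [commutatorElement_def, hc, siegel_inv Q hp hpw,
      siegel_mul Q hp (by rw [map_smul, hpw, smul_zero]) (by rw [map_neg, hpw, neg_zero])]
    congr 1
    module
  · have e : siegel Q p w = 1 := by
      refine SiegelElements.ext' Q fun x => ?_
      show _ = x
      rw [siegel_apply Q hp hpw, hw, zero_mul, add_zero]
      rw [LinearIndependent.pair_iff] at hli
      push Not at hli
      obtain ⟨s, t, e, hst⟩ := hli
      by_cases ht : t = 0
      · have hs : s ≠ 0 := fun h0 => hst h0 ht
        rw [ht, zero_smul, add_zero, smul_eq_zero] at e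
        simp [e.resolve_left hs]
      · have : w = (-(t⁻¹ * s)) • p := by
          rw [neg_smul, mul_smul, ← smul_neg, eq_inv_smul_iff₀ ht]
          exact eq_neg_of_add_eq_zero_right e
        rw [this, map_smul, smul_smul, smul_eq_mul]
        module
    rw [e]
    exact ⟨1, 1, by simp⟩

omit hB in
/-- The Siegel elements of pairs of orthogonal singular vectors. -/
def singSiegel : Set G := {g | ∃ p w, Q p = 0 ∧ Q w = 0 ∧ β p w = 0 ∧ g = siegel Q p w}

theorem commutator_eq_closure (hn : 5 ≤ finrank F V) : commutator G = Subgroup.closure (singSiegel Q) := by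
  refine le_antisymm ?_ ?_
  · rw [commutator_eq Q hB hn, siegelGroup_le_iff]
    intro p w hp hpw
    set U := LinearMap.BilinForm.orthogonal β (Submodule.span F (Set.range ![p])) with hU
    have hmem : ∀ x, x ∈ U ↔ β p x = 0 := fun x => by
      rw [hU, LinearMap.BilinForm.mem_orthogonal_iff]
      constructor
      · exact fun h => h p (Submodule.subset_span ⟨0, rfl⟩)
      · intro h y hy
        obtain ⟨c, rfl⟩ := (Submodule.mem_span_range_iff_exists_fun F).1 hy
        show β (∑ i, c i • ![p] i) x = 0
        simp [Fin.sum_univ_one, h]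
    have hspan : Submodule.span F {x | x ∈ U ∧ Q x = 0} = U := by
      refine SingularVectors.span_singular Q ?_
      have h1 := Submodule.finrank_mono (inf_le_right : U ⊓ LinearMap.BilinForm.orthogonal β U ≤ _)
      have h2 : finrank F U = finrank F V - finrank F (Submodule.span F (Set.range ![p])) := by
        rw [hU, LinearMap.BilinForm.finrank_orthogonal hB]
      have h3 := finrank_range_le_card (R := F) ![p]
      rw [Set.finrank] at h3
      simp only [Fintype.card_fin] at h3
      rw [hU, LinearMap.BilinForm.orthogonal_orthogonal hB (SingularVectors.refl' Q)] at h1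
      rw [hU] at h2 ⊢
      rw [LinearMap.BilinForm.orthogonal_orthogonal hB (SingularVectors.refl' Q)] at *
      omega
    have hwU : w ∈ Submodule.span F {x | x ∈ U ∧ Q x = 0} := hspan.symm ▸ (hmem w).2 hpw
    suffices h : ∀ a : F, β p (a • w) = 0 ∧ siegel Q p (a • w) ∈ Subgroup.closure (singSiegel Q) by
      simpa using (h 1).2
    clear hpw
    induction hwU using Submodule.span_induction with
    | mem x hx =>
      intro a
      have h0 : β p (a • x) = 0 := by rw [map_smul, (hmem x).1 hx.1, smul_zero]
      exact ⟨h0, Subgroup.subset_closure ⟨p, _, hp, by rw [Witt.quad_smul, hx.2, mul_zero], h0, rfl⟩⟩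
    | zero => intro a; rw [smul_zero, siegel_zero Q hp]; exact ⟨map_zero _, one_mem _⟩
    | add x y _ _ hx hy =>
      intro a
      rw [smul_add]
      refine ⟨by rw [map_add, (hx a).1, (hy a).1, add_zero], ?_⟩
      rw [← siegel_mul Q hp (hx a).1 (hy a).1]
      exact mul_mem (hx a).2 (hy a).2
    | smul c x _ hx => intro a; rw [smul_smul]; exact hx (a * c)
  · rw [Subgroup.closure_le]
    rintro g ⟨p, w, hp, -, hpw, rfl⟩
    exact siegel_mem_commutator Q hB hn hp hpw

end Abstract

section Matrices

variable {ι : Type} [Fintype ι] [DecidableEq ι] {F : Type*} [Field F] {f : (ι → F) → F}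
  {Q : QuadraticForm F (ι → F)} (h : ∀ v, Q v = f v)

lemma eI_eq_siegel_iff {u v : ι → F} (hu : Q u = 0) (hv : Q v = 0)
    (huv : QuadraticMap.polarBilin Q u v = 0) (c : F) (g : Cfsg.isometryGroup F f) :
    OrthMatrix.eI h g = siegel Q u (c • v) ↔
      ((g : Matrix.GeneralLinearGroup ι F) : Matrix ι ι F) = Cfsg.siegelMatrix f u v c := by
  have key : ∀ x, Cfsg.siegelMatrix f u v c *ᵥ x = (siegel Q u (c • v)).1 x := fun x => by
    rw [siegel_apply Q hu (by rw [map_smul, huv, smul_zero]), Witt.quad_smul, hv, mul_zero, zero_mul,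
      add_zero, Cfsg.siegelMatrix, Matrix.add_mulVec, Matrix.one_mulVec, Matrix.smul_mulVec,
      Matrix.sub_mulVec, Matrix.vecMulVec_mulVec, Matrix.vecMulVec_mulVec, op_smul_eq_smul,
      op_smul_eq_smul, OrthMatrix.polarVec_dot h, OrthMatrix.polarVec_dot h, map_smul, smul_eq_mul,
      Witt.polar_symm' Q x u, Witt.polar_symm' Q x v]
    module
  constructor
  · intro e
    refine ext_mulVec fun x => ?_
    rw [← OrthMatrix.eI_apply h, e, key]
  · intro e
    refine Subtype.ext (LinearEquiv.ext fun x => ?_)
    rw [OrthMatrix.eI_apply, e, key]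

end Matrices

end Cfsg.Lib.Classical.SiegelSingular
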