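import Mathlib
import Cfsg.Prelude.Def_GeometricClasses
import Cfsg.Agent.Lib.Classical.SymmForm
import Cfsg.Agent.Lib.Classical.Transvection
import Cfsg.Agent.Lib.Classical.FormFn

/-!
Monomial isometry groups: three-dimensional symmetric forms over three elements and two-dimensional
unitary forms over four elements have a unique frame.
-/

set_option autoImplicit false

namespace Cfsg.Lib.Classical.SmallFrames

open Matrix Module
open scoped MatrixGroups

variable {F : Type*} [Field F] [Fintype F]

lemma two_ne_zero' (hq : Fintype.card F = 3) : (2 : F) ≠ 0 := Ring.two_ne_zero fun h => by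
  have := FiniteField.even_card_of_char_two h
  omega

lemma eq_zero_or (hq : Fintype.card F = 3) (x : F) : x = 0 ∨ x = 1 ∨ x = -1 := by
  rcases eq_or_ne x 0 with h | h
  · exact Or.inl h
  · refine Or.inr (mul_self_eq_one_iff.1 ?_)
    have := FiniteField.pow_card_sub_one_eq_one x h
    rw [hq] at this
    rw [← sq]; exact this

/-- A three-dimensional form over three elements has a frame of equal values, unique up to signs and
permutations, and similitudes permute it. -/
theorem exists_frame_three (hq : Fintype.card F = 3) {f : (Fin 3 → F) → (Fin 3 → F) → F}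
    (hf : Cfsg.Geo.IsSymmetricForm f) :
    ∃ v : Fin 3 → Fin 3 → F, (∀ i, v i ≠ 0) ∧ (∀ i j, i ≠ j → f (v i) (v j) = 0) ∧ (∀ i, f (v i) (v i) ≠ 0) ∧
      ∀ (a : GL (Fin 3) F) (μ : F), μ ≠ 0 → (∀ x y, f ((a : Matrix (Fin 3) (Fin 3) F) *ᵥ x)
        ((a : Matrix (Fin 3) (Fin 3) F) *ᵥ y) = μ * f x y) →
      ∃ π : Fin 3 → Fin 3, Function.Injective π ∧
        ∀ i, ∃ c : F, c ≠ 0 ∧ (a : Matrix (Fin 3) (Fin 3) F) *ᵥ v i = c • v (π i) := by
  classical
  have h2 := two_ne_zero' hq
  let B : LinearMap.BilinForm F (Fin 3 → F) := LinearMap.mk₂ F f hf.bilinear.add_left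
    (fun c x y => hf.bilinear.smul_left c x y) hf.bilinear.add_right (fun c x y => hf.bilinear.smul_right c x y)
  have hB : B.Nondegenerate :=
    ⟨fun x hx => by_contra fun h0 => let ⟨y, hy⟩ := (hf.nondegenerate x h0).2; hy (hx y),
      fun x hx => by_contra fun h0 => let ⟨y, hy⟩ := (hf.nondegenerate x h0).1; hy (hx y)⟩
  have hα : ¬ IsSquare (-1 : F) := by
    rw [FiniteField.isSquare_neg_one_iff, hq]
    decide
  obtain ⟨b, e, he, hb⟩ := SymmForm.normal_form h2 B ⟨fun x y => hf.symm x y⟩ hB
    (n := 2) (by simp) hα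
  obtain ⟨c, hc, v, horth, hval⟩ : ∃ c : F, c ≠ 0 ∧ ∃ v : Fin 3 → Fin 3 → F,
      (∀ i j, i ≠ j → f (v i) (v j) = 0) ∧ ∀ i, f (v i) (v i) = c := by
    rcases he with he | he
    · exact ⟨1, one_ne_zero, b, hb.1, fun i => (hb.2 i).trans (by simp [he])⟩
    · have e00 : f (b 0) (b 0) = 1 := (hb.2 0).trans (if_neg (by decide))
      have e11 : f (b 1) (b 1) = 1 := (hb.2 1).trans (if_neg (by decide))
      have e22 : f (b 2) (b 2) = -1 := (hb.2 2).trans ((if_pos (by decide)).trans he)
      have e01 : f (b 0) (b 1) = 0 := hb.1 0 1 (by decide)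
      have e10 : f (b 1) (b 0) = 0 := hb.1 1 0 (by decide)
      have e02 : f (b 0) (b 2) = 0 := hb.1 0 2 (by decide)
      have e20 : f (b 2) (b 0) = 0 := hb.1 2 0 (by decide)
      have e12 : f (b 1) (b 2) = 0 := hb.1 1 2 (by decide)
      have e21 : f (b 2) (b 1) = 0 := hb.1 2 1 (by decide)
      have h3 : (1 : F) + 1 = -1 := by
        rcases eq_zero_or hq (1 + 1) with h | h | h
        · exact absurd ((one_add_one_eq_two (R := F)).symm.trans h) h2
        · simp at h
        · exact h
      have nl : ∀ x y, f (-x) y = -f x y := fun x y => by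
        rw [← neg_one_smul F x, hf.bilinear.smul_left, neg_one_mul]
      have nr : ∀ x y, f x (-y) = -f x y := fun x y => by
        rw [← neg_one_smul F y, hf.bilinear.smul_right, neg_one_mul]
      refine ⟨-1, neg_ne_zero.2 one_ne_zero, ![b 0 + b 1, b 0 + (-1 : F) • b 1, b 2], ?_, ?_⟩
      · intro i j hij
        fin_cases i <;> fin_cases j <;>
          simp [hf.bilinear.add_left, hf.bilinear.add_right, hf.bilinear.smul_left, hf.bilinear.smul_right,
            -smul_eq_mul, nl, nr, e00, e11, e01, e10, e02, e20, e12, e21] at hij ⊢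
      · intro i
        fin_cases i <;>
          simp [hf.bilinear.add_left, hf.bilinear.add_right, hf.bilinear.smul_left, hf.bilinear.smul_right,
            -smul_eq_mul, nl, nr, e00, e11, e01, e10, e22, h3]
  have hv0 : ∀ i, v i ≠ 0 := fun i h => by
    refine hc ?_
    rw [← hval i, h]
    exact map_zero (B 0)
  refine ⟨v, hv0, horth, fun i => by rw [hval i]; exact hc, fun a μ hμ ha => ?_⟩
  -- coordinates
  have hco : ∀ x, x = ∑ j, (f x (v j) / c) • v j := by
    intro x
    have hli : LinearIndependent F v := by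
      rw [Fintype.linearIndependent_iff]
      intro g hg j
      have h1 := congrArg (fun z => B z (v j)) hg
      simp only [map_sum, map_smul, LinearMap.sum_apply, LinearMap.smul_apply, map_zero,
        LinearMap.zero_apply, smul_eq_mul] at h1
      rw [Finset.sum_eq_single j (fun i _ hi => by
        rw [show B (v i) (v j) = 0 from horth i j hi, mul_zero]) (by simp),
        show B (v j) (v j) = c from hval j] at h1
      exact (mul_eq_zero.1 h1).resolve_right hc
    have hsp := hli.span_eq_top_of_card_eq_finrank (by simp)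
    obtain ⟨g, hg⟩ := (Submodule.mem_span_range_iff_exists_fun F).1 (hsp.symm ▸ Submodule.mem_top : x ∈ _)
    conv_lhs => rw [← hg]
    refine Finset.sum_congr rfl fun j _ => ?_
    congr 1
    have h1 : B x (v j) = g j * c := by
      rw [← hg, map_sum, LinearMap.sum_apply, Finset.sum_eq_single j (fun i _ hi => by
        rw [map_smul, LinearMap.smul_apply, show B (v i) (v j) = 0 from horth i j hi, smul_zero]) (by simp),
        map_smul, LinearMap.smul_apply, show B (v j) (v j) = c from hval j, smul_eq_mul]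
    show g j = B x (v j) / c
    rw [h1, mul_div_cancel_right₀ _ hc]
  set A : Matrix (Fin 3) (Fin 3) F := fun j i => f ((a : Matrix (Fin 3) (Fin 3) F) *ᵥ v i) (v j) / c with hA
  have hgram : ∀ i l, ∑ j, A j i * A j l = if i = l then μ else 0 := by
    intro i l
    have h1 := ha (v i) (v l)
    have h3 : f ((a : Matrix (Fin 3) (Fin 3) F) *ᵥ v i) ((a : Matrix (Fin 3) (Fin 3) F) *ᵥ v l) =
        c * ∑ j, A j i * A j l := by
      show B _ _ = _
      conv_lhs => rw [hco ((a : Matrix (Fin 3) (Fin 3) F) *ᵥ v l)]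
      rw [map_sum, Finset.mul_sum]
      refine Finset.sum_congr rfl fun j _ => ?_
      rw [map_smul, smul_eq_mul, hA]
      show _ * f _ (v j) = c * _
      field_simp
    rw [h3] at h1
    refine mul_left_cancel₀ hc (h1.trans ?_)
    split_ifs with h
    · rw [h, hval, mul_comm]
    · rw [horth i l h, mul_zero, mul_zero]
  have hμ1 : μ = 1 := by
    have h1 : Aᵀ * A = μ • 1 := by
      ext i l
      rw [Matrix.mul_apply, Matrix.smul_apply, Matrix.one_apply, smul_eq_mul, mul_ite, mul_one, mul_zero]
      exact hgram i l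
    have h3 := congrArg Matrix.det h1
    rw [det_mul, det_transpose, det_smul, det_one, Fintype.card_fin, mul_one] at h3
    have hμ2 : μ * μ = 1 := by
      rcases eq_zero_or hq μ with h | h | h
      · exact absurd h hμ
      all_goals simp [h]
    rcases eq_zero_or hq A.det with h | h | h <;> rw [h] at h3
    · rw [mul_zero, eq_comm, pow_eq_zero_iff (by norm_num)] at h3
      exact absurd h3 hμ
    all_goals (rw [pow_succ, sq, hμ2, one_mul] at h3; simpa using h3.symm)
  -- each column has one non-zero entry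
  have hcol : ∀ i, ∃ j, A j i ≠ 0 ∧ ∀ l, l ≠ j → A l i = 0 := by
    intro i
    have h1 := hgram i i
    rw [if_pos rfl, hμ1, Fin.sum_univ_three] at h1
    rcases eq_zero_or hq (A 0 i) with h0 | h0 | h0 <;> rcases eq_zero_or hq (A 1 i) with h1' | h1' | h1' <;>
      rcases eq_zero_or hq (A 2 i) with h2' | h2' | h2' <;>
      simp only [h0, h1', h2', mul_zero, zero_add, add_zero, mul_one, neg_mul, one_mul, neg_neg] at h1
    all_goals first
      | exact absurd h1 zero_ne_one
      | exact absurd (by linear_combination h1 : (1 : F) = 0) one_ne_zero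
      | exact absurd (by linear_combination h1 : (2 : F) = 0) h2
      | (refine ⟨0, ?_, fun l hl => ?_⟩ <;> first
          | (rw [h0]; simp; done)
          | (fin_cases l <;> first | exact absurd rfl hl | assumption))
      | (refine ⟨1, ?_, fun l hl => ?_⟩ <;> first
          | (rw [h1']; simp; done)
          | (fin_cases l <;> first | exact absurd rfl hl | assumption))
      | (refine ⟨2, ?_, fun l hl => ?_⟩ <;> first
          | (rw [h2']; simp; done)
          | (fin_cases l <;> first | exact absurd rfl hl | assumption))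
  choose π hπ hπ0 using hcol
  refine ⟨π, fun i l hil => ?_, fun i => ⟨A (π i) i, hπ i, ?_⟩⟩
  · by_contra hne
    have h1 := hgram i l
    rw [if_neg hne, Finset.sum_eq_single (π i) (fun j _ hj => by rw [hπ0 i j hj, zero_mul]) (by simp), hil,
      mul_eq_zero] at h1
    exact h1.elim (fun h => hπ i (hil ▸ h)) (hπ l)
  · rw [hco ((a : Matrix (Fin 3) (Fin 3) F) *ᵥ v i),
      Finset.sum_eq_single (π i) (fun j _ hj => by
        rw [show f ((a : Matrix (Fin 3) (Fin 3) F) *ᵥ v i) (v j) / c = 0 from hπ0 i j hj, zero_smul]) (by simp)]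

/-- A two-dimensional unitary form over four elements has a unique frame. -/
theorem exists_frame_two (hq : Fintype.card F = 4) {f : (Fin 2 → F) → (Fin 2 → F) → F}
    (hf : Cfsg.Geo.IsUnitaryFormPow 2 f) :
    ∃ v : Fin 2 → Fin 2 → F, (∀ i, v i ≠ 0) ∧ (∀ i j, i ≠ j → f (v i) (v j) = 0) ∧ (∀ i, f (v i) (v i) = 1) ∧
      ∀ (a : GL (Fin 2) F) (μ : F), μ ≠ 0 → (∀ x y, f ((a : Matrix (Fin 2) (Fin 2) F) *ᵥ x)
        ((a : Matrix (Fin 2) (Fin 2) F) *ᵥ y) = μ * f x y) →
      ∃ π : Fin 2 → Fin 2, Function.Injective π ∧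
        ∀ i, ∃ c : F, c ≠ 0 ∧ (a : Matrix (Fin 2) (Fin 2) F) *ᵥ v i = c • v (π i) := by
  classical
  haveI : CharP F 2 := by
    obtain ⟨p, hp⟩ := CharP.exists F
    obtain ⟨k, hp', hk⟩ := FiniteField.card F p
    rw [hq] at hk
    have : p ∣ 4 := hk ▸ dvd_pow_self p k.ne_zero
    have := (Nat.prime_dvd_prime_iff_eq hp' Nat.prime_two).1 (hp'.dvd_of_dvd_pow (show p ∣ 2 ^ 2 from this))
    subst this
    exact hp
  have hadd : ∀ x y v, f v (x + y) = f v x + f v y := fun x y v => by
    rw [hf.herm, hf.add_left, add_sq, ← hf.herm, ← hf.herm, CharTwo.two_eq_zero, zero_mul, zero_mul, add_zero]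
  have hsmul : ∀ (c : F) v x, f v (c • x) = c ^ 2 * f v x := fun c v x => by
    rw [hf.herm, hf.smul_left, mul_pow, ← hf.herm]
  have cube : ∀ x : F, x ≠ 0 → x ^ 3 = 1 := fun x hx => by
    have := FiniteField.pow_card_sub_one_eq_one x hx
    rwa [hq] at this
  have diag : ∀ x, f x x = 0 ∨ f x x = 1 := fun x => by
    have h := hf.herm x x
    rcases eq_or_ne (f x x) 0 with h0 | h0
    · exact Or.inl h0
    · exact Or.inr (mul_left_cancel₀ h0 (by rw [mul_one, ← sq]; exact h.symm))
  have z0 : ∀ x, f 0 x = 0 := fun x => by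
    have := hf.smul_left 0 0 x
    simpa using this
  obtain ⟨v, hv⟩ : ∃ v, f v v = 1 := by
    by_contra! hall
    have h0 : ∀ x, f x x = 0 := fun x => (diag x).resolve_right (hall x)
    obtain ⟨w, hw⟩ : ∃ w : Fin 2 → F, w ≠ 0 := exists_ne 0
    obtain ⟨y, hy⟩ := (hf.nondegenerate w hw).2
    obtain ⟨ω, hω, hω1⟩ : ∃ ω : F, ω ≠ 0 ∧ ω ≠ 1 := by
      by_contra! hcon
      have : (Finset.univ : Finset F) ⊆ {0, 1} := fun x _ => by
        rcases eq_or_ne x 0 with h | h <;> simp [h, hcon x]
      have := (Finset.card_le_card this).trans Finset.card_le_two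
      rw [Finset.card_univ, hq] at this
      omega
    have key : ∀ x z, f x z + (f x z) ^ 2 = 0 := fun x z => by
      have h := h0 (x + z)
      rwa [hf.add_left, hadd, hadd, h0, h0, zero_add, add_zero, hf.herm z x] at h
    have one : ∀ x z, f x z ≠ 0 → f x z = 1 := fun x z hne => by
      have h := key x z
      rw [sq, ← mul_one_add, mul_eq_zero] at h
      have := h.resolve_left hne
      rwa [CharTwo.add_eq_zero, eq_comm] at this
    have h1 := one w y hy
    have h3 := one (ω • w) y (by rw [hf.smul_left, h1, mul_one]; exact hω)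
    rw [hf.smul_left, h1, mul_one] at h3
    exact hω1 h3
  have hv0 : v ≠ 0 := fun h => by rw [h, z0] at hv; exact zero_ne_one hv
  obtain ⟨u, hu⟩ : ∃ u : Fin 2 → F, u ∉ Submodule.span F {v} := by
    by_contra! hcon
    have h1 := Submodule.finrank_mono (show (⊤ : Submodule F (Fin 2 → F)) ≤ _ from fun x _ => hcon x)
    rw [finrank_top, Module.finrank_fintype_fun_eq_card, Fintype.card_fin, finrank_span_singleton hv0] at h1
    omega
  set w := u + f u v • v with hw
  have hwv : f w v = 0 := by rw [hw, hf.add_left, hf.smul_left, hv, mul_one, CharTwo.add_self_eq_zero]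
  have hvw : f v w = 0 := by rw [hf.herm, hwv]; simp
  have hwsp : w ∉ Submodule.span F {v} := fun h => hu (by
    have := Submodule.add_mem _ h (Submodule.smul_mem _ (f u v) (Submodule.mem_span_singleton_self v))
    rwa [hw, add_assoc, ← add_smul, CharTwo.add_self_eq_zero, zero_smul, add_zero] at this)
  have hw0 : w ≠ 0 := fun h => hwsp (h ▸ zero_mem _)
  have hli : LinearIndependent F ![v, w] := LinearIndependent.pair_iff' hv0 |>.2 fun a h =>
    hwsp (Submodule.mem_span_singleton.2 ⟨a, h⟩)
  have hco : ∀ x, ∃ α β : F, x = α • v + β • w := fun x => by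
    have hsp := hli.span_eq_top_of_card_eq_finrank (by simp)
    obtain ⟨g, hg⟩ := (Submodule.mem_span_range_iff_exists_fun F).1 (hsp.symm ▸ Submodule.mem_top : x ∈ _)
    exact ⟨g 0, g 1, by rw [← hg]; simp [Fin.sum_univ_two]⟩
  have hww : f w w = 1 := by
    refine (diag w).resolve_left fun h0 => ?_
    obtain ⟨y, hy⟩ := (hf.nondegenerate w hw0).1
    obtain ⟨α, β, rfl⟩ := hco y
    rw [hf.add_left, hf.smul_left, hf.smul_left, hvw, h0] at hy
    simp at hy
  have honly : ∀ x, f x x ≠ 0 → ∃ i : Fin 2, ∃ c : F, c ≠ 0 ∧ x = c • ![v, w] i := by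
    intro x hx
    obtain ⟨α, β, rfl⟩ := hco x
    rw [hf.add_left, hadd, hadd, hf.smul_left, hf.smul_left, hf.smul_left, hf.smul_left, hsmul, hsmul,
      hsmul, hsmul, hv, hww, hvw, hwv] at hx
    simp only [mul_one, mul_zero, add_zero, zero_add] at hx
    rcases eq_or_ne α 0 with rfl | hα
    · refine ⟨1, β, fun h => hx (by rw [h]; simp), by simp⟩
    rcases eq_or_ne β 0 with rfl | hβ
    · exact ⟨0, α, hα, by simp⟩
    refine absurd ?_ hx
    rw [← pow_succ', ← pow_succ', cube α hα, cube β hβ, CharTwo.add_self_eq_zero]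
  refine ⟨![v, w], ?_, ?_, ?_, fun a μ hμ ha => ?_⟩
  · intro i; fin_cases i
    · exact hv0
    · exact hw0
  · intro i j hij
    fin_cases i <;> fin_cases j
    · exact absurd rfl hij
    · exact hvw
    · exact hwv
    · exact absurd rfl hij
  · intro i; fin_cases i
    · exact hv
    · exact hww
  · have hne : ∀ i, f ((a : Matrix (Fin 2) (Fin 2) F) *ᵥ ![v, w] i)
        ((a : Matrix (Fin 2) (Fin 2) F) *ᵥ ![v, w] i) ≠ 0 := fun i => by
      rw [ha]
      fin_cases i <;> simp [hv, hww, hμ]
    choose π cf hcf hπ using fun i => honly _ (hne i)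
    refine ⟨π, fun i j hij => ?_, fun i => ⟨cf i, hcf i, hπ i⟩⟩
    by_contra hne'
    have h1 : (a : Matrix (Fin 2) (Fin 2) F) *ᵥ ![v, w] i =
        (a : Matrix (Fin 2) (Fin 2) F) *ᵥ ((cf i / cf j) • ![v, w] j) := by
      rw [mulVec_smul, hπ i, hπ j, hij, smul_smul, div_mul_cancel₀ _ (hcf j)]
    have h3 := (mulVec_inj a).1 h1
    fin_cases i <;> fin_cases j
    · exact hne' rfl
    · exact hwsp (Submodule.mem_span_singleton.2 ⟨(cf 0 / cf 1)⁻¹, by
        have e : v = (cf 0 / cf 1) • w := h3
        rw [e, inv_smul_smul₀ (div_ne_zero (hcf 0) (hcf 1))]⟩)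
    · exact hwsp (Submodule.mem_span_singleton.2 ⟨cf 1 / cf 0, h3.symm⟩)
    · exact hne' rfl

end Cfsg.Lib.Classical.SmallFrames
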