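import Mathlib
import Cfsg.Agent.Lib.Classical.SymplecticMatrix
import Cfsg.Agent.Lib.Classical.PSLAut.Conj

/-!
The stabiliser of a nondegenerate subspace in a classical group is the product of the two smaller groups.
-/

set_option autoImplicit false

namespace Cfsg.Lib.Classical.StabProd

open Matrix Module

variable {F : Type*} [Field F] {ι α β : Type} [Fintype ι] [DecidableEq ι] [Fintype α] [DecidableEq α]
  [Fintype β] [DecidableEq β] {G G₁ G₂ : Type*} [Group G] [Group G₁] [Group G₂]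

theorem nonempty_equiv
    (f : (ι → F) → (ι → F) → F) (f₁ : (α → F) → (α → F) → F) (f₂ : (β → F) → (β → F) → F)
    (hz₁ : ∀ x, f₁ 0 x = 0 ∧ f₁ x 0 = 0) (hz₂ : ∀ x, f₂ 0 x = 0 ∧ f₂ x 0 = 0)
    (hnd₁ : ∀ x, (∀ y, f₁ x y = 0) → x = 0)
    (φ : ((α → F) × (β → F)) ≃ₗ[F] (ι → F))
    (hφ : ∀ a b, f (φ a) (φ b) = f₁ a.1 b.1 + f₂ a.2 b.2)
    (W : Submodule F (ι → F)) (hW : ∀ v, v ∈ W ↔ (φ.symm v).2 = 0)
    (M : G →* Matrix ι ι F) (hM : Function.Injective M) (hG : ∀ g u v, f (M g *ᵥ u) (M g *ᵥ v) = f u v)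
    (hG' : ∀ A : Matrix ι ι F, IsUnit A → (∀ u v, f (A *ᵥ u) (A *ᵥ v) = f u v) → ∃ g, M g = A)
    (M₁ : G₁ →* Matrix α α F) (hM₁ : Function.Injective M₁) (hG₁ : ∀ g u v, f₁ (M₁ g *ᵥ u) (M₁ g *ᵥ v) = f₁ u v)
    (hG₁' : ∀ A : Matrix α α F, IsUnit A → (∀ u v, f₁ (A *ᵥ u) (A *ᵥ v) = f₁ u v) → ∃ g, M₁ g = A)
    (M₂ : G₂ →* Matrix β β F) (hM₂ : Function.Injective M₂) (hG₂ : ∀ g u v, f₂ (M₂ g *ᵥ u) (M₂ g *ᵥ v) = f₂ u v)
    (hG₂' : ∀ A : Matrix β β F, IsUnit A → (∀ u v, f₂ (A *ᵥ u) (A *ᵥ v) = f₂ u v) → ∃ g, M₂ g = A)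
    (S : Subgroup G) (hS : ∀ g, g ∈ S ↔ ∀ v, v ∈ W ↔ M g *ᵥ v ∈ W) :
    Nonempty (S ≃* G₁ × G₂) := by
  classical
  have hu : ∀ g : G, IsUnit (M g) := fun g => (Group.isUnit g).map M
  let L : G₁ × G₂ → ((ι → F) →ₗ[F] (ι → F)) := fun p =>
    (φ : ((α → F) × (β → F)) →ₗ[F] (ι → F)) ∘ₗ (LinearMap.prodMap (Matrix.toLin' (M₁ p.1)) (Matrix.toLin' (M₂ p.2)))
      ∘ₗ (φ.symm : (ι → F) →ₗ[F] ((α → F) × (β → F)))
  have hL : ∀ p v, L p v = φ (M₁ p.1 *ᵥ (φ.symm v).1, M₂ p.2 *ᵥ (φ.symm v).2) := fun p v => by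
    simp [L, Matrix.toLin'_apply]
  have hex : ∀ p, ∃ g : G, ∀ v, M g *ᵥ v = L p v := by
    intro p
    have hinj : Function.Injective (LinearMap.toMatrix' (L p)).mulVec := fun u v e => by
      rw [LinearMap.toMatrix'_mulVec, LinearMap.toMatrix'_mulVec, hL, hL] at e
      have e' := φ.injective e
      rw [Prod.ext_iff] at e'
      have h1 := Matrix.mulVec_injective_iff_isUnit.2 ((Group.isUnit p.1).map M₁) e'.1
      have h2 := Matrix.mulVec_injective_iff_isUnit.2 ((Group.isUnit p.2).map M₂) e'.2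
      exact φ.symm.injective (Prod.ext h1 h2)
    obtain ⟨g, hg⟩ := hG' _ (Matrix.mulVec_injective_iff_isUnit.1 hinj) fun u v => by
      rw [LinearMap.toMatrix'_mulVec, LinearMap.toMatrix'_mulVec, hL, hL, hφ, hG₁, hG₂, ← hφ,
        φ.apply_symm_apply, φ.apply_symm_apply]
    exact ⟨g, fun v => by rw [hg, LinearMap.toMatrix'_mulVec]⟩
  choose ψ hψ using hex
  have hmem : ∀ p, ψ p ∈ S := fun p => (hS _).2 fun v => by
    rw [hW, hW, hψ, hL, φ.symm_apply_apply]
    refine ⟨fun h => by rw [h, Matrix.mulVec_zero], fun h => ?_⟩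
    exact Matrix.mulVec_injective_iff_isUnit.2 ((Group.isUnit p.2).map M₂) (h.trans (Matrix.mulVec_zero _).symm)
  have hmul : ∀ p q, ψ (p * q) = ψ p * ψ q := fun p q => hM (Matrix.ext_of_mulVec_single fun i => by
    rw [map_mul, ← Matrix.mulVec_mulVec, hψ, hψ, hψ, hL, hL, hL, φ.symm_apply_apply]
    simp only [Prod.fst_mul, Prod.snd_mul, map_mul, ← Matrix.mulVec_mulVec])
  let h : G₁ × G₂ →* S := MonoidHom.mk' (fun p => ⟨ψ p, hmem p⟩) fun p q => Subtype.ext (hmul p q)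
  refine ⟨(MulEquiv.ofBijective h ⟨fun p q e => ?_, fun g => ?_⟩).symm⟩
  · have e' : ψ p = ψ q := congrArg Subtype.val e
    have key : ∀ a b, (M₁ p.1 *ᵥ a, M₂ p.2 *ᵥ b) = (M₁ q.1 *ᵥ a, M₂ q.2 *ᵥ b) := fun a b => by
      have := congrArg (fun g => M g *ᵥ φ (a, b)) e'
      simp only [hψ, hL, φ.symm_apply_apply] at this
      exact φ.injective this
    refine Prod.ext (hM₁ (Matrix.ext_of_mulVec_single fun i => ?_)) (hM₂ (Matrix.ext_of_mulVec_single fun i => ?_))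
    · exact congrArg Prod.fst (key (Pi.single i 1) 0)
    · exact congrArg Prod.snd (key 0 (Pi.single i 1))
  · have hg := (hS g.1).1 g.2
    let T₁ : (α → F) →ₗ[F] (α → F) := LinearMap.fst F _ _ ∘ₗ (φ.symm : (ι → F) →ₗ[F] ((α → F) × (β → F))) ∘ₗ
      Matrix.toLin' (M g.1) ∘ₗ (φ : ((α → F) × (β → F)) →ₗ[F] (ι → F)) ∘ₗ LinearMap.inl F _ _
    let T₂ : (β → F) →ₗ[F] (β → F) := LinearMap.snd F _ _ ∘ₗ (φ.symm : (ι → F) →ₗ[F] ((α → F) × (β → F))) ∘ₗ
      Matrix.toLin' (M g.1) ∘ₗ (φ : ((α → F) × (β → F)) →ₗ[F] (ι → F)) ∘ₗ LinearMap.inr F _ _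
    have hT₁ : ∀ a, M g.1 *ᵥ φ (a, 0) = φ (T₁ a, 0) := fun a => by
      have h1 := (hW _).1 ((hg _).1 ((hW (φ (a, 0))).2 (by rw [φ.symm_apply_apply])))
      conv_lhs => rw [← φ.apply_symm_apply (M g.1 *ᵥ φ (a, 0))]
      congr 1
      exact Prod.ext (by simp [T₁, Matrix.toLin'_apply]) h1
    have hMinj := Matrix.mulVec_injective_iff_isUnit.2 (hu g.1)
    have hT₁i : Function.Injective T₁ := fun a b e => by
      have := hMinj (show M g.1 *ᵥ φ (a, 0) = M g.1 *ᵥ φ (b, 0) by rw [hT₁, hT₁, e])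
      exact congrArg Prod.fst (φ.injective this)
    have hT₂ : ∀ b, M g.1 *ᵥ φ (0, b) = φ (0, T₂ b) := fun b => by
      conv_lhs => rw [← φ.apply_symm_apply (M g.1 *ᵥ φ (0, b))]
      congr 1
      refine Prod.ext (hnd₁ _ fun a => ?_) (by simp [T₂, Matrix.toLin'_apply])
      obtain ⟨a', rfl⟩ := LinearMap.surjective_of_injective hT₁i a
      have h1 := hG g.1 (φ (0, b)) (φ (a', 0))
      rw [hT₁, hφ, (hz₁ _).1, (hz₂ _).2, add_zero, ← φ.apply_symm_apply (M g.1 *ᵥ φ (0, b)), hφ,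
        (hz₂ _).2, add_zero] at h1
      exact h1
    have hT₂i : Function.Injective T₂ := fun a b e => by
      have := hMinj (show M g.1 *ᵥ φ (0, a) = M g.1 *ᵥ φ (0, b) by rw [hT₂, hT₂, e])
      exact congrArg Prod.snd (φ.injective this)
    obtain ⟨g₁, hg₁⟩ := hG₁' (LinearMap.toMatrix' T₁)
      (Matrix.mulVec_injective_iff_isUnit.1 fun u v e => hT₁i (by simpa [LinearMap.toMatrix'_mulVec] using e))
      fun u v => by
        rw [LinearMap.toMatrix'_mulVec, LinearMap.toMatrix'_mulVec]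
        have h1 := hG g.1 (φ (u, 0)) (φ (v, 0))
        rw [hT₁, hT₁, hφ, hφ, (hz₂ _).1, add_zero, add_zero] at h1
        exact h1
    obtain ⟨g₂, hg₂⟩ := hG₂' (LinearMap.toMatrix' T₂)
      (Matrix.mulVec_injective_iff_isUnit.1 fun u v e => hT₂i (by simpa [LinearMap.toMatrix'_mulVec] using e))
      fun u v => by
        rw [LinearMap.toMatrix'_mulVec, LinearMap.toMatrix'_mulVec]
        have h1 := hG g.1 (φ (0, u)) (φ (0, v))
        rw [hT₂, hT₂, hφ, hφ, (hz₁ _).1, zero_add, zero_add] at h1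
        exact h1
    refine ⟨(g₁, g₂), Subtype.ext (hM (Matrix.ext_of_mulVec_single fun i => ?_))⟩
    show M (ψ (g₁, g₂)) *ᵥ _ = M g.1 *ᵥ _
    generalize (Pi.single i (1 : F) : ι → F) = v
    obtain ⟨⟨a, b⟩, rfl⟩ := φ.surjective v
    rw [hψ, hL, φ.symm_apply_apply, hg₁, hg₂, LinearMap.toMatrix'_mulVec, LinearMap.toMatrix'_mulVec,
      show φ (a, b) = φ (a, 0) + φ (0, b) by rw [← map_add, Prod.mk_add_mk, add_zero, zero_add],
      Matrix.mulVec_add, hT₁, hT₂, ← map_add, Prod.mk_add_mk, add_zero, zero_add]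

/-- Two embeddings with complementary images give a decomposition. -/
theorem exists_phi (φ₁ : (α → F) →ₗ[F] (ι → F)) (φ₂ : (β → F) →ₗ[F] (ι → F)) (h₁ : Function.Injective φ₁)
    (h₂ : Function.Injective φ₂) (hc : IsCompl (LinearMap.range φ₁) (LinearMap.range φ₂)) :
    ∃ φ : ((α → F) × (β → F)) ≃ₗ[F] (ι → F), (∀ a, φ a = φ₁ a.1 + φ₂ a.2) ∧
      ∀ v, v ∈ LinearMap.range φ₁ ↔ (φ.symm v).2 = 0 := by
  let φ := ((LinearEquiv.ofInjective φ₁ h₁).prodCongr (LinearEquiv.ofInjective φ₂ h₂)).trans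
    (Submodule.prodEquivOfIsCompl _ _ hc)
  have hφ : ∀ a, φ a = φ₁ a.1 + φ₂ a.2 := fun a => by simp [φ]
  refine ⟨φ, hφ, fun v => ?_⟩
  obtain ⟨⟨a, b⟩, rfl⟩ := φ.surjective v
  rw [φ.symm_apply_apply, hφ]
  refine ⟨fun h => ?_, fun h => by rw [show b = 0 from h, map_zero, add_zero]; exact ⟨a, rfl⟩⟩
  have h' : φ₂ b ∈ LinearMap.range φ₁ := (Submodule.add_mem_iff_right _ (LinearMap.mem_range_self φ₁ a)).1 h
  exact h₂ ((Submodule.disjoint_def.1 hc.disjoint _ h' ⟨b, rfl⟩).trans (map_zero φ₂).symm)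

/-- A symplectic pair system in a nondegenerate subspace. -/
lemma exists_pairs {V : Type*} [AddCommGroup V] [Module F V] [FiniteDimensional F V]
    {B : LinearMap.BilinForm F V} (hA : B.IsAlt) : ∀ (k : ℕ) (W : Submodule F V), finrank F W = 2 * k →
      (∀ u ∈ W, (∀ v ∈ W, B u v = 0) → u = 0) →
      ∃ e e' : Fin k → V, (∀ i, e i ∈ W ∧ e' i ∈ W) ∧
        ∀ i j, B (e i) (e j) = 0 ∧ B (e' i) (e' j) = 0 ∧ B (e' i) (e j) = if i = j then 1 else 0 := by
  intro k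
  induction k with
  | zero => exact fun W _ _ => ⟨Fin.elim0, Fin.elim0, fun i => i.elim0, fun i => i.elim0⟩
  | succ k ih =>
    intro W hd hW
    obtain ⟨a, ha, ha0⟩ : ∃ a ∈ W, a ≠ 0 := Submodule.exists_mem_ne_zero_of_ne_bot fun h => by
      rw [h, finrank_bot] at hd; omega
    obtain ⟨b, hb, hab⟩ : ∃ b ∈ W, B b a = 1 := by
      by_contra hcon
      push Not at hcon
      refine ha0 (hW a ha fun v hv => by_contra fun h => ?_)
      refine hcon ((-(B a v))⁻¹ • v) (W.smul_mem _ hv) ?_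
      rw [map_smul, LinearMap.smul_apply, alt_swap hA a v, smul_eq_mul, inv_mul_cancel₀ (neg_ne_zero.2 h)]
    have hab' : B a b = -1 := by rw [alt_swap hA b a, hab]
    let W' : Submodule F V := W ⊓ LinearMap.ker (B a) ⊓ LinearMap.ker (B b)
    have hmem : ∀ x ∈ W, x + B a x • b - B b x • a ∈ W' := fun x hx => by
      refine ⟨⟨W.sub_mem (W.add_mem hx (W.smul_mem _ hb)) (W.smul_mem _ ha), ?_⟩, ?_⟩ <;>
      · show _ = (0 : F)
        simp [hab, hab', alt_self hA]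
    have hW' : ∀ u ∈ W', (∀ v ∈ W', B u v = 0) → u = 0 := fun u hu hall => hW u hu.1.1 fun v hv => by
      have h1 := hall _ (hmem v hv)
      have hua : B u a = 0 := by rw [alt_swap hA a u, show B a u = 0 from hu.1.2, neg_zero]
      have hub : B u b = 0 := by rw [alt_swap hA b u, show B b u = 0 from hu.2, neg_zero]
      simpa [hua, hub] using h1
    have hsup : W' ⊔ Submodule.span F (Set.range ![a, b]) = W := by
      refine le_antisymm (sup_le (inf_le_left.trans inf_le_left) (Submodule.span_le.2 ?_)) fun x hx => ?_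
      · rintro _ ⟨i, rfl⟩; fin_cases i <;> simp [ha, hb]
      · rw [show x = (x + B a x • b - B b x • a) + (B b x • a - B a x • b) by abel]
        refine Submodule.add_mem_sup (hmem x hx) (Submodule.sub_mem _ (Submodule.smul_mem _ _ ?_) (Submodule.smul_mem _ _ ?_))
        · exact Submodule.subset_span ⟨0, rfl⟩
        · exact Submodule.subset_span ⟨1, rfl⟩
    have hdisj : W' ⊓ Submodule.span F (Set.range ![a, b]) = ⊥ := (Submodule.eq_bot_iff _).2 fun x hx => by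
      obtain ⟨⟨⟨-, h1⟩, h2⟩, h3⟩ := hx
      obtain ⟨c, rfl⟩ := (Submodule.mem_span_range_iff_exists_fun F).1 h3
      have h1' : B a (∑ i, c i • ![a, b] i) = 0 := h1
      have h2' : B b (∑ i, c i • ![a, b] i) = 0 := h2
      simp [Fin.sum_univ_two, hab, hab', alt_self hA] at h1' h2'
      simp [Fin.sum_univ_two, h1', h2']
    have hli : LinearIndependent F ![a, b] := by
      rw [LinearIndependent.pair_iff]
      intro s t hst
      have h1 := congrArg (B b) hst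
      have h2 := congrArg (B a) hst
      simp [hab, hab', alt_self hA] at h1 h2
      exact ⟨h1, h2⟩
    have hd' : finrank F W' = 2 * k := by
      have h := Submodule.finrank_sup_add_finrank_inf_eq W' (Submodule.span F (Set.range ![a, b]))
      rw [hsup, hdisj, finrank_bot, finrank_span_eq_card hli, Fintype.card_fin, hd] at h
      omega
    obtain ⟨e, e', he, hee⟩ := ih W' hd' hW'
    have h0 : ∀ u ∈ W', B a u = 0 ∧ B b u = 0 ∧ B u a = 0 ∧ B u b = 0 := fun u hu =>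
      ⟨hu.1.2, hu.2, by rw [alt_swap hA a u, show B a u = 0 from hu.1.2, neg_zero],
        by rw [alt_swap hA b u, show B b u = 0 from hu.2, neg_zero]⟩
    refine ⟨Fin.cons a e, Fin.cons b e', fun i => ?_, fun i j => ?_⟩
    · induction i using Fin.cases with
      | zero => simpa using ⟨ha, hb⟩
      | succ i => simpa using ⟨(he i).1.1.1, (he i).2.1.1⟩
    · induction i using Fin.cases with
      | zero =>
        induction j using Fin.cases with
        | zero => simp [alt_self hA, hab]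
        | succ j => simp [(h0 _ (he j).1).1, (h0 _ (he j).1).2.1, (h0 _ (he j).2).2.1, (Fin.succ_ne_zero j).symm]
      | succ i =>
        induction j using Fin.cases with
        | zero => simp [(h0 _ (he i).1).2.2.1, (h0 _ (he i).2).2.2.1, (h0 _ (he i).2).2.2.2]
        | succ j => simp [hee]

end Cfsg.Lib.Classical.StabProd
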