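import Mathlib
import Cfsg.Agent.Lib.Classical.StabProd
import Cfsg.Agent.Lib.Classical.UnitaryStd

/-!
Stabilisers of nondegenerate subspaces in `Sp` and `GU`.
-/

set_option autoImplicit false

namespace Cfsg.Lib.Classical.StabProd

open Matrix Module
open scoped MatrixGroups

section symp

variable {F : Type*} [Field F] {m : ℕ}

/-- An isometric embedding onto a nondegenerate subspace. -/
lemma exists_embedding (k : ℕ) (W : Submodule F (Fin m ⊕ Fin m → F)) (hd : finrank F W = 2 * k)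
    (hW : ∀ u ∈ W, (∀ v ∈ W, sympBilin F m u v = 0) → u = 0) :
    ∃ φ : (Fin k ⊕ Fin k → F) →ₗ[F] (Fin m ⊕ Fin m → F), Function.Injective φ ∧ LinearMap.range φ = W ∧
      ∀ x y, sympBilin F m (φ x) (φ y) = sympBilin F k x y := by
  classical
  have hA := sympBilin_isAlt F m
  obtain ⟨e, e', he, hee⟩ := exists_pairs hA k W hd hW
  have hee' : ∀ i j, sympBilin F m (e i) (e' j) = -(if j = i then 1 else 0) := fun i j => by
    rw [alt_swap hA (e' j) (e i), (hee j i).2.2]
  let φ : (Fin k ⊕ Fin k → F) →ₗ[F] (Fin m ⊕ Fin m → F) := Fintype.linearCombination F (Sum.elim e e')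
  have hφ : ∀ x, φ x = ∑ i, x (Sum.inl i) • e i + ∑ i, x (Sum.inr i) • e' i := fun x => by
    simp [φ, Fintype.linearCombination_apply, Fintype.sum_sum_type]
  have hiso : ∀ x y, sympBilin F m (φ x) (φ y) = sympBilin F k x y := fun x y => by
    conv_rhs => rw [sympBilin_apply, sympForm_eq_sum]
    rw [hφ, hφ]
    simp only [map_add, map_sum, map_smul, LinearMap.add_apply, LinearMap.sum_apply, LinearMap.smul_apply,
      (hee _ _).1, (hee _ _).2.1, (hee _ _).2.2, hee', smul_eq_mul, mul_zero, mul_neg, mul_ite, mul_one,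
      Finset.sum_const_zero, zero_add, add_zero, Finset.sum_neg_distrib, Finset.sum_ite_eq, Finset.sum_ite_eq',
      Finset.mem_univ, if_true, Finset.sum_sub_distrib]
    simp only [mul_comm]
    ring
  have hinj : Function.Injective φ := fun x y e0 => by
    refine sub_eq_zero.1 ((sympBilin_nondegenerate F k).1 _ fun z => ?_)
    rw [← hiso, map_sub, e0, sub_self]
    simp
  refine ⟨φ, hinj, Submodule.eq_of_le_of_finrank_eq ?_ ?_, hiso⟩
  · rintro _ ⟨x, rfl⟩
    rw [hφ]
    exact W.add_mem (Submodule.sum_mem _ fun i _ => W.smul_mem _ (he i).1)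
      (Submodule.sum_mem _ fun i _ => W.smul_mem _ (he i).2)
  · rw [LinearMap.finrank_range_of_inj hinj, hd]
    simp [two_mul]

theorem symp (k : ℕ) (hk : k ≤ m) (W : Submodule F (Fin m ⊕ Fin m → F)) (hWk : finrank F W = 2 * k)
    (hW : ∀ u ∈ W, (∀ v ∈ W, Cfsg.sympForm m F u v = 0) → u = 0) :
    Nonempty (↥(Cfsg.stabilizing (Cfsg.spToMat m F) (W : Set (Fin m ⊕ Fin m → F))) ≃*
      Matrix.symplecticGroup (Fin k) F × Matrix.symplecticGroup (Fin (m - k)) F) := by
  classical
  have hA := sympBilin_isAlt F m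
  have hB := sympBilin_nondegenerate F m
  set B := sympBilin F m with hBd
  have hrefl : B.IsRefl := fun x y h => by rw [alt_swap hA x y, h, neg_zero]
  have hW' : ∀ u ∈ W, (∀ v ∈ W, B u v = 0) → u = 0 := fun u hu h => hW u hu fun v hv => by
    rw [← sympBilin_apply]; exact h v hv
  set K := LinearMap.BilinForm.orthogonal B W with hK
  have hbot : W ⊓ K = ⊥ := (Submodule.eq_bot_iff _).2 fun x hx => hW' x hx.1 fun v hv => by
    rw [alt_swap hA v x, show B v x = 0 from hx.2 v hv, neg_zero]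
  have hdK : finrank F K = 2 * (m - k) := by
    rw [hK, LinearMap.BilinForm.finrank_orthogonal hB, hWk]
    simp
    omega
  have hsup : W ⊔ K = ⊤ := by
    apply Submodule.eq_top_of_finrank_eq
    have h1 := Submodule.finrank_sup_add_finrank_inf_eq W K
    rw [hbot, finrank_bot, hWk, hdK] at h1
    simp
    omega
  have hKnd : ∀ u ∈ K, (∀ v ∈ K, B u v = 0) → u = 0 := fun u hu h => hB.1 u fun y => by
    obtain ⟨a, ha, b, hb, rfl⟩ := Submodule.mem_sup.1 (hsup ▸ Submodule.mem_top : y ∈ W ⊔ K)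
    rw [map_add, h b hb, alt_swap hA a u, show B a u = 0 from hu a ha, neg_zero, zero_add]
  obtain ⟨φ₁, hi₁, hr₁, h₁⟩ := exists_embedding k W hWk hW'
  obtain ⟨φ₂, hi₂, hr₂, h₂⟩ := exists_embedding (m - k) K hdK hKnd
  obtain ⟨φ, hφ, hφW⟩ := exists_phi φ₁ φ₂ hi₁ hi₂ (by
    rw [hr₁, hr₂]; exact ⟨disjoint_iff.2 hbot, codisjoint_iff.2 hsup⟩)
  rw [hr₁] at hφW
  have hcross : ∀ a b, B (φ₁ a) (φ₂ b) = 0 ∧ B (φ₂ b) (φ₁ a) = 0 := fun a b => by
    have h : B (φ₁ a) (φ₂ b) = 0 := (hr₂ ▸ LinearMap.mem_range_self φ₂ b : φ₂ b ∈ K) _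
      (hr₁ ▸ LinearMap.mem_range_self φ₁ a)
    exact ⟨h, hrefl _ _ h⟩
  have hmk : ∀ (l : ℕ) (A : Matrix (Fin l ⊕ Fin l) (Fin l ⊕ Fin l) F), IsUnit A →
      (∀ u v, Cfsg.sympForm l F (A *ᵥ u) (A *ᵥ v) = Cfsg.sympForm l F u v) →
      ∃ g : Matrix.symplecticGroup (Fin l) F, g.1 = A := fun l A hA' h => by
    obtain ⟨g, rfl⟩ := hA'
    exact ⟨⟨_, (mem_symplecticGroup_iff_spGL g).2 h⟩, rfl⟩
  have hiso : ∀ (l : ℕ) (g : Matrix.symplecticGroup (Fin l) F) (u v : Fin l ⊕ Fin l → F),
      Cfsg.sympForm l F (g.1 *ᵥ u) (g.1 *ᵥ v) = Cfsg.sympForm l F u v := fun l g u v => by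
    have h : spToGL g ∈ Cfsg.spGL l F := by rw [← spToGL_range]; exact ⟨g, rfl⟩
    have h' := h u v
    exact h'
  refine nonempty_equiv (Cfsg.sympForm m F) (Cfsg.sympForm k F) (Cfsg.sympForm (m - k) F)
    (fun x => by simp [← sympBilin_apply]) (fun x => by simp [← sympBilin_apply])
    (fun x hx => (sympBilin_nondegenerate F k).1 x fun y => by rw [sympBilin_apply]; exact hx y)
    φ (fun a b => ?_) W hφW (Cfsg.spToMat m F) Subtype.val_injective (hiso m) (hmk m)
    (Matrix.symplecticGroup (Fin k) F).subtype Subtype.val_injective (hiso k) (hmk k)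
    (Matrix.symplecticGroup (Fin (m - k)) F).subtype Subtype.val_injective (hiso _) (hmk _) _ (fun g => Iff.rfl)
  simp only [← sympBilin_apply, hφ, map_add, LinearMap.add_apply]
  rw [(hcross _ _).1, (hcross _ _).2, add_zero, zero_add, h₁, h₂]

end symp

section unitary

variable {F : Type*} [Field F] [Fintype F]

theorem unitary {q : ℕ} (hF : Fintype.card F = q ^ 2) (n k : ℕ) (hk : k ≤ n) (W : Submodule F (Fin n → F))
    (hWk : finrank F W = k) (hW : ∀ u ∈ W, (∀ v ∈ W, Cfsg.hermForm n F q u v = 0) → u = 0) :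
    Nonempty (↥((Cfsg.stabilizing (Cfsg.glToMat (Fin n) F) (W : Set (Fin n → F))).subgroupOf (Cfsg.GU n F q)) ≃*
      ↥(Cfsg.GU k F q) × ↥(Cfsg.GU (n - k) F q)) := by
  classical
  obtain ⟨σ, hne, hσ, hinv⟩ := exists_frobSq (F := F) hF
  have hf : ∀ l, Cfsg.Geo.IsUnitaryForm σ (Cfsg.hermForm l F q) := hermForm_isUnitaryForm hne hσ hinv
  have hWn : NondegOnH (Cfsg.hermForm n F q) W := fun w hw hw0 => by
    by_contra hcon
    push Not at hcon
    exact hw0 (hW w hw hcon)
  set K := hperp (hf n) W with hK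
  have hdK : finrank F K = n - k := by
    have := hWn.finrank_add (hf n)
    rw [hWk, Fintype.card_fin, ← hK] at this
    omega
  obtain ⟨e, he, hee⟩ := PSLAut.exists_orthonormal (hf n) k W hWn hWk
  obtain ⟨e', he', hee'⟩ := PSLAut.exists_orthonormal (hf n) (n - k) K (hWn.hperp (hf n)) hdK
  have hdef : ∀ l (u v : Fin l → F), Cfsg.hermForm l F q u v = ∑ i, u i * σ (v i) := fun l u v =>
    Finset.sum_congr rfl fun i _ => by rw [hσ]
  have hmap : ∀ (l : ℕ) (d : Fin l → Fin n → F), (∀ i j, (Cfsg.hermForm n F q) (d i) (d j) = if i = j then 1 else 0) →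
      ∀ x y, (Cfsg.hermForm n F q) (∑ i, x i • d i) (∑ i, y i • d i) = Cfsg.hermForm l F q x y := fun l d hd x y => by
    rw [hdef l x y, herm_sum_right (hf n)]
    refine Finset.sum_congr rfl fun j _ => ?_
    rw [herm_smul_right (hf n)]
    have : (Cfsg.hermForm n F q) (∑ i, x i • d i) (d j) = x j := by
      show leftLin (hf n) (d j) (∑ i, x i • d i) = _
      rw [map_sum]
      simp [leftLin, (hf n).smul_left, hd]
    rw [this, mul_comm]
  have hinj : ∀ (l : ℕ) (d : Fin l → Fin n → F), (∀ i j, (Cfsg.hermForm n F q) (d i) (d j) = if i = j then 1 else 0) →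
      Function.Injective (Fintype.linearCombination F d) := fun l d hd x y exy => by
    have h0 : ∀ z, Cfsg.hermForm l F q (x - y) z = 0 := fun z => by
      rw [← hmap l d hd, ← Fintype.linearCombination_apply, map_sub, exy, sub_self]
      exact herm_zero_left (hf n) _
    by_contra hne'
    obtain ⟨z, hz⟩ := ((hf l).nondegenerate _ (sub_ne_zero.2 hne')).2
    exact hz (h0 z)
  have hr : ∀ (l : ℕ) (d : Fin l → Fin n → F) (U : Submodule F (Fin n → F)), (∀ i, d i ∈ U) →
      (∀ i j, (Cfsg.hermForm n F q) (d i) (d j) = if i = j then 1 else 0) → finrank F U = l →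
      LinearMap.range (Fintype.linearCombination F d) = U := fun l d U hdU hd hUl => by
    refine Submodule.eq_of_le_of_finrank_eq ?_ ?_
    · rintro _ ⟨x, rfl⟩
      rw [Fintype.linearCombination_apply]
      exact Submodule.sum_mem _ fun i _ => U.smul_mem _ (hdU i)
    · rw [LinearMap.finrank_range_of_inj (hinj l d hd), hUl, Module.finrank_fin_fun]
  obtain ⟨φ, hφ, hφW⟩ := exists_phi (Fintype.linearCombination F e) (Fintype.linearCombination F e')
    (hinj _ e hee) (hinj _ e' hee') (by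
      rw [hr _ e W he hee hWk, hr _ e' K he' hee' hdK]; exact hWn.isCompl (hf n))
  rw [hr _ e W he hee hWk] at hφW
  have hmk : ∀ (l : ℕ) (A : Matrix (Fin l) (Fin l) F), IsUnit A →
      (∀ u v, Cfsg.hermForm l F q (A *ᵥ u) (A *ᵥ v) = Cfsg.hermForm l F q u v) →
      ∃ g : Cfsg.GU l F q, ((g : GL (Fin l) F) : Matrix (Fin l) (Fin l) F) = A := fun l A hA' h => by
    obtain ⟨g, rfl⟩ := hA'
    exact ⟨⟨g, h⟩, rfl⟩
  refine nonempty_equiv (Cfsg.hermForm n F q) (Cfsg.hermForm k F q) (Cfsg.hermForm (n - k) F q)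
    (fun x => ⟨herm_zero_left (hf k) x, herm_zero_right (hf k) x⟩)
    (fun x => ⟨herm_zero_left (hf _) x, herm_zero_right (hf _) x⟩)
    (fun x hx => by_contra fun h0 => by
      obtain ⟨y, hy⟩ := ((hf k).nondegenerate x h0).2
      exact hy (hx y))
    φ (fun a b => ?_) W hφW
    ((Units.coeHom (Matrix (Fin n) (Fin n) F)).comp (Cfsg.GU n F q).subtype)
    (fun a b h => Subtype.ext (Units.ext h)) (fun g => g.2) (hmk n)
    ((Units.coeHom (Matrix (Fin k) (Fin k) F)).comp (Cfsg.GU k F q).subtype)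
    (fun a b h => Subtype.ext (Units.ext h)) (fun g => g.2) (hmk k)
    ((Units.coeHom (Matrix (Fin (n - k)) (Fin (n - k)) F)).comp (Cfsg.GU (n - k) F q).subtype)
    (fun a b h => Subtype.ext (Units.ext h)) (fun g => g.2) (hmk _) _ (fun g => Iff.rfl)
  have hcross : ∀ x y, (Cfsg.hermForm n F q) (Fintype.linearCombination F e x) (Fintype.linearCombination F e' y) = 0 ∧
      (Cfsg.hermForm n F q) (Fintype.linearCombination F e' y) (Fintype.linearCombination F e x) = 0 := fun x y => by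
    have hx : Fintype.linearCombination F e x ∈ W := hr _ e W he hee hWk ▸ LinearMap.mem_range_self _ x
    have hy : Fintype.linearCombination F e' y ∈ K := hr _ e' K he' hee' hdK ▸ LinearMap.mem_range_self _ y
    exact ⟨herm_eq_zero_symm (hf n) (hy _ hx), hy _ hx⟩
  rw [hφ, hφ, (hf n).add_left, herm_add_right (hf n), herm_add_right (hf n), (hcross _ _).1, (hcross _ _).2,
    add_zero, zero_add, Fintype.linearCombination_apply, Fintype.linearCombination_apply,
    Fintype.linearCombination_apply, Fintype.linearCombination_apply, hmap _ e hee, hmap _ e' hee']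

end unitary

end Cfsg.Lib.Classical.StabProd
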