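import Mathlib
import Cfsg.Agent.Lib.Classical.SubfieldMax

/-!
The dihedral endgame for subfield overgroups: if elements intertwining rational involutions are
rational up to scalars, so is every element.
-/

set_option autoImplicit false

namespace Cfsg.Lib.Classical

open Matrix Module
open scoped MatrixGroups

variable {ι : Type} [Fintype ι] [DecidableEq ι] {F : Type*} [Field F] [Finite F] {F₀ : Subfield F}

/-- If elements of `M` intertwining rational involutions of `M` are rational up to a scalar and `M`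
contains two rational involutions with distinct invariants, all of `M` is rational up to scalars. -/
theorem forall_scalRat_of_intertwine {M : Subgroup (GL ι F)} {k : ℕ}
    (hint : ∀ {Z : GL ι F} {Z' : Matrix ι ι F}, Z ∈ M → RatMat F₀ (Z : Matrix ι ι F) → RatMat F₀ Z' →
      Z * Z = 1 → (Z : Matrix ι ι F) ≠ 1 → (Z : Matrix ι ι F) ≠ -1 →
      ((Z : Matrix ι ι F) - 1).rank ≤ 2 * k → ∀ {y : GL ι F}, y ∈ M →
      (y : Matrix ι ι F) * (Z : Matrix ι ι F) = Z' * (y : Matrix ι ι F) →
      ScalRat F₀ (y : Matrix ι ι F))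
    (hn : 3 * k < Fintype.card ι) {s s₀ : GL ι F}
    (hsR : RatMat F₀ (s : Matrix ι ι F)) (hs₀R : RatMat F₀ (s₀ : Matrix ι ι F))
    (hsM : s ∈ M) (hs₀M : s₀ ∈ M) (hss : s * s = 1) (hs₀s : s₀ * s₀ = 1)
    (hs1 : (s : Matrix ι ι F) ≠ 1) (hs1' : (s : Matrix ι ι F) ≠ -1)
    (hs₀1 : (s₀ : Matrix ι ι F) ≠ 1) (hs₀1' : (s₀ : Matrix ι ι F) ≠ -1)
    (hsr : ((s : Matrix ι ι F) - 1).rank ≤ k) (hs₀r : ((s₀ : Matrix ι ι F) - 1).rank ≤ k)
    (hcl : ((s : Matrix ι ι F) - 1).rank ≠ ((s₀ : Matrix ι ι F) - 1).rank) :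
    ∀ g ∈ M, ScalRat F₀ (g : Matrix ι ι F) := by
  classical
  intro g hg
  have rk : ∀ y w : GL ι F,
      (((y * w * y⁻¹ : GL ι F) : Matrix ι ι F) - 1).rank = ((w : Matrix ι ι F) - 1).rank := by
    intro y w
    rw [Units.val_mul, Units.val_mul, conj_sub_one, rank_conj]
  set t := g * s₀ * g⁻¹ with ht
  have htM : t ∈ M := M.mul_mem (M.mul_mem hg hs₀M) (M.inv_mem hg)
  have htt : t * t = 1 := by
    rw [ht, show g * s₀ * g⁻¹ * (g * s₀ * g⁻¹) = g * (s₀ * s₀) * g⁻¹ by group, hs₀s]
    group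
  obtain ⟨z, hz, hz1, hzz, hzs, hzt, y, hy⟩ := exists_dihedral_invol hss htt fun y h => by
    refine hcl ?_
    rw [← rk y s, h, ht, rk]
  have hzM : z ∈ M :=
    (Subgroup.closure_le M).2 (by simp [Set.insert_subset_iff, hsM, htM]) hz
  have hwM : z * s ∈ M := M.mul_mem hzM hsM
  have hww : z * s * (z * s) = 1 := by
    rw [mul_assoc, ← mul_assoc s, ← hzs, mul_assoc z s, hss, mul_one, hzz]
  have hwS : ScalRat F₀ ((z * s : GL ι F) : Matrix ι ι F) := by
    refine hint hsM hsR hsR hss hs1 hs1' (by omega) hwM ?_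
    rw [← Units.val_mul, ← Units.val_mul, ← mul_assoc s, ← hzs]
  obtain ⟨hwR, hwk⟩ : RatMat F₀ ((z * s : GL ι F) : Matrix ι ι F) ∧
      (((z * s : GL ι F) : Matrix ι ι F) - 1).rank ≤ k := by
    rcases hy with hy | hy
    · refine ⟨?_, by rw [← hy, rk]; exact hsr⟩
      exact ratMat_of_scalRat hsR hsr (by omega) (y := y)
        (by rw [← hy, Units.val_mul, Units.val_mul]) (by rw [← Units.val_mul, hww, Units.val_one]) hwS
    · refine ⟨?_, by rw [← hy, rk, ht, rk]; exact hs₀r⟩
      refine ratMat_of_scalRat hs₀R hs₀r (by omega) (y := y * g) ?_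
        (by rw [← Units.val_mul, hww, Units.val_one]) hwS
      rw [← hy, ht, ← Units.val_mul, ← Units.val_mul]
      congr 1
      group
  have hzne : (z : Matrix ι ι F) ≠ -1 := by
    intro h
    by_cases h2 : (2 : F) = 0
    · apply hz1
      ext1
      rw [h, Units.val_one, ← sub_eq_zero,
        show (-1 : Matrix ι ι F) - 1 = (-2 : F) • 1 by rw [neg_smul, two_smul]; abel, h2, neg_zero,
        zero_smul]
    · have := le_rank_neg_sub_one h2 (s : Matrix ι ι F)
      rw [Units.val_mul, h, neg_one_mul] at hwk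
      omega
  have hzR : RatMat F₀ (z : Matrix ι ι F) := by
    have := hwR.mul hsR
    rwa [← Units.val_mul, mul_assoc, hss, mul_one] at this
  have hzk : ((z : Matrix ι ι F) - 1).rank ≤ 2 * k := by
    have e : (z : Matrix ι ι F) - 1 = (((z * s : GL ι F) : Matrix ι ι F) - 1) * (s : Matrix ι ι F) +
        ((s : Matrix ι ι F) - 1) := by
      rw [sub_mul, one_mul, ← Units.val_mul, mul_assoc, hss, mul_one]
      abel
    rw [e]
    refine (rank_add_le' _ _).trans ?_
    have := rank_mul_le_left (((z * s : GL ι F) : Matrix ι ι F) - 1) (s : Matrix ι ι F)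
    omega
  have htS : ScalRat F₀ (t : Matrix ι ι F) :=
    hint hzM hzR hzR hzz (fun h => hz1 (Units.ext h)) hzne hzk htM
      (by rw [← Units.val_mul, ← Units.val_mul, hzt])
  have htR : RatMat F₀ (t : Matrix ι ι F) :=
    ratMat_of_scalRat hs₀R hs₀r (by omega) (y := g) (by rw [ht, Units.val_mul, Units.val_mul])
      (by rw [← Units.val_mul, htt, Units.val_one]) htS
  exact hint hs₀M hs₀R htR hs₀s hs₀1 hs₀1' (by omega) hg
    (by rw [← Units.val_mul, ← Units.val_mul, ht, inv_mul_cancel_right])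

end Cfsg.Lib.Classical
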