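import Mathlib
import Cfsg.Agent.Lib.Classical.SymplecticMatrix

/-!
Over the field with two elements the stabiliser of a decomposition into hyperbolic planes preserves a quadratic form.
-/

set_option autoImplicit false

namespace Cfsg.Lib.Classical.SympDecompTwo

open Matrix Module
open scoped MatrixGroups

variable {F : Type*} [Field F] [Fintype F] {m t : ℕ}

local notation "B" => sympBilin F m

open scoped _root_.Classical in
/-- The indicator of not being orthogonal to `W`. -/
noncomputable def ind (W : Submodule F (Fin m ⊕ Fin m → F)) (x : Fin m ⊕ Fin m → F) : F :=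
  if ∀ y ∈ W, sympBilin F m y x = 0 then 0 else 1

/-- The sum of the indicators. -/
noncomputable def form (D : Fin t → Submodule F (Fin m ⊕ Fin m → F)) (x : Fin m ⊕ Fin m → F) : F :=
  ∑ i, ind (D i) x

set_option maxHeartbeats 1000000 in
theorem exists_between (hq : Fintype.card F = 2) (hm : 7 ≤ m) (D : Fin t → Submodule F (Fin m ⊕ Fin m → F))
    (hD : Cfsg.Geo.IsNondegenerateMDecomposition (Cfsg.sympForm m F) 2 D) :
    ∃ K : Subgroup (GL (Fin m ⊕ Fin m) F),
      Cfsg.Geo.decompositionStabilizer D ⊓ Cfsg.spGL m F < K ∧ K < Cfsg.spGL m F := by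
  classical
  have hA := sympBilin_isAlt F m
  have two : ∀ c : F, c = 0 ∨ c = 1 := fun c => by
    by_contra hc
    push Not at hc
    have h3 : ({0, 1, c} : Finset F).card = 3 := by
      rw [Finset.card_insert_of_notMem (by simp [hc.1.symm]), Finset.card_insert_of_notMem (by simp [hc.2.symm]),
        Finset.card_singleton]
    have := Finset.card_le_univ ({0, 1, c} : Finset F)
    omega
  have hchar : (1 : F) + 1 = 0 := (two (1 + 1)).resolve_right (fun h => one_ne_zero (α := F) (by linear_combination h))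
  have hd := hD.decomp.finrank_eq
  -- a symplectic pair in each member
  have hpair : ∀ i, ∃ a ∈ D i, ∃ b ∈ D i, B a b = 1 ∧ ∀ x ∈ D i, x = B x b • a + B a x • b := by
    intro i
    obtain ⟨a, ha, ha0⟩ : ∃ a ∈ D i, a ≠ 0 := Submodule.exists_mem_ne_zero_of_ne_bot fun h => by
      have := hd i; rw [h, finrank_bot] at this; omega
    obtain ⟨-, b, hb, hab⟩ := hD.nondegenerate i a ha ha0
    have hab1 : B a b = 1 := by rw [sympBilin_apply]; exact (two _).resolve_left hab
    refine ⟨a, ha, b, hb, hab1, fun x hx => ?_⟩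
    have hba : B b a = -1 := by rw [alt_swap hA a b, hab1]
    have hli : LinearIndependent F ![a, b] := by
      rw [LinearIndependent.pair_iff]
      intro s t hst
      have h1 := congrArg (fun z => B z b) hst
      have h2 := congrArg (fun z => B z a) hst
      simp [hab1, hba, alt_self hA] at h1 h2
      exact ⟨h1, h2⟩
    have hsp : Submodule.span F (Set.range ![a, b]) = D i := by
      refine Submodule.eq_of_le_of_finrank_eq (Submodule.span_le.2 ?_) ?_
      · rintro _ ⟨j, rfl⟩; fin_cases j <;> simp [ha, hb]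
      · rw [finrank_span_eq_card hli, hd, Fintype.card_fin]
    rw [← hsp] at hx
    obtain ⟨c, hc⟩ := (Submodule.mem_span_range_iff_exists_fun F).1 hx
    simp only [Fin.sum_univ_two, Matrix.cons_val_zero, Matrix.cons_val_one] at hc
    rw [← hc]
    simp [hab1, alt_self hA]
  choose a ha b hb hab hspan using hpair
  have hind : ∀ i x, ind (D i) x = 1 + (1 + B (a i) x) * (1 + B (b i) x) := by
    intro i x
    rcases two (B (a i) x) with h1 | h1 <;> rcases two (B (b i) x) with h2 | h2
    · rw [ind, if_pos (show ∀ y ∈ D i, B y x = 0 from fun y hy => by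
        rw [congrArg (fun z => B z x) (hspan i y hy)]; simp [h1, h2]), h1, h2]
      simp [hchar]
    all_goals
      rw [ind, if_neg, h1, h2]
      · simp [hchar]
      · intro hall
        first
          | exact one_ne_zero (h1.symm.trans (hall _ (ha i)))
          | exact one_ne_zero (h2.symm.trans (hall _ (hb i)))
  have horth : ∀ i j, i ≠ j → ∀ x ∈ D i, ∀ y ∈ D j, B x y = 0 := fun i j hij x hx y hy => by
    rw [sympBilin_apply]; exact hD.orthogonal i j hij x hx y hy
  -- change of an indicator along a member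
  have hstep : ∀ i x, ind (D i) (x + a i) = ind (D i) x + 1 + B (a i) x := by
    intro i x
    have hba : B (b i) (a i) = 1 := by
      rw [alt_swap hA (a i) (b i), hab i]; linear_combination (-1 : F) * hchar
    rw [hind, hind, map_add, map_add, alt_self hA, hba]
    rcases two (B (a i) x) with h1 | h1 <;> rcases two (B (b i) x) with h2 | h2 <;> simp [h1, h2, hchar]
  have hskip : ∀ i j, i ≠ j → ∀ x, ∀ z ∈ D j, ind (D i) (x + z) = ind (D i) x := by
    intro i j hij x z hz
    simp only [ind, map_add]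
    refine if_congr (forall₂_congr fun y hy => ?_) rfl rfl
    rw [horth i j hij y hy z hz, add_zero]
  have hgo : ∀ i x, form D (x + a i) = form D x + (1 + B (a i) x) := by
    intro i x
    unfold form
    rw [← Finset.add_sum_erase _ _ (Finset.mem_univ i), ← Finset.add_sum_erase Finset.univ (fun j => ind (D j) x)
      (Finset.mem_univ i), hstep, Finset.sum_congr rfl fun j hj => hskip j i (Finset.ne_of_mem_erase hj) x _ (ha i)]
    ring
  have hinv : ∀ g ∈ Cfsg.Geo.decompositionStabilizer D ⊓ Cfsg.spGL m F, ∀ x,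
      form D ((g : Matrix _ _ F) *ᵥ x) = form D x := by
    intro g hgg x
    have hgd : ∃ σ : Equiv.Perm (Fin t), ∀ i, (D i).map (Matrix.toLin' (g : Matrix _ _ F)) = D (σ i) :=
      (Subgroup.mem_inf.1 hgg).1
    obtain ⟨σ, hσ⟩ := hgd
    have hg := (Subgroup.mem_inf.1 hgg).2
    have hgB := mem_spGL_iff.1 hg
    unfold form
    symm
    refine Fintype.sum_equiv σ _ _ fun i => ?_
    simp only [ind]
    refine if_congr ⟨fun h y hy => ?_, fun h y hy => ?_⟩ rfl rfl
    · rw [← hσ i] at hy
      obtain ⟨z, hz, rfl⟩ := hy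
      rw [Matrix.toLin'_apply, hgB]
      exact h z hz
    · have := h _ (hσ i ▸ ⟨y, hy, rfl⟩ : Matrix.toLin' (g : Matrix _ _ F) y ∈ D (σ i))
      rwa [Matrix.toLin'_apply, hgB] at this
  let K : Subgroup (GL (Fin m ⊕ Fin m) F) :=
    { carrier := {g | g ∈ Cfsg.spGL m F ∧ ∀ x, form D ((g : Matrix _ _ F) *ᵥ x) = form D x}
      one_mem' := ⟨one_mem _, fun x => by rw [Units.val_one, Matrix.one_mulVec]⟩
      mul_mem' := fun {g h} hg hh => ⟨mul_mem hg.1 hh.1, fun x => by
        rw [Units.val_mul, ← Matrix.mulVec_mulVec, hg.2, hh.2]⟩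
      inv_mem' := fun {g} hg => ⟨inv_mem hg.1, fun x => by
        conv_rhs => rw [← Matrix.one_mulVec x, ← Units.mul_inv g, ← Matrix.mulVec_mulVec, hg.2]⟩ }
  have ht : 3 ≤ t := by
    by_contra hc
    have h := DirectSum.isInternal_submodule_of_iSupIndep_of_iSup_eq_top hD.decomp.indep hD.decomp.iSup_eq_top
    have h1 := finrank_eq_card_basis (h.collectedBasis fun i => Module.finBasisOfFinrankEq F (D i) (hd i))
    rw [Module.finrank_fintype_fun_eq_card] at h1
    simp at h1
    omega
  let i₀ : Fin t := ⟨0, by omega⟩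
  let i₁ : Fin t := ⟨1, by omega⟩
  let i₂ : Fin t := ⟨2, by omega⟩
  have h01 : i₀ ≠ i₁ := by simp [i₀, i₁]
  have h02 : i₀ ≠ i₂ := by simp [i₀, i₂]
  have h12 : i₁ ≠ i₂ := by simp [i₁, i₂]
  have hb0 : ∀ v, B (b i₀) v = 1 →
      (sTGL B hA v 1 : Matrix _ _ F) *ᵥ b i₀ = b i₀ + v := fun v hv => by
    rw [sTGL_mulVec, hv, one_mul, one_smul]
  have hb0a : B (b i₀) (a i₀) = 1 := by
    rw [alt_swap hA (a i₀) (b i₀), hab]; linear_combination (-1 : F) * hchar
  refine ⟨K, lt_of_le_of_ne (fun g hg => ⟨hg.2, hinv g hg⟩) (fun he => ?_),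
    lt_of_le_of_ne (fun g hg => hg.1) fun he => ?_⟩
  · -- a transvection in `K` moving the members
    set v := a i₀ + a i₁ + a i₂ with hv
    have hbv : B (b i₀) v = 1 := by
      rw [hv, map_add, map_add, hb0a, horth _ _ h01 _ (hb i₀) _ (ha i₁), horth _ _ h02 _ (hb i₀) _ (ha i₂),
        add_zero, add_zero]
    have htK : sTGL B hA v 1 ∈ K := by
      refine ⟨sTGL_mem_spGL v 1, fun x => ?_⟩
      rw [sTGL_mulVec, one_mul]
      rcases two (B x v) with h | h
      · rw [h, zero_smul, add_zero]
      · rw [h, one_smul, hv, ← add_assoc, ← add_assoc, hgo, hgo, hgo]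
        simp only [map_add]
        rw [horth i₂ i₀ h02.symm _ (ha i₂) _ (ha i₀), horth i₂ i₁ h12.symm _ (ha i₂) _ (ha i₁),
          horth i₁ i₀ h01.symm _ (ha i₁) _ (ha i₀)]
        have h3 : B (a i₀) x + B (a i₁) x + B (a i₂) x = 1 := by
          have h4 : B v x = 1 := by rw [alt_swap hA x v, h]; linear_combination (-1 : F) * hchar
          rwa [hv, map_add, map_add, LinearMap.add_apply, LinearMap.add_apply] at h4
        linear_combination h3 + 2 * hchar
    rw [← he] at htK
    have htd : ∃ σ : Equiv.Perm (Fin t), ∀ i,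
        (D i).map (Matrix.toLin' (sTGL B hA v 1 : Matrix _ _ F)) = D (σ i) := (Subgroup.mem_inf.1 htK).1
    obtain ⟨σ, hσ⟩ := htd
    have hmem : b i₀ + v ∈ D (σ i₀) := by
      rw [← hσ i₀, ← hb0 v hbv]
      exact ⟨b i₀, hb i₀, by rw [Matrix.toLin'_apply]⟩
    by_cases h : σ i₀ = i₀
    · have h3 : B (b i₁) (b i₀ + v) = 0 := horth i₁ (σ i₀) (by rw [h]; exact h01.symm) _ (hb i₁) _ hmem
      rw [map_add, hv, map_add, map_add, horth _ _ h01.symm _ (hb i₁) _ (hb i₀),
        horth _ _ h01.symm _ (hb i₁) _ (ha i₀), horth _ _ h12 _ (hb i₁) _ (ha i₂),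
        alt_swap hA (a i₁) (b i₁), hab] at h3
      simp at h3
    · have h3 : B (a i₀) (b i₀ + v) = 0 := horth i₀ (σ i₀) (Ne.symm h) _ (ha i₀) _ hmem
      rw [map_add, hv, map_add, map_add, hab, alt_self hA, horth _ _ h01 _ (ha i₀) _ (ha i₁),
        horth _ _ h02 _ (ha i₀) _ (ha i₂)] at h3
      simp at h3
  · -- a transvection outside `K`
    set v := a i₀ + a i₁ with hv
    have hbv : B (b i₀) v = 1 := by
      rw [hv, map_add, hb0a, horth _ _ h01 _ (hb i₀) _ (ha i₁), add_zero]
    have hK : sTGL B hA v 1 ∈ K := he.symm ▸ sTGL_mem_spGL v 1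
    have h3 := hK.2 (b i₀)
    rw [hb0 v hbv, hv, ← add_assoc, hgo, hgo, hab, map_add, horth _ _ h01.symm _ (ha i₁) _ (hb i₀),
      horth _ _ h01.symm _ (ha i₁) _ (ha i₀)] at h3
    exact one_ne_zero (α := F) (by linear_combination h3 - hchar)

end Cfsg.Lib.Classical.SympDecompTwo
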