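import Mathlib
import Cfsg.Prelude.Def_GeometricClasses
import Cfsg.Agent.Lib.Classical.SymplecticMatrix

/-!
Bound on subgroups of `Sp_{2m}` that are elementary abelian modulo `±1`.
-/

set_option autoImplicit false

namespace Cfsg.Lib.Classical.SympElemAb

open Matrix
open scoped Pointwise

variable {F : Type*} [Field F] {m : ℕ}

local notation "V" => (Fin m ⊕ Fin m → F)

/-- The vector `x • v`. -/
def act (x : ↥(Cfsg.spGL m F)) (v : V) : V := (x : GL (Fin m ⊕ Fin m) F).1 *ᵥ v

lemma act_mul (x y : ↥(Cfsg.spGL m F)) (v : V) : act (x * y) v = act x (act y v) := by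
  simp [act, mulVec_mulVec]

lemma act_one (v : V) : act (1 : ↥(Cfsg.spGL m F)) v = v := by simp [act]

lemma act_injective (x : ↥(Cfsg.spGL m F)) : Function.Injective (act x) := fun v w h => by
  simpa [← act_mul, act_one] using congrArg (act x⁻¹) h

lemma act_add (x : ↥(Cfsg.spGL m F)) (v w : V) : act x (v + w) = act x v + act x w := mulVec_add _ _ _

lemma act_sub (x : ↥(Cfsg.spGL m F)) (v w : V) : act x (v - w) = act x v - act x w := mulVec_sub _ _ _

lemma act_smul (x : ↥(Cfsg.spGL m F)) (c : F) (v : V) : act x (c • v) = c • act x v := mulVec_smul _ _ _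

lemma act_ext {x y : ↥(Cfsg.spGL m F)} (h : ∀ v, act x v = act y v) : x = y := Subtype.ext (gl_ext h)

/-- Eigen characters with a hyperbolic pair. -/
lemma exists_char_set (h2 : (2 : F) ≠ 0) (A : Subgroup ↥(Cfsg.spGL m F)) [Finite A]
    (hsq : ∀ a ∈ A, a * a = 1) (hcomm : ∀ a ∈ A, ∀ b ∈ A, a * b = b * a) :
    ∃ X : Finset (A → F), X.card ≤ m ∧
      (∀ (χ : A → F) (v : V), v ≠ 0 → (∀ a : A, act a.1 v = χ a • v) → χ ∈ X) ∧
      Nat.card A ≤ 2 ^ X.card ∧ (1 ≤ m → X.Nonempty) ∧
      ∀ χ ∈ X, (∀ a, χ a = 1 ∨ χ a = -1) ∧ ∃ v : V, v ≠ 0 ∧ ∀ a : A, act a.1 v = χ a • v := by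
  classical
  have : Fintype A := Fintype.ofFinite A
  let EV : Finset A → Set V := fun s => {v | ∀ a ∈ s, act a.1 v = v ∨ act a.1 v = -v}
  have hspan : ∀ s : Finset A, Submodule.span F (EV s) = ⊤ := by
    intro s
    induction s using Finset.induction_on with
    | empty => simp [EV]
    | insert a s _ ih =>
      rw [eq_top_iff, ← ih, Submodule.span_le]
      intro v hv
      have hw : ∀ c : F, (c = 1 ∨ c = -1) → v + c • act a.1 v ∈ EV (insert a s) := by
        intro c hc b hb
        rcases Finset.mem_insert.1 hb with rfl | hb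
        · have haa : act b.1 (act b.1 v) = v := by rw [← act_mul, hsq _ b.2, act_one]
          rw [act_add, act_smul, haa]
          rcases hc with rfl | rfl
          · left; simp [add_comm]
          · right; simp [add_comm]
        · have hba : act b.1 (act a.1 v) = act a.1 (act b.1 v) := by
            rw [← act_mul, ← act_mul, hcomm _ b.2 _ a.2]
          rw [act_add, act_smul, hba]
          rcases hv b hb with h | h <;> rw [h]
          · left; rfl
          · right
            have : act a.1 (-v) = -act a.1 v := by simpa using act_smul a.1 (-1) v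
            rw [this, smul_neg, neg_add]
      have : v = (2 : F)⁻¹ • ((v + (1 : F) • act a.1 v) + (v + (-1 : F) • act a.1 v)) := by
        match_scalars <;> field_simp <;> ring
      rw [this]
      exact Submodule.smul_mem _ _ (Submodule.add_mem _ (Submodule.subset_span (hw 1 (Or.inl rfl)))
        (Submodule.subset_span (hw (-1) (Or.inr rfl))))
  let χof : V → A → F := fun v a => if act a.1 v = v then 1 else -1
  have hχof : ∀ v ∈ EV Finset.univ, ∀ a : A, act a.1 v = χof v a • v := by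
    intro v hv a
    by_cases h : act a.1 v = v
    · simp [χof, h]
    · simp [χof, h, (hv a (Finset.mem_univ _)).resolve_left h]
  have hval : ∀ (χ : A → F) (v : V), v ≠ 0 → (∀ a : A, act a.1 v = χ a • v) → ∀ a, χ a = 1 ∨ χ a = -1 := by
    intro χ v hv h a
    have h1 : act a.1 (act a.1 v) = v := by rw [← act_mul, hsq _ a.2, act_one]
    rw [h a, act_smul, h a, smul_smul] at h1
    have h3 : χ a * χ a = 1 := smul_left_injective F hv (h1.trans (one_smul F v).symm)
    exact mul_self_eq_one_iff.1 h3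
  let cand : Finset (A → F) := Fintype.piFinset fun _ => {1, -1}
  let X : Finset (A → F) := cand.filter fun χ => ∃ v : V, v ≠ 0 ∧ ∀ a : A, act a.1 v = χ a • v
  have hX : ∀ (χ : A → F) (v : V), v ≠ 0 → (∀ a : A, act a.1 v = χ a • v) → χ ∈ X := fun χ v hv h =>
    Finset.mem_filter.2 ⟨Fintype.mem_piFinset.2 fun a => by simpa using hval χ v hv h a, v, hv, h⟩
  have hmemX : ∀ χ ∈ X, (∀ a, χ a = 1 ∨ χ a = -1) ∧ ∃ v : V, v ≠ 0 ∧ ∀ a : A, act a.1 v = χ a • v := by
    intro χ hχ
    obtain ⟨-, v, hv, h⟩ := Finset.mem_filter.1 hχ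
    exact ⟨hval χ v hv h, v, hv, h⟩
  -- partners
  have hpair : ∀ χ : X, ∃ v w : V, (∀ a : A, act a.1 v = χ.1 a • v) ∧ (∀ a : A, act a.1 w = χ.1 a • w) ∧
      sympBilin F m v w = 1 := by
    intro χ
    obtain ⟨hpm, v, hv, h⟩ := hmemX χ.1 χ.2
    obtain ⟨w, hw, hne⟩ : ∃ w ∈ EV Finset.univ, sympBilin F m v w ≠ 0 := by
      by_contra! hz
      refine hv ((sympBilin_nondegenerate F m).1 v fun y => ?_)
      have hy : y ∈ Submodule.span F (EV Finset.univ) := by rw [hspan]; trivial
      induction hy using Submodule.span_induction with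
      | mem x hx => exact hz x hx
      | zero => simp
      | add x y _ _ hx hy => simp [hx, hy]
      | smul c x _ hx => simp [hx]
    have hw' : ∀ a : A, act a.1 w = χ.1 a • w := by
      intro a
      rcases hw a (Finset.mem_univ _) with e | e
      · have h1 : sympBilin F m (act a.1 v) (act a.1 w) = sympBilin F m v w := mem_spGL_iff.1 a.1.2 v w
        rw [h a, e, map_smul, LinearMap.smul_apply, smul_eq_mul, mul_eq_right₀ hne] at h1
        rw [h1, one_smul, e]
      · have h1 : sympBilin F m (act a.1 v) (act a.1 w) = sympBilin F m v w := mem_spGL_iff.1 a.1.2 v w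
        rw [h a, e, map_smul, LinearMap.smul_apply, map_neg, smul_eq_mul, mul_neg, ← neg_mul, mul_eq_right₀ hne] at h1
        rw [show χ.1 a = -1 by linear_combination -h1, neg_one_smul, e]
    exact ⟨v, (sympBilin F m v w)⁻¹ • w, h, fun a => by rw [act_smul, hw', smul_comm], by simp [hne]⟩
  choose pv pw hpv hpw hp1 using hpair
  have horth : ∀ χ ψ : X, χ ≠ ψ → ∀ v w : V, (∀ a : A, act a.1 v = χ.1 a • v) →
      (∀ a : A, act a.1 w = ψ.1 a • w) → sympBilin F m v w = 0 := by
    intro χ ψ hne v w hv hw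
    by_contra h0
    refine hne (Subtype.ext (funext fun a => ?_))
    have h1 : sympBilin F m (act a.1 v) (act a.1 w) = sympBilin F m v w := mem_spGL_iff.1 a.1.2 v w
    simp only [hv, hw, map_smul, LinearMap.smul_apply, smul_eq_mul, ← mul_assoc] at h1
    rw [mul_eq_right₀ h0] at h1
    rcases (hmemX _ χ.2).1 a with e | e <;> rcases (hmemX _ ψ.2).1 a with e' | e' <;> rw [e, e'] at h1 ⊢ <;>
      first | rfl | exact absurd (by linear_combination -h1 : (2 : F) = 0) h2
  have hli : LinearIndependent F (Sum.elim pv pw) := by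
    rw [Fintype.linearIndependent_iff]
    intro c hc
    rw [Fintype.sum_sum_type] at hc
    have key : ∀ χ : X, c (Sum.inl χ) = 0 ∧ c (Sum.inr χ) = 0 := by
      intro χ
      have e1 : ∀ ψ : X, sympBilin F m (pv ψ) (pw χ) = if ψ = χ then 1 else 0 := fun ψ => by
        split_ifs with h
        · subst h; exact hp1 _
        · exact horth _ _ h _ _ (hpv ψ) (hpw χ)
      have e2 : ∀ ψ : X, sympBilin F m (pw ψ) (pw χ) = 0 := fun ψ => by
        by_cases h : ψ = χ
        · subst h; exact sympBilin_isAlt F m _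
        · exact horth _ _ h _ _ (hpw ψ) (hpw χ)
      have e3 : ∀ ψ : X, sympBilin F m (pv χ) (pw ψ) = if ψ = χ then 1 else 0 := fun ψ => by
        split_ifs with h
        · subst h; exact hp1 _
        · exact horth _ _ (Ne.symm h) _ _ (hpv χ) (hpw ψ)
      have e4 : ∀ ψ : X, sympBilin F m (pv χ) (pv ψ) = 0 := fun ψ => by
        by_cases h : ψ = χ
        · subst h; exact sympBilin_isAlt F m _
        · exact horth _ _ (Ne.symm h) _ _ (hpv χ) (hpv ψ)
      have h1 := congrArg (fun x => sympBilin F m x (pw χ)) hc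
      have h3 := congrArg (fun x => sympBilin F m (pv χ) x) hc
      simp only [Sum.elim_inl, Sum.elim_inr, map_add, map_sum, map_smul, LinearMap.add_apply,
        LinearMap.sum_apply, LinearMap.smul_apply, smul_eq_mul, e1, e2, e3, e4, map_zero, LinearMap.zero_apply,
        mul_zero, Finset.sum_const_zero, add_zero, zero_add, mul_ite, mul_one, Finset.sum_ite_eq',
        Finset.mem_univ, if_true] at h1 h3
      exact ⟨h1, h3⟩
    rintro (χ | χ)
    · exact (key χ).1
    · exact (key χ).2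
  have hcard := hli.fintype_card_le_finrank
  simp only [Fintype.card_sum, Fintype.card_coe, Module.finrank_fintype_fun_eq_card, Fintype.card_fin] at hcard
  refine ⟨X, by omega, hX, ?_, fun hm => ?_, hmemX⟩
  · -- a member of `A` is determined by its eigenvalues
    let f : A → (X → Bool) := fun a χ => decide (χ.1 a = 1)
    have hf : Function.Injective f := by
      intro a b hab
      refine Subtype.ext (act_ext fun v => ?_)
      have hv : v ∈ Submodule.span F (EV Finset.univ) := by rw [hspan]; trivial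
      induction hv using Submodule.span_induction with
      | mem x hx =>
        rcases eq_or_ne x 0 with rfl | hx0
        · simp [act]
        have hmem := hX (χof x) x hx0 (hχof x hx)
        have hh := congrFun hab ⟨_, hmem⟩
        simp only [f, decide_eq_decide] at hh
        rw [hχof x hx a, hχof x hx b]
        rcases (hmemX _ hmem).1 a with e | e <;> rcases (hmemX _ hmem).1 b with e' | e' <;> rw [e, e']
        · exact absurd ((hh.1 e).symm.trans e') (fun h => h2 (by linear_combination h))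
        · exact absurd ((hh.2 e').symm.trans e) (fun h => h2 (by linear_combination h))
      | zero => simp [act]
      | add x y _ _ hx hy => rw [act_add, act_add, hx, hy]
      | smul c x _ hx => rw [act_smul, act_smul, hx]
    have := Nat.card_le_card_of_injective f hf
    simpa using this
  · have hne : ∃ v ∈ EV Finset.univ, v ≠ 0 := by
      by_contra! hz
      have hb : Submodule.span F (EV Finset.univ) = ⊥ := by
        rw [Submodule.span_eq_bot]; exact hz
      rw [hspan] at hb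
      have : Pi.single (Sum.inl ⟨0, hm⟩) (1 : F) ∈ (⊥ : Submodule F V) := hb ▸ Submodule.mem_top
      simp at this
    obtain ⟨v, hv, hv0⟩ := hne
    exact ⟨_, hX _ v hv0 (hχof v hv)⟩

/-- Subgroups elementary abelian modulo `±1` are small. -/
theorem card_lt (h2 : (2 : F) ≠ 0) (hm : 3 ≤ m) (E : Subgroup ↥(Cfsg.spGL m F)) [Finite E]
    (z : ↥(Cfsg.spGL m F)) (hz : ∀ v : V, act z v = -v) (hzE : z ∈ E)
    (hsq : ∀ x ∈ E, x * x = 1 ∨ x * x = z) (hcomm : ∀ x ∈ E, ∀ y ∈ E, x * y = y * x ∨ x * y = z * (y * x)) :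
    Nat.card E < 2 ^ (2 * m + 1) := by
  classical
  have hzz : z * z = 1 := act_ext fun v => by simp [act_mul, act_one, hz]
  have hzc : ∀ x, z * x = x * z := fun x => act_ext fun v => by
    rw [act_mul, act_mul, hz, hz]
    simpa using (act_smul x (-1) v).symm
  let S : Set (Subgroup ↥(Cfsg.spGL m F)) := {A | A ≤ E ∧ (∀ a ∈ A, a * a = 1) ∧ ∀ a ∈ A, ∀ b ∈ A, a * b = b * a}
  -- adjoining an element
  have hadj : ∀ A ∈ S, ∀ x ∈ E, x * x = 1 → (∀ a ∈ A, a * x = x * a) → ∃ A' ∈ S, A ≤ A' ∧ x ∈ A' := by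
    intro A hA x hx hxx hxc
    refine ⟨Subgroup.closure ((A : Set ↥(Cfsg.spGL m F)) ∪ {x}), ?_, fun a ha => Subgroup.subset_closure (Or.inl ha),
      Subgroup.subset_closure (Or.inr rfl)⟩
    have hgc : ∀ a ∈ (A : Set ↥(Cfsg.spGL m F)) ∪ {x}, ∀ b ∈ (A : Set ↥(Cfsg.spGL m F)) ∪ {x}, a * b = b * a := by
      rintro a (ha | rfl) b (hb | rfl)
      · exact hA.2.2 a ha b hb
      · exact hxc a ha
      · exact (hxc b hb).symm
      · rfl
    have := Subgroup.isMulCommutative_closure hgc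
    refine ⟨(Subgroup.closure_le E).2 (Set.union_subset hA.1 (Set.singleton_subset_iff.2 hx)), fun a ha => ?_,
      fun a ha b hb => congrArg Subtype.val (mul_comm' (⟨a, ha⟩ : Subgroup.closure ((A : Set ↥(Cfsg.spGL m F)) ∪ {x})) ⟨b, hb⟩)⟩
    induction ha using Subgroup.closure_induction with
    | mem a ha => rcases ha with ha | rfl; exacts [hA.2.1 a ha, hxx]
    | one => simp
    | mul a b ha hb ia ib =>
      have hc := congrArg Subtype.val (mul_comm' (⟨a, ha⟩ : Subgroup.closure ((A : Set ↥(Cfsg.spGL m F)) ∪ {x})) ⟨b, hb⟩)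
      change a * b = b * a at hc
      rw [mul_assoc, ← mul_assoc b, ← hc, mul_assoc a, ib, mul_one, ia]
    | inv a _ ia => rw [← _root_.mul_inv_rev, ia, inv_one]
  obtain ⟨A, hA, hmax⟩ : ∃ A ∈ S, ∀ B ∈ S, Nat.card B ≤ Nat.card A := by
    have hne : S.Nonempty := ⟨⊥, bot_le, by simp [Subgroup.mem_bot], by simp [Subgroup.mem_bot]⟩
    have hfin : ((fun A : Subgroup ↥(Cfsg.spGL m F) => Nat.card A) '' S).Finite :=
      (Set.finite_Iic (Nat.card E)).subset (by
        rintro _ ⟨A, hA, rfl⟩; exact Nat.card_le_card_of_injective _ (Subgroup.inclusion_injective hA.1))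
    obtain ⟨_, ⟨⟨A, hA, rfl⟩, hmax⟩⟩ := hfin.exists_maximal (hne.image _)
    refine ⟨A, hA, fun B hB => ?_⟩
    by_contra h
    exact h (hmax ⟨B, hB, rfl⟩ (le_of_lt (not_le.1 h)))
  have : Finite A := Finite.of_injective _ (Subgroup.inclusion_injective hA.1)
  have hfull : ∀ x ∈ E, x * x = 1 → (∀ a ∈ A, a * x = x * a) → x ∈ A := by
    intro x hx hxx hxc
    obtain ⟨A', hA', hle, hxA'⟩ := hadj A hA x hx hxx hxc
    have : Finite A' := Finite.of_injective _ (Subgroup.inclusion_injective hA'.1)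
    have := Subgroup.eq_of_le_of_card_ge hle (hmax A' hA')
    rwa [this]
  have hzA : z ∈ A := hfull z hzE hzz fun a _ => (hzc a).symm
  obtain ⟨X, hXm, hX, hAX, hXne, hXmem⟩ := exists_char_set h2 A hA.2.1 hA.2.2
  -- the centraliser is at most four cosets
  let C : Subgroup ↥(Cfsg.spGL m F) := E ⊓ Subgroup.centralizer (A : Set ↥(Cfsg.spGL m F))
  have hmemC : ∀ x, x ∈ C ↔ x ∈ E ∧ ∀ a ∈ A, a * x = x * a := fun x => by
    simp [C, Subgroup.mem_centralizer_iff]
  have : Finite C := Finite.of_injective _ (Subgroup.inclusion_injective (inf_le_left : C ≤ E))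
  have hCsq : ∀ x ∈ C, x ∉ A → x * x = z := fun x hx hxA => by
    obtain ⟨hxE, hxc⟩ := (hmemC x).1 hx
    exact (hsq x hxE).resolve_left fun h => hxA (hfull x hxE h hxc)
  -- commuting elements outside `A` are in the same coset
  have hsame : ∀ x ∈ C, ∀ y ∈ C, x ∉ A → y ∉ A → x * y = y * x → x⁻¹ * y ∈ A := by
    intro x hx y hy hxA hyA hxy
    have hx2 := hCsq x hx hxA
    have hy2 := hCsq y hy hyA
    have hmem := C.mul_mem hx hy
    have hs : x * y * (x * y) = 1 := by
      calc x * y * (x * y) = x * (y * x) * y := by group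
        _ = (x * x) * (y * y) := by rw [← hxy]; group
        _ = 1 := by rw [hx2, hy2, hzz]
    have h1 := hfull _ ((hmemC _).1 hmem).1 hs ((hmemC _).1 hmem).2
    have hxi : x⁻¹ = z * x := by
      rw [inv_eq_iff_mul_eq_one, ← mul_assoc, ← hzc, mul_assoc, hx2, hzz]
    rw [hxi, mul_assoc]
    exact A.mul_mem hzA h1
  obtain ⟨x₀, y₀, hcov⟩ : ∃ x₀ y₀ : ↥(Cfsg.spGL m F), ∀ x ∈ C,
      x ∈ A ∨ x₀⁻¹ * x ∈ A ∨ y₀⁻¹ * x ∈ A ∨ (x₀ * y₀)⁻¹ * x ∈ A := by
    by_cases h1 : ∀ x ∈ C, x ∈ A
    · exact ⟨1, 1, fun x hx => Or.inl (h1 x hx)⟩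
    push Not at h1
    obtain ⟨x₀, hx₀, hx₀A⟩ := h1
    by_cases h3 : ∀ x ∈ C, x ∈ A ∨ x₀⁻¹ * x ∈ A
    · exact ⟨x₀, 1, fun x hx => (h3 x hx).elim Or.inl fun h => Or.inr (Or.inl h)⟩
    push Not at h3
    obtain ⟨y₀, hy₀, hy₀A, hy₀x⟩ := h3
    refine ⟨x₀, y₀, fun u hu => ?_⟩
    by_cases huA : u ∈ A
    · exact Or.inl huA
    by_cases h4 : x₀⁻¹ * u ∈ A
    · exact Or.inr (Or.inl h4)
    by_cases h5 : y₀⁻¹ * u ∈ A
    · exact Or.inr (Or.inr (Or.inl h5))
    refine Or.inr (Or.inr (Or.inr ?_))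
    have anti : ∀ p ∈ C, ∀ q ∈ C, p ∉ A → q ∉ A → p⁻¹ * q ∉ A → p * q = z * (q * p) := by
      intro p hp q hq hpA hqA hpq
      exact (hcomm p ((hmemC p).1 hp).1 q ((hmemC q).1 hq).1).resolve_left fun h => hpq (hsame p hp q hq hpA hqA h)
    have h6 : x₀ * y₀ ∉ A := by
      intro h
      refine hy₀x ?_
      have hxi : x₀⁻¹ = z * x₀ := by
        rw [inv_eq_iff_mul_eq_one, ← mul_assoc, ← hzc, mul_assoc, hCsq x₀ hx₀ hx₀A, hzz]
      rw [hxi, mul_assoc]
      exact A.mul_mem hzA h
    refine hsame _ (C.mul_mem hx₀ hy₀) u hu h6 huA ?_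
    have a1 := anti x₀ hx₀ u hu hx₀A huA h4
    have a2 := anti y₀ hy₀ u hu hy₀A huA h5
    calc x₀ * y₀ * u = x₀ * (z * (u * y₀)) := by rw [mul_assoc, a2]
      _ = z * (x₀ * u) * y₀ := by rw [← mul_assoc x₀ z, ← hzc]; group
      _ = (z * z) * (u * (x₀ * y₀)) := by rw [a1]; group
      _ = u * (x₀ * y₀) := by rw [hzz, one_mul]
  have hC4 : Nat.card C ≤ 4 * Nat.card A := by
    have hsub : (C : Set ↥(Cfsg.spGL m F)) ⊆ (A : Set ↥(Cfsg.spGL m F)) ∪ (x₀ • (A : Set ↥(Cfsg.spGL m F))) ∪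
        (y₀ • (A : Set ↥(Cfsg.spGL m F))) ∪ ((x₀ * y₀) • (A : Set ↥(Cfsg.spGL m F))) := by
      intro x hx
      simp only [Set.mem_union, Set.mem_smul_set_iff_inv_smul_mem, smul_eq_mul, SetLike.mem_coe]
      have := hcov x hx; tauto
    have hAfin : (A : Set ↥(Cfsg.spGL m F)).Finite := Set.toFinite _
    have h := Set.ncard_le_ncard hsub (((hAfin.union hAfin.smul_set).union hAfin.smul_set).union hAfin.smul_set)
    have h' := (Set.ncard_union_le _ _).trans (add_le_add_left ((Set.ncard_union_le _ _).trans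
      (add_le_add_left (Set.ncard_union_le (A : Set ↥(Cfsg.spGL m F)) (x₀ • (A : Set ↥(Cfsg.spGL m F)))) (y₀ • (A : Set ↥(Cfsg.spGL m F))).ncard))
        ((x₀ * y₀) • (A : Set ↥(Cfsg.spGL m F))).ncard)
    have h'' := h.trans h'
    simp only [Set.ncard_smul_set] at h''
    change Nat.card C ≤ 4 * Nat.card A
    rw [← SetLike.coe_sort_coe, ← SetLike.coe_sort_coe A, Nat.card_coe_set_eq, Nat.card_coe_set_eq]
    omega
  -- the index of the centraliser
  obtain ⟨χ₀, hχ₀⟩ := hXne (by omega)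
  obtain ⟨hpm₀, v₀, hv₀, hev₀⟩ := hXmem χ₀ hχ₀
  let f : E → X := fun e => ⟨fun a => if a.1 * e.1 = e.1 * a.1 then χ₀ a else -χ₀ a, hX _ (act e.1 v₀)
    (fun h => hv₀ (act_injective e.1 (h.trans (by simp [act])))) (fun a => by
      by_cases h : a.1 * e.1 = e.1 * a.1
      · rw [if_pos h, ← act_mul, h, act_mul, hev₀, act_smul]
      · rw [if_neg h, ← act_mul, (hcomm a.1 (hA.1 a.2) e.1 e.2).resolve_left h, act_mul, act_mul, hev₀, hz, act_smul, neg_smul])⟩
  let g : E ⧸ C.subgroupOf E → X := fun q => f q.out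
  have hg : Function.Injective g := by
    intro p q hpq
    rw [← QuotientGroup.out_eq' p, ← QuotientGroup.out_eq' q, QuotientGroup.eq]
    refine Subgroup.mem_subgroupOf.2 ((hmemC _).2 ⟨E.mul_mem (E.inv_mem p.out.2) q.out.2, fun a ha => ?_⟩)
    have hh : (if a * p.out.1 = p.out.1 * a then χ₀ ⟨a, ha⟩ else -χ₀ ⟨a, ha⟩) =
        (if a * q.out.1 = q.out.1 * a then χ₀ ⟨a, ha⟩ else -χ₀ ⟨a, ha⟩) :=
      congrFun (congrArg Subtype.val hpq) ⟨a, ha⟩
    have hne : χ₀ ⟨a, ha⟩ ≠ -χ₀ ⟨a, ha⟩ := fun h => by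
      rcases hpm₀ ⟨a, ha⟩ with e | e <;> rw [e] at h <;>
        first | exact h2 (by linear_combination h) | exact h2 (by linear_combination -h)
    generalize p.out.1 = u at hh
    have aux : ∀ u w : ↥(Cfsg.spGL m F), u ∈ E → w ∈ E →
        (if a * u = u * a then χ₀ ⟨a, ha⟩ else -χ₀ ⟨a, ha⟩) = (if a * w = w * a then χ₀ ⟨a, ha⟩ else -χ₀ ⟨a, ha⟩) →
        a * (u⁻¹ * w) = u⁻¹ * w * a := by
      intro u w hu hw h
      have huw : u⁻¹ * (a * u) * (u⁻¹ * w) = u⁻¹ * (a * w) := by group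
      by_cases h1 : a * u = u * a <;> by_cases h3 : a * w = w * a
      · calc a * (u⁻¹ * w) = u⁻¹ * (u * a) * (u⁻¹ * w) := by group
          _ = u⁻¹ * (a * w) := by rw [← h1, huw]
          _ = u⁻¹ * w * a := by rw [h3]; group
      · rw [if_pos h1, if_neg h3] at h; exact absurd h hne
      · rw [if_neg h1, if_pos h3] at h; exact absurd h.symm hne
      · have e1 := (hcomm a (hA.1 ha) u hu).resolve_left h1
        have e3 := (hcomm a (hA.1 ha) w hw).resolve_left h3
        calc a * (u⁻¹ * w) = u⁻¹ * (u * a) * (u⁻¹ * w) := by group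
          _ = u⁻¹ * (z * (a * u)) * (u⁻¹ * w) := by rw [e1, ← mul_assoc z z, hzz, one_mul]
          _ = u⁻¹ * (z * (a * w)) := by group
          _ = u⁻¹ * ((z * z) * (w * a)) := by rw [e3, mul_assoc]
          _ = u⁻¹ * w * a := by rw [hzz, one_mul, mul_assoc]
    exact aux _ _ p.out.2 q.out.2 (congrFun (congrArg Subtype.val hpq) ⟨a, ha⟩)
  have hidx : (C.subgroupOf E).index ≤ X.card := by
    rw [Subgroup.index_eq_card]
    simpa using Nat.card_le_card_of_injective g hg
  have hmul := (C.subgroupOf E).index_mul_card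
  rw [Nat.card_congr (Subgroup.subgroupOfEquivOfLe (inf_le_left : C ≤ E)).toEquiv] at hmul
  have h2X : 2 ^ X.card ≤ 2 ^ m := Nat.pow_le_pow_right two_pos hXm
  have hm2 : 2 * m < 2 ^ m :=
    Nat.le_induction (P := fun j _ => 2 * j < 2 ^ j) (by norm_num) (fun k hk ih => by rw [pow_succ]; omega) m hm
  have hchain : Nat.card E ≤ m * (4 * 2 ^ m) := by
    rw [← hmul]
    exact Nat.mul_le_mul (hidx.trans hXm) (hC4.trans (Nat.mul_le_mul_left 4 (hAX.trans h2X)))
  calc Nat.card E ≤ m * (4 * 2 ^ m) := hchain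
    _ = 2 * (2 * m) * 2 ^ m := by ring
    _ < 2 * 2 ^ m * 2 ^ m := by gcongr
    _ = 2 ^ (2 * m + 1) := by ring

end Cfsg.Lib.Classical.SympElemAb
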