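import Mathlib
import Cfsg.Agent.Lib.Classical.SubfieldMax
import Cfsg.Agent.Lib.Classical.SympRational
import Cfsg.Agent.Lib.Classical.SubfieldEndgame

/-!
Overgroups of the rational symplectic group in the symplectic group over an extension of prime
degree: an element which is not a multiple of a rational matrix forces all transvections.
-/

set_option autoImplicit false

namespace Cfsg.Lib.Classical

open Matrix Module
open scoped MatrixGroups

variable {ι : Type} [Fintype ι] [DecidableEq ι] {F : Type*} [Field F] [Finite F] {F₀ : Subfield F}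
  {B : LinearMap.BilinForm F (ι → F)} (hA : B.IsAlt) (hB : B.Nondegenerate)
  (hBR : ∀ u v : ι → F₀, B (co u) (co v) ∈ F₀)
  {M : Subgroup (GL ι F)}
  (hM : ∀ g : GL ι F, (∀ i j, (g : Matrix ι ι F) i j ∈ F₀) →
    (∀ x y, B ((g : Matrix ι ι F) *ᵥ x) ((g : Matrix ι ι F) *ᵥ y) = B x y) → g ∈ M)
  (hMi : ∀ g ∈ M, ∀ x y, B ((g : Matrix ι ι F) *ᵥ x) ((g : Matrix ι ι F) *ᵥ y) = B x y)
  {r : ℕ} (hr : r.Prime) (hcard : Nat.card F = Nat.card F₀ ^ r) (hn : 9 ≤ Fintype.card ι)
  (hfull : ¬ ∀ w a, sTGL B hA w a ∈ M)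

include hA hB hBR hM hr hcard hn hfull

lemma short_mem_rat {c : F} (h : ShortAll hA F₀ M c) : c ∈ F₀ := by
  obtain ⟨K, hK, hKiff⟩ := exists_root_field hA hB hBR hM hn
  by_contra hc
  have all := eq_top_of_prime_degree hr hcard K hK ((hKiff c).2.2 h) hc
  exact hfull (sTGL_mem_of_full hA hB hBR hM hn (fun a => (hKiff a).1.1 (all a))
    fun a => (hKiff a).2.1 (all a))

omit hfull hr hcard hn hM [Finite F] in
/-- A non-zero multiple of a vector is rational, given by the form values. -/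
lemma exists_rat_multiple {w : ι → F} (h : ∀ z : ι → F₀, B w (co z) ∈ F₀) :
    ∃ r₀ : ι → F₀, co r₀ = w := by
  let f : Module.Dual F₀ (ι → F₀) :=
    { toFun := fun z => ⟨B w (co z), h z⟩
      map_add' := fun x y => Subtype.ext (by simp)
      map_smul' := fun a x => Subtype.ext (by simp) }
  refine ⟨((ratForm hBR).toDual (ratForm_nondeg hA hB hBR)).symm f,
    sub_eq_zero.1 (eq_zero_of_rat_orth (F₀ := F₀) hB fun z => ?_)⟩
  rw [map_sub, LinearMap.sub_apply, sub_eq_zero, ← coe_ratForm hBR]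
  rw [← LinearMap.BilinForm.toDual_def (b := ratForm_nondeg hA hB hBR),
    LinearEquiv.apply_symm_apply]
  rfl

/-- A transvection in `M` orthogonal to a rational point has rational centre. -/
lemma exists_rat_of_point {w : ι → F} {α : F} (hα : α ≠ 0) {e : ι → F₀} (he : e ≠ 0)
    (hew : B (co e) w = 0) (h : sTGL B hA w α ∈ M) :
    ∃ ρ : F, ρ ≠ 0 ∧ ∃ r₀ : ι → F₀, co r₀ = ρ • w := by
  have hwe : B w (co e) = 0 := by rw [alt_swap hA, hew, neg_zero]
  by_cases hex : ∃ u : ι → F₀, B (co e) (co u) = 0 ∧ B w (co u) ≠ 0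
  swap
  · push Not at hex
    obtain ⟨μ, rfl⟩ := eq_smul_of_orth hA hB hBR he hex
    rcases eq_or_ne μ 0 with rfl | hμ
    · exact ⟨1, one_ne_zero, 0, by simp⟩
    · exact ⟨μ⁻¹, inv_ne_zero hμ, e, by rw [smul_smul, inv_mul_cancel₀ hμ, one_smul]⟩
  obtain ⟨u, heu, hwu⟩ := hex
  set b := B w (co u) with hb
  set g := sQ hA (co e) (co u) 1
  have hgM : g ∈ M := ratQ_mem hA hB hBR hM e u F₀.one_mem
  have hgw : (g : Matrix ι ι F) *ᵥ w = w + b • co e := by
    rw [sQ_mulVec hA heu, hwe, ← hb]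
    simp
  have hR : sQ hA (co e) ((α * b) • w) 1 * sTGL B hA (co e) (α * b * b) ∈ M := by
    have h1 := M.mul_mem (M.mul_mem hgM h) (M.inv_mem hgM)
    rw [conj_sTGL_iso B hA g (sQ_isometry hA _ _ _), hgw, sTGL_add_smul hA hwe] at h1
    have h2 := (M.mul_mem_cancel_left h).1 h1
    have e1 : sQ hA w (co e) (α * b) = sQ hA (co e) ((α * b) • w) 1 := by
      refine gl_ext fun p => ?_
      rw [sQ_mulVec hA hwe, sQ_mulVec hA (by rw [map_smul, hew, smul_zero])]
      simp only [map_smul, smul_eq_mul]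
      module
    rwa [e1] at h2
  have key : ∀ z : ι → F₀, B (co e) (co z) = 0 → α * b * B w (co z) ∈ F₀ := by
    intro z hz
    have h1 := short_mem_rat hA hB hBR hM hr hcard hn hfull
      (shortAll_of_radical hA hB hBR hM hn he (by rw [map_smul, hew, smul_zero]) hz hR)
    rwa [map_smul, LinearMap.smul_apply, smul_eq_mul] at h1
  obtain ⟨e', hee', hue', hwe', he'⟩ : ∃ e' : ι → F₀, B (co e) (co e') = 0 ∧ B (co u) (co e') = 0 ∧
      B w (co e') = 0 ∧ e' ∉ Submodule.span F₀ {e} := by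
    obtain ⟨x₁, h1, h1s⟩ := exists_orth_avoid hBR ![e, u] ![e] (by omega)
    obtain ⟨x₂, h2, h2s⟩ := exists_orth_avoid hBR ![e, u] ![e, x₁] (by omega)
    have hx1 : x₁ ∉ Submodule.span F₀ {e} := fun hc => h1s (Submodule.span_mono (by simp) hc)
    by_cases hw1 : B w (co x₁) = 0
    · exact ⟨x₁, h1 0, h1 1, hw1, hx1⟩
    have hq : B w (co x₂) / B w (co x₁) ∈ F₀ := by
      have := F₀.div_mem (key x₂ (h2 0)) (key x₁ (h1 0))
      rwa [mul_div_mul_left _ _ (mul_ne_zero hα hwu)] at this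
    have e1 : B (co e) (co x₁) = 0 := h1 0
    have e2 : B (co e) (co x₂) = 0 := h2 0
    have e3 : B (co u) (co x₁) = 0 := h1 1
    have e4 : B (co u) (co x₂) = 0 := h2 1
    refine ⟨x₂ - (⟨_, hq⟩ : F₀) • x₁, ?_, ?_, ?_, fun hc => h2s ?_⟩
    · simp [e1, e2]
    · simp [e3, e4]
    · rw [co_sub, co_smul, map_sub, map_smul, smul_eq_mul]
      simp [div_mul_cancel₀ _ hw1]
    · have h3 := Submodule.add_mem _ (Submodule.span_mono (show ({e} : Set (ι → F₀)) ⊆ Set.range ![e, x₁]
        by simp) hc) (Submodule.smul_mem _ (⟨_, hq⟩ : F₀)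
          (Submodule.subset_span (Set.mem_range_self (f := ![e, x₁]) 1)))
      simpa using h3
  obtain ⟨y, hy1, hy2⟩ := exists_ratDual₂ hA hB hBR he he' 1 0
  rw [OneMemClass.coe_one] at hy1
  rw [ZeroMemClass.coe_zero] at hy2
  obtain ⟨he'0, -⟩ := not_mem_span_symm he he'
  have all : ∀ z : ι → F₀, α * b * B w (co z) ∈ F₀ := by
    intro z
    have h1 := key (z - ratForm hBR e z • y) (by simp [hy1])
    -- the correction is orthogonal to `e'`
    have h2 : α * b * B w (co y) ∈ F₀ := by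
      have hex' : B (co e') (co u) = 0 := by rw [alt_swap hA, hue', neg_zero]
      have he'w : B (co e') w = 0 := by rw [alt_swap hA, hwe', neg_zero]
      have hgw' : (sQ hA (co e') (co u) 1 : Matrix ι ι F) *ᵥ w = w + b • co e' := by
        rw [sQ_mulVec hA hex', hwe', ← hb]
        simp
      have hg'M : sQ hA (co e') (co u) 1 ∈ M := ratQ_mem hA hB hBR hM e' u F₀.one_mem
      have h3 := M.mul_mem (M.mul_mem hg'M h) (M.inv_mem hg'M)
      rw [conj_sTGL_iso B hA _ (sQ_isometry hA _ _ _), hgw', sTGL_add_smul hA hwe'] at h3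
      have h4 := (M.mul_mem_cancel_left h).1 h3
      have e1 : sQ hA w (co e') (α * b) = sQ hA (co e') ((α * b) • w) 1 := by
        refine gl_ext fun p => ?_
        rw [sQ_mulVec hA hwe', sQ_mulVec hA (by rw [map_smul, he'w, smul_zero])]
        simp only [map_smul, smul_eq_mul]
        module
      rw [e1] at h4
      have h5 := short_mem_rat hA hB hBR hM hr hcard hn hfull
        (shortAll_of_radical hA hB hBR hM hn he'0 (by rw [map_smul, he'w, smul_zero]) hy2 h4)
      rwa [map_smul, LinearMap.smul_apply, smul_eq_mul] at h5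
    have h3 := F₀.add_mem h1 (F₀.mul_mem (ratForm hBR e z).2 h2)
    convert h3 using 1
    simp only [co_sub, co_smul, map_sub, map_smul, smul_eq_mul]
    ring
  obtain ⟨r₀, hr₀⟩ := exists_rat_multiple (w := (α * b) • w) hA hB hBR
    fun z => by rw [map_smul, LinearMap.smul_apply, smul_eq_mul]; exact all z
  exact ⟨α * b, mul_ne_zero hα hwu, r₀, hr₀⟩

omit hA hB hBR hM hr hcard hn hfull [DecidableEq ι] [Finite F] in
lemma coe_mulVec_rat [DecidableEq ι] (Z₀ : Matrix ι ι F₀) (v : ι → F₀) :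
    co (Z₀ *ᵥ v) = (fun i j => (Z₀ i j : F) : Matrix ι ι F) *ᵥ co v :=
  funext fun i => by simp [co, mulVec, dotProduct]

omit hA hB hBR hM hr hcard hn hfull [Finite F] in
/-- Rational fixed vectors. -/
lemma exists_fixed_space (Z : Matrix ι ι F) (hZ : ∀ i j, Z i j ∈ F₀) (hZZ : Z * Z = 1)
    (hn : 3 ≤ Fintype.card ι) :
    ∃ ε : F, (ε = 1 ∨ ε = -1) ∧ ∃ W : Submodule F₀ (ι → F₀), 2 ≤ finrank F₀ W ∧
      ∀ v ∈ W, Z *ᵥ co v = ε • co v := by
  classical
  let Z₀ : Matrix ι ι F₀ := fun i j => ⟨Z i j, hZ i j⟩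
  have hmap : Z₀.map F₀.subtype = Z := rfl
  have hZ₀ : Z₀ * Z₀ = 1 := Matrix.map_injective F₀.subtype.injective (by
    dsimp only
    rw [Matrix.map_mul, hmap, hZZ, Matrix.map_one _ (map_zero _) (map_one _)])
  have hco : ∀ v, co (Z₀ *ᵥ v) = Z *ᵥ co v := fun v => coe_mulVec_rat Z₀ v
  by_contra! hcon
  let Wp : F₀ → Submodule F₀ (ι → F₀) := fun a => LinearMap.ker (Z₀ - a • 1).mulVecLin
  have mem : ∀ a, ∀ v ∈ Wp a, Z *ᵥ co v = (a : F) • co v := by
    intro a v hv
    rw [LinearMap.mem_ker, mulVecLin_apply, sub_mulVec, smul_mulVec, one_mulVec, sub_eq_zero] at hv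
    rw [← hco, hv, co_smul]
  have h1 : finrank F₀ (Wp 1) < 2 := by
    by_contra! hc
    obtain ⟨v, hv, hne⟩ := hcon 1 (Or.inl rfl) (Wp 1) hc
    exact hne (by rw [mem 1 v hv]; simp)
  have h2 : finrank F₀ (Wp (-1)) < 2 := by
    by_contra! hc
    obtain ⟨v, hv, hne⟩ := hcon (-1) (Or.inr rfl) (Wp (-1)) hc
    exact hne (by rw [mem (-1) v hv]; simp)
  have h3 := LinearMap.finrank_range_add_finrank_ker (Z₀ - (1 : F₀) • 1).mulVecLin
  have h4 : LinearMap.range (Z₀ - (1 : F₀) • 1).mulVecLin ≤ Wp (-1) := by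
    rintro _ ⟨v, rfl⟩
    rw [LinearMap.mem_ker, mulVecLin_apply, mulVecLin_apply, mulVec_mulVec]
    simp [mul_sub, add_mul, hZ₀]
    rw [show (1 : Matrix ι ι F₀) + Z₀ - (Z₀ + 1) = 0 by abel, zero_mulVec]
  have h5 := Submodule.finrank_mono h4
  rw [Module.finrank_fintype_fun_eq_card] at h3
  change _ + finrank F₀ (Wp 1) = _ at h3
  omega

omit hfull hr hcard [Finite F] in
include hn in
/-- Two rational symplectic involutions with different invariants. -/
lemma exists_two_invol :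
    ∃ s s₀ : GL ι F, RatMat F₀ (s : Matrix ι ι F) ∧ RatMat F₀ (s₀ : Matrix ι ι F) ∧
      s ∈ M ∧ s₀ ∈ M ∧ s * s = 1 ∧ s₀ * s₀ = 1 ∧
      (s : Matrix ι ι F) ≠ 1 ∧ (s : Matrix ι ι F) ≠ -1 ∧
      (s₀ : Matrix ι ι F) ≠ 1 ∧ (s₀ : Matrix ι ι F) ≠ -1 ∧
      ((s : Matrix ι ι F) - 1).rank ≤ 4 ∧ ((s₀ : Matrix ι ι F) - 1).rank ≤ 4 ∧
      ((s : Matrix ι ι F) - 1).rank ≠ ((s₀ : Matrix ι ι F) - 1).rank := by
  classical
  obtain ⟨i⟩ : Nonempty ι := Fintype.card_pos_iff.1 (by omega)
  set u : ι → F₀ := Pi.single i 1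
  have hu : u ≠ 0 := fun h => one_ne_zero (α := F₀) (by simpa [u] using congrFun h i)
  by_cases h2 : (2 : F) = 0
  · obtain ⟨v, hv, hvs⟩ := exists_orth_avoid hBR ![u] ![u] (by omega)
    have huv : B (co u) (co v) = 0 := hv 0
    have hvu : v ∉ Submodule.span F₀ {u} := fun hc => hvs (Submodule.span_mono (by simp) hc)
    have hm1 : (-1 : Matrix ι ι F) = 1 := by
      rw [← sub_eq_zero, show (-1 : Matrix ι ι F) - 1 = (-2 : F) • 1 by rw [neg_smul, two_smul]; abel,
        h2, neg_zero, zero_smul]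
    have hR1 : ∀ w : ι → F₀, RatMat F₀ (sTGL B hA (co w) 1 : Matrix ι ι F) := by
      intro w i j
      rw [coe_sTGL, tv, Matrix.add_apply, vecMulVec_apply, one_smul]
      refine F₀.add_mem (ratMat_one i j) (F₀.mul_mem (w i).2 ?_)
      rw [rightVec, show (Pi.single j (1 : F) : ι → F) = co (Pi.single j (1 : F₀)) by simp]
      exact hBR _ _
    have hm : (-1 : F) = 1 := by linear_combination -(h2 : (2 : F) = 0)
    have hsq : ∀ w : ι → F₀, sTGL B hA (co w) (1 : F) * sTGL B hA (co w) 1 = 1 := by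
      intro w
      rw [sTGL_mul, one_add_one_eq_two, h2, sTGL_zero]
    have e : sQ hA (co u) (co v) 1 =
        sTGL B hA (co (u + v)) 1 * sTGL B hA (co u) 1 * sTGL B hA (co v) 1 := by
      rw [sQ, hm, co_add]
    have r1 : ((sTGL B hA (co u) 1 : Matrix ι ι F) - 1).rank ≤ 1 := by
      rw [coe_sTGL, tv, add_sub_cancel_left]
      exact rank_vecMulVec_le _ _
    have r2 : 2 ≤ ((sQ hA (co u) (co v) 1 : Matrix ι ι F) - 1).rank := by
      obtain ⟨p, hp1, hp2⟩ := exists_ratDual₂ hA hB hBR hu hvu 1 0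
      obtain ⟨q, hq1, hq2⟩ := exists_ratDual₂ hA hB hBR hu hvu 0 1
      rw [OneMemClass.coe_one] at hp1 hq2
      rw [ZeroMemClass.coe_zero] at hp2 hq1
      set N := (sQ hA (co u) (co v) 1 : Matrix ι ι F) - 1
      have hpv : N *ᵥ co p = -co v := by
        rw [sub_mulVec, one_mulVec, sQ_mulVec hA huv, alt_swap hA (co u) (co p),
          alt_swap hA (co v) (co p), hp1, hp2]
        simp
      have hqu : N *ᵥ co q = -co u := by
        rw [sub_mulVec, one_mulVec, sQ_mulVec hA huv, alt_swap hA (co u) (co q),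
          alt_swap hA (co v) (co q), hq1, hq2]
        simp
      have hli : LinearIndependent F ![co u, co v] := by
        rw [LinearIndependent.pair_iff]
        intro a b hab
        have h3 := congrArg (fun x => B x (co p)) hab
        have h4 := congrArg (fun x => B x (co q)) hab
        simp [hp1, hp2] at h3
        simp [hq1, hq2] at h4
        exact ⟨h3, h4⟩
      have h3 : Submodule.span F (Set.range ![co u, co v]) ≤ LinearMap.range N.mulVecLin := by
        rw [Submodule.span_le]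
        rintro _ ⟨a, rfl⟩
        fin_cases a
        · exact ⟨-co q, by simp [mulVec_neg, hqu]⟩
        · exact ⟨-co p, by simp [mulVec_neg, hpv]⟩
      have h4 := Submodule.finrank_mono h3
      rw [finrank_span_eq_card hli, Fintype.card_fin] at h4
      exact h4
    have r3 : ((sQ hA (co u) (co v) 1 : Matrix ι ι F) - 1).rank ≤ 4 := by
      have e2 : (sQ hA (co u) (co v) 1 : Matrix ι ι F) - 1 =
          vecMulVec (co v) (rightVec B (co u)) + vecMulVec (co u) (rightVec B (co v)) := by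
        refine ext_mulVec fun x => ?_
        rw [sub_mulVec, one_mulVec, sQ_mulVec hA huv, add_mulVec, vecMulVec_mulVec,
          vecMulVec_mulVec, rightVec_dot, rightVec_dot]
        simp [op_smul_eq_smul]
        abel
      rw [e2]
      exact (rank_add_le' _ _).trans (by
        have := rank_vecMulVec_le (co v) (rightVec B (co u))
        have := rank_vecMulVec_le (co u) (rightVec B (co v))
        omega)
    have ne : ∀ w : GL ι F, 1 ≤ ((w : Matrix ι ι F) - 1).rank →
        (w : Matrix ι ι F) ≠ 1 ∧ (w : Matrix ι ι F) ≠ -1 := by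
      intro w hw
      rw [hm1]
      refine ⟨fun h => ?_, fun h => ?_⟩ <;> rw [h, sub_self, rank_zero] at hw <;> omega
    have r1' : 1 ≤ ((sTGL B hA (co u) 1 : Matrix ι ι F) - 1).rank := by
      rw [Nat.one_le_iff_ne_zero]
      intro h0
      rw [Matrix.rank, Submodule.finrank_eq_zero, LinearMap.range_eq_bot] at h0
      obtain ⟨p, hp⟩ := exists_ratDual₁ hA hB hBR hu 1
      have h3 := LinearMap.congr_fun h0 (co p)
      rw [mulVecLin_apply, sub_mulVec, one_mulVec, sTGL_mulVec, alt_swap hA (co u) (co p), hp] at h3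
      simp at h3
      exact co_ne_zero hu h3
    refine ⟨sTGL B hA (co u) 1, sQ hA (co u) (co v) 1, hR1 u, ?_,
      ratT_mem' hA hB hBR hM u F₀.one_mem, ratQ_mem hA hB hBR hM u v F₀.one_mem,
      hsq u, ?_, (ne _ r1').1, (ne _ r1').2, (ne _ (by omega)).1, (ne _ (by omega)).2,
      r1.trans (by norm_num), r3, by omega⟩
    · rw [e, Units.val_mul, Units.val_mul]
      exact ((hR1 _).mul (hR1 _)).mul (hR1 _)
    · rw [← sQ_add hA huv, one_add_one_eq_two, h2]
      refine gl_ext fun x => ?_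
      rw [sQ_mulVec hA huv]
      simp
  · obtain ⟨v, huv⟩ := exists_ratDual₁ hA hB hBR hu 1
    rw [OneMemClass.coe_one] at huv
    have hvu : B (co v) (co u) = -1 := by rw [alt_swap hA, huv]
    obtain ⟨u', hu', hu's⟩ := exists_orth_avoid hBR ![u, v] ![u] (by omega)
    have hu'0 : u' ≠ 0 := fun h => hu's (h ▸ Submodule.zero_mem _)
    obtain ⟨x, hx⟩ := exists_ratDual₁ hA hB hBR hu'0 1
    rw [OneMemClass.coe_one] at hx
    set v' : ι → F₀ := x - ratForm hBR x v • u + ratForm hBR x u • v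
    have huu' : B (co u) (co u') = 0 := hu' 0
    have hvu' : B (co v) (co u') = 0 := hu' 1
    have huv' : B (co u) (co v') = 0 := by
      simp [v', alt_self hA, huv, alt_swap hA (co u) (co x)]
    have hvv' : B (co v) (co v') = 0 := by
      simp [v', alt_self hA, hvu, alt_swap hA (co v) (co x)]
    have hu'v' : B (co u') (co v') = 1 := by
      simp [v', hx, alt_swap hA (co u) (co u'), alt_swap hA (co v) (co u'), huu', hvu']
    let N : (ι → F₀) → (ι → F₀) → Matrix ι ι F := fun a b =>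
      (-2 : F) • (vecMulVec (co a) (rightVec B (co b)) - vecMulVec (co b) (rightVec B (co a)))
    have hNx : ∀ a b x, (1 + N a b) *ᵥ x =
        x + (-2 : F) • (B x (co b) • co a - B x (co a) • co b) := by
      intro a b x
      rw [add_mulVec, one_mulVec, smul_mulVec, sub_mulVec, vecMulVec_mulVec, vecMulVec_mulVec,
        rightVec_dot, rightVec_dot]
      simp [op_smul_eq_smul]
    have hsq : ∀ a b : ι → F₀, B (co a) (co b) = 1 → (1 + N a b) * (1 + N a b) = 1 := by
      intro a b hab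
      have hba : B (co b) (co a) = -1 := by rw [alt_swap hA, hab]
      refine ext_mulVec fun x => ?_
      rw [← mulVec_mulVec, hNx, hNx, one_mulVec]
      simp only [map_add, map_sub, map_smul, LinearMap.add_apply, LinearMap.sub_apply,
        LinearMap.smul_apply, alt_self hA, hab, hba, smul_eq_mul]
      module
    have hiso : ∀ a b : ι → F₀, B (co a) (co b) = 1 →
        ∀ p q, B ((1 + N a b) *ᵥ p) ((1 + N a b) *ᵥ q) = B p q := by
      intro a b hab p q
      have hba : B (co b) (co a) = -1 := by rw [alt_swap hA, hab]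
      rw [hNx, hNx]
      simp only [map_add, map_sub, map_smul, LinearMap.add_apply, LinearMap.sub_apply,
        LinearMap.smul_apply, alt_self hA, hab, hba, alt_swap hA (co a) q, alt_swap hA (co b) q,
        smul_eq_mul]
      ring
    have h2' : (2 : F) ∈ F₀ := by
      rw [← one_add_one_eq_two]; exact F₀.add_mem F₀.one_mem F₀.one_mem
    have hR : ∀ a b : ι → F₀, RatMat F₀ (1 + N a b) := by
      intro a b
      refine ratMat_one.add fun i j => ?_
      simp only [N]
      rw [Matrix.smul_apply, Matrix.sub_apply, vecMulVec_apply, vecMulVec_apply, smul_eq_mul,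
        rightVec, rightVec, show (Pi.single j (1 : F) : ι → F) = co (Pi.single j (1 : F₀)) by simp]
      exact F₀.mul_mem (F₀.neg_mem h2') (F₀.sub_mem (F₀.mul_mem (a i).2 (hBR _ _))
        (F₀.mul_mem (b i).2 (hBR _ _)))
    have hrank : ∀ a b : ι → F₀, (N a b).rank ≤ 2 := by
      intro a b
      rw [rank_smul_of_mem_nonZeroDivisors _
        (mem_nonZeroDivisors_of_ne_zero (neg_ne_zero.2 h2)), sub_eq_add_neg]
      refine (rank_add_le' _ _).trans ?_
      rw [rank_neg']
      have := rank_vecMulVec_le (co a) (rightVec B (co b))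
      have := rank_vecMulVec_le (co b) (rightVec B (co a))
      omega
    have hswap : ∀ a b : ι → F₀, B (co a) (co b) = 0 → B (co b) (co a) = 0 := fun a b h => by
      rw [alt_swap hA, h, neg_zero]
    have hNN : N u v * N u' v' = 0 ∧ N u' v' * N u v = 0 := by
      constructor <;> refine ext_mulVec fun p => ?_ <;>
        simp [N, ← mulVec_mulVec, smul_mulVec, sub_mulVec, vecMulVec_mulVec, op_smul_eq_smul,
          mulVec_smul, mulVec_sub, rightVec_dot, huu', hvu', huv', hvv', hswap _ _ huu',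
          hswap _ _ hvu', hswap _ _ huv', hswap _ _ hvv']
    have hprod : (1 + N u v) * (1 + N u' v') = 1 + (N u v + N u' v') := by
      rw [add_mul, one_mul, mul_add, mul_one, hNN.1]
      abel
    have hcomm : (1 + N u' v') * (1 + N u v) = (1 + N u v) * (1 + N u' v') := by
      rw [hprod, add_mul, one_mul, mul_add, mul_one, hNN.2]
      abel
    let s : GL ι F := ⟨1 + N u v, 1 + N u v, hsq u v huv, hsq u v huv⟩
    let s' : GL ι F := ⟨1 + N u' v', 1 + N u' v', hsq u' v' hu'v', hsq u' v' hu'v'⟩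
    have hsM : s ∈ M := hM s (hR u v) (hiso u v huv)
    have hs'M : s' ∈ M := hM s' (hR u' v') (hiso u' v' hu'v')
    have hc : s' * s = s * s' := Units.ext hcomm
    have r1 : ((s : Matrix ι ι F) - 1).rank ≤ 2 := by
      change (1 + N u v - 1).rank ≤ 2
      rw [add_sub_cancel_left]
      exact hrank u v
    have r0 : ((s * s' : GL ι F) : Matrix ι ι F) - 1 = N u v + N u' v' := by
      rw [Units.val_mul]
      change (1 + N u v) * (1 + N u' v') - 1 = _
      rw [hprod, add_sub_cancel_left]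
    have r3 : 3 ≤ (((s * s' : GL ι F) : Matrix ι ι F) - 1).rank := by
      rw [r0]
      have hli : LinearIndependent F ![co u, co v, co u'] := by
        rw [Fintype.linearIndependent_iff]
        intro c hc0
        rw [Fin.sum_univ_three] at hc0
        have h3 := congrArg (fun p => B p (co v)) hc0
        have h4 := congrArg (fun p => B p (co u)) hc0
        have h5 := congrArg (fun p => B p (co v')) hc0
        simp [alt_self hA, huv, hvu, hswap _ _ huu', hswap _ _ hvu', huu', hvu'] at h3 h4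
        simp [huv', hvv', hu'v'] at h5
        intro i
        fin_cases i <;> assumption
      have hle : Submodule.span F (Set.range ![co u, co v, co u']) ≤
          LinearMap.range (N u v + N u' v').mulVecLin := by
        rw [Submodule.span_le]
        rintro _ ⟨a, rfl⟩
        have hm2 : (-2 : F) ≠ 0 := neg_ne_zero.2 h2
        fin_cases a
        · refine ⟨(-2 : F)⁻¹ • co u, ?_⟩
          simp [N, add_mulVec, smul_mulVec, sub_mulVec, vecMulVec_mulVec, op_smul_eq_smul,
            rightVec_dot, huv, alt_self hA, huv', huu', smul_smul, hm2, h2]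
          rw [two_smul, ← add_smul, ← mul_two]
          rw [inv_mul_cancel₀ (show (2 : Fᵐᵒᵖ) ≠ 0 from fun h => h2 (congrArg MulOpposite.unop h)),
            one_smul]
        · refine ⟨(-2 : F)⁻¹ • co v, ?_⟩
          simp [N, add_mulVec, smul_mulVec, sub_mulVec, vecMulVec_mulVec, op_smul_eq_smul,
            rightVec_dot, hvu, alt_self hA, hvv', hvu', smul_smul, hm2, h2]
          rw [two_smul, ← add_smul, ← mul_two]
          rw [inv_mul_cancel₀ (show (2 : Fᵐᵒᵖ) ≠ 0 from fun h => h2 (congrArg MulOpposite.unop h)),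
            one_smul]
        · refine ⟨(-2 : F)⁻¹ • co u', ?_⟩
          simp [N, add_mulVec, smul_mulVec, sub_mulVec, vecMulVec_mulVec, op_smul_eq_smul,
            rightVec_dot, hu'v', alt_self hA, hswap _ _ hvu', hswap _ _ huu', smul_smul, hm2, h2]
          rw [two_smul, ← add_smul, ← mul_two]
          rw [inv_mul_cancel₀ (show (2 : Fᵐᵒᵖ) ≠ 0 from fun h => h2 (congrArg MulOpposite.unop h)),
            one_smul]
      have h4 := Submodule.finrank_mono hle
      rw [finrank_span_eq_card hli, Fintype.card_fin] at h4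
      exact h4
    have r4 : (((s * s' : GL ι F) : Matrix ι ι F) - 1).rank ≤ 4 := by
      rw [r0]
      have := hrank u v
      have := hrank u' v'
      have := rank_add_le' (N u v) (N u' v')
      omega
    have ne : ∀ w : GL ι F, ((w : Matrix ι ι F) - 1).rank ≤ 4 → 0 < ((w : Matrix ι ι F) - 1).rank →
        (w : Matrix ι ι F) ≠ 1 ∧ (w : Matrix ι ι F) ≠ -1 := by
      intro w hw hw0
      refine ⟨fun h => ?_, fun h => ?_⟩
      · rw [h, sub_self, rank_zero] at hw0; omega
      · rw [h] at hw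
        have h3 := le_rank_neg_sub_one h2 (1 : Matrix ι ι F)
        rw [sub_self, rank_zero] at h3
        omega
    have hsne : (s : Matrix ι ι F) ≠ 1 := by
      intro h
      have h3 := hNx u v (co u)
      rw [show (1 + N u v) = 1 from h, one_mulVec, huv, alt_self hA, one_smul, zero_smul, sub_zero,
        left_eq_add] at h3
      exact smul_ne_zero (neg_ne_zero.2 h2) (co_ne_zero hu) h3
    have hsn1 : (s : Matrix ι ι F) ≠ -1 := by
      intro h
      have h3 := le_rank_neg_sub_one h2 (1 : Matrix ι ι F)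
      rw [sub_self, rank_zero] at h3
      rw [h] at r1
      omega
    refine ⟨s, s * s', hR u v, ?_, hsM, M.mul_mem hsM hs'M, Units.ext (hsq u v huv), ?_,
      hsne, hsn1, (ne _ r4 (by omega)).1, (ne _ r4 (by omega)).2, r1.trans (by norm_num), r4,
      by omega⟩
    · rw [Units.val_mul]
      exact (hR u v).mul (hR u' v')
    · rw [mul_assoc, ← mul_assoc s' s, hc, mul_assoc, ← mul_assoc s,
        show s * s = 1 from Units.ext (hsq u v huv), one_mul]
      exact Units.ext (hsq u' v' hu'v')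

include hMi

/-- An element intertwining two rational involutions is rational up to a scalar. -/
lemma scalRat_of_intertwine {Z Z' : Matrix ι ι F} (hZ : ∀ i j, Z i j ∈ F₀)
    (hZ' : ∀ i j, Z' i j ∈ F₀) (hZZ : Z * Z = 1)
    (hZi : ∀ p q, B (Z *ᵥ p) (Z *ᵥ q) = B p q)
    (h1 : Z ≠ 1) (h1' : Z ≠ -1) {y : GL ι F} (hy : y ∈ M)
    (hyZ : (y : Matrix ι ι F) * Z = Z' * (y : Matrix ι ι F)) :
    ScalRat F₀ (y : Matrix ι ι F) := by
  classical
  have hyi := hMi y hy
  obtain ⟨ε, hε, W, hW, hWe⟩ := exists_fixed_space Z hZ hZZ (by omega)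
  have hN : (y : Matrix ι ι F) * (Z - ε • 1) = (Z' - ε • 1) * (y : Matrix ι ι F) := by
    rw [mul_sub, sub_mul, hyZ]
    simp
  obtain ⟨k, hk⟩ : ∃ k, (Z' - ε • 1) *ᵥ (Pi.single k 1 : ι → F) ≠ 0 := by
    by_contra! hcon
    have h0 : Z' - ε • 1 = 0 := by
      refine ext_mulVec fun x => ?_
      rw [pi_eq_sum_univ' x, mulVec_sum, mulVec_sum]
      refine Finset.sum_congr rfl fun k _ => ?_
      rw [mulVec_smul, hcon k, smul_zero, zero_mulVec]
    rw [h0, zero_mul] at hN
    have h3 : Z - ε • 1 = 0 := by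
      have := congrArg (fun X => ((y⁻¹ : GL ι F) : Matrix ι ι F) * X) hN
      simpa [← mul_assoc] using this
    rcases hε with rfl | rfl
    · exact h1 (by simpa [sub_eq_zero] using h3)
    · exact h1' (eq_neg_of_add_eq_zero_left (by simpa using h3))
  have hek : ∀ i, ((Z' - ε • 1) *ᵥ (Pi.single k 1 : ι → F)) i ∈ F₀ := by
    intro i
    rw [mulVec_single_one]
    refine F₀.sub_mem (hZ' i k) ?_
    rw [Matrix.smul_apply, smul_eq_mul]
    exact F₀.mul_mem (by rcases hε with rfl | rfl <;> simp) (ratMat_one i k)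
  let e : ι → F₀ := fun i => ⟨_, hek i⟩
  have he : e ≠ 0 := fun h => hk (funext fun i => congrArg Subtype.val (congrFun h i))
  have hce : co e = (Z' - ε • 1) *ᵥ (Pi.single k 1 : ι → F) := rfl
  -- transvections with centre in the image of `W` see the point `e`
  have hWo : ∀ v ∈ W, B (co e) ((y : Matrix ι ι F) *ᵥ co v) = 0 := by
    intro v hv
    obtain ⟨x', hx'⟩ : ∃ x', (y : Matrix ι ι F) *ᵥ x' = Pi.single k 1 :=
      ⟨_, mulVec_inv_mulVec y _⟩
    rw [hce, ← hx', mulVec_mulVec, ← hN, ← mulVec_mulVec, hyi, sub_mulVec, smul_mulVec, one_mulVec,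
      map_sub, map_smul, LinearMap.sub_apply, LinearMap.smul_apply, smul_eq_mul]
    have h3 : B (Z *ᵥ x') (co v) * ε = B x' (co v) := by
      rw [← hZi x' (co v), hWe v hv, map_smul, smul_eq_mul, mul_comm]
    have hεε : ε * ε = 1 := by rcases hε with rfl | rfl <;> simp
    linear_combination ε * h3 - B (Z *ᵥ x') (co v) * hεε
  have conjT : ∀ v : ι → F₀, sTGL B hA ((y : Matrix ι ι F) *ᵥ co v) 1 ∈ M := by
    intro v
    rw [← conj_sTGL_iso B hA y hyi]
    exact M.mul_mem (M.mul_mem hy (ratT_mem' hA hB hBR hM v F₀.one_mem)) (M.inv_mem hy)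
  have line : ∀ x : ι → F₀, ∃ ρ : F, ρ ≠ 0 ∧
      ∃ r₀ : ι → F₀, co r₀ = ρ • ((y : Matrix ι ι F) *ᵥ co x) := by
    intro x
    let L : W →ₗ[F₀] F₀ := (ratForm hBR x).comp W.subtype
    obtain ⟨⟨v, hvW⟩, hv, hv0⟩ := Submodule.exists_mem_ne_zero_of_ne_bot
      (LinearMap.ker_ne_bot_of_finrank_lt (f := L) (by rw [Module.finrank_self]; omega))
    have hxv : B (co x) (co v) = 0 := congrArg Subtype.val hv
    have hv0' : v ≠ 0 := fun h => hv0 (Subtype.ext h)
    obtain ⟨ρ, hρ, r₀, hr₀⟩ := exists_rat_of_point hA hB hBR hM hr hcard hn hfull one_ne_zero he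
      (hWo v hvW) (conjT v)
    have hr₀0 : r₀ ≠ 0 := fun h => smul_ne_zero hρ (mulVec_ne_zero y (co_ne_zero hv0'))
      (by rw [← hr₀, h, co_zero])
    refine exists_rat_of_point hA hB hBR hM hr hcard hn hfull one_ne_zero hr₀0 ?_ (conjT x)
    rw [hr₀, map_smul, LinearMap.smul_apply, hyi, alt_swap hA, hxv, neg_zero, smul_zero]
  obtain ⟨i₀⟩ : Nonempty ι := Fintype.card_pos_iff.1 (by omega)
  obtain ⟨s, hs, r₁, hr₁⟩ := line (Pi.single i₀ 1)
  refine ⟨s, hs, fun i j => ?_⟩
  suffices hcol : ∃ r₀ : ι → F₀, co r₀ = s • ((y : Matrix ι ι F) *ᵥ co (Pi.single j (1 : F₀))) by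
    obtain ⟨r₀, hr₀⟩ := hcol
    have h3 := congrFun hr₀ i
    rw [co_single, OneMemClass.coe_one, mulVec_single_one] at h3
    rw [Matrix.smul_apply]
    simp only [Pi.smul_apply] at h3
    exact (h3 : (r₀ i : F) = _) ▸ (r₀ i).2
  rcases eq_or_ne j i₀ with rfl | hj
  · exact ⟨r₁, hr₁⟩
  obtain ⟨ρ, hρ, r₂, hr₂⟩ := line (Pi.single j 1)
  obtain ⟨σ, hσ, r₃, hr₃⟩ := line (Pi.single i₀ 1 + Pi.single j 1)
  have hy1 : (y : Matrix ι ι F) *ᵥ co (Pi.single i₀ (1 : F₀)) = s⁻¹ • co r₁ := by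
    rw [hr₁, smul_smul, inv_mul_cancel₀ hs, one_smul]
  have hy2 : (y : Matrix ι ι F) *ᵥ co (Pi.single j (1 : F₀)) = ρ⁻¹ • co r₂ := by
    rw [hr₂, smul_smul, inv_mul_cancel₀ hρ, one_smul]
  have hne : r₁ ≠ 0 := fun h => by
    refine smul_ne_zero hs (mulVec_ne_zero y (co_ne_zero fun h' => ?_)) (by rw [← hr₁, h, co_zero])
    exact one_ne_zero (α := F₀) (by simpa using congrFun h' i₀)
  have hind : r₂ ∉ Submodule.span F₀ {r₁} := by
    intro hc
    obtain ⟨a, ha⟩ := Submodule.mem_span_singleton.1 hc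
    have h3 : (y : Matrix ι ι F) *ᵥ (ρ • co (Pi.single j (1 : F₀))) =
        (y : Matrix ι ι F) *ᵥ (((a : F) * s) • co (Pi.single i₀ (1 : F₀))) := by
      rw [mulVec_smul, mulVec_smul, ← hr₂, ← ha, co_smul, hr₁, smul_smul]
    have h4 := congrFun ((mulVec_inj y).1 h3) j
    simp [hj, hρ] at h4
  obtain ⟨z, hz1, hz2⟩ := exists_ratDual₂ hA hB hBR hne hind 1 0
  obtain ⟨z', hz1', hz2'⟩ := exists_ratDual₂ hA hB hBR hne hind 0 1
  rw [OneMemClass.coe_one] at hz1 hz2'
  rw [ZeroMemClass.coe_zero] at hz2 hz1'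
  rw [co_add, mulVec_add, hy1, hy2] at hr₃
  have hc1 : σ * s⁻¹ ∈ F₀ := by
    have h3 := hBR r₃ z
    rw [hr₃] at h3
    simpa [hz1, hz2] using h3
  have hc2 : σ * ρ⁻¹ ∈ F₀ := by
    have h3 := hBR r₃ z'
    rw [hr₃] at h3
    simpa [hz1', hz2'] using h3
  have hsρ : s * ρ⁻¹ ∈ F₀ := by
    have h3 := F₀.div_mem hc2 hc1
    rwa [mul_div_mul_left _ _ hσ, div_inv_eq_mul, mul_comm] at h3
  exact ⟨(⟨_, hsρ⟩ : F₀) • r₂, by rw [co_smul, hy2, smul_smul]⟩

/-- **Symplectic subfield groups are maximal.** -/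
theorem forall_scalRat_of_not_full (hn' : 13 ≤ Fintype.card ι) :
    ∀ g ∈ M, ScalRat F₀ (g : Matrix ι ι F) := by
  obtain ⟨s, s₀, hsR, hs₀R, hsM, hs₀M, hss, hs₀s, hs1, hs1', hs₀1, hs₀1', hsr, hs₀r, hcl⟩ :=
    exists_two_invol hA hB hBR hM hn
  exact forall_scalRat_of_intertwine (k := 4) (fun {Z} {Z'} hZ hZR hZ'R hZZ h1 h1' _ {y} hy h =>
    scalRat_of_intertwine hA hB hBR hM hMi hr hcard hn hfull hZR hZ'R
      (by rw [← Units.val_mul, hZZ, Units.val_one]) (hMi Z hZ) h1 h1' hy h)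
    (by omega) hsR hs₀R hsM hs₀M hss hs₀s hs1 hs1' hs₀1 hs₀1' hsr hs₀r hcl

end Cfsg.Lib.Classical
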