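import Mathlib
import Cfsg.Agent.Lib.Classical.SymplecticCentre
import Cfsg.Agent.Lib.Classical.OrthogonalInSL
import Cfsg.Agent.Lib.Classical.SLGroup
import Cfsg.Agent.Lib.Classical.QuatTwo

/-!
Overgroups, inside a symplectic group in odd characteristic, of the unitary group of a quadratic
extension field acting through a matrix `J` with `J * J = ν` (`ν` a nonsquare), `J` skew for the form.
-/

set_option autoImplicit false

namespace Cfsg.Lib.Classical.SympUnitaryField

open Matrix Module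
open scoped MatrixGroups

section sltwo

variable {F : Type*} [Field F]

local notation "SL2" => Matrix.SpecialLinearGroup (Fin 2) F

/-- Upper unitriangular. -/
def upT (c : F) : SL2 := ⟨!![1, c; 0, 1], by simp [Matrix.det_fin_two]⟩

/-- Lower unitriangular. -/
def loT (c : F) : SL2 := ⟨!![1, 0; c, 1], by simp [Matrix.det_fin_two]⟩

lemma upT_eq (c : F) : upT c = SpecialLinearGroup.transvection (show (0 : Fin 2) ≠ 1 by decide) c := by
  apply Subtype.ext
  ext i j
  fin_cases i <;> fin_cases j <;>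
    simp [upT, SpecialLinearGroup.transvection_coe]

lemma loT_eq (c : F) : loT c = SpecialLinearGroup.transvection (show (1 : Fin 2) ≠ 0 by decide) c := by
  apply Subtype.ext
  ext i j
  fin_cases i <;> fin_cases j <;>
    simp [loT, SpecialLinearGroup.transvection_coe]

lemma upT_mul (c d : F) : upT c * upT d = upT (c + d) := by
  ext i j
  change ((upT c).1 * (upT d).1) i j = _
  fin_cases i <;> fin_cases j <;> simp [upT, Matrix.mul_apply, Fin.sum_univ_two, add_comm]

lemma loT_mul (c d : F) : loT c * loT d = loT (c + d) := by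
  ext i j
  change ((loT c).1 * (loT d).1) i j = _
  fin_cases i <;> fin_cases j <;> simp [loT, Matrix.mul_apply, Fin.sum_univ_two]

lemma eq_top_of_upT_loT (K : Subgroup SL2) (hu : ∀ c, upT c ∈ K) (hl : ∀ c, loT c ∈ K) : K = ⊤ := by
  refine SLGroup.eq_top_of_transvection K fun i j hij c => ?_
  fin_cases i <;> fin_cases j
  · exact absurd rfl hij
  · exact upT_eq c ▸ hu c
  · exact loT_eq c ▸ hl c
  · exact absurd rfl hij

variable [Finite F] {H : Subgroup (Matrix.SpecialLinearGroup (Fin 2) F)}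
  (hD : ∀ t c : F, loT t * upT c * (loT t)⁻¹ * (upT c)⁻¹ ∈ H)
  (hU : ∀ c : F, ∀ h ∈ H, upT c * h * (upT c)⁻¹ ∈ H)
  (hL : ∀ c : F, ∀ h ∈ H, loT c * h * (loT c)⁻¹ ∈ H)

include hD hU hL

lemma normal : H.Normal := by
  have key : Subgroup.normalizer (H : Set SL2) = ⊤ := by
    refine eq_top_of_upT_loT _ (fun c => ?_) fun c => ?_
    · refine Subgroup.mem_normalizer_iff.2 fun h => ⟨fun hh => hU c h hh, fun hh => ?_⟩
      have h1 := hU (-c) _ hh
      have h2 : upT (-c) * upT c = (1 : SL2) := by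
        rw [upT_mul]; apply Subtype.ext; simp [upT, Matrix.one_fin_two]
      rwa [show upT (-c) = (upT c)⁻¹ from eq_inv_of_mul_eq_one_left h2, inv_inv,
        ← mul_assoc, ← mul_assoc, inv_mul_cancel, one_mul, mul_assoc, inv_mul_cancel, mul_one] at h1
    · refine Subgroup.mem_normalizer_iff.2 fun h => ⟨fun hh => hL c h hh, fun hh => ?_⟩
      have h1 := hL (-c) _ hh
      have h2 : loT (-c) * loT c = (1 : SL2) := by
        rw [loT_mul]; apply Subtype.ext; simp [loT, Matrix.one_fin_two]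
      rwa [show loT (-c) = (loT c)⁻¹ from eq_inv_of_mul_eq_one_left h2, inv_inv,
        ← mul_assoc, ← mul_assoc, inv_mul_cancel, one_mul, mul_assoc, inv_mul_cancel, mul_one] at h1
  exact Subgroup.normalizer_eq_top_iff.1 key

lemma comm_mem (x y : SL2) : x * y * x⁻¹ * y⁻¹ ∈ H := by
  have := normal hD hU hL
  let π := QuotientGroup.mk' H
  have hul : ∀ c t : F, π (upT c) * π (loT t) = π (loT t) * π (upT c) := by
    intro c t
    have h : π (loT t * upT c * (loT t)⁻¹ * (upT c)⁻¹) = 1 :=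
      (QuotientGroup.eq_one_iff _).2 (hD t c)
    simp only [map_mul, map_inv] at h
    rw [mul_inv_eq_one, mul_inv_eq_iff_eq_mul] at h
    exact h.symm
  have step : ∀ g : SL2, (∀ c, π g * π (upT c) = π (upT c) * π g) →
      (∀ c, π g * π (loT c) = π (loT c) * π g) → ∀ z, π g * π z = π z * π g := by
    intro g h1 h2 z
    have : (Subgroup.centralizer {π g}).comap π = ⊤ :=
      eq_top_of_upT_loT _ (fun c => Subgroup.mem_centralizer_singleton_iff.2 (h1 c).symm)
        fun c => Subgroup.mem_centralizer_singleton_iff.2 (h2 c).symm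
    have hz : z ∈ (Subgroup.centralizer {π g}).comap π := this ▸ Subgroup.mem_top z
    exact (Subgroup.mem_centralizer_singleton_iff.1 hz).symm
  have hx : π x * π y = π y * π x := by
    refine step x (fun c => ?_) (fun c => ?_) y
    · refine (step (upT c) (fun d => ?_) (fun d => hul c d) x).symm
      rw [← map_mul, ← map_mul, upT_mul, upT_mul, add_comm]
    · refine (step (loT c) (fun d => (hul d c).symm) (fun d => ?_) x).symm
      rw [← map_mul, ← map_mul, loT_mul, loT_mul, add_comm]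
  apply (QuotientGroup.eq_one_iff _).1
  change π (x * y * x⁻¹ * y⁻¹) = 1
  rw [map_mul, map_mul, map_mul, map_inv, map_inv, hx]
  group

lemma exists_neg_one [NeZero (2 : F)] :
    ∃ m ∈ H, (m : Matrix (Fin 2) (Fin 2) F) = !![-1, 0; 0, -1] := by
  obtain ⟨x, y, hxy⟩ := Cfsg.Lib.QuatTwo.exists_ab (F := F)
  let w : SL2 := ⟨!![0, 1; -1, 0], by simp [Matrix.det_fin_two]⟩
  let m : SL2 := ⟨!![x, y; y, -x], by rw [Matrix.det_fin_two]; simp; linear_combination -hxy⟩
  refine ⟨w * m * w⁻¹ * m⁻¹, comm_mem hD hU hL w m, ?_⟩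
  change w.1 * m.1 * Matrix.adjugate w.1 * Matrix.adjugate m.1 = _
  rw [Matrix.adjugate_fin_two, Matrix.adjugate_fin_two]
  simp only [w, m, Matrix.mul_fin_two, Matrix.of_apply, Matrix.cons_val', Matrix.cons_val_zero,
    Matrix.cons_val_one, Matrix.empty_val', Matrix.cons_val_fin_one]
  ext i j
  fin_cases i <;> fin_cases j <;> simp <;>
    (first | ring1 | linear_combination hxy | linear_combination -hxy)

omit [Finite F] in
lemma exists_moved {v0 v1 : F} (hv : v0 ≠ 0) :
    ∃ h ∈ H, v0 * ((h : Matrix (Fin 2) (Fin 2) F) 1 0 * v0 + (h : Matrix (Fin 2) (Fin 2) F) 1 1 * v1) -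
      v1 * ((h : Matrix (Fin 2) (Fin 2) F) 0 0 * v0 + (h : Matrix (Fin 2) (Fin 2) F) 0 1 * v1) ≠ 0 := by
  let t := v1 / v0
  refine ⟨loT t * (loT 1 * upT (-1) * (loT 1)⁻¹ * (upT (-1))⁻¹) * (loT t)⁻¹,
    hL t _ (hD 1 (-1)), ?_⟩
  have : v1 = t * v0 := by simp [t, hv]
  rw [this]
  have e : ((loT t * (loT 1 * upT (-1) * (loT 1)⁻¹ * (upT (-1))⁻¹) * (loT t)⁻¹ :
      Matrix.SpecialLinearGroup (Fin 2) F) : Matrix (Fin 2) (Fin 2) F) =
      !![2 - t, 1; t + 1 - t * t, t + 1] := by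
    change (loT t).1 * ((loT 1).1 * (upT (-1)).1 * Matrix.adjugate (loT 1).1 *
      Matrix.adjugate (upT (-1)).1) * Matrix.adjugate (loT t).1 = _
    rw [Matrix.adjugate_fin_two, Matrix.adjugate_fin_two, Matrix.adjugate_fin_two]
    ext i j
    fin_cases i <;> fin_cases j <;> simp [upT, loT, Matrix.mul_apply, Fin.sum_univ_two] <;> ring
  rw [e]
  simp only [Matrix.of_apply, Matrix.cons_val', Matrix.cons_val_zero, Matrix.cons_val_one,
    Matrix.empty_val', Matrix.cons_val_fin_one]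
  intro h
  exact hv (mul_self_eq_zero.1 (by linear_combination h))

end sltwo

variable {ι : Type} [Fintype ι] [DecidableEq ι] {F : Type*} [Field F]
  {B : LinearMap.BilinForm F (ι → F)} (hA : B.IsAlt)

/-- The linear map of a `2 × 2` matrix on the plane of `a, b`. -/
def embLin (B : LinearMap.BilinForm F (ι → F)) (a b : ι → F) (h : Matrix (Fin 2) (Fin 2) F) :
    (ι → F) →ₗ[F] (ι → F) where
  toFun x := x + ((h 0 0 - 1) * B x b - h 0 1 * B x a) • a +
    (h 1 0 * B x b - (h 1 1 - 1) * B x a) • b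
  map_add' x y := by simp only [map_add, LinearMap.add_apply]; module
  map_smul' c x := by simp only [map_smul, LinearMap.smul_apply, RingHom.id_apply, smul_eq_mul]; module

lemma embLin_apply (a b : ι → F) (h : Matrix (Fin 2) (Fin 2) F) (x : ι → F) :
    embLin B a b h x = x + ((h 0 0 - 1) * B x b - h 0 1 * B x a) • a +
      (h 1 0 * B x b - (h 1 1 - 1) * B x a) • b := rfl

include hA in
lemma embLin_mul {a b : ι → F} (hab : B a b = 1) (h k : Matrix (Fin 2) (Fin 2) F) (x : ι → F) :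
    embLin B a b (h * k) x = embLin B a b h (embLin B a b k x) := by
  have hba : B b a = -1 := by rw [alt_swap hA a b, hab]
  simp only [embLin_apply, map_add, map_smul, LinearMap.add_apply, LinearMap.smul_apply, hab, hba,
    alt_self hA, smul_eq_mul, Matrix.mul_apply, Fin.sum_univ_two]
  module

/-- `SL₂` on the plane of `a, b`. -/
noncomputable def emb {a b : ι → F} (hab : B.IsAlt ∧ B a b = 1) :
    Matrix.SpecialLinearGroup (Fin 2) F →* GL ι F :=
  MonoidHom.toHomUnits
    { toFun := fun h => LinearMap.toMatrix' (embLin B a b h.1)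
      map_one' := by
        rw [← LinearMap.toMatrix'_id]
        congr 1
        refine LinearMap.ext fun x => ?_
        simp [embLin_apply]
      map_mul' := fun h k => by
        rw [← LinearMap.toMatrix'_comp]
        congr 1
        refine LinearMap.ext fun x => ?_
        exact embLin_mul hab.1 hab.2 h.1 k.1 x }

section emb

variable {a b : ι → F} (hab : B.IsAlt ∧ B a b = 1)

lemma emb_mulVec (h : Matrix.SpecialLinearGroup (Fin 2) F) (x : ι → F) :
    (emb hab h : Matrix ι ι F) *ᵥ x = embLin B a b h.1 x := by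
  simp only [emb, MonoidHom.coe_toHomUnits, MonoidHom.coe_mk, OneHom.coe_mk]
  rw [← Matrix.toLin'_apply, Matrix.toLin'_toMatrix']

lemma emb_upT (c : F) : emb hab (upT c) = sTGL B hab.1 a (-c) := by
  refine gl_ext fun x => ?_
  rw [emb_mulVec, sTGL_mulVec, embLin_apply]
  simp [upT]

lemma emb_loT (c : F) : emb hab (loT c) = sTGL B hab.1 b c := by
  refine gl_ext fun x => ?_
  rw [emb_mulVec, sTGL_mulVec, embLin_apply]
  simp [loT]

lemma emb_isometry (h : Matrix.SpecialLinearGroup (Fin 2) F) (x y : ι → F) :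
    B ((emb hab h : Matrix ι ι F) *ᵥ x) ((emb hab h : Matrix ι ι F) *ᵥ y) = B x y := by
  have hd := h.2
  rw [Matrix.det_fin_two] at hd
  have hba : B b a = -1 := by rw [alt_swap hab.1 a b, hab.2]
  simp only [emb_mulVec, embLin_apply, map_add, map_smul, LinearMap.add_apply,
    LinearMap.smul_apply, hab.2, hba, alt_self hab.1, smul_eq_mul, alt_swap hab.1 y a,
    alt_swap hab.1 y b]
  linear_combination (B x a * B y b - B x b * B y a) * hd

lemma emb_fix (h : Matrix.SpecialLinearGroup (Fin 2) F) {x : ι → F} (hxa : B x a = 0)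
    (hxb : B x b = 0) : (emb hab h : Matrix ι ι F) *ᵥ x = x := by
  rw [emb_mulVec, embLin_apply]
  simp [hxa, hxb]

end emb

variable (hB : B.Nondegenerate) {J : Matrix ι ι F} {ν : F} (hν : ∀ t : F, t * t ≠ ν)
  (hJ2 : ∀ x, J *ᵥ (J *ᵥ x) = ν • x) (hJB : ∀ x y, B (J *ᵥ x) y = -B x (J *ᵥ y))

include hν in
lemma nu_ne_zero : ν ≠ 0 := fun h => hν 0 (by simp [h])

include hν hJ2 in
omit [DecidableEq ι] in
lemma eq_zero_of_pair {v : ι → F} (hv : v ≠ 0) {x y : F} (h : x • v + y • J *ᵥ v = 0) :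
    x = 0 ∧ y = 0 := by
  have h1 : x • J *ᵥ v + (y * ν) • v = 0 := by
    have := congrArg (J *ᵥ ·) h
    simpa [Matrix.mulVec_add, Matrix.mulVec_smul, hJ2, smul_smul] using this
  have h2 : (x * x - ν * y * y) • v = 0 := by
    have : (x * x - ν * y * y) • v = x • (x • v + y • J *ᵥ v) - y • (x • J *ᵥ v + (y * ν) • v) := by
      module
    rw [this, h, h1]; simp
  have h3 := (smul_eq_zero.1 h2).resolve_right hv
  by_cases hy : y = 0
  · subst hy
    exact ⟨by simpa using h3, rfl⟩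
  · refine absurd ?_ (hν (x / y))
    field_simp
    linear_combination h3

/-- `w` lies on the line over the extension field through `v`. -/
def InK (J : Matrix ι ι F) (v w : ι → F) : Prop := ∃ a b : F, w = a • v + b • J *ᵥ v

include hν hJ2 in
omit [DecidableEq ι] in
lemma inK_inv {v w : ι → F} {a b : F} (hne : a ≠ 0 ∨ b ≠ 0)
    (h : InK J v (a • w + b • J *ᵥ w)) : InK J v w := by
  obtain ⟨x, y, h⟩ := h
  have h1 : a • J *ᵥ w + (b * ν) • w = x • J *ᵥ v + (y * ν) • v := by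
    have := congrArg (J *ᵥ ·) h
    simpa [Matrix.mulVec_add, Matrix.mulVec_smul, hJ2, smul_smul] using this
  have hd : a * a - ν * b * b ≠ 0 := by
    intro hd
    by_cases hb : b = 0
    · subst hb
      simp at hd
      exact hne.elim (fun h => h hd) fun h => h rfl
    · refine hν (a / b) ?_
      field_simp
      linear_combination hd
  refine ⟨(a * a - ν * b * b)⁻¹ * (a * x - b * (y * ν)), (a * a - ν * b * b)⁻¹ * (a * y - b * x), ?_⟩
  have h2 : (a * a - ν * b * b) • w = (a * x - b * (y * ν)) • v + (a * y - b * x) • J *ᵥ v := by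
    have : (a * a - ν * b * b) • w =
        a • (a • w + b • J *ᵥ w) - b • (a • J *ᵥ w + (b * ν) • w) := by module
    rw [this, h, h1]; module
  rw [← inv_smul_smul₀ hd w, h2, smul_add, smul_smul, smul_smul]

include hν hJ2 in
omit [DecidableEq ι] in
lemma quad_indep {v u : ι → F} (hv : v ≠ 0) (hu : ¬ InK J v u) {x y z w : F}
    (h : x • v + y • J *ᵥ v + z • u + w • J *ᵥ u = 0) : x = 0 ∧ y = 0 ∧ z = 0 ∧ w = 0 := by
  have hzw : z = 0 ∧ w = 0 := by
    by_contra hne
    refine hu (inK_inv hν hJ2 (a := z) (b := w) (by tauto) ⟨-x, -y, ?_⟩)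
    rw [← sub_eq_zero, ← h]
    module
  obtain ⟨rfl, rfl⟩ := hzw
  simp only [zero_smul, add_zero] at h
  exact ⟨(eq_zero_of_pair hν hJ2 hv h).1, (eq_zero_of_pair hν hJ2 hv h).2, rfl, rfl⟩

/-- The symmetric form `(x, y) ↦ B(x, J y)`. -/
noncomputable def skewForm (B : LinearMap.BilinForm F (ι → F)) (J : Matrix ι ι F) :
    LinearMap.BilinForm F (ι → F) :=
  B.compRight (Matrix.toLin' J)

@[simp] lemma skewForm_apply (x y : ι → F) : skewForm B J x y = B x (J *ᵥ y) := by
  simp [skewForm]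

include hA hJB in
omit [DecidableEq ι] in
lemma sym (x y : ι → F) : B x (J *ᵥ y) = B y (J *ᵥ x) := by
  rw [← neg_eq_iff_eq_neg.2 (hJB y x), alt_swap hA x (J *ᵥ y)]
  simp [hJB]

include hA hJB in
lemma skewForm_isSymm : (skewForm B J).IsSymm := ⟨fun x y => by
  simp only [skewForm_apply, RingHom.id_apply]
  exact sym hA hJB x y⟩

include hA hB hν hJ2 hJB in
lemma skewForm_nondeg : (skewForm B J).Nondegenerate := by
  have key : ∀ x, (∀ y, B x (J *ᵥ y) = 0) → x = 0 := fun x hx => hB.1 x fun y => by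
    have := hx (J *ᵥ y)
    rw [hJ2, map_smul, smul_eq_mul] at this
    exact (mul_eq_zero.1 this).resolve_left (nu_ne_zero hν)
  exact ⟨fun x hx => key x fun y => by simpa using hx y,
    fun x hx => key x fun y => by rw [sym hA hJB]; simpa using hx y⟩

variable [Finite F] (h2 : (2 : F) ≠ 0)

include hν hJ2 in
omit [Finite F] [DecidableEq ι] in
lemma notMem_image {k : ℕ} {r : Fin k → ι → F} {v : ι → F}
    (hv : v ∉ Submodule.span F (Set.range r)) :
    J *ᵥ v ∉ Submodule.span F (Set.range fun i => J *ᵥ r i) := by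
  intro hc
  obtain ⟨c, hc⟩ := (Submodule.mem_span_range_iff_exists_fun F).1 hc
  apply hv
  refine (Submodule.mem_span_range_iff_exists_fun F).2 ⟨c, ?_⟩
  have := congrArg (J *ᵥ ·) hc
  simp only [Matrix.mulVec_sum, Matrix.mulVec_smul, hJ2] at this
  refine smul_right_injective _ (nu_ne_zero hν) ?_
  change ν • _ = ν • v
  rw [← this, Finset.smul_sum]
  exact Finset.sum_congr rfl fun i _ => smul_comm _ _ _

include hA hB hν hJ2 hJB h2 in
lemma exists_iso {k : ℕ} (r : Fin k → ι → F) (hn : 2 * k + 3 ≤ Fintype.card ι) {v : ι → F}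
    (hv : v ∉ Submodule.span F (Set.range r)) :
    ∃ p, B p (J *ᵥ p) = 0 ∧ (∀ i, B p (r i) = 0) ∧ B p v ≠ 0 := by
  obtain ⟨p, hp, hpr, hpv⟩ := exists_sing (skewForm_isSymm hA hJB)
    (skewForm_nondeg hA hB hν hJ2 hJB) h2 (fun i => J *ᵥ r i) hn (notMem_image hν hJ2 hv)
  refine ⟨p, by simpa using hp, fun i => ?_, fun hc => ?_⟩
  · simpa [hJ2, nu_ne_zero hν] using hpr i
  · simp [hJ2, hc] at hpv

include hA hB hν hJ2 hJB h2 in
lemma exists_iso_avoid {k l : ℕ} (r : Fin k → ι → F) (s : Fin l → ι → F)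
    (hn : 2 * k + 3 ≤ Fintype.card ι) (hl : l + k < Fintype.card ι) :
    ∃ p, B p (J *ᵥ p) = 0 ∧ (∀ i, B p (r i) = 0) ∧ p ∉ Submodule.span F (Set.range s) := by
  obtain ⟨p, hp, hpr, hps⟩ := exists_sing_avoid (skewForm_isSymm hA hJB)
    (skewForm_nondeg hA hB hν hJ2 hJB) h2 (fun i => J *ᵥ r i) hn
    (Submodule.span F (Set.range s)) (by
      have := finrank_range_le_card (R := F) s
      rw [Set.finrank] at this
      simp only [Fintype.card_fin] at this
      omega)
  exact ⟨p, by simpa using hp, fun i => by simpa [hJ2, nu_ne_zero hν] using hpr i, hps⟩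

include hA hB hν hJ2 hJB h2 in
lemma span_iso (hn : 3 ≤ Fintype.card ι) :
    Submodule.span F {x : ι → F | B x (J *ᵥ x) = 0} = ⊤ := by
  have hS := skewForm_isSymm (ι := ι) hA hJB
  have hN := skewForm_nondeg (ι := ι) hA hB hν hJ2 hJB
  have := span_singular hS hN h2 (U := ⊤) (by
    rw [LinearMap.BilinForm.orthogonal_top_eq_bot hN, inf_bot_eq, finrank_bot,
      finrank_top, Module.finrank_fintype_fun_eq_card]
    omega)
  simpa using this

include hA hB hν hJ2 hJB h2 in
/-- An isometry that neither commutes nor anticommutes with `J` has a bad pair. -/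
lemma exists_bad_pair (hn : 11 ≤ Fintype.card ι) {g : GL ι F}
    (hg1 : (g : Matrix ι ι F) * J ≠ J * g) (hg2 : (g : Matrix ι ι F) * J ≠ -(J * g)) :
    ∃ v y, B v (J *ᵥ v) = 0 ∧ B y (J *ᵥ y) = 0 ∧ B ((g : Matrix ι ι F) *ᵥ v) y = 0 ∧
      B ((g : Matrix ι ι F) *ᵥ v) (J *ᵥ y) = 0 ∧
      B y ((g : Matrix ι ι F) *ᵥ (J *ᵥ v)) ≠ 0 := by
  by_contra hcon
  push Not at hcon
  set S : Matrix ι ι F := ((g⁻¹ : GL ι F) : Matrix ι ι F) * J * (g : Matrix ι ι F) with hSdef
  have hS : ∀ x, S *ᵥ x = ((g⁻¹ : GL ι F) : Matrix ι ι F) *ᵥ (J *ᵥ ((g : Matrix ι ι F) *ᵥ x)) :=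
    fun x => by rw [hSdef, ← mulVec_mulVec, ← mulVec_mulVec]
  have hS2 : ∀ x, S *ᵥ (S *ᵥ x) = ν • x := fun x => by
    rw [hS, hS, mulVec_inv_mulVec, hJ2, mulVec_smul, inv_mulVec_mulVec]
  have hloc : ∀ v, B v (J *ᵥ v) = 0 → v ≠ 0 → ∃ a b : F, S *ᵥ v = a • v + b • J *ᵥ v := by
    intro v hv hv0
    have hmem : (g : Matrix ι ι F) *ᵥ (J *ᵥ v) ∈ Submodule.span F
        (Set.range ![(g : Matrix ι ι F) *ᵥ v, J *ᵥ ((g : Matrix ι ι F) *ᵥ v)]) := by
      by_contra hc
      obtain ⟨p, hp, hpr, hpv⟩ := exists_iso hA hB hν hJ2 hJB h2 _ (by omega) hc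
      refine hpv (hcon v p hv hp ?_ ?_)
      · rw [alt_swap hA]
        simpa using hpr 0
      · rw [sym hA hJB]
        simpa using hpr 1
    obtain ⟨c, hc⟩ := (Submodule.mem_span_range_iff_exists_fun F).1 hmem
    simp only [Fin.sum_univ_two, Matrix.cons_val_zero, Matrix.cons_val_one] at hc
    have h1 : c 0 • v + c 1 • S *ᵥ v = J *ᵥ v := by
      have := congrArg (((g⁻¹ : GL ι F) : Matrix ι ι F) *ᵥ ·) hc
      simp only [mulVec_add, mulVec_smul, inv_mulVec_mulVec] at this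
      rwa [hS]
    have hc1 : c 1 ≠ 0 := by
      intro h0
      rw [h0, zero_smul, add_zero] at h1
      have := (eq_zero_of_pair hν hJ2 hv0 (x := c 0) (y := -1) (by rw [h1]; module)).2
      simp at this
    refine ⟨-(c 0) / c 1, 1 / c 1, ?_⟩
    rw [← inv_smul_smul₀ hc1 (S *ᵥ v), show c 1 • S *ᵥ v = J *ᵥ v - c 0 • v by rw [← h1]; module]
    module
  have hpair : ∀ v u, B v (J *ᵥ v) = 0 → v ≠ 0 → B u (J *ᵥ u) = 0 → B u v = 0 →
      B u (J *ᵥ v) = 0 → ¬ InK J v u →
      ∃ b : F, b * b = 1 ∧ S *ᵥ v = b • J *ᵥ v ∧ S *ᵥ u = b • J *ᵥ u := by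
    intro v u hv hv0 hu huv huJv hnK
    have hu0 : u ≠ 0 := fun h => hnK ⟨0, 0, by simp [h]⟩
    obtain ⟨a, b, hab⟩ := hloc v hv hv0
    obtain ⟨a', b', hab'⟩ := hloc u hu hu0
    have hvJu : B v (J *ᵥ u) = 0 := by rw [sym hA hJB]; exact huJv
    have hvu : B v u = 0 := by rw [alt_swap hA, huv, neg_zero]
    have hne1 : v + u ≠ 0 := fun h => hnK ⟨-1, 0, by
      simp only [neg_smul, one_smul, zero_smul, add_zero]; exact eq_neg_of_add_eq_zero_right h⟩
    have hne2 : v + J *ᵥ u ≠ 0 := fun h => by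
      have := (quad_indep hν hJ2 hv0 hnK (x := 1) (y := 0) (z := 0) (w := 1) (by simpa using h)).1
      simp at this
    obtain ⟨e, f, hef⟩ := hloc (v + u) (by
      simp only [mulVec_add, map_add, LinearMap.add_apply, hv, hu, huJv, hvJu, add_zero]) hne1
    rw [mulVec_add, hab, hab', mulVec_add] at hef
    obtain ⟨h1, h3, h4, h5⟩ := quad_indep hν hJ2 hv0 hnK (x := a - e) (y := b - f) (z := a' - e)
      (w := b' - f) (by rw [← sub_eq_zero] at hef; rw [← hef]; module)
    have ea : a' = a := by linear_combination h4 - h1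
    have eb : b' = b := by linear_combination h5 - h3
    subst ea eb
    obtain ⟨s, t, hst⟩ := hloc (v + J *ᵥ u) (by
      simp [mulVec_add, mulVec_smul, hJ2, hJB, hv, hvu, huv, hvJu, huJv, hu]) hne2
    have e1 : S *ᵥ (J *ᵥ u) =
        (s - a') • v + (t - b') • J *ᵥ v + s • J *ᵥ u + (t * ν) • u := by
      rw [mulVec_add, hab, mulVec_add, hJ2] at hst
      rw [eq_sub_of_add_eq' hst]
      module
    have hsu := hS2 u
    rw [hab', mulVec_add, mulVec_smul, mulVec_smul, hab', e1] at hsu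
    obtain ⟨k1, k2, k3, k4⟩ := quad_indep hν hJ2 hv0 hnK (x := b' * (s - a')) (y := b' * (t - b'))
      (z := a' * a' + b' * (t * ν) - ν) (w := a' * b' + b' * s)
      (by rw [← sub_eq_zero] at hsu; rw [← hsu]; module)
    have hb : b' ≠ 0 := by
      rintro rfl
      exact hν a' (by linear_combination k3)
    have hs : s = a' := sub_eq_zero.1 ((mul_eq_zero.1 k1).resolve_left hb)
    have ht : t = b' := sub_eq_zero.1 ((mul_eq_zero.1 k2).resolve_left hb)
    subst hs ht
    have ha : s = 0 := by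
      have : (2 : F) * t * s = 0 := by linear_combination k4
      exact (mul_eq_zero.1 this).resolve_left (mul_ne_zero h2 hb)
    subst ha
    refine ⟨t, ?_, by simp [hab], by simp [hab']⟩
    exact sub_eq_zero.1 ((mul_eq_zero.1 (show (t * t - 1) * ν = 0 by linear_combination k3)).resolve_right
      (nu_ne_zero hν))
  obtain ⟨v, hv, -, hvs⟩ := exists_iso_avoid hA hB hν hJ2 hJB h2 ![] ![(0 : ι → F)] (by omega) (by omega)
  have hv0 : v ≠ 0 := fun h => hvs (by rw [h]; exact Submodule.zero_mem _)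
  have hK : ∀ {x u : ι → F} {l : ℕ} (s : Fin l → ι → F) (i j : Fin l), s i = x → s j = J *ᵥ x →
      u ∉ Submodule.span F (Set.range s) → ¬ InK J x u := by
    rintro x u l s i j hi hj hu ⟨a, b, rfl⟩
    exact hu (Submodule.add_mem _ (Submodule.smul_mem _ a (hi ▸ Submodule.subset_span (Set.mem_range_self i)))
      (Submodule.smul_mem _ b (hj ▸ Submodule.subset_span (Set.mem_range_self j))))
  obtain ⟨u₀, hu₀, hu₀r, hu₀s⟩ := exists_iso_avoid hA hB hν hJ2 hJB h2
    ![v, J *ᵥ v] ![v, J *ᵥ v] (by omega) (by omega)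
  obtain ⟨b₀, hb₀, hSv, -⟩ := hpair v u₀ hv hv0 hu₀ (hu₀r 0) (hu₀r 1)
    (hK _ 0 1 rfl rfl hu₀s)
  have hall : ∀ w, B w (J *ᵥ w) = 0 → S *ᵥ w = b₀ • J *ᵥ w := by
    intro w hw
    by_cases hw0 : w = 0
    · simp [hw0]
    obtain ⟨u, hu, hur, hus⟩ := exists_iso_avoid hA hB hν hJ2 hJB h2
      ![v, J *ᵥ v, w, J *ᵥ w] ![v, J *ᵥ v, w, J *ᵥ w] (by omega) (by omega)
    obtain ⟨b, -, hb1, hb2⟩ := hpair v u hv hv0 hu (hur 0) (hur 1) (hK _ 0 1 rfl rfl hus)
    obtain ⟨b', -, hb3, hb4⟩ := hpair w u hw hw0 hu (hur 2) (hur 3) (hK _ 2 3 rfl rfl hus)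
    have hu0 : u ≠ 0 := fun h => hus (h ▸ Submodule.zero_mem _)
    have e1 : b = b₀ := by
      have := (eq_zero_of_pair hν hJ2 hv0 (x := 0) (y := b - b₀) (by
        rw [sub_smul, ← hb1, ← hSv]; simp)).2
      exact sub_eq_zero.1 this
    have e2 : b' = b := by
      have := (eq_zero_of_pair hν hJ2 hu0 (x := 0) (y := b' - b) (by
        rw [sub_smul, ← hb4, ← hb2]; simp)).2
      exact sub_eq_zero.1 this
    rw [hb3, e2, e1]
  have hSJ : ∀ x, S *ᵥ x = b₀ • J *ᵥ x := by
    intro x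
    have hx : x ∈ Submodule.span F {x : ι → F | B x (J *ᵥ x) = 0} := by
      rw [span_iso hA hB hν hJ2 hJB h2 (by omega)]
      exact Submodule.mem_top
    induction hx using Submodule.span_induction with
    | mem y hy => exact hall y hy
    | zero => simp
    | add y z _ _ hy hz => simp [mulVec_add, hy, hz]
    | smul c y _ hy => simp [mulVec_smul, hy, smul_comm b₀ c]
  have hJg : ∀ x, J *ᵥ ((g : Matrix ι ι F) *ᵥ x) = b₀ • (g : Matrix ι ι F) *ᵥ (J *ᵥ x) := fun x => by
    have := congrArg ((g : Matrix ι ι F) *ᵥ ·) (hSJ x)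
    simpa [hS, mulVec_inv_mulVec, mulVec_smul] using this
  rcases mul_self_eq_one_iff.1 hb₀ with rfl | rfl
  · refine hg1 (ext_mulVec fun x => ?_)
    rw [← mulVec_mulVec, ← mulVec_mulVec, hJg, one_smul]
  · refine hg2 (ext_mulVec fun x => ?_)
    rw [neg_mulVec, ← mulVec_mulVec, ← mulVec_mulVec, hJg, neg_one_smul, neg_neg]

section main

omit [Fintype ι] [DecidableEq ι] [Finite F] in
lemma conj_reduce {G : Type*} [Group G] {P U h : G} (hk : Commute (U * h * U⁻¹) P) :
    P * U * h * (P * U)⁻¹ = U * h * U⁻¹ := by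
  calc P * U * h * (P * U)⁻¹ = P * (U * h * U⁻¹) * P⁻¹ := by group
    _ = _ := by rw [← hk.eq, mul_inv_cancel_right]

omit [Fintype ι] [DecidableEq ι] [Finite F] in
lemma comm_reduce {G : Type*} [Group G] {T P U L : G} (hTP : Commute T P) (hLP : Commute L P)
    (hUT : Commute U T) (hk : Commute (L * U * L⁻¹ * U⁻¹) (T * P)) :
    T * L * (P * U) * (T * L)⁻¹ * (P * U)⁻¹ = L * U * L⁻¹ * U⁻¹ := by
  calc T * L * (P * U) * (T * L)⁻¹ * (P * U)⁻¹
      = T * (L * P) * U * L⁻¹ * (T⁻¹ * U⁻¹) * P⁻¹ := by group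
    _ = T * (P * L) * U * L⁻¹ * (U⁻¹ * T⁻¹) * P⁻¹ := by rw [hLP.eq, hUT.symm.inv_inv.eq]
    _ = T * P * (L * U * L⁻¹ * U⁻¹) * (T⁻¹ * P⁻¹) := by group
    _ = L * U * L⁻¹ * U⁻¹ * (T * P) * (T⁻¹ * P⁻¹) := by rw [hk.eq]
    _ = _ := by rw [hTP.inv_inv.eq]; group

/-- The unitary transvection with centre `v`. -/
noncomputable def uTGL (B : LinearMap.BilinForm F (ι → F)) (hA : B.IsAlt) (J : Matrix ι ι F) (ν : F)
    (v : ι → F) (l : F) : GL ι F :=
  sTGL B hA v (ν * l) * sTGL B hA (J *ᵥ v) (-l)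

omit [Finite F] in
lemma uTGL_mulVec {v : ι → F} (hv : B v (J *ᵥ v) = 0) (l : F) (x : ι → F) :
    (uTGL B hA J ν v l : Matrix ι ι F) *ᵥ x =
      x + (ν * l * B x v) • v - (l * B x (J *ᵥ v)) • J *ᵥ v := by
  have h1 : B (J *ᵥ v) v = 0 := by rw [alt_swap hA, hv, neg_zero]
  rw [uTGL, Units.val_mul, ← mulVec_mulVec, sTGL_mulVec, sTGL_mulVec, map_add, LinearMap.add_apply,
    map_smul, LinearMap.smul_apply, h1, smul_zero, add_zero]
  module

omit [Finite F] in
lemma uTGL_isometry (v : ι → F) (l : F) (x y : ι → F) :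
    B ((uTGL B hA J ν v l : Matrix ι ι F) *ᵥ x) ((uTGL B hA J ν v l : Matrix ι ι F) *ᵥ y) = B x y := by
  rw [uTGL, Units.val_mul, ← mulVec_mulVec, ← mulVec_mulVec, sTGL_isometry, sTGL_isometry]

include hJ2 hJB in
omit [Finite F] in
lemma uTGL_comm {v : ι → F} (hv : B v (J *ᵥ v) = 0) (l : F) :
    (uTGL B hA J ν v l : Matrix ι ι F) * J = J * (uTGL B hA J ν v l : Matrix ι ι F) := by
  refine ext_mulVec fun x => ?_
  rw [← mulVec_mulVec, ← mulVec_mulVec, uTGL_mulVec hA hv, uTGL_mulVec hA hv, mulVec_sub,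
    mulVec_add, mulVec_smul, mulVec_smul, hJ2, hJB, hJB, hJ2, map_smul, smul_eq_mul]
  module

omit [Finite F] in
lemma conj_uTGL (g : GL ι F)
    (hg : ∀ x y, B ((g : Matrix ι ι F) *ᵥ x) ((g : Matrix ι ι F) *ᵥ y) = B x y) (v : ι → F) (l : F) :
    g * uTGL B hA J ν v l * g⁻¹ = sTGL B hA ((g : Matrix ι ι F) *ᵥ v) (ν * l) *
      sTGL B hA ((g : Matrix ι ι F) *ᵥ (J *ᵥ v)) (-l) := by
  rw [uTGL, ← conj_sTGL_iso B hA g hg, ← conj_sTGL_iso B hA g hg]
  group

omit [Finite F] in
lemma sTGL_comm {v w : ι → F} (h : B v w = 0) (c d : F) :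
    Commute (sTGL B hA v c) (sTGL B hA w d) := by
  have h' := conj_sTGL_iso B hA (sTGL B hA v c) (sTGL_isometry B hA v c) w d
  rw [sTGL_mulVec, show B w v = 0 by rw [alt_swap hA, h, neg_zero], mul_zero, zero_smul, add_zero,
    mul_inv_eq_iff_eq_mul] at h'
  exact h'

omit [Finite F] in
lemma pair_mulVec {r p : ι → F} (hrp : B r p = 0) (c : F) (x : ι → F) :
    ((sTGL B hA (r - p) c * sTGL B hA (r + p) (-c) : GL ι F) : Matrix ι ι F) *ᵥ x =
      x - (2 * c) • (B x p • r + B x r • p) := by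
  have hpr : B p r = 0 := by rw [alt_swap hA, hrp, neg_zero]
  simp only [Units.val_mul, ← mulVec_mulVec, sTGL_mulVec, map_add, map_sub, map_smul,
    LinearMap.add_apply, LinearMap.smul_apply, smul_eq_mul, alt_self hA, hrp, hpr]
  module

omit [Finite F] in
lemma pair_comm {r p q : ι → F} (hrp : B r p = 0) (hrq : B r q = 0) (d : F) :
    sTGL B hA (r - p) 1 * sTGL B hA (r + p) (-1) * (sTGL B hA (r - q) d * sTGL B hA (r + q) (-d)) =
      sTGL B hA r (8 * d * B q p) * ((sTGL B hA (r - q) d * sTGL B hA (r + q) (-d)) *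
      (sTGL B hA (r - p) 1 * sTGL B hA (r + p) (-1))) := by
  have hpr : B p r = 0 := by rw [alt_swap hA, hrp, neg_zero]
  have hqr : B q r = 0 := by rw [alt_swap hA, hrq, neg_zero]
  refine gl_ext fun x => ?_
  rw [Units.val_mul, ← mulVec_mulVec, pair_mulVec hA hrp, pair_mulVec hA hrq]
  conv_rhs => rw [Units.val_mul, ← mulVec_mulVec, Units.val_mul, ← mulVec_mulVec, sTGL_mulVec,
    pair_mulVec hA hrq, pair_mulVec hA hrp]
  simp only [map_add, map_sub, map_smul, LinearMap.add_apply, LinearMap.sub_apply,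
    LinearMap.smul_apply, smul_eq_mul, alt_self hA, hrp, hrq, hpr, hqr, alt_swap hA q p]
  module

variable {M : Subgroup (GL ι F)}
  (hMi : ∀ g ∈ M, ∀ x y, B ((g : Matrix ι ι F) *ᵥ x) ((g : Matrix ι ι F) *ᵥ y) = B x y)
  (hMJ : ∀ g : GL ι F,
    (∀ x y, B ((g : Matrix ι ι F) *ᵥ x) ((g : Matrix ι ι F) *ᵥ y) = B x y) →
    (g : Matrix ι ι F) * J = J * g → g ∈ M)

include hMJ hJ2 hJB in
omit [Finite F] in
lemma uTGL_mem {v : ι → F} (hv : B v (J *ᵥ v) = 0) (l : F) : uTGL B hA J ν v l ∈ M :=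
  hMJ _ (uTGL_isometry hA v l) (uTGL_comm hA hJ2 hJB hv l)

include hMi hMJ hA hB hν hJ2 hJB h2 in
/-- Full transvection group inside `M`. -/
lemma exists_centre (hn : 11 ≤ Fintype.card ι) {g : GL ι F} (hgM : g ∈ M)
    (hg1 : (g : Matrix ι ι F) * J ≠ J * g) (hg2 : (g : Matrix ι ι F) * J ≠ -(J * g)) :
    ∃ r₀ ∈ sCentre B hA M, r₀ ≠ 0 := by
  have hgi := hMi g hgM
  obtain ⟨v, y, hv, hy, hpy, hpJy, hne⟩ := exists_bad_pair hA hB hν hJ2 hJB h2 hn hg1 hg2
  set p := (g : Matrix ι ι F) *ᵥ v with hp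
  set a := (g : Matrix ι ι F) *ᵥ (J *ᵥ v) with ha
  have hpa : B p a = 0 := by rw [hp, ha, hgi, hv]
  have hu : ∀ l, sTGL B hA p (ν * l) * sTGL B hA a (-l) ∈ M := fun l => by
    rw [hp, ha, ← conj_uTGL hA g hgi]
    exact M.mul_mem (M.mul_mem hgM (uTGL_mem hA hJ2 hJB hMJ hv l)) (M.inv_mem hgM)
  set e1 := B a y with he1
  set e2 := B a (J *ᵥ y) with he2
  have he1' : e1 ≠ 0 := by rw [he1, alt_swap hA]; exact neg_ne_zero.2 hne
  set D := ν * e1 * e1 - e2 * e2 with hD
  have hD0 : D ≠ 0 := by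
    intro h
    refine hν (e2 / e1) ?_
    field_simp
    linear_combination -h
  set b := D⁻¹ • ((ν * e1) • y - e2 • J *ᵥ y) with hb
  set s := e2 • y - e1 • J *ᵥ y with hs
  have hab : B a b = 1 := by
    rw [hb, map_smul, map_sub, map_smul, map_smul, ← he1, ← he2, smul_eq_mul, smul_eq_mul,
      smul_eq_mul, ← hD, inv_mul_cancel₀ hD0]
  have hpb : B p b = 0 := by
    rw [hb, map_smul, map_sub, map_smul, map_smul, hpy, hpJy]; simp
  have hsa : B s a = 0 := by
    rw [alt_swap hA, hs, map_sub, map_smul, map_smul, ← he1, ← he2, smul_eq_mul, smul_eq_mul]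
    ring
  have hJyy : B (J *ᵥ y) y = 0 := by rw [alt_swap hA, hy, neg_zero]
  have hsb : B s b = 0 := by
    simp [hs, hb, alt_self hA, hy, hJyy]
  let hab' : B.IsAlt ∧ B a b = 1 := ⟨hA, hab⟩
  -- the decomposition of the unitary transvection at `y`
  have hTy : ∀ t : F, uTGL B hA J ν y (t / D) = sTGL B hA s (-(ν * t) / (D * D)) * emb hab' (loT t) := by
    intro t
    refine gl_ext fun x => ?_
    have hbs : B b s = 0 := by rw [alt_swap hA, hsb, neg_zero]
    rw [emb_loT, uTGL_mulVec hA hy, Units.val_mul, ← mulVec_mulVec, sTGL_mulVec, sTGL_mulVec]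
    simp only [map_add, map_smul, LinearMap.add_apply, LinearMap.smul_apply, hbs, smul_eq_mul,
      mul_zero, add_zero]
    simp only [hb, hs, map_smul, map_sub, smul_eq_mul]
    match_scalars
    all_goals field_simp
    all_goals rw [hD]
    all_goals ring
  -- commutation with the plane
  have hcom : ∀ (z : ι → F) (c : F) (h : Matrix.SpecialLinearGroup (Fin 2) F),
      B z a = 0 → B z b = 0 → Commute (emb hab' h) (sTGL B hA z c) := by
    intro z c h hza hzb
    have h' := conj_sTGL_iso B hA (emb hab' h) (emb_isometry hab' h) z c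
    rw [emb_fix hab' h hza hzb, mul_inv_eq_iff_eq_mul] at h'
    exact h'
  set H := M.comap (emb hab') with hH
  have hDmem : ∀ t c : F, loT t * upT c * (loT t)⁻¹ * (upT c)⁻¹ ∈ H := by
    intro t c
    rw [hH, Subgroup.mem_comap, map_mul, map_mul, map_mul, map_inv, map_inv]
    have hT : uTGL B hA J ν y (t / D) ∈ M := uTGL_mem hA hJ2 hJB hMJ hy _
    have h1 := M.mul_mem (M.mul_mem (M.mul_mem hT (hu c)) (M.inv_mem hT)) (M.inv_mem (hu c))
    have hps : B p s = 0 := by rw [hs, map_sub, map_smul, map_smul, hpy, hpJy]; simp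
    set T := sTGL B hA s (-(ν * t) / (D * D)) with hTdef
    set P := sTGL B hA p (ν * c) with hPdef
    rw [hTy t, ← hTdef, ← emb_upT hab' c] at h1
    have c1 : Commute T P := sTGL_comm hA (by rw [alt_swap hA, hps, neg_zero]) _ _
    have c2 : ∀ h, Commute (emb hab' h) T := fun h => hcom s _ h hsa hsb
    have c3 : ∀ h, Commute (emb hab' h) P := fun h => hcom p _ h hpa hpb
    have hk : Commute (emb hab' (loT t * upT c * (loT t)⁻¹ * (upT c)⁻¹)) (T * P) :=
      (c2 _).mul_right (c3 _)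
    simp only [map_mul, map_inv] at hk
    have e := comm_reduce c1 (c3 (loT t)) (c2 (upT c)) hk
    rwa [e] at h1
  have hUn : ∀ c : F, ∀ h ∈ H, upT c * h * (upT c)⁻¹ ∈ H := by
    intro c h hh
    rw [hH, Subgroup.mem_comap, map_mul, map_mul, map_inv]
    have h1 := M.mul_mem (M.mul_mem (hu c) hh) (M.inv_mem (hu c))
    rw [← emb_upT hab' c] at h1
    set P := sTGL B hA p (ν * c)
    have hk : Commute (emb hab' (upT c * h * (upT c)⁻¹)) P := hcom p _ _ hpa hpb
    rw [map_mul, map_mul, map_inv] at hk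
    have e := conj_reduce hk
    rwa [e] at h1
  have hLn : ∀ c : F, ∀ h ∈ H, loT c * h * (loT c)⁻¹ ∈ H := by
    intro c h hh
    rw [hH, Subgroup.mem_comap, map_mul, map_mul, map_inv]
    have hT : uTGL B hA J ν y (c / D) ∈ M := uTGL_mem hA hJ2 hJB hMJ hy _
    have h1 := M.mul_mem (M.mul_mem hT hh) (M.inv_mem hT)
    rw [hTy c] at h1
    set P := sTGL B hA s (-(ν * c) / (D * D))
    have hk : Commute (emb hab' (loT c * h * (loT c)⁻¹)) P := hcom s _ _ hsa hsb
    rw [map_mul, map_mul, map_inv] at hk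
    have e := conj_reduce hk
    rwa [e] at h1
  have : NeZero (2 : F) := ⟨h2⟩
  obtain ⟨j, hjH, hj⟩ := exists_neg_one hDmem hUn hLn
  -- an isotropic vector with a component in and outside the plane
  obtain ⟨k, hk, hka⟩ : ∃ k, (B a k = 0 ∧ B b k = 0) ∧
      k ∉ Submodule.span F (Set.range ![a, b, J *ᵥ a, J *ᵥ b]) := by
    obtain ⟨k, -, hk, hka⟩ := exists_iso_avoid hA hB hν hJ2 hJB h2 ![a, b]
      ![a, b, J *ᵥ a, J *ᵥ b] (by omega) (by omega)
    exact ⟨k, ⟨by rw [alt_swap hA, show B k a = 0 from hk 0, neg_zero],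
      by rw [alt_swap hA, show B k b = 0 from hk 1, neg_zero]⟩, hka⟩
  have hbspan : b ∉ Submodule.span F (Set.range ![J *ᵥ a, J *ᵥ b, b + k]) := by
    intro hc
    obtain ⟨c, hc⟩ := (Submodule.mem_span_range_iff_exists_fun F).1 hc
    simp only [Fin.sum_univ_three, Matrix.cons_val_zero, Matrix.cons_val_one, Matrix.cons_val] at hc
    by_cases h0 : c 2 = 0
    · rw [h0, zero_smul, add_zero] at hc
      have hJb : J *ᵥ b = (ν * c 0) • a + (ν * c 1) • b := by
        conv_lhs => rw [← hc]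
        simp [mulVec_add, mulVec_smul, hJ2, smul_smul, mul_comm]
      have hbb : B (J *ᵥ b) b = 0 := by
        simp [hb, mulVec_sub, mulVec_smul, hJ2, alt_self hA, hy, hJyy]
      rw [hJb] at hbb
      have hc0 : c 0 = 0 := by
        simpa [hab, alt_self hA, nu_ne_zero hν] using hbb
      rw [hc0, mul_zero, zero_smul, zero_add] at hJb
      have hb0 : b ≠ 0 := fun h => by rw [h, map_zero] at hab; exact zero_ne_one hab
      have := (eq_zero_of_pair hν hJ2 hb0 (x := -(ν * c 1)) (y := 1) (by rw [hJb]; module)).2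
      exact one_ne_zero this
    · refine hka ((Submodule.mem_span_range_iff_exists_fun F).2
        ⟨![0, (c 2)⁻¹ * (1 - c 2), -(c 2)⁻¹ * c 0, -(c 2)⁻¹ * c 1], ?_⟩)
      have hk' : c 2 • k = (1 - c 2) • b - c 0 • J *ᵥ a - c 1 • J *ᵥ b := by
        linear_combination (norm := module) hc
      rw [← inv_smul_smul₀ h0 k, hk']
      simp [Fin.sum_univ_four]
      module
  obtain ⟨z, hz, hzr, hzb⟩ := exists_iso hA hB hν hJ2 hJB h2 _ (by omega) hbspan
  have hzJa : B (J *ᵥ z) a = 0 := by rw [hJB, show B z (J *ᵥ a) = 0 from hzr 0, neg_zero]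
  have hzJb : B (J *ᵥ z) b = 0 := by rw [hJB, show B z (J *ᵥ b) = 0 from hzr 1, neg_zero]
  have hzk : B z k = -B z b := by
    have := hzr 2
    simp at this
    linear_combination this
  set q := B z b • a + (-B z a) • b with hq
  set r₀ := z - q with hr
  have hba : B b a = -1 := by rw [alt_swap hA a b, hab]
  have hr0 : r₀ ≠ 0 := by
    intro h
    rw [hr, sub_eq_zero] at h
    rw [h, hq] at hzk
    simp [hk.1, hk.2, hab, alt_self hA] at hzk
    exact hzb hzk
  have hra : B r₀ a = 0 := by simp [hr, hq, hba, alt_self hA]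
  have hrb : B r₀ b = 0 := by simp [hr, hq, hab, alt_self hA]
  -- `Z`
  have hZ : ∀ h ∈ H, ∀ c : F, sTGL B hA (r₀ - (emb hab' h : Matrix ι ι F) *ᵥ q) c *
      sTGL B hA (r₀ + (emb hab' h : Matrix ι ι F) *ᵥ q) (-c) ∈ M := by
    have hbase : ∀ c : F, sTGL B hA (r₀ - q) c * sTGL B hA (r₀ + q) (-c) ∈ M := by
      intro c
      have hj' : (emb hab' j : Matrix ι ι F) *ᵥ z = r₀ - q := by
        rw [emb_mulVec, embLin_apply, hr, hq, hj]
        simp
        module
      have hzeq : z = r₀ + q := by rw [hr]; abel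
      set l := c / ν
      have hT : uTGL B hA J ν z l ∈ M := uTGL_mem hA hJ2 hJB hMJ hz l
      have h1 := M.mul_mem (M.mul_mem (M.mul_mem hjH hT) (M.inv_mem hjH)) (M.inv_mem hT)
      rw [conj_uTGL hA _ (emb_isometry hab' j), emb_fix hab' j hzJa hzJb, hj', uTGL] at h1
      have hinv : (sTGL B hA z (ν * l))⁻¹ = sTGL B hA z (-(ν * l)) :=
        inv_eq_of_mul_eq_one_right (by rw [sTGL_mul, add_neg_cancel, sTGL_zero])
      rw [_root_.mul_inv_rev, mul_assoc, mul_inv_cancel_left, hinv, hzeq, mul_div_cancel₀ _ (nu_ne_zero hν)] at h1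
      exact h1
    intro h hh c
    have h1 := M.mul_mem (M.mul_mem hh (hbase c)) (M.inv_mem hh)
    rw [← conj_mul, conj_sTGL_iso B hA _ (emb_isometry hab' h),
      conj_sTGL_iso B hA _ (emb_isometry hab' h), Matrix.mulVec_sub _ r₀ q, Matrix.mulVec_add _ r₀ q,
      emb_fix hab' h hra hrb] at h1
    exact h1
  obtain ⟨h, hh, hmove⟩ := exists_moved hDmem hUn hLn (v0 := B z b) (v1 := -B z a) hzb
  set q' := (emb hab' h : Matrix ι ι F) *ᵥ q with hq'
  have hq'e : q' = (h 0 0 * B z b - h 0 1 * B z a) • a + (h 1 0 * B z b - h 1 1 * B z a) • b := by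
    rw [hq', emb_mulVec, embLin_apply, hq]
    simp [hab, hba, alt_self hA]
    module
  have hqq : B q' q ≠ 0 := by
    rw [hq'e, hq]
    simp [hab, hba, alt_self hA]
    intro hcon
    apply hmove
    linear_combination -hcon
  have hrq : B r₀ q = 0 := by rw [hq]; simp [hra, hrb]
  have hrq' : B r₀ q' = 0 := by rw [hq'e]; simp [hra, hrb]
  have hqr : B q r₀ = 0 := by rw [alt_swap hA, hrq, neg_zero]
  have hqr' : B q' r₀ = 0 := by rw [alt_swap hA, hrq', neg_zero]
  refine ⟨r₀, fun c => ?_, hr0⟩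
  set d := c / (8 * B q' q) with hd
  have h8 : (8 : F) ≠ 0 := by
    rw [show (8 : F) = 2 * 2 * 2 by norm_num]
    exact mul_ne_zero (mul_ne_zero h2 h2) h2
  have hZ1 := hZ 1 H.one_mem 1
  rw [map_one, Units.val_one, one_mulVec] at hZ1
  have hZ2 := hZ h hh d
  rw [← hq'] at hZ2
  have key := pair_comm hA hrq hrq' d
  rw [show 8 * d * B q' q = c by rw [hd]; field_simp] at key
  have hm := M.mul_mem (M.mul_mem hZ1 hZ2) (M.inv_mem (M.mul_mem hZ2 hZ1))
  rwa [key, mul_inv_cancel_right] at hm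

include hMi hMJ hA hB hν hJ2 hJB h2 in
/-- Such a subgroup contains every transvection. -/
theorem sTGL_mem_of_not_normalize (hn : 11 ≤ Fintype.card ι) {g : GL ι F} (hgM : g ∈ M)
    (hg1 : (g : Matrix ι ι F) * J ≠ J * g) (hg2 : (g : Matrix ι ι F) * J ≠ -(J * g))
    (v : ι → F) : v ∈ sCentre B hA M := by
  set X := sCentre B hA M
  obtain ⟨r₀, hr₀, hr0⟩ := exists_centre hA hB hν hJ2 hJB h2 hMi hMJ hn hgM hg1 hg2
  have step : ∀ x ∈ X, ∀ z, B z (J *ᵥ z) = 0 → B x z ≠ 0 →
      (ν * B x z) • z - B x (J *ᵥ z) • J *ᵥ z ∈ X := by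
    intro x hx z hz hxz
    set d := (ν * B x z) • z - B x (J *ᵥ z) • J *ᵥ z with hd
    have h1 : x + d ∈ X := by
      have := sCentre_map (uTGL_mem hA hJ2 hJB hMJ hz 1) (uTGL_isometry hA z 1) hx
      rw [uTGL_mulVec hA hz, mul_one, one_mul, add_sub_assoc] at this
      exact this
    have h3 : B (x + d) x ≠ 0 := by
      intro h
      have : ν * B x z * B x z - B x (J *ᵥ z) * B x (J *ᵥ z) = 0 := by
        rw [map_add, LinearMap.add_apply, alt_self hA, zero_add, alt_swap hA x d, neg_eq_zero, hd] at h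
        simpa [smul_eq_mul] using h
      refine hν (B x (J *ᵥ z) / B x z) ?_
      field_simp
      linear_combination -this
    simpa using sCentre_pencil h1 hx h3 (-1)
  obtain ⟨z, hz, -, hzr⟩ := exists_iso hA hB hν hJ2 hJB h2 (k := 0) ![] (v := r₀) (by omega)
    (by simpa [Matrix.range_empty] using hr0)
  have hrz : B r₀ z ≠ 0 := by rw [alt_swap hA]; exact neg_ne_zero.2 hzr
  set d := (ν * B r₀ z) • z - B r₀ (J *ᵥ z) • J *ᵥ z with hd
  have hdX : d ∈ X := step r₀ hr₀ z hz hrz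
  have hz0 : z ≠ 0 := fun h => hzr (by simp [h])
  have hd0 : d ≠ 0 := by
    intro h
    rw [hd, sub_eq_add_neg, ← neg_smul] at h
    exact mul_ne_zero (nu_ne_zero hν) hrz (eq_zero_of_pair hν hJ2 hz0 h).1
  have hdi : B d (J *ᵥ d) = 0 := by
    rw [hd]
    simp [mulVec_sub, mulVec_smul, hJ2, alt_self hA, hz,
      show B (J *ᵥ z) z = 0 by rw [alt_swap hA, hz, neg_zero]]
  -- moving to a neighbour
  have next' : ∀ x ∈ X, ∀ w, B w (J *ᵥ w) = 0 → B x w ≠ 0 → B x (J *ᵥ w) = 0 → w ∈ X := by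
    intro x hx w hw hxw hxJw
    have := sCentre_smul (step x hx w hw hxw) (ν * B x w)⁻¹
    rwa [hxJw, zero_smul, sub_zero, inv_smul_smul₀ (mul_ne_zero (nu_ne_zero hν) hxw)] at this
  have far : ∀ x ∈ X, B x (J *ᵥ x) = 0 → x ≠ 0 → ∀ w, B w (J *ᵥ w) = 0 → w ≠ 0 →
      ¬ InK J x w → w ∈ X := by
    intro x hx hxi hx0 w hw hw0 hK
    have hspan : x ∉ Submodule.span F (Set.range ![J *ᵥ x, J *ᵥ w, w - x]) := by
      intro hc
      obtain ⟨c, hc⟩ := (Submodule.mem_span_range_iff_exists_fun F).1 hc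
      simp only [Fin.sum_univ_three, Matrix.cons_val_zero, Matrix.cons_val_one, Matrix.cons_val] at hc
      obtain ⟨k1, k2, k3, k4⟩ := quad_indep hν hJ2 hx0 hK (x := -c 2 - 1) (y := c 0) (z := c 2)
        (w := c 1) (by linear_combination (norm := module) hc)
      rw [k3] at k1
      simp at k1
    obtain ⟨u, hu, hur, hux⟩ := exists_iso hA hB hν hJ2 hJB h2 _ (by omega) hspan
    have hux' : B x u ≠ 0 := by rw [alt_swap hA]; exact neg_ne_zero.2 hux
    have huX : u ∈ X := next' x hx u hu hux' (by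
      rw [sym hA hJB]; exact hur 0)
    refine next' u huX w hw ?_ (hur 1)
    have := hur 2
    simp only [Matrix.cons_val, map_sub, sub_eq_zero] at this
    rwa [this]
  have hiso : ∀ w, B w (J *ᵥ w) = 0 → w ∈ X := by
    intro w hw
    by_cases hw0 : w = 0
    · exact hw0 ▸ sCentre_zero
    by_cases hK : InK J d w
    · obtain ⟨u, hu, -, hus⟩ := exists_iso_avoid hA hB hν hJ2 hJB h2 ![] ![d, J *ᵥ d]
        (by omega) (by omega)
      have hnK : ¬ InK J d u := by
        rintro ⟨a, b, rfl⟩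
        exact hus (Submodule.add_mem _ (Submodule.smul_mem _ a (Submodule.subset_span ⟨0, rfl⟩))
          (Submodule.smul_mem _ b (Submodule.subset_span ⟨1, rfl⟩)))
      have hu0 : u ≠ 0 := fun h => hus (h ▸ Submodule.zero_mem _)
      refine far u (far d hdX hdi hd0 u hu hu0 hnK) hu hu0 w hw hw0 fun hc => hnK ?_
      obtain ⟨a, b, hab⟩ := hK
      obtain ⟨a', b', hab'⟩ := hc
      have hne : a' ≠ 0 ∨ b' ≠ 0 := by
        by_contra hc'
        push Not at hc'
        exact hw0 (by simp [hab', hc'.1, hc'.2])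
      exact inK_inv hν hJ2 hne ⟨a, b, hab' ▸ hab⟩
    · exact far d hdX hdi hd0 w hw hw0 hK
  by_cases hv : B v (J *ᵥ v) = 0
  · exact hiso v hv
  have hv0 : v ≠ 0 := fun h => hv (by simp [h])
  have hspan : v ∉ Submodule.span F (Set.range ![J *ᵥ v - v]) := by
    intro hc
    obtain ⟨c, hc⟩ := (Submodule.mem_span_range_iff_exists_fun F).1 hc
    simp at hc
    obtain ⟨k1, k2⟩ := eq_zero_of_pair hν hJ2 hv0 (x := -c 0 - 1) (y := c 0)
      (by linear_combination (norm := module) hc)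
    simp [k2] at k1
  obtain ⟨p, hp, hpr, hpv⟩ := exists_iso hA hB hν hJ2 hJB h2 _ (by omega) hspan
  have hpJ : B p (J *ᵥ v) = B p v := by
    have := hpr 0
    simpa [sub_eq_zero] using this
  set t := B v (J *ᵥ v) / (2 * B p v) with ht
  have ht0 : t ≠ 0 := div_ne_zero hv (mul_ne_zero h2 hpv)
  have hpX : t • p ∈ X := hiso _ (by simp [mulVec_smul, hp])
  have hrX : v - t • p ∈ X := hiso _ (by
    simp [mulVec_sub, mulVec_smul, hp, hpJ, sym hA hJB v p, ht]
    field_simp
    ring)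
  have := sCentre_pencil hpX hrX (by simp [alt_self hA, ht0, hpv]) 1
  rwa [one_smul, add_sub_cancel] at this

end main

end Cfsg.Lib.Classical.SympUnitaryField
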