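import Mathlib
import Cfsg.Agent.Lib.Classical.SympUnitaryField
import Cfsg.Agent.Lib.Classical.FieldSubalgebraTwo

/-!
The normaliser of a quadratic subfield with non-trivial adjoint involution is maximal in `spGL`.
-/

set_option autoImplicit false

namespace Cfsg.Lib.Classical.SympUnitaryField

open Matrix
open scoped MatrixGroups

theorem maximal {F : Type*} [Field F] [Fintype F] (m : ℕ) (hm : 7 ≤ m)
    (hodd : Odd (Fintype.card F))
    (K : Subalgebra F (Matrix (Fin m ⊕ Fin m) (Fin m ⊕ Fin m) F))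
    (hK : Cfsg.Geo.IsFieldSubalgebra 2 K) (hac : Cfsg.Geo.IsAdjointClosedFor (Cfsg.sympForm m F) K)
    (hnsa : ¬ Cfsg.Geo.IsSelfAdjointFor (Cfsg.sympForm m F) K) :
    Cfsg.Geo.IsMaximalIn (Cfsg.spGL m F) (Cfsg.Geo.subalgebraNormalizer K ⊓ Cfsg.spGL m F) := by
  have h2 : (2 : F) ≠ 0 := by
    refine Ring.two_ne_zero fun hc => ?_
    have := FiniteField.even_card_iff_char_two.1 hc
    rw [Nat.odd_iff] at hodd
    omega
  have : Nonempty (Fin m ⊕ Fin m) := ⟨Sum.inl ⟨0, by omega⟩⟩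
  obtain ⟨J, ν, hJK, hJJ, hν, hind, hrep⟩ := FieldSubalgebraTwo.exists_gen h2 hK
  have hA := sympBilin_isAlt F m
  have hB := sympBilin_nondegenerate F m
  set B := sympBilin F m with hBdef
  have hJ2 : ∀ x, J *ᵥ (J *ᵥ x) = ν • x := fun x => by
    rw [mulVec_mulVec, hJJ, smul_mulVec, one_mulVec]
  obtain ⟨v₀, hv₀⟩ := exists_ne (0 : Fin m ⊕ Fin m → F)
  obtain ⟨J', hJ'K, hadj⟩ := hac J hJK
  obtain ⟨c, d, rfl⟩ := hrep J' hJ'K
  have hadjB : ∀ u v, B (J *ᵥ u) v = c * B u v + d * B u (J *ᵥ v) := fun u v => by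
    rw [hBdef, sympBilin_apply, hadj, ← sympBilin_apply, add_mulVec, smul_mulVec, smul_mulVec,
      one_mulVec, map_add, map_smul, map_smul, smul_eq_mul, smul_eq_mul]
  have hkill : ∀ p q : F, (∀ u v, p * B u v + q * B u (J *ᵥ v) = 0) → p = 0 ∧ q = 0 := fun p q h =>
    eq_zero_of_pair hν hJ2 hv₀ (hB.2 _ fun u => by simpa using h u v₀)
  obtain ⟨hcd, hdd⟩ : c + d * c = 0 ∧ d * d - 1 = 0 := hkill _ _ fun u v => by
    have h := hadjB u (J *ᵥ v)
    have h3 := hadjB v u
    rw [alt_swap hA u (J *ᵥ v), alt_swap hA u v, alt_swap hA (J *ᵥ u) v] at h3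
    have h4 := hadjB u v
    linear_combination (-d) * h4 + h3
  have hd : d = -1 := by
    rcases mul_self_eq_one_iff.1 (sub_eq_zero.1 hdd) with rfl | rfl
    · exfalso
      have hc : c = 0 := (mul_eq_zero.1 (show (2 : F) * c = 0 by linear_combination hcd)).resolve_left h2
      refine hnsa fun k hk u v => ?_
      obtain ⟨a, b, rfl⟩ := hrep k hk
      simp only [← sympBilin_apply, ← hBdef, add_mulVec, smul_mulVec, one_mulVec, map_add, map_smul,
        LinearMap.add_apply, LinearMap.smul_apply, hadjB, hc, zero_mul, zero_add, one_mul]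
    · rfl
  subst hd
  have hc : c = 0 := by
    obtain ⟨h5, h6⟩ := hkill (c * c) (-2 * c) fun u v => by
      have h := hadjB (J *ᵥ u) v
      have e1 := hadjB u v
      have e2 := hadjB u (J *ᵥ v)
      simp only [hJ2, map_smul, LinearMap.smul_apply, smul_eq_mul] at h e2
      linear_combination -h - c * e1 + e2
    simpa using h5
  subst hc
  have hJB : ∀ x y, B (J *ᵥ x) y = -B x (J *ᵥ y) := fun x y => by
    rw [hadjB]; ring
  have hn : 11 ≤ Fintype.card (Fin m ⊕ Fin m) := by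
    rw [Fintype.card_sum, Fintype.card_fin]; omega
  have hN := fun g => FieldSubalgebraTwo.normalizer_gen h2 hJK hJJ hν hind hrep g
  refine ⟨lt_of_le_of_ne inf_le_right fun he => ?_, fun M hNM hMS => ?_⟩
  · have ht : sTGL B hA v₀ 1 ∈ Cfsg.Geo.subalgebraNormalizer K :=
      (he.symm ▸ sTGL_mem_spGL v₀ 1 : sTGL B hA v₀ 1 ∈
        Cfsg.Geo.subalgebraNormalizer K ⊓ Cfsg.spGL m F).1
    obtain ⟨x, hx⟩ : ∃ x, B x v₀ ≠ 0 := by
      by_contra h
      push Not at h
      exact hv₀ (hB.2 v₀ h)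
    rcases (hN _).1 ht with h | h
    · have := congrArg (· *ᵥ x) h
      simp only [← mulVec_mulVec, sTGL_mulVec, mulVec_add, mulVec_smul, one_mul, add_right_inj] at this
      have := (eq_zero_of_pair hν hJ2 hv₀ (x := B (J *ᵥ x) v₀) (y := -B x v₀)
        (by rw [this]; module)).2
      exact hx (by simpa using this)
    · have := congrArg (· *ᵥ v₀) h
      simp only [neg_mulVec, ← mulVec_mulVec, sTGL_mulVec, mulVec_add, mulVec_smul, one_mul,
        alt_self hA, zero_smul, add_zero] at this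
      have := (eq_zero_of_pair hν hJ2 hv₀ (x := B (J *ᵥ v₀) v₀) (y := 2)
        (by linear_combination (norm := module) this)).2
      exact h2 this
  · by_cases hex : ∀ g ∈ M, g ∈ Cfsg.Geo.subalgebraNormalizer K
    · exact Or.inl (le_antisymm (fun g hg => ⟨hex g hg, hMS hg⟩) hNM)
    · push Not at hex
      obtain ⟨g, hgM, hgN⟩ := hex
      refine Or.inr (le_antisymm hMS (spGL_le_of_sTGL_mem fun v => ?_))
      have hg1 : (g : Matrix (Fin m ⊕ Fin m) (Fin m ⊕ Fin m) F) * J ≠ J * (g : Matrix (Fin m ⊕ Fin m) (Fin m ⊕ Fin m) F) := fun h => hgN ((hN g).2 (Or.inl h))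
      have hg2 : (g : Matrix (Fin m ⊕ Fin m) (Fin m ⊕ Fin m) F) * J ≠ -(J * (g : Matrix (Fin m ⊕ Fin m) (Fin m ⊕ Fin m) F)) := fun h => hgN ((hN g).2 (Or.inr h))
      exact sTGL_mem_of_not_normalize hA hB hν hJ2 hJB h2
        (fun g hg => mem_spGL_iff.1 (hMS hg))
        (fun g hgi hgJ => hNM ⟨(hN g).2 (Or.inl hgJ), mem_spGL_iff.2 hgi⟩) hn hgM hg1 hg2 v

end Cfsg.Lib.Classical.SympUnitaryField
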