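import Mathlib
import Cfsg.Agent.Lib.Classical.SymplecticCentre

/-!
Transitivity of symplectic groups on nondegenerate subspaces of a given dimension.
-/

set_option autoImplicit false

namespace Cfsg.Lib.Classical

open Module

variable {F V : Type*} [Field F] [AddCommGroup V] [Module F V] [FiniteDimensional F V]
  {B : LinearMap.BilinForm F V}

lemma NondegOn.inf_perp (hA : B.IsAlt) {U A : Submodule F V} (hU : NondegOn B U) (hUA : U ≤ A)
    (hAn : NondegOn B A) : NondegOn B (A ⊓ Cfsg.Lib.Classical.perp B U) := by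
  rintro w ⟨hwA, hwU⟩ hw0
  obtain ⟨z, hz, hwz⟩ := hAn w hwA hw0
  obtain ⟨a, ha, b, hb, hab⟩ := Submodule.mem_sup.1
    ((hU.sup_perp hA).sup_eq_top ▸ Submodule.mem_top : z ∈ U ⊔ Cfsg.Lib.Classical.perp B U)
  have hbA : b ∈ A := by
    have h1 : b = z - a := by rw [← hab]; abel
    rw [h1]
    exact A.sub_mem hz (hUA ha)
  refine ⟨b, ⟨hbA, hb⟩, ?_⟩
  have h2 : B w a = 0 := by rw [alt_swap hA a w, hwU a ha, neg_zero]
  rw [← hab, map_add, h2, zero_add] at hwz
  exact hwz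

lemma NondegOn.inf_perp_ne_bot (hA : B.IsAlt) {U A : Submodule F V} (hU : NondegOn B U)
    (hUA : U < A) : A ⊓ Cfsg.Lib.Classical.perp B U ≠ ⊥ := by
  intro h
  refine hUA.not_ge fun z hz => ?_
  obtain ⟨a, ha, b, hb, hab⟩ := Submodule.mem_sup.1
    ((hU.sup_perp hA).sup_eq_top ▸ Submodule.mem_top : z ∈ U ⊔ Cfsg.Lib.Classical.perp B U)
  have hbA : b ∈ A := by
    have h1 : b = z - a := by rw [← hab]; abel
    rw [h1]
    exact A.sub_mem hz (hUA.le ha)
  have : b ∈ A ⊓ Cfsg.Lib.Classical.perp B U := ⟨hbA, hb⟩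
  rw [h, Submodule.mem_bot] at this
  rw [← hab, this, add_zero]
  exact ha

omit [FiniteDimensional F V] in
lemma NondegOn.exists_pair {W : Submodule F V} (hW : NondegOn B W) (h0 : W ≠ ⊥) :
    ∃ u ∈ W, ∃ v ∈ W, B u v = 1 := by
  obtain ⟨u, hu, hu0⟩ := W.exists_mem_ne_zero_of_ne_bot h0
  obtain ⟨z, hz, hne⟩ := hW u hu hu0
  exact ⟨u, hu, (B u z)⁻¹ • z, W.smul_mem _ hz, by
    rw [map_smul, smul_eq_mul, inv_mul_cancel₀ hne]⟩

omit [FiniteDimensional F V] in
lemma NondegOn.sup_pair (hA : B.IsAlt) {U : Submodule F V} (hU : NondegOn B U) {u v : V}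
    (hu : u ∈ Cfsg.Lib.Classical.perp B U) (hv : v ∈ Cfsg.Lib.Classical.perp B U)
    (huv : B u v = 1) : NondegOn B (U ⊔ Submodule.span F {u, v}) := by
  intro w hw hw0
  obtain ⟨a, ha, b, hb, rfl⟩ := Submodule.mem_sup.1 hw
  by_cases hb0 : b = 0
  · subst hb0
    simp only [add_zero] at hw0 ⊢
    obtain ⟨z, hz, hne⟩ := hU a ha hw0
    exact ⟨z, Submodule.mem_sup_left hz, hne⟩
  obtain ⟨c, d, rfl⟩ := Submodule.mem_span_pair.1 hb
  have hau : B a u = 0 := hu a ha
  have hav : B a v = 0 := hv a ha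
  by_cases hd : d = 0
  · refine ⟨v, Submodule.mem_sup_right (Submodule.subset_span (by simp)), ?_⟩
    have hc : c ≠ 0 := fun hc => hb0 (by simp [hc, hd])
    simp [hav, hd, huv, hc]
  · refine ⟨u, Submodule.mem_sup_right (Submodule.subset_span (by simp)), ?_⟩
    simp [hau, alt_self hA, alt_swap hA u v, huv, hd]

omit [FiniteDimensional F V] in
lemma NondegOn.map {U : Submodule F V} (hU : NondegOn B U) {h : V ≃ₗ[F] V}
    (hh : h ∈ isoGroup B) : NondegOn B (U.map h.toLinearMap) := by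
  rintro _ ⟨u, hu, rfl⟩ h0
  have hu0 : u ≠ 0 := fun e => h0 (by simp [e])
  obtain ⟨z, hz, hne⟩ := hU u hu hu0
  refine ⟨h z, ⟨z, hz, rfl⟩, ?_⟩
  change B (h u) (h z) ≠ 0
  rwa [mem_isoGroup.1 hh]

/-- A subspace `A` can be moved onto `C` by transvections centred in `E`. -/
theorem exists_move_subspace (hA : B.IsAlt) {E A C : Submodule F V} (hE : NondegOn B E)
    (hAE : A ≤ E) (hCE : C ≤ E) (hAn : NondegOn B A) (hCn : NondegOn B C)
    (hd : finrank F A = finrank F C) :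
    ∃ h ∈ tvClosure B hA E, A.map h.toLinearMap = C := by
  suffices H : ∀ k : ℕ, ∃ U : Submodule F V, U ≤ A ∧ NondegOn B U ∧
      (U = A ∨ k ≤ finrank F U) ∧ ∃ h ∈ tvClosure B hA E, U.map h.toLinearMap ≤ C by
    obtain ⟨U, hUA, -, hU', h, hh, hle⟩ := H (finrank F A)
    have hUeq : U = A := hU'.elim id fun hk => Submodule.eq_of_le_of_finrank_le hUA hk
    subst hUeq
    refine ⟨h, hh, Submodule.eq_of_le_of_finrank_le hle ?_⟩
    rw [← hd]
    exact (LinearEquiv.finrank_eq (h.submoduleMap U)).le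
  intro k
  induction k with
  | zero =>
    exact ⟨⊥, bot_le, fun w hw h0 => absurd ((Submodule.mem_bot F).1 hw) h0,
      Or.inr (Nat.zero_le _), 1, one_mem _, by simp⟩
  | succ k ih =>
    obtain ⟨U, hUA, hUn, hor, h, hh, hle⟩ := ih
    rcases hor with rfl | hk
    · exact ⟨U, le_rfl, hUn, Or.inl rfl, h, hh, hle⟩
    by_cases hUA' : U = A
    · exact ⟨U, hUA, hUn, Or.inl hUA', h, hh, hle⟩
    have hhi := tvClosure_le_isoGroup B hA E hh
    set U₂ := U.map h.toLinearMap with hU₂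
    have hU₂n : NondegOn B U₂ := hUn.map hhi
    have hUA'' : U < A := lt_of_le_of_ne hUA hUA'
    have hlt₂ : U₂ < C := by
      refine lt_of_le_of_ne hle fun he => ?_
      have h1 : finrank F U₂ = finrank F U := (LinearEquiv.finrank_eq (h.submoduleMap U)).symm
      have h2 := Submodule.finrank_lt_finrank_of_lt hUA''
      rw [← h1, he] at h2
      omega
    obtain ⟨u, hu, v, hv, huv⟩ :=
      (hUn.inf_perp hA hUA hAn).exists_pair (hUn.inf_perp_ne_bot hA hUA'')
    obtain ⟨u', hu', v', hv', huv'⟩ :=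
      (hU₂n.inf_perp hA hle hCn).exists_pair (hU₂n.inf_perp_ne_bot hA hlt₂)
    set W' := E ⊓ Cfsg.Lib.Classical.perp B U₂ with hW'
    have hW'n : NondegOn B W' := hU₂n.inf_perp hA (hle.trans hCE) hE
    have hperp : ∀ x ∈ Cfsg.Lib.Classical.perp B U, h x ∈ Cfsg.Lib.Classical.perp B U₂ := by
      rintro x hx _ ⟨y, hy, rfl⟩
      change B (h y) (h x) = 0
      rw [mem_isoGroup.1 hhi]
      exact hx y hy
    obtain ⟨m, hm, hmu, hmv⟩ := exists_move_pair B hA W' hW'n
      (u := h u) (v := h v) (u' := u') (v' := v')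
      ⟨tvClosure_mem B hA E hh (hAE hu.1), hperp u hu.2⟩
      ⟨tvClosure_mem B hA E hh (hAE hv.1), hperp v hv.2⟩
      ⟨hCE hu'.1, hu'.2⟩ ⟨hCE hv'.1, hv'.2⟩ (by rw [mem_isoGroup.1 hhi]; exact huv) huv'
    have hmE : m ∈ tvClosure B hA E :=
      tvClosure_le B hA W' (fun v hv c => sTE_mem_tvClosure B hA E hv.1 c) hm
    refine ⟨U ⊔ Submodule.span F {u, v}, sup_le hUA (Submodule.span_le.2 ?_),
      hUn.sup_pair hA hu.2 hv.2 huv, Or.inr ?_, m * h, mul_mem hmE hh, ?_⟩
    · simp [Set.insert_subset_iff, hu.1, hv.1]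
    · have hlt : U < U ⊔ Submodule.span F {u, v} := by
        refine lt_of_le_of_ne le_sup_left fun he => ?_
        have hmem : u ∈ U := he ▸ Submodule.mem_sup_right (Submodule.subset_span (by simp))
        have h0 : u = 0 := Submodule.disjoint_def.1 (hUn.sup_perp hA).disjoint u hmem hu.2
        simp [h0] at huv
      have := Submodule.finrank_lt_finrank_of_lt hlt
      omega
    · rintro _ ⟨x, hx, rfl⟩
      obtain ⟨a, ha, b, hb, rfl⟩ := Submodule.mem_sup.1 hx
      obtain ⟨c, d, rfl⟩ := Submodule.mem_span_pair.1 hb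
      have hfix : m (h a) = h a := tvClosure_fix B hA W' hm fun w hw => hw.2 _ ⟨a, ha, rfl⟩
      simp [LinearEquiv.mul_apply, hfix, hmu, hmv]
      exact C.add_mem (hle ⟨a, ha, rfl⟩) (C.add_mem (C.smul_mem c hu'.1) (C.smul_mem d hv'.1))

end Cfsg.Lib.Classical
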