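import Mathlib
import Cfsg.Agent.Lib.Classical.SymplecticMove
import Cfsg.Agent.Lib.Classical.SubspaceStab

/-!
Maximality of the stabiliser of a nondegenerate orthogonal decomposition in the symplectic group.
-/

set_option autoImplicit false

namespace Cfsg.Lib.Classical

open Matrix
open scoped MatrixGroups

lemma exists_components {F V : Type*} [Field F] [AddCommGroup V] [Module F V] {κ : Type*}
    [Fintype κ] [DecidableEq κ] (D : κ → Submodule F V) (x : V) (hx : x ∈ iSup D) :
    ∃ c : κ → V, (∀ i, c i ∈ D i) ∧ ∑ i, c i = x := by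
  induction hx using Submodule.iSup_induction' with
  | mem i y hy =>
    refine ⟨Pi.single i y, fun j => ?_, by simp⟩
    rcases eq_or_ne j i with rfl | h
    · simpa using hy
    · simp [h]
  | zero => exact ⟨0, fun i => Submodule.zero_mem _, by simp⟩
  | add y z _ _ hy hz =>
    obtain ⟨a, ha, rfl⟩ := hy
    obtain ⟨b, hb, rfl⟩ := hz
    exact ⟨a + b, fun i => (D i).add_mem (ha i) (hb i), by simp [Finset.sum_add_distrib]⟩

lemma pair_orth_sum {F V : Type*} [Field F] [AddCommGroup V] [Module F V] {κ : Type*}
    [Fintype κ] [DecidableEq κ] (B : LinearMap.BilinForm F V) (D : κ → Submodule F V)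
    (horth : ∀ i j, i ≠ j → ∀ u ∈ D i, ∀ v ∈ D j, B u v = 0) (c d : κ → V)
    (hc : ∀ i, c i ∈ D i) (hd : ∀ i, d i ∈ D i) :
    B (∑ i, c i) (∑ i, d i) = ∑ i, B (c i) (d i) := by
  rw [map_sum]
  refine Finset.sum_congr rfl fun i _ => ?_
  rw [map_sum, LinearMap.sum_apply,
    Finset.sum_eq_single i (fun j _ hji => horth j i hji _ (hc j) _ (hd i))
      (fun h => absurd (Finset.mem_univ i) h)]

variable {ι : Type} [Fintype ι] [DecidableEq ι] {F : Type*} [Field F]
  {B : LinearMap.BilinForm F (ι → F)}

/-- Main maximality argument. -/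
theorem iso_le_of_gt_decomp (hA : B.IsAlt) (hB : B.Nondegenerate) {t k : ℕ}
    (D : Fin t → Submodule F (ι → F)) (hnd : ∀ i, NondegOn B (D i))
    (horth : ∀ i j, i ≠ j → ∀ u ∈ D i, ∀ v ∈ D j, B u v = 0) (hsup : iSup D = ⊤)
    (hk : 0 < k) (hdim : ∀ i, Module.finrank F (D i) = k)
    (hex : k ≠ 2 ∨ ∃ μ : F, μ ≠ 0 ∧ μ ≠ 1) (M : Subgroup (GL ι F))
    (hM : ∀ h : GL ι F,
      (∀ x y, B ((h : Matrix ι ι F) *ᵥ x) ((h : Matrix ι ι F) *ᵥ y) = B x y) →
      h ∈ Cfsg.Geo.decompositionStabilizer D → h ∈ M)
    (g : GL ι F)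
    (hgi : ∀ x y, B ((g : Matrix ι ι F) *ᵥ x) ((g : Matrix ι ι F) *ᵥ y) = B x y)
    (hg : g ∈ M) (hgn : g ∉ Cfsg.Geo.decompositionStabilizer D) (w₀ : GL ι F)
    (hw₀ : ∀ x y, B ((w₀ : Matrix ι ι F) *ᵥ x) ((w₀ : Matrix ι ι F) *ᵥ y) = B x y) : w₀ ∈ M := by
  classical
  set X := sCentre B hA M with hX
  have hcs : ∀ y, ∃ c : Fin t → (ι → F), (∀ i, c i ∈ D i) ∧ ∑ i, c i = y := fun y =>
    exists_components D y (hsup ▸ Submodule.mem_top)
  have hdis : ∀ i j, i ≠ j → ∀ v, v ∈ D i → v ∈ D j → v = 0 := by
    intro i j hij v hi hj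
    by_contra h0
    obtain ⟨z, hz, hne⟩ := hnd j v hj h0
    exact hne (horth i j hij v hi z hz)
  -- transvections with centre in a summand
  have hDX : ∀ i, ∀ v ∈ D i, v ∈ X := by
    intro i v hv c
    refine hM _ (fun x y => sTGL_isometry B hA v c x y) ⟨1, fun j => ?_⟩
    rw [Equiv.Perm.one_apply]
    have hmap : ∀ u ∈ D j, (sTGL B hA v c : Matrix ι ι F) *ᵥ u ∈ D j := by
      intro u hu
      rw [sTGL_mulVec]
      rcases eq_or_ne j i with rfl | hji
      · exact (D j).add_mem hu ((D j).smul_mem _ hv)
      · simp [horth j i hji u hu v hv, hu]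
    refine le_antisymm ?_ fun u hu => ?_
    · rintro _ ⟨u, hu, rfl⟩
      rw [Matrix.toLin'_apply]
      exact hmap u hu
    · have hinv : sTGL B hA v c ∈ Cfsg.Geo.subspaceStabilizer (D j) := map_eq_of_maps_to hmap
      refine ⟨(((sTGL B hA v c)⁻¹ : GL ι F) : Matrix ι ι F) *ᵥ u, ?_, ?_⟩
      · exact ((mem_subspaceStabilizer.1 hinv) _).2 (by rw [mulVec_inv_mulVec]; exact hu)
      · rw [Matrix.toLin'_apply, mulVec_inv_mulVec]
  let P : Finset (Fin t) → Prop := fun S =>
    ∀ c : Fin t → (ι → F), (∀ i, c i ∈ D i) → (∀ i, c i ≠ 0 ↔ i ∈ S) → ∑ i, c i ∈ X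
  -- one vector of a given support gives all
  have hc_step : ∀ c : Fin t → (ι → F), (∀ i, c i ∈ D i) → ∑ i, c i ∈ X →
      P (Finset.univ.filter fun i => c i ≠ 0) := by
    intro c hcD hcX d hdD hdS
    have hdS' : ∀ i, d i ≠ 0 ↔ c i ≠ 0 := fun i => by simp [hdS i]
    suffices H : ∀ T : Finset (Fin t), ∑ i, (if i ∈ T then d i else c i) ∈ X by
      simpa using H Finset.univ
    intro T
    induction T using Finset.induction_on with
    | empty => simpa using hcX
    | @insert i T hiT ih =>
      by_cases hci : c i = 0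
      · have hdi : d i = 0 := by
          by_contra h
          exact (hdS' i).1 h hci
        convert ih using 1
        refine Finset.sum_congr rfl fun j _ => ?_
        rcases eq_or_ne j i with rfl | hj
        · simp [hiT, hci, hdi]
        · simp [hj]
      set e : Fin t → (ι → F) := fun j => if j ∈ T then d j else c j with he
      have heD : ∀ j, e j ∈ D j := fun j => by
        rw [he]
        dsimp only
        split_ifs
        · exact hdD j
        · exact hcD j
      set r := ∑ j ∈ Finset.univ.erase i, e j with hr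
      have h1 : ∑ j, e j = c i + r := by
        rw [← Finset.add_sum_erase _ _ (Finset.mem_univ i), hr]
        congr 1
        simp [he, hiT]
      have h2 : ∑ j, (if j ∈ insert i T then d j else c j) = d i + r := by
        rw [← Finset.add_sum_erase _ _ (Finset.mem_univ i), hr]
        congr 1
        · simp
        · refine Finset.sum_congr rfl fun j hj => ?_
          simp [he, Finset.ne_of_mem_erase hj]
      rw [h2]
      refine sCentre_change (hnd i) (hDX i) (hcD i) (hdD i) hci ((hdS' i).2 hci) ?_ (h1 ▸ ih)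
      intro u hu
      rw [hr, map_sum, LinearMap.sum_apply]
      exact Finset.sum_eq_zero fun j hj =>
        horth j i (Finset.ne_of_mem_erase hj) _ (heD j) u hu
  -- some member of `X` has support at least two
  obtain ⟨c, hcD, hcX, j, l, hjl, hcj, hcl⟩ : ∃ c : Fin t → (ι → F), (∀ i, c i ∈ D i) ∧
      ∑ i, c i ∈ X ∧ ∃ j l, j ≠ l ∧ c j ≠ 0 ∧ c l ≠ 0 := by
    by_contra hcon
    push Not at hcon
    have hone : ∀ i, ∃ j, (D i).map (Matrix.toLin' (g : Matrix ι ι F)) ≤ D j := by
      intro i
      have hne : D i ≠ ⊥ := fun h => by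
        have := hdim i
        rw [h, finrank_bot] at this
        omega
      obtain ⟨p, hp, hp0⟩ := (D i).exists_mem_ne_zero_of_ne_bot hne
      have hgX : ∀ u ∈ D i, (g : Matrix ι ι F) *ᵥ u ∈ X := fun u hu =>
        sCentre_map hg hgi (hDX i u hu)
      obtain ⟨c, hc, hcp⟩ := hcs ((g : Matrix ι ι F) *ᵥ p)
      have hex1 : ∃ j, c j ≠ 0 := by
        by_contra! hall
        exact mulVec_ne_zero g hp0 (by rw [← hcp]; simp [hall])
      obtain ⟨j, hj⟩ := hex1
      refine ⟨j, ?_⟩
      rintro _ ⟨q, hq, rfl⟩
      rw [Matrix.toLin'_apply]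
      obtain ⟨d, hd, hdq⟩ := hcs ((g : Matrix ι ι F) *ᵥ q)
      have hc0 : ∀ m, m ≠ j → c m = 0 := fun m hm =>
        hcon c hc (hcp ▸ hgX p hp) j m hm.symm hj
      have hd0 : ∀ m, m ≠ j → d m = 0 := by
        intro m hm
        by_contra hdm
        have hdj : d j = 0 := hcon d hd (hdq ▸ hgX q hq) m j hm hdm
        have hs : ∑ i, (c + d) i = (g : Matrix ι ι F) *ᵥ (p + q) := by
          rw [mulVec_add, ← hcp, ← hdq]
          simp [Finset.sum_add_distrib]
        have := hcon (c + d) (fun i => (D i).add_mem (hc i) (hd i))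
          (hs ▸ hgX _ ((D i).add_mem hp hq)) j m hm.symm (by simp [hdj, hj])
        simp [hc0 m hm, hdm] at this
      rw [← hdq, Finset.sum_eq_single j (fun m _ hm => hd0 m hm)
        (fun h => absurd (Finset.mem_univ j) h)]
      exact hd j
    choose σ hσ using hone
    have hinj : Function.Injective (Matrix.toLin' (g : Matrix ι ι F)) := fun x y hxy => by
      rw [Matrix.toLin'_apply, Matrix.toLin'_apply] at hxy
      exact (mulVec_inj g).1 hxy
    have heq : ∀ i, (D i).map (Matrix.toLin' (g : Matrix ι ι F)) = D (σ i) := fun i =>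
      Submodule.eq_of_le_of_finrank_eq (hσ i) (by
        rw [← LinearEquiv.finrank_eq (Submodule.equivMapOfInjective _ hinj (D i)), hdim, hdim])
    have hσinj : Function.Injective σ := fun a b hab => by
      by_contra hne
      have hDab : D a = D b := Submodule.map_injective_of_injective hinj (by rw [heq, heq, hab])
      have hne' : D a ≠ ⊥ := fun h => by
        have := hdim a
        rw [h, finrank_bot] at this
        omega
      obtain ⟨p, hp, hp0⟩ := (D a).exists_mem_ne_zero_of_ne_bot hne'
      exact hp0 (hdis a b hne p hp (hDab ▸ hp))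
    exact hgn ⟨Equiv.ofBijective σ (Finite.injective_iff_bijective.1 hσinj), fun i => heq i⟩
  -- shrink to support two
  have hPjl : P {j, l} := by
    obtain ⟨z, hz, hjz⟩ := hnd j (c j) (hcD j) hcj
    set yj := (B (c j) z)⁻¹ • z with hyj
    have hBj : B (c j) yj = 1 := by
      rw [hyj, map_smul, smul_eq_mul, inv_mul_cancel₀ hjz]
    have hyj0 : yj ≠ 0 := fun h => by simp [h] at hBj
    have hyjc : c j - yj ≠ 0 := fun h => by
      rw [sub_eq_zero] at h
      rw [← h, alt_self hA] at hBj
      exact zero_ne_one hBj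
    obtain ⟨yl, hylD, hyl0, hylc, hBl⟩ : ∃ yl ∈ D l, yl ≠ 0 ∧ c l - yl ≠ 0 ∧ B (c l) yl = 0 := by
      by_cases hμ : ∃ μ : F, μ ≠ 0 ∧ μ ≠ 1
      · obtain ⟨μ, hμ0, hμ1⟩ := hμ
        refine ⟨μ • c l, (D l).smul_mem μ (hcD l), smul_ne_zero hμ0 hcl, fun h => ?_,
          by simp [alt_self hA]⟩
        have : (1 - μ) • c l = 0 := by rw [sub_smul, one_smul, h]
        exact hcl ((smul_eq_zero.1 this).resolve_left (sub_ne_zero.2 (Ne.symm hμ1)))
      · obtain ⟨p, hp, hpne⟩ := hnd l (c l) (hcD l) hcl
        have hk1 : k ≠ 1 := by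
          intro hk1
          obtain ⟨a, ha⟩ := (finrank_eq_one_iff' (V := D l)).1 ((hdim l).trans hk1)
          obtain ⟨s, hs⟩ := ha.2 ⟨c l, hcD l⟩
          obtain ⟨s', hs'⟩ := ha.2 ⟨p, hp⟩
          apply hpne
          rw [← show (s • a : D l).1 = c l from congrArg Subtype.val hs,
            ← show (s' • a : D l).1 = p from congrArg Subtype.val hs']
          simp [alt_self hA]
        have hk2 : k ≠ 2 := hex.resolve_right hμ
        have hspan : Module.finrank F (Submodule.span F ({c l, p} : Set (ι → F))) ≤ 2 := by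
          have h3 := finrank_span_finset_le_card (R := F) ({c l, p} : Finset (ι → F))
          rw [Finset.coe_insert, Finset.coe_singleton] at h3
          exact h3.trans Finset.card_le_two
        obtain ⟨z, hzD, hz⟩ : ∃ z ∈ D l, z ∉ Submodule.span F ({c l, p} : Set (ι → F)) := by
          by_contra! hall
          have := Submodule.finrank_mono (show D l ≤ _ from hall)
          rw [hdim] at this
          omega
        set s := B (c l) z / B (c l) p with hs
        have hnot : ∀ a : F, z - s • p ≠ a • c l := fun a h => hz (by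
          rw [sub_eq_iff_eq_add.1 h]
          exact Submodule.add_mem _ (Submodule.smul_mem _ _ (Submodule.subset_span (by simp)))
            (Submodule.smul_mem _ _ (Submodule.subset_span (by simp))))
        refine ⟨z - s • p, (D l).sub_mem hzD ((D l).smul_mem _ hp), fun h => hnot 0 (by simp [h]),
          fun h => hnot 1 (by rw [one_smul, sub_eq_zero.1 h]), ?_⟩
        rw [map_sub, map_smul, smul_eq_mul, hs, div_mul_cancel₀ _ hpne, sub_self]
    set y : Fin t → (ι → F) := fun m => if m = j then yj else if m = l then yl else c m with hy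
    have hyD : ∀ m, y m ∈ D m := by
      intro m
      rw [hy]
      dsimp only
      split_ifs with h1 h2
      · exact h1 ▸ (D j).smul_mem _ hz
      · exact h2 ▸ hylD
      · exact hcD m
    have hyX : ∑ m, y m ∈ X := by
      refine hc_step c hcD hcX y hyD fun m => ?_
      rw [hy]
      dsimp only
      split_ifs with h1 h2
      · simp [h1, hyj0, hcj]
      · simp [h2, hyl0, hcl]
      · simp
    have hBxy : B (∑ m, c m) (∑ m, y m) = 1 := by
      rw [pair_orth_sum B D horth c y hcD hyD,
        Finset.sum_eq_single j ?_ (fun h => absurd (Finset.mem_univ j) h)]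
      · simp [hy, hBj]
      · intro m _ hm
        rw [hy]
        dsimp only
        rw [if_neg hm]
        split_ifs with h2
        · rw [h2, hBl]
        · exact alt_self hA _
    have hdX := sCentre_pencil hcX hyX (by rw [hBxy]; exact one_ne_zero) (-1)
    rw [neg_smul, one_smul, ← sub_eq_add_neg, ← Finset.sum_sub_distrib] at hdX
    have := hc_step (fun m => c m - y m) (fun m => (D m).sub_mem (hcD m) (hyD m)) hdX
    convert this using 2
    ext m
    simp only [Finset.mem_insert, Finset.mem_singleton, Finset.mem_filter, Finset.mem_univ,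
      true_and, hy]
    rcases eq_or_ne m j with rfl | hmj
    · simp [hyjc]
    rcases eq_or_ne m l with rfl | hml
    · simp [hmj, hylc]
    simp [hmj, hml]
  -- swapping two summands
  have hswap : ∀ a b : Fin t, a ≠ b → ∀ S : Finset (Fin t), P S →
      P (S.image (Equiv.swap a b)) := by
    intro a b hab S hS c' hc'D hc'S
    set E := D a ⊔ D b with hE
    have hEn : NondegOn B E := by
      intro w hw hw0
      obtain ⟨p, hp, q, hq, rfl⟩ := Submodule.mem_sup.1 hw
      by_cases hp0 : p = 0
      · subst hp0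
        rw [zero_add] at hw0 ⊢
        obtain ⟨z, hz, hne⟩ := hnd b q hq hw0
        exact ⟨z, Submodule.mem_sup_right hz, hne⟩
      · obtain ⟨z, hz, hne⟩ := hnd a p hp hp0
        refine ⟨z, Submodule.mem_sup_left hz, ?_⟩
        simpa [horth b a hab.symm q hq z hz] using hne
    obtain ⟨h, hh, hmap⟩ := exists_move_subspace hA hEn (A := D a) (C := D b) le_sup_left
      le_sup_right (hnd a) (hnd b) (by rw [hdim, hdim])
    have hhi : ∀ x y, B (h x) (h y) = B x y := tvClosure_le_isoGroup B hA E hh
    have hmapD : ∀ m, (D m).map h.toLinearMap = D (Equiv.swap a b m) := by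
      intro m
      refine Submodule.eq_of_le_of_finrank_eq ?_
        (by rw [← LinearEquiv.finrank_eq (h.submoduleMap (D m)), hdim, hdim])
      rcases eq_or_ne m a with rfl | hma
      · rw [Equiv.swap_apply_left, hmap]
      rcases eq_or_ne m b with rfl | hmb
      · rw [Equiv.swap_apply_right]
        rintro _ ⟨v, hv, rfl⟩
        have hvE : h v ∈ E := tvClosure_mem B hA E hh (Submodule.mem_sup_right hv)
        obtain ⟨p, hp, q, hq, hpq⟩ := Submodule.mem_sup.1 hvE
        change h v ∈ D a
        have hq0 : q = 0 := by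
          by_contra hq0
          obtain ⟨z, hz, hne⟩ := hnd m q hq hq0
          rw [← hmap] at hz
          obtain ⟨u, hu, rfl⟩ := hz
          apply hne
          have hu' : h u ∈ D m := hmap.le ⟨u, hu, rfl⟩
          have : B (h v) (h u) = B q (h u) := by
            rw [← hpq]
            simp [horth a m hab p hp _ hu']
          change B q (h u) = 0
          rw [← this, hhi, horth m a hma v hv u hu]
        rw [← hpq, hq0, add_zero]
        exact hp
      · rw [Equiv.swap_apply_of_ne_of_ne hma hmb]
        rintro _ ⟨v, hv, rfl⟩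
        have : h v = v := tvClosure_fix B hA E hh fun w hw => by
          obtain ⟨p, hp, q, hq, rfl⟩ := Submodule.mem_sup.1 hw
          simp [horth m a hma v hv p hp, horth m b hmb v hv q hq]
        change h v ∈ D m
        rwa [this]
    set h' := (glEquiv ι F).symm h with hh'
    have hh'v : ∀ x, (h' : Matrix ι ι F) *ᵥ x = h x := glEquiv_symm_mulVec h
    have hh'i : ∀ x y,
        B ((h' : Matrix ι ι F) *ᵥ x) ((h' : Matrix ι ι F) *ᵥ y) = B x y := fun x y => by
      rw [hh'v, hh'v, hhi]
    have hlin : Matrix.toLin' (h' : Matrix ι ι F) = h.toLinearMap := LinearMap.ext fun x => by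
      rw [Matrix.toLin'_apply]
      exact hh'v x
    have hh'M : h' ∈ M := hM h' hh'i ⟨Equiv.swap a b, fun m => by rw [hlin]; exact hmapD m⟩
    set c'' : Fin t → (ι → F) := fun m => h.symm (c' (Equiv.swap a b m)) with hc''
    have hmem : ∑ m, c'' m ∈ X := by
      refine hS c'' (fun m => ?_) fun m => ?_
      · obtain ⟨u, hu, hum⟩ := (hmapD m).symm.le (hc'D (Equiv.swap a b m))
        rw [hc'']
        dsimp only
        rw [← hum]
        simpa using hu
      · rw [hc'']
        simp [hc'S, Finset.mem_image]
    have := sCentre_map hh'M hh'i hmem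
    rw [hh'v, map_sum] at this
    simp only [hc'', LinearEquiv.apply_symm_apply] at this
    rwa [Equiv.sum_comp (Equiv.swap a b) c'] at this
  -- all pairs
  have hpair1 : ∀ p q r : Fin t, p ≠ q → P {p, q} → r ≠ p → P {p, r} := by
    intro p q r hpq hP hrp
    rcases eq_or_ne r q with rfl | hrq
    · exact hP
    have := hswap q r hrq.symm _ hP
    rwa [Finset.image_insert, Finset.image_singleton, Equiv.swap_apply_left,
      Equiv.swap_apply_of_ne_of_ne hpq hrp.symm] at this
  have hpairs : ∀ a b : Fin t, a ≠ b → P {a, b} := by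
    intro a b hab
    rcases eq_or_ne a j with rfl | haj
    · exact hpair1 a l b hjl hPjl hab.symm
    have h1 : P {j, a} := hpair1 j l a hjl hPjl haj
    rw [Finset.pair_comm] at h1
    exact hpair1 a j b haj h1 hab.symm
  -- all supports
  have hall : ∀ n : ℕ, ∀ S : Finset (Fin t), S.card = n → P S := by
    intro n
    induction n using Nat.strong_induction_on with
    | _ n ih =>
      intro S hSn d hdD hdS
      rcases Nat.lt_or_ge S.card 3 with h3 | h3
      · interval_cases hc : S.card
        · rw [Finset.card_eq_zero.1 hc] at hdS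
          have : ∀ i, d i = 0 := fun i => by simpa using hdS i
          simpa [this] using (sCentre_zero : (0 : ι → F) ∈ X)
        · obtain ⟨i, rfl⟩ := Finset.card_eq_one.1 hc
          rw [Finset.sum_eq_single i (fun m _ hm => by simpa [hm] using hdS m)
            (fun h => absurd (Finset.mem_univ i) h)]
          exact hDX i _ (hdD i)
        · obtain ⟨p, q, hpq, rfl⟩ := Finset.card_eq_two.1 hc
          exact hpairs p q hpq d hdD hdS
      obtain ⟨i, hi⟩ : S.Nonempty := Finset.card_pos.1 (by omega)
      obtain ⟨p, hp⟩ : (S.erase i).Nonempty :=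
        Finset.card_pos.1 (by rw [Finset.card_erase_of_mem hi]; omega)
      have hpi : p ≠ i := Finset.ne_of_mem_erase hp
      have hdp : d p ≠ 0 := (hdS p).2 (Finset.mem_of_mem_erase hp)
      obtain ⟨z, hz, hne⟩ := hnd p (d p) (hdD p) hdp
      set q := (B (d p) z)⁻¹ • z with hq
      have hBq : B (d p) q = 1 := by rw [hq, map_smul, smul_eq_mul, inv_mul_cancel₀ hne]
      have hqD : q ∈ D p := (D p).smul_mem _ hz
      have hq0 : q ≠ 0 := fun h => by simp [h] at hBq
      have hpq0 : d p - q ≠ 0 := fun h => by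
        rw [sub_eq_zero] at h
        rw [← h, alt_self hA] at hBq
        exact zero_ne_one hBq
      set c₁ : Fin t → (ι → F) := fun m => if m = i then 0 else if m = p then d p - q else d m
        with hc₁
      set c₂ : Fin t → (ι → F) := fun m => if m = i then d i else if m = p then q else 0 with hc₂
      have hc₁D : ∀ m, c₁ m ∈ D m := fun m => by
        rw [hc₁]
        dsimp only
        split_ifs with h1 h2
        · exact Submodule.zero_mem _
        · exact h2 ▸ (D p).sub_mem (hdD p) hqD
        · exact hdD m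
      have hc₂D : ∀ m, c₂ m ∈ D m := fun m => by
        rw [hc₂]
        dsimp only
        split_ifs with h1 h2
        · exact h1 ▸ hdD i
        · exact h2 ▸ hqD
        · exact Submodule.zero_mem _
      have h1X : ∑ m, c₁ m ∈ X := by
        refine ih (S.card - 1) (by omega) (S.erase i) (Finset.card_erase_of_mem hi) c₁ hc₁D
          fun m => ?_
        rw [hc₁]
        dsimp only
        split_ifs with h1 h2
        · simp [h1]
        · simp [h2, hpq0, hp]
        · simp [h1, hdS m]
      have h2X : ∑ m, c₂ m ∈ X := by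
        refine hpairs i p hpi.symm c₂ hc₂D fun m => ?_
        rw [hc₂]
        dsimp only
        split_ifs with h1 h2
        · simp [h1, (hdS i).2 hi]
        · simp [h2, hq0]
        · simp [h1, h2]
      have hBB : B (∑ m, c₁ m) (∑ m, c₂ m) = 1 := by
        rw [pair_orth_sum B D horth c₁ c₂ hc₁D hc₂D,
          Finset.sum_eq_single p ?_ (fun h => absurd (Finset.mem_univ p) h)]
        · simp [hc₁, hc₂, hpi, alt_self hA, hBq]
        · intro m _ hm
          rw [hc₁, hc₂]
          dsimp only
          split_ifs <;> simp_all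
      have := sCentre_pencil h1X h2X (by rw [hBB]; exact one_ne_zero) 1
      rw [one_smul, ← Finset.sum_add_distrib] at this
      convert this using 1
      refine Finset.sum_congr rfl fun m _ => ?_
      rw [hc₁, hc₂]
      dsimp only
      split_ifs with h1 h2
      · simp [h1]
      · simp [h2]
      · simp
  refine iso_mem_of_sCentre_univ (hA := hA) hB ?_ w₀ hw₀
  intro v
  obtain ⟨d, hdD, hdv⟩ := hcs v
  rw [← hdv]
  exact hall _ _ rfl d hdD (fun i => by simp : ∀ i, d i ≠ 0 ↔ i ∈ Finset.univ.filter fun i => d i ≠ 0)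

end Cfsg.Lib.Classical
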