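import Mathlib
import Cfsg.Agent.Lib.Classical.SymplecticCentre
import Cfsg.Agent.Lib.Classical.SymplecticInSL

/-!
In even characteristic the orthogonal group of a quadratic form polarising to a symplectic form is
maximal in the symplectic group.
-/

set_option autoImplicit false

namespace Cfsg.Lib.Classical

open Matrix
open scoped MatrixGroups

variable {ι : Type*} [Fintype ι] [DecidableEq ι] {F : Type*} [Field F]
  {B : LinearMap.BilinForm F (ι → F)} {Q : (ι → F) → F}

variable (hA : B.IsAlt) (hB : B.Nondegenerate) (hQs : ∀ (c : F) v, Q (c • v) = c ^ 2 * Q v)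
  (hQB : ∀ x y, Q (x + y) = Q x + Q y + B x y) (h2 : (2 : F) = 0) (hsq : ∀ a : F, IsSquare a)

include hQs in
omit [Fintype ι] [DecidableEq ι] in
lemma quad_zero : Q 0 = 0 := by simpa using hQs 0 0

include h2 in
omit [Fintype ι] [DecidableEq ι] in
lemma add_self_eq_zero' (a : F) : a + a = 0 := by rw [← two_mul, h2, zero_mul]

include hA hQs hQB h2 in
lemma quad_reflection {w : ι → F} (hw : Q w ≠ 0) (x : ι → F) :
    Q ((sTGL B hA w (Q w)⁻¹ : Matrix ι ι F) *ᵥ x) = Q x := by
  rw [sTGL_mulVec, hQB, hQs, map_smul, smul_eq_mul]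
  field_simp
  linear_combination (B x w) ^ 2 * h2

include hA hQB in
omit [DecidableEq ι] in
lemma two_mul_finrank_le_of_quad_zero (hB : B.Nondegenerate) {R : Submodule F (ι → F)}
    (h : ∀ r ∈ R, Q r = 0) : 2 * Module.finrank F R ≤ Fintype.card ι := by
  have hle : R ≤ perp B R := fun x hx u hu => by
    have := hQB u x
    rw [h _ (R.add_mem hu hx), h u hu, h x hx, zero_add, zero_add] at this
    exact this.symm
  have h1 := Submodule.finrank_mono hle
  have h3 := finrank_perp hA hB R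
  rw [Module.finrank_fintype_fun_eq_card] at h3
  omega

include hA hB hQs hQB h2 hsq in
omit [DecidableEq ι] in
lemma exists_value {R : Submodule F (ι → F)} (hR : Fintype.card ι < 2 * Module.finrank F R)
    (t : F) : ∃ r ∈ R, Q r = t := by
  obtain ⟨r, hr, hne⟩ : ∃ r ∈ R, Q r ≠ 0 := by
    by_contra! hcon
    exact absurd (two_mul_finrank_le_of_quad_zero hA hQB hB hcon) (not_le.2 hR)
  obtain ⟨s, hs⟩ := hsq (t / Q r)
  refine ⟨s • r, R.smul_mem s hr, ?_⟩
  rw [hQs, sq, ← hs, div_mul_cancel₀ _ hne]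

include hA in
omit [DecidableEq ι] in
lemma finrank_perp_span (hB : B.Nondegenerate) (s : Finset (ι → F)) :
    Fintype.card ι ≤ Module.finrank F (perp B (Submodule.span F (s : Set (ι → F)))) + s.card := by
  have h1 := finrank_perp hA hB (Submodule.span F (s : Set (ι → F)))
  rw [Module.finrank_fintype_fun_eq_card] at h1
  have h3 : Module.finrank F (Submodule.span F (s : Set (ι → F))) ≤ s.card :=
    finrank_span_finset_le_card s
  omega

include hA hB hQs hQB h2 hsq in
/-- Isometries of `Q` are transitive on non-zero vectors of equal value. -/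
lemma exists_quad_move (hn : 7 ≤ Fintype.card ι) {u v : ι → F} (hu : u ≠ 0) (hv : v ≠ 0)
    (huv : Q u = Q v) :
    ∃ h : GL ι F, (∀ x, Q ((h : Matrix ι ι F) *ᵥ x) = Q x) ∧ (h : Matrix ι ι F) *ᵥ u = v := by
  classical
  have step : ∀ p q : ι → F, Q p = Q q → B p q ≠ 0 →
      ∃ h : GL ι F, (∀ x, Q ((h : Matrix ι ι F) *ᵥ x) = Q x) ∧ (h : Matrix ι ι F) *ᵥ p = q := by
    intro p q hpq hne
    have hQw : Q (p + q) = B p q := by
      rw [hQB, hpq, add_self_eq_zero' h2, zero_add]
    refine ⟨sTGL B hA (p + q) (Q (p + q))⁻¹,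
      quad_reflection hA hQs hQB h2 (by rwa [hQw]), ?_⟩
    have hBw : B p (p + q) = B p q := by simp [alt_self hA]
    rw [sTGL_mulVec, hBw, hQw, inv_mul_cancel₀ hne, one_smul, ← add_assoc]
    ext i
    simp [add_self_eq_zero' h2]
  obtain ⟨p, -, hup, hvp⟩ := (nondegOn_top hB).exists_two (Submodule.mem_top (x := u))
    (Submodule.mem_top (x := v)) hu hv
  have hR := finrank_perp_span (hA := hA) hB {u, v, p}
  have hcard : ({u, v, p} : Finset (ι → F)).card ≤ 3 := Finset.card_le_three
  obtain ⟨r, hr, hQr⟩ := exists_value hA hB hQs hQB h2 hsq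
    (R := perp B (Submodule.span F (({u, v, p} : Finset (ι → F)) : Set (ι → F))))
    (by omega) (Q u + Q p)
  have hperp : ∀ y ∈ ({u, v, p} : Finset (ι → F)), B y r = 0 := fun y hy =>
    hr y (Submodule.subset_span hy)
  have hpr : B p r = 0 := hperp p (by simp)
  have hz : Q (p + r) = Q u := by
    rw [hQB, hQr, hpr]
    linear_combination (Q p) * h2
  obtain ⟨a, ha, hau⟩ := step u (p + r) hz.symm
    (by simpa [hperp u (by simp)] using hup)
  obtain ⟨b, hb, hbz⟩ := step (p + r) v (by rw [hz, huv])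
    (by rw [alt_swap hA v, neg_ne_zero]; simpa [hperp v (by simp)] using hvp)
  refine ⟨b * a, fun x => by rw [Units.val_mul, ← mulVec_mulVec, hb, ha], ?_⟩
  rw [Units.val_mul, ← mulVec_mulVec, hau, hbz]

include hQB in
omit [DecidableEq ι] in
lemma isometry_of_quad {g : Matrix ι ι F} (h : ∀ x, Q (g *ᵥ x) = Q x) (x y : ι → F) :
    B (g *ᵥ x) (g *ᵥ y) = B x y := by
  have := hQB (g *ᵥ x) (g *ᵥ y)
  rw [← mulVec_add, h, h, h, hQB] at this
  linear_combination -this

include hA hB hQs hQB h2 hsq in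
/-- The orthogonal group and one more isometry generate all isometries. -/
theorem iso_le_of_gt_quad (hn : 7 ≤ Fintype.card ι) (M : Subgroup (GL ι F))
    (hM : ∀ h : GL ι F, (∀ x, Q ((h : Matrix ι ι F) *ᵥ x) = Q x) → h ∈ M)
    (g : GL ι F) (hg : g ∈ M)
    (hgi : ∀ x y, B ((g : Matrix ι ι F) *ᵥ x) ((g : Matrix ι ι F) *ᵥ y) = B x y)
    (hgn : ¬ ∀ x, Q ((g : Matrix ι ι F) *ᵥ x) = Q x) (k : GL ι F)
    (hk : ∀ x y, B ((k : Matrix ι ι F) *ᵥ x) ((k : Matrix ι ι F) *ᵥ y) = B x y) : k ∈ M := by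
  classical
  set hmat := ((g⁻¹ : GL ι F) : Matrix ι ι F) with hmat_def
  have hhi : ∀ x y, B (hmat *ᵥ x) (hmat *ᵥ y) = B x y := fun x y => by
    rw [← hgi, hmat_def, mulVec_inv_mulVec, mulVec_inv_mulVec]
  have key : ∀ x y : F, x * x = y * y → x = y := fun x y h => by
    have h3 : (x + y) * (x + y) = 0 := by linear_combination h + (y * y + x * y) * h2
    have := mul_self_eq_zero.1 h3
    linear_combination this - y * h2
  choose l hl using fun x => hsq (Q (hmat *ᵥ x) + Q x)
  have hladd : ∀ x y, l (x + y) = l x + l y := fun x y => key _ _ (by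
    rw [← hl, mulVec_add, hQB, hQB, hhi]
    linear_combination (B x y - l x * l y) * h2 + hl x + hl y)
  have hlsmul : ∀ (c : F) x, l (c • x) = c * l x := fun c x => key _ _ (by
    rw [← hl, mulVec_smul, hQs, hQs]
    linear_combination c ^ 2 * hl x)
  let L : (ι → F) →ₗ[F] F :=
    { toFun := l, map_add' := hladd, map_smul' := fun c x => hlsmul c x }
  obtain ⟨a, ha⟩ := exists_rightVec B hA hB fun i => L (Pi.single i 1)
  have hBa : ∀ x, B x a = l x := fun x => by
    rw [← rightVec_dot, ha]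
    change _ = L x
    conv_rhs => rw [pi_eq_sum_univ' x]
    simp [dotProduct, map_sum, mul_comm]
  have hQh : ∀ x, Q (hmat *ᵥ x) = Q x + B x a * B x a := fun x => by
    rw [hBa, ← hl]
    linear_combination (-(Q x)) * h2
  have ha0 : a ≠ 0 := fun h => hgn fun x => by
    have := hQh ((g : Matrix ι ι F) *ᵥ x)
    rw [h, map_zero, mul_zero, add_zero, hmat_def, inv_mulVec_mulVec] at this
    exact this.symm
  obtain ⟨p, -, hp⟩ := nondegOn_top hB a Submodule.mem_top ha0
  have hp' : B p a ≠ 0 := by rwa [alt_swap hA a p, neg_ne_zero]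
  have hX : ∀ v, sTGL B hA v 1 ∈ M := by
    intro v
    rcases eq_or_ne v 0 with rfl | hv
    · rw [sTGL_zero_left]
      exact one_mem M
    obtain ⟨s, hs⟩ := hsq (1 + Q v)
    set u₀ := (s / B p a) • p with hu₀
    have hR := finrank_perp_span (hA := hA) hB {a, u₀}
    have hc2 : ({a, u₀} : Finset (ι → F)).card ≤ 2 := Finset.card_le_two
    obtain ⟨r, hr, hQr⟩ := exists_value hA hB hQs hQB h2 hsq
      (R := perp B (Submodule.span F (({a, u₀} : Finset (ι → F)) : Set (ι → F))))
      (by omega) (Q u₀ + Q v)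
    have hperp : ∀ y ∈ ({a, u₀} : Finset (ι → F)), B y r = 0 := fun y hy =>
      hr y (Submodule.subset_span hy)
    have hu0r : B u₀ r = 0 := hperp u₀ (by simp)
    have hra : B r a = 0 := by rw [alt_swap hA a r, hperp a (by simp), neg_zero]
    have hQu : Q (u₀ + r) = Q v := by
      rw [hQB, hQr, hu0r]
      linear_combination (Q u₀) * h2
    have hBu : B (u₀ + r) a = s := by
      rw [map_add, LinearMap.add_apply, hra, add_zero, hu₀, map_smul, LinearMap.smul_apply,
        smul_eq_mul, div_mul_cancel₀ _ hp']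
    have hQhu : Q (hmat *ᵥ (u₀ + r)) = 1 := by
      rw [hQh, hQu, hBu]
      linear_combination (Q v) * h2 - hs
    have hu_ne : u₀ + r ≠ 0 := fun h => by
      rw [h, mulVec_zero, quad_zero hQs] at hQhu
      exact zero_ne_one hQhu
    have h1 : sTGL B hA (hmat *ᵥ (u₀ + r)) 1 ∈ M := hM _ fun x => by
      have := quad_reflection hA hQs hQB h2 (w := hmat *ᵥ (u₀ + r))
        (by rw [hQhu]; exact one_ne_zero) x
      rwa [hQhu, inv_one] at this
    have h2' := mul_mem (mul_mem hg h1) (inv_mem hg)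
    rw [conj_sTGL_iso B hA g hgi, hmat_def, mulVec_inv_mulVec] at h2'
    obtain ⟨o, ho, hov⟩ := exists_quad_move hA hB hQs hQB h2 hsq hn hu_ne hv hQu
    have h3 := mul_mem (mul_mem (hM o ho) h2') (inv_mem (hM o ho))
    rwa [conj_sTGL_iso B hA o (isometry_of_quad hQB ho), hov] at h3
  refine iso_mem_of_sTGL_mem B hA hB M (fun v c => ?_) k hk
  obtain ⟨s, hs⟩ := hsq c
  have := hX (s • v)
  rwa [sTGL_smul, ← hs, mul_one] at this

include hA hB hQs hQB h2 in
/-- Some transvection does not preserve `Q`. -/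
lemma exists_sTGL_not_quad (hn : 3 ≤ Fintype.card ι) :
    ∃ v : ι → F, ∃ x, Q ((sTGL B hA v 1 : Matrix ι ι F) *ᵥ x) ≠ Q x := by
  classical
  have : Nonempty ι := Fintype.card_pos_iff.1 (by omega)
  obtain ⟨v, hv0, hv1⟩ : ∃ v : ι → F, v ≠ 0 ∧ Q v ≠ 1 := by
    by_contra! hcon
    have hB1 : ∀ p q : ι → F, p ≠ 0 → q ≠ 0 → p + q ≠ 0 → B p q = 1 := fun p q hp hq hpq => by
      have := hQB p q
      rw [hcon p hp, hcon q hq, hcon _ hpq] at this
      linear_combination -this - h2
    obtain ⟨i, j, k, hij, hik, hjk⟩ := Fintype.two_lt_card_iff.1 (by omega : 2 < Fintype.card ι)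
    set e : ι → ι → F := fun l => Pi.single l 1 with he
    have he0 : ∀ l, e l ≠ 0 := fun l => by simp [he]
    have hne : ∀ l l', l ≠ l' → e l + e l' ≠ 0 := fun l l' hl h => by
      have := congrFun h l
      simp [he, hl] at this
    have h1 := hB1 (e i) (e j + e k) (he0 i) (hne j k hjk) (fun h => by
      have := congrFun h i
      simp [he, hij, hik] at this)
    rw [map_add, hB1 _ _ (he0 i) (he0 j) (hne i j hij),
      hB1 _ _ (he0 i) (he0 k) (hne i k hik)] at h1
    exact one_ne_zero (by linear_combination -h1 + h2)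
  obtain ⟨x, -, hx⟩ := nondegOn_top hB v Submodule.mem_top hv0
  refine ⟨v, x, fun h => ?_⟩
  rw [sTGL_mulVec, hQB, hQs, map_smul, smul_eq_mul, alt_swap hA v x] at h
  have h3 : (B v x) ^ 2 * (Q v + 1) = 0 := by linear_combination h
  rcases mul_eq_zero.1 h3 with h4 | h4
  · exact hx (pow_eq_zero_iff two_ne_zero |>.1 h4)
  · exact hv1 (by linear_combination h4 - h2)

end Cfsg.Lib.Classical
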