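import Mathlib
import Cfsg.Agent.Lib.Classical.SymplecticCentre
import Cfsg.Agent.Lib.Classical.SymplecticInSL

/-!
Maximality in the symplectic group of the stabilisers of totally isotropic and of nondegenerate
subspaces.
-/

set_option autoImplicit false

namespace Cfsg.Lib.Classical

open Matrix
open scoped MatrixGroups

variable {ι : Type} [Fintype ι] [DecidableEq ι] {F : Type*} [Field F]
  {B : LinearMap.BilinForm F (ι → F)}

lemma sTGL_mem_stab (hA : B.IsAlt) {W : Submodule F (ι → F)} {v : ι → F} (c : F)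
    (h : v ∈ W ∨ ∀ w ∈ W, B w v = 0) : sTGL B hA v c ∈ Cfsg.Geo.subspaceStabilizer W := by
  refine map_eq_of_maps_to fun x hx => ?_
  rw [sTGL_mulVec]
  rcases h with h | h
  · exact W.add_mem hx (W.smul_mem _ h)
  · simp [h x hx, hx]

/-- If the isometry `g` maps `W⊥` into itself, it stabilises `W`. -/
lemma mem_stab_of_perp (hA : B.IsAlt) (hB : B.Nondegenerate) {W : Submodule F (ι → F)}
    {g : GL ι F}
    (hg : ∀ x y, B ((g : Matrix ι ι F) *ᵥ x) ((g : Matrix ι ι F) *ᵥ y) = B x y)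
    (h : ∀ x ∈ perp B W, (g : Matrix ι ι F) *ᵥ x ∈ perp B W) :
    g ∈ Cfsg.Geo.subspaceStabilizer W := by
  refine map_eq_of_maps_to fun w hw => ?_
  rw [← perp_perp hA hB W]
  intro y hy
  have hst : g ∈ Cfsg.Geo.subspaceStabilizer (perp B W) := map_eq_of_maps_to h
  have h2 : (g : Matrix ι ι F) *ᵥ (((g⁻¹ : GL ι F) : Matrix ι ι F) *ᵥ y) = y := mulVec_inv_mulVec g y
  have h3 : ((g⁻¹ : GL ι F) : Matrix ι ι F) *ᵥ y ∈ perp B W :=
    ((mem_subspaceStabilizer.1 hst) _).2 (by rwa [h2])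
  rw [← h2, hg, alt_swap hA w, h3 w hw, neg_zero]

/-- Totally isotropic case. -/
theorem iso_le_of_gt_isotropic_stab (hA : B.IsAlt) (hB : B.Nondegenerate)
    (W : Submodule F (ι → F)) (hW : ∀ u ∈ W, ∀ v ∈ W, B u v = 0) (M : Subgroup (GL ι F))
    (hM : ∀ h : GL ι F,
      (∀ x y, B ((h : Matrix ι ι F) *ᵥ x) ((h : Matrix ι ι F) *ᵥ y) = B x y) →
      h ∈ Cfsg.Geo.subspaceStabilizer W → h ∈ M)
    (g : GL ι F)
    (hgi : ∀ x y, B ((g : Matrix ι ι F) *ᵥ x) ((g : Matrix ι ι F) *ᵥ y) = B x y)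
    (hg : g ∈ M) (hgn : g ∉ Cfsg.Geo.subspaceStabilizer W) (k : GL ι F)
    (hk : ∀ x y, B ((k : Matrix ι ι F) *ᵥ x) ((k : Matrix ι ι F) *ᵥ y) = B x y) : k ∈ M := by
  set X := sCentre B hA M with hX
  have hperp : ∀ v ∈ perp B W, v ∈ X := fun v hv c =>
    hM _ (fun x y => sTGL_isometry B hA v c x y) (sTGL_mem_stab hA c (Or.inr hv))
  have hWW : W ≤ perp B W := fun v hv u hu => hW u hu v hv
  have h1 : ∀ x ∈ X, x ∉ perp B W → ∀ a ∈ perp B W, x + a ∈ X := by
    intro x hx hxn a ha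
    by_cases hxa : B x a = 0
    · rw [mem_perp] at hxn
      push Not at hxn
      obtain ⟨w, hw, hwx⟩ := hxn
      have hxw : B x w ≠ 0 := by rwa [alt_swap hA w x, neg_ne_zero]
      have hwa : B a w = 0 := by rw [alt_swap hA w a, ha w hw, neg_zero]
      have h2 := sCentre_pencil (b := a + w) hx (hperp _ ((perp B W).add_mem ha (hWW hw)))
        (by simp [hxa, hxw]) 1
      have h3 := sCentre_pencil (b := w) h2 (hperp _ (hWW hw))
        (by rw [one_smul, map_add, LinearMap.add_apply, map_add, LinearMap.add_apply, hwa,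
              alt_self hA, add_zero, add_zero]
            exact hxw) (-1)
      rwa [one_smul, neg_smul, one_smul, ← add_assoc, add_neg_cancel_right] at h3
    · simpa using sCentre_pencil hx (hperp a ha) hxa 1
  refine iso_mem_of_sCentre_univ (hA := hA) hB ?_ k hk
  obtain ⟨x, hxX, hxn⟩ : ∃ x, x ∈ X ∧ x ∉ perp B W := by
    by_contra! hcon
    exact hgn (mem_stab_of_perp hA hB hgi fun y hy => hcon _ (sCentre_map hg hgi (hperp y hy)))
  intro y
  by_cases hy : y ∈ perp B W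
  · exact hperp y hy
  by_cases hd : x ∈ perp B W ⊔ Submodule.span F {y - x}
  · obtain ⟨a, ha, z, hz, hxz⟩ := Submodule.mem_sup.1 hd
    obtain ⟨s, rfl⟩ := Submodule.mem_span_singleton.1 hz
    rcases eq_or_ne s 0 with rfl | hs
    · rw [zero_smul, add_zero] at hxz
      exact absurd (hxz ▸ ha) hxn
    have hy' : y = (1 + s⁻¹) • x + -(s⁻¹ • a) := by
      have : s⁻¹ • (a + s • (y - x)) = s⁻¹ • x := congrArg (s⁻¹ • ·) hxz
      rw [smul_add, smul_smul, inv_mul_cancel₀ hs, one_smul] at this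
      rw [add_smul, one_smul, ← this]
      abel
    by_cases ht : (1 : F) + s⁻¹ = 0
    · exact absurd (by rw [hy', ht, zero_smul, zero_add]
                       exact (perp B W).neg_mem ((perp B W).smul_mem _ ha)) hy
    rw [hy']
    refine h1 _ (sCentre_smul hxX _) ?_ _ ((perp B W).neg_mem ((perp B W).smul_mem _ ha))
    intro hc
    exact hxn (by simpa [smul_smul, inv_mul_cancel₀ ht] using (perp B W).smul_mem (1 + s⁻¹)⁻¹ hc)
  obtain ⟨ψ, hψ, hψx⟩ := exists_dot_sep _ hd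
  obtain ⟨w, rfl⟩ := exists_rightVec B hA hB ψ
  have hxw : B x w = 1 := by rwa [← rightVec_dot]
  have hw : w ∈ W := by
    rw [← perp_perp hA hB W]
    intro a ha
    have := hψ a (Submodule.mem_sup_left ha)
    rwa [rightVec_dot] at this
  set d := y - x with hd'
  have hdw : B d w = 0 := by
    have := hψ d (Submodule.mem_sup_right (Submodule.mem_span_singleton_self d))
    rwa [rightVec_dot] at this
  set R := sTGL B hA (d + w) 1 * sTGL B hA d (-1) * sTGL B hA w (-1) with hR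
  have hwd : B w d = 0 := by rw [alt_swap hA d w, hdw, neg_zero]
  have hRx : ∀ z, (R : Matrix ι ι F) *ᵥ z = z + B z w • d + B z d • w := by
    intro z
    rw [hR, Units.val_mul, Units.val_mul, ← mulVec_mulVec, ← mulVec_mulVec]
    simp [alt_self hA, hdw, hwd, add_smul, smul_add]
    abel
  have hRi : ∀ p q, B ((R : Matrix ι ι F) *ᵥ p) ((R : Matrix ι ι F) *ᵥ q) = B p q := by
    intro p q
    rw [hR, Units.val_mul, Units.val_mul, ← mulVec_mulVec, ← mulVec_mulVec, ← mulVec_mulVec,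
      ← mulVec_mulVec, sTGL_isometry, sTGL_isometry, sTGL_isometry]
  have hRM : R ∈ M := hM R hRi (map_eq_of_maps_to fun z hz => by
    rw [hRx, hW z hz w hw, zero_smul, add_zero]
    exact W.add_mem hz (W.smul_mem _ hw))
  have hz : x + d + B x d • w ∈ X := by
    have := sCentre_map hRM hRi hxX
    rwa [hRx, hxw, one_smul] at this
  have hxd : x + d = y := by rw [hd']; abel
  rw [hxd] at hz
  have hn : y + B x d • w ∉ perp B W := fun hc =>
    hy (((perp B W).add_mem_iff_left (hWW (W.smul_mem _ hw))).1 hc)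
  have := h1 _ hz hn (-(B x d • w)) ((perp B W).neg_mem (hWW (W.smul_mem _ hw)))
  rwa [add_neg_cancel_right] at this

lemma exists_moving_isotropic (hA : B.IsAlt) (hB : B.Nondegenerate) {W : Submodule F (ι → F)}
    (hW : ∀ u ∈ W, ∀ v ∈ W, B u v = 0) (h0 : W ≠ ⊥) :
    ∃ v c, sTGL B hA v c ∉ Cfsg.Geo.subspaceStabilizer W := by
  obtain ⟨w, hw, hw0⟩ := W.exists_mem_ne_zero_of_ne_bot h0
  obtain ⟨z, -, hz⟩ := nondegOn_top hB w Submodule.mem_top hw0
  refine ⟨z, 1, fun h => ?_⟩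
  have h1 : (sTGL B hA z 1 : Matrix ι ι F) *ᵥ w ∈ W := (mem_subspaceStabilizer.1 h w).1 hw
  rw [sTGL_mulVec, one_mul, W.add_mem_iff_right hw, W.smul_mem_iff hz] at h1
  exact hz (hW w hw z h1)

/-- Nondegenerate case. -/
theorem iso_le_of_gt_nondeg_stab (hA : B.IsAlt) (hB : B.Nondegenerate)
    (W : Submodule F (ι → F)) (hW : NondegOn B W)
    (hdim : 2 * Module.finrank F W < Fintype.card ι) (M : Subgroup (GL ι F))
    (hM : ∀ h : GL ι F,
      (∀ x y, B ((h : Matrix ι ι F) *ᵥ x) ((h : Matrix ι ι F) *ᵥ y) = B x y) →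
      h ∈ Cfsg.Geo.subspaceStabilizer W → h ∈ M)
    (g : GL ι F)
    (hgi : ∀ x y, B ((g : Matrix ι ι F) *ᵥ x) ((g : Matrix ι ι F) *ᵥ y) = B x y)
    (hg : g ∈ M) (hgn : g ∉ Cfsg.Geo.subspaceStabilizer W) (k : GL ι F)
    (hk : ∀ x y, B ((k : Matrix ι ι F) *ᵥ x) ((k : Matrix ι ι F) *ᵥ y) = B x y) : k ∈ M := by
  set X := sCentre B hA M with hX
  have hWX : ∀ v ∈ W, v ∈ X := fun v hv c =>
    hM _ (fun x y => sTGL_isometry B hA v c x y) (sTGL_mem_stab hA c (Or.inl hv))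
  have hPX : ∀ v ∈ perp B W, v ∈ X := fun v hv c =>
    hM _ (fun x y => sTGL_isometry B hA v c x y) (sTGL_mem_stab hA c (Or.inr hv))
  refine iso_mem_of_sCentre_univ (hA := hA) hB ?_ k hk
  let P' : Submodule F (ι → F) := (perp B W).map (Matrix.mulVecLin (g : Matrix ι ι F))
  have hP'X : ∀ v ∈ P', v ∈ X := by
    rintro _ ⟨v, hv, rfl⟩
    exact sCentre_map hg hgi (hPX v hv)
  obtain ⟨x, hx, hxW, hxP⟩ : ∃ x, x ∈ X ∧ x ∉ W ∧ x ∉ perp B W := by
    by_contra hcon
    push Not at hcon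
    rcases le_or_le_of_subset_union (fun x hx => or_iff_not_imp_left.2 (hcon x (hP'X x hx))
        : ∀ x ∈ P', x ∈ W ∨ x ∈ perp B W) with h | h
    · have h1 := Submodule.finrank_mono h
      have hinj : Function.Injective (Matrix.mulVecLin (g : Matrix ι ι F)) := fun x y hxy =>
        (mulVec_inj g).1 hxy
      rw [← LinearEquiv.finrank_eq (Submodule.equivMapOfInjective _ hinj (perp B W))] at h1
      have h2 := finrank_perp hA hB W
      rw [Module.finrank_fintype_fun_eq_card] at h2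
      omega
    · exact hgn (mem_stab_of_perp hA hB hgi fun y hy => h ⟨y, hy, rfl⟩)
  obtain ⟨a, ha, b, hb, hab⟩ := Submodule.mem_sup.1
    ((hW.sup_perp hA).sup_eq_top ▸ Submodule.mem_top : x ∈ W ⊔ perp B W)
  have ha0 : a ≠ 0 := fun h => hxP (by rw [← hab, h, zero_add]; exact hb)
  have hb0 : b ≠ 0 := fun h => hxW (by rw [← hab, h, add_zero]; exact ha)
  intro y
  obtain ⟨a', ha', b', hb', hab'⟩ := Submodule.mem_sup.1
    ((hW.sup_perp hA).sup_eq_top ▸ Submodule.mem_top : y ∈ W ⊔ perp B W)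
  rw [← hab']
  by_cases hb'0 : b' = 0
  · rw [hb'0, add_zero]
    exact hWX a' ha'
  by_cases ha'0 : a' = 0
  · rw [ha'0, zero_add]
    exact hPX b' hb'
  rw [← hab] at hx
  have h1 : a' + b ∈ X := sCentre_change hW hWX ha ha' ha0 ha'0
    (fun u hu => by rw [alt_swap hA u b, hb u hu, neg_zero]) hx
  rw [add_comm] at h1 ⊢
  exact sCentre_change (hW.perp hA hB) hPX hb hb' hb0 hb'0 (fun u hu => hu a' ha') h1

lemma exists_moving_nondeg (hA : B.IsAlt) {W : Submodule F (ι → F)}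
    (hW : NondegOn B W) (h0 : W ≠ ⊥) (h1 : W ≠ ⊤) :
    ∃ v c, sTGL B hA v c ∉ Cfsg.Geo.subspaceStabilizer W := by
  obtain ⟨w, hw, hw0⟩ := W.exists_mem_ne_zero_of_ne_bot h0
  obtain ⟨z, hz, hwz⟩ := hW w hw hw0
  have hP : perp B W ≠ ⊥ := fun h => h1 (by
    have := (hW.sup_perp hA).sup_eq_top
    rwa [h, sup_bot_eq] at this)
  obtain ⟨u, hu, hu0⟩ := (perp B W).exists_mem_ne_zero_of_ne_bot hP
  refine ⟨z + u, 1, fun h => ?_⟩
  have h2 : (sTGL B hA (z + u) 1 : Matrix ι ι F) *ᵥ w ∈ W := (mem_subspaceStabilizer.1 h w).1 hw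
  rw [sTGL_mulVec, one_mul, W.add_mem_iff_right hw, map_add, hu w hw, add_zero,
    W.smul_mem_iff hwz, W.add_mem_iff_right hz] at h2
  exact hu0 (Submodule.disjoint_def.1 (hW.sup_perp hA).disjoint u h2 hu)

end Cfsg.Lib.Classical
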