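import Mathlib
import Cfsg.Prelude.Def_GeometricClasses
import Cfsg.Agent.Lib.Classical.Transvection

/-!
Tensor decompositions with a monomial small factor: the tensor stabiliser preserves a decomposition.
-/

set_option autoImplicit false

namespace Cfsg.Lib.Classical.TensorMonomial

open Matrix Module
open scoped MatrixGroups Kronecker

variable {F : Type*} [Field F] {ι : Type} [Fintype ι] [DecidableEq ι]

/-- The pure tensors, as a bilinear map. -/
def pureMap {k l : ℕ} (e : ι ≃ Fin k × Fin l) (P : GL ι F) :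
    (Fin k → F) →ₗ[F] (Fin l → F) →ₗ[F] (ι → F) :=
  LinearMap.mk₂ F (fun x u => (P : Matrix ι ι F) *ᵥ ((fun a : Fin k × Fin l => x a.1 * u a.2) ∘ e))
    (fun x x' u => by rw [← mulVec_add]; congr 1; funext i; simp [add_mul])
    (fun c x u => by rw [← mulVec_smul]; congr 1; funext i; simp [mul_assoc])
    (fun x u u' => by rw [← mulVec_add]; congr 1; funext i; simp [mul_add])
    (fun c x u => by rw [← mulVec_smul]; congr 1; funext i; simp [mul_left_comm])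

lemma pureMap_apply {k l : ℕ} (e : ι ≃ Fin k × Fin l) (P : GL ι F) (x : Fin k → F) (u : Fin l → F) :
    pureMap e P x u = (P : Matrix ι ι F) *ᵥ ((fun a : Fin k × Fin l => x a.1 * u a.2) ∘ e) := rfl

lemma pureMap_eq_zero {k l : ℕ} (e : ι ≃ Fin k × Fin l) (P : GL ι F) (x : Fin k → F) (u : Fin l → F)
    (h : pureMap e P x u = 0) : x = 0 ∨ u = 0 := by
  by_contra! hne
  obtain ⟨i, hi⟩ := Function.ne_iff.1 hne.1
  obtain ⟨j, hj⟩ := Function.ne_iff.1 hne.2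
  have h1 := congrArg (fun w => ((P⁻¹ : GL ι F) : Matrix ι ι F) *ᵥ w) h
  simp only [pureMap_apply, mulVec_mulVec, Units.inv_mul, one_mulVec, mulVec_zero] at h1
  have h2 := congrFun h1 (e.symm (i, j))
  simp only [Function.comp_apply, Equiv.apply_symm_apply, Pi.zero_apply, mul_eq_zero] at h2
  rcases h2 with h2 | h2
  · exact hi h2
  · exact hj h2

/-- Elements of the tensor subgroup act factorwise. -/
lemma exists_factor {k l : ℕ} {e : ι ≃ Fin k × Fin l} {P g : GL ι F}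
    (hg : g ∈ Cfsg.Geo.tensorProductSubgroup k l e P) :
    ∃ (a : GL (Fin k) F) (b : GL (Fin l) F), ∀ x u, (g : Matrix ι ι F) *ᵥ pureMap e P x u =
      pureMap e P ((a : Matrix (Fin k) (Fin k) F) *ᵥ x) ((b : Matrix (Fin l) (Fin l) F) *ᵥ u) := by
  obtain ⟨_, ⟨h, ⟨a, b, hab⟩, rfl⟩, rfl⟩ := hg
  refine ⟨a, b, fun x u => ?_⟩
  rw [MulEquiv.coe_toMonoidHom, MulAut.conj_apply, MulEquiv.coe_toMonoidHom, pureMap_apply,
    pureMap_apply, mulVec_mulVec, ← Units.val_mul, inv_mul_cancel_right, Units.val_mul, ← mulVec_mulVec]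
  congr 1
  show (Matrix.reindex e.symm e.symm (h : Matrix (Fin k × Fin l) (Fin k × Fin l) F)) *ᵥ _ = _
  rw [hab]
  funext i
  simp only [mulVec, dotProduct, Matrix.reindex_apply, Equiv.symm_symm, Matrix.submatrix_apply,
    Function.comp_apply, Matrix.kroneckerMap_apply]
  rw [Finset.sum_mul_sum, ← Fintype.sum_prod_type' (fun j₁ j₂ =>
    (a : Matrix (Fin k) (Fin k) F) (e i).1 j₁ * x j₁ * ((b : Matrix (Fin l) (Fin l) F) (e i).2 j₂ * u j₂))]
  exact Fintype.sum_equiv e _ _ fun j => by ring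

/-- A form equal to the one of its Gram matrix. -/
lemma formOfGram_gram {κ : Type} [Fintype κ] [DecidableEq κ] (σ : F →+* F)
    {f : (κ → F) → (κ → F) → F} (ha : ∀ x y v, f (x + y) v = f x v + f y v)
    (hs : ∀ (c : F) x v, f (c • x) v = c * f x v) (ha' : ∀ v x y, f v (x + y) = f v x + f v y)
    (hs' : ∀ (c : F) v x, f v (c • x) = σ c * f v x) (x y : κ → F) :
    Cfsg.Geo.formOfGram σ (Cfsg.Geo.gramMatrix f) x y = f x y := by
  let L : (v : κ → F) → ((κ → F) →+ F) := fun v =>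
    AddMonoidHom.mk' (fun x => f x v) (fun x y => ha x y v)
  let R : (v : κ → F) → ((κ → F) →+ F) := fun v => AddMonoidHom.mk' (f v) (ha' v)
  conv_rhs => rw [pi_eq_sum_univ' x, show ∀ w z, f w z = L z w from fun _ _ => rfl, map_sum]
  refine Finset.sum_congr rfl fun a _ => ?_
  show _ = f (x a • Pi.single a 1) y
  rw [hs]
  conv_rhs => rw [pi_eq_sum_univ' y, show ∀ w z, f w z = R w z from fun _ _ => rfl, map_sum, Finset.mul_sum]
  refine Finset.sum_congr rfl fun b _ => ?_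
  show _ = x a * f _ (y b • Pi.single b 1)
  rw [hs', Cfsg.Geo.gramMatrix]
  ring

/-- The form on pure tensors. -/
lemma form_pureMap {k l : ℕ} (σ : F →+* F) {f : (ι → F) → (ι → F) → F}
    {f₁ : (Fin k → F) → (Fin k → F) → F} {f₂ : (Fin l → F) → (Fin l → F) → F}
    {e : ι ≃ Fin k × Fin l} {P : GL ι F}
    (h₁ : ∀ x y, Cfsg.Geo.formOfGram σ (Cfsg.Geo.gramMatrix f₁) x y = f₁ x y)
    (h₂ : ∀ x y, Cfsg.Geo.formOfGram σ (Cfsg.Geo.gramMatrix f₂) x y = f₂ x y)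
    (hT : Cfsg.Geo.IsTensorFormStructure σ f f₁ f₂ e P) :
    ∃ c : F, c ≠ 0 ∧ ∀ x u y v, f (pureMap e P x u) (pureMap e P y v) = c * (f₁ x y * f₂ u v) := by
  obtain ⟨c, hc, h⟩ := hT
  refine ⟨c, hc, fun x u y v => ?_⟩
  rw [pureMap_apply, pureMap_apply, h, ← h₁, ← h₂]
  congr 1
  simp only [Cfsg.Geo.formOfGram, Fintype.sum_prod_type, Matrix.kroneckerMap_apply, map_mul,
    Finset.sum_mul_sum]
  refine Finset.sum_congr rfl fun a₁ _ => Finset.sum_congr rfl fun a₂ _ =>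
    Finset.sum_congr rfl fun b₁ _ => Finset.sum_congr rfl fun b₂ _ => ?_
  ring

variable {k l : ℕ} (T : (Fin k → F) →ₗ[F] (Fin l → F) →ₗ[F] (ι → F))

/-- Acting factorwise. -/
def Factor (g : GL ι F) : Prop :=
  ∃ (a : GL (Fin k) F) (b : GL (Fin l) F), ∀ x u, (g : Matrix ι ι F) *ᵥ T x u =
    T ((a : Matrix (Fin k) (Fin k) F) *ᵥ x) ((b : Matrix (Fin l) (Fin l) F) *ᵥ u)

lemma Factor.flip {g : GL ι F} (h : Factor T g) : Factor T.flip g := by
  obtain ⟨a, b, hab⟩ := h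
  exact ⟨b, a, fun x u => hab u x⟩

variable {f : (ι → F) → (ι → F) → F} {f₁ : (Fin k → F) → (Fin k → F) → F}
  {f₂ : (Fin l → F) → (Fin l → F) → F} {c : F}

/-- The first component of a factorwise isometry is a similitude. -/
lemma exists_similitude (hT : ∀ x u y v, f (T x u) (T y v) = c * (f₁ x y * f₂ u v)) (hc : c ≠ 0)
    (h1 : ∃ x y, f₁ x y ≠ 0) (h2 : ∃ u v, f₂ u v ≠ 0) {g : GL ι F}
    (hg : ∀ x y, f ((g : Matrix ι ι F) *ᵥ x) ((g : Matrix ι ι F) *ᵥ y) = f x y)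
    {a : GL (Fin k) F} {b : GL (Fin l) F} (hab : ∀ x u, (g : Matrix ι ι F) *ᵥ T x u =
      T ((a : Matrix (Fin k) (Fin k) F) *ᵥ x) ((b : Matrix (Fin l) (Fin l) F) *ᵥ u)) :
    ∃ μ : F, μ ≠ 0 ∧ ∀ x y,
      f₁ ((a : Matrix (Fin k) (Fin k) F) *ᵥ x) ((a : Matrix (Fin k) (Fin k) F) *ᵥ y) = μ * f₁ x y := by
  obtain ⟨u, v, huv⟩ := h2
  obtain ⟨x₀, y₀, hxy⟩ := h1
  set A := f₂ ((b : Matrix (Fin l) (Fin l) F) *ᵥ u) ((b : Matrix (Fin l) (Fin l) F) *ᵥ v) with hA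
  have key : ∀ x y, f₁ ((a : Matrix (Fin k) (Fin k) F) *ᵥ x) ((a : Matrix (Fin k) (Fin k) F) *ᵥ y) * A =
      f₁ x y * f₂ u v := fun x y => by
    have := hg (T x u) (T y v)
    rw [hab, hab, hT, hT] at this
    exact mul_left_cancel₀ hc this
  have hA0 : A ≠ 0 := fun h0 => by
    have := key x₀ y₀
    rw [h0, mul_zero] at this
    exact mul_ne_zero hxy huv this.symm
  refine ⟨f₂ u v / A, div_ne_zero huv hA0, fun x y => ?_⟩
  rw [div_mul_eq_mul_div, eq_div_iff hA0, key]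
  ring

/-- Pure tensors determine their factors up to a scalar. -/
def Pure : Prop :=
  ∀ w u x y, w ≠ 0 → u ≠ 0 → T w u = T x y → ∃ ν : F, ν ≠ 0 ∧ x = ν • w ∧ u = ν • y

lemma Pure.flip (h : Pure T) : Pure T.flip := by
  intro w u x y hw hu hxy
  obtain ⟨ν, hν, h1, h2⟩ := h u w y x hu hw hxy
  exact ⟨ν⁻¹, inv_ne_zero hν, by rw [h2, inv_smul_smul₀ hν], by rw [h1, inv_smul_smul₀ hν]⟩

lemma pureMap_pure {k l : ℕ} (e : ι ≃ Fin k × Fin l) (P : GL ι F) : Pure (pureMap e P) := by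
  intro w u x y hw hu hxy
  obtain ⟨i, hi⟩ := Function.ne_iff.1 hw
  obtain ⟨j, hj⟩ := Function.ne_iff.1 hu
  rw [pureMap_apply, pureMap_apply] at hxy
  have h : ∀ a b, w a * u b = x a * y b := fun a b => by
    simpa using congrFun ((mulVec_inj P).1 hxy) (e.symm (a, b))
  simp only [Pi.zero_apply] at hi hj
  have hxy0 : x i * y j ≠ 0 := by rw [← h]; exact mul_ne_zero hi hj
  refine ⟨x i / w i, div_ne_zero (left_ne_zero_of_mul hxy0) hi, funext fun a => ?_, funext fun b => ?_⟩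
  · have hy := right_ne_zero_of_mul hxy0
    simp only [Pi.smul_apply, smul_eq_mul]
    field_simp
    refine mul_left_cancel₀ hj ?_
    linear_combination (x a) * h i j - x i * h a j
  · simp only [Pi.smul_apply, smul_eq_mul]
    field_simp
    linear_combination h i b

/-- An element fixing one summand and moving another non-identically does not act factorwise. -/
lemma not_factor (hP : Pure T) {g : GL ι F} {v w : Fin k → F}
    {u₀ u₁ : Fin l → F} (hv : v ≠ 0) (hw : w ≠ 0) (hu₀ : u₀ ≠ 0)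
    (hfixw : ∀ u, (g : Matrix ι ι F) *ᵥ T w u = T w u) (hfix : (g : Matrix ι ι F) *ᵥ T v u₀ = T v u₀)
    (hmove : (g : Matrix ι ι F) *ᵥ T v u₁ ≠ T v u₁) : ¬ Factor T g := by
  rintro ⟨a, b, hab⟩
  set A : Matrix (Fin k) (Fin k) F := (a : Matrix (Fin k) (Fin k) F)
  set B : Matrix (Fin l) (Fin l) F := (b : Matrix (Fin l) (Fin l) F)
  obtain ⟨μ, hμ0, hμA, hμ₀⟩ := hP w u₀ (A *ᵥ w) (B *ᵥ u₀) hw hu₀ (by rw [← hab, hfixw])
  have hB : ∀ u, B *ᵥ u = μ⁻¹ • u := by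
    intro u
    rcases eq_or_ne u 0 with rfl | hu
    · rw [mulVec_zero, smul_zero]
    obtain ⟨ν, hν, hνA, hν'⟩ := hP w u (A *ᵥ w) (B *ᵥ u) hw hu (by rw [← hab, hfixw])
    have e : ν = μ := smul_left_injective F hw (hνA.symm.trans hμA)
    subst e
    rw [eq_inv_smul_iff₀ hμ0, ← hν']
  obtain ⟨ν, hν, hνA, hν'⟩ := hP v u₀ (A *ᵥ v) (B *ᵥ u₀) hv hu₀ (by rw [← hab, hfix])
  have e : ν = μ := by
    rw [hB, smul_smul] at hν'
    have : (1 : F) • u₀ = (ν * μ⁻¹) • u₀ := by rw [one_smul]; exact hν'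
    exact mul_inv_eq_one₀ hμ0 |>.1 (smul_left_injective F hu₀ this).symm
  refine hmove ?_
  rw [hab, hνA, hB, e, map_smul, map_smul, LinearMap.smul_apply, smul_smul, inv_mul_cancel₀ hμ0, one_smul]

variable {t : ℕ}

/-- The summands. -/
def summand (v : Fin t → Fin k → F) (i : Fin t) : Submodule F (ι → F) := LinearMap.range (T (v i))

lemma mem_stab_of_factor {v : Fin t → Fin k → F} {g : GL ι F} {a : GL (Fin k) F} {b : GL (Fin l) F}
    (hab : ∀ x u, (g : Matrix ι ι F) *ᵥ T x u =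
      T ((a : Matrix (Fin k) (Fin k) F) *ᵥ x) ((b : Matrix (Fin l) (Fin l) F) *ᵥ u))
    (π : Fin t → Fin t) (hπ : Function.Injective π) (hv : ∀ i, ∃ c : F, c ≠ 0 ∧
      (a : Matrix (Fin k) (Fin k) F) *ᵥ v i = c • v (π i)) :
    g ∈ Cfsg.Geo.decompositionStabilizer (summand T v) := by
  refine ⟨Equiv.ofBijective π (Finite.injective_iff_bijective.1 hπ), fun i => ?_⟩
  obtain ⟨c, hc, hcv⟩ := hv i
  rw [Equiv.ofBijective_apply]
  ext z
  simp only [Submodule.mem_map, summand, LinearMap.mem_range, toLin'_apply]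
  constructor
  · rintro ⟨_, ⟨u, rfl⟩, rfl⟩
    refine ⟨c • ((b : Matrix (Fin l) (Fin l) F) *ᵥ u), ?_⟩
    rw [hab, hcv, map_smul, map_smul, LinearMap.smul_apply]
  · rintro ⟨u, rfl⟩
    refine ⟨T (v i) (c⁻¹ • (((b⁻¹ : GL (Fin l) F) : Matrix (Fin l) (Fin l) F) *ᵥ u)), ⟨_, rfl⟩, ?_⟩
    rw [hab, hcv, mulVec_smul, mulVec_mulVec, Units.mul_inv, one_mulVec, map_smul, map_smul,
      LinearMap.smul_apply, smul_smul, inv_mul_cancel₀ hc, one_smul]

/-- An element mapping every summand into itself stabilises the decomposition. -/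
lemma mem_stab_of_le {D : Fin t → Submodule F (ι → F)} {g : GL ι F}
    (h : ∀ i, ∀ x ∈ D i, (g : Matrix ι ι F) *ᵥ x ∈ D i) : g ∈ Cfsg.Geo.decompositionStabilizer D := by
  refine ⟨1, fun i => Submodule.eq_of_le_of_finrank_eq ?_ ?_⟩
  · rintro _ ⟨x, hx, rfl⟩
    rw [toLin'_apply]
    exact h i x hx
  · rw [Equiv.Perm.one_apply]
    exact (LinearEquiv.finrank_eq (Submodule.equivMapOfInjective _ (fun x y hxy =>
      (mulVec_inj g).1 (by simpa [toLin'_apply] using hxy)) (D i))).symm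

/-- An element spreading a summand over two others does not stabilise the decomposition. -/
lemma not_mem_stab {v : Fin t → Fin k → F}
    (horth : ∀ i j, i ≠ j → ∀ x ∈ summand T v i, ∀ y ∈ summand T v j, f x y = 0)
    {g : GL ι F} {i j₁ j₂ : Fin t} (hj : j₁ ≠ j₂) {x y₁ y₂ : ι → F} (hx : x ∈ summand T v i)
    (hy₁ : y₁ ∈ summand T v j₁) (hy₂ : y₂ ∈ summand T v j₂)
    (h1 : f ((g : Matrix ι ι F) *ᵥ x) y₁ ≠ 0) (h2 : f ((g : Matrix ι ι F) *ᵥ x) y₂ ≠ 0) :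
    g ∉ Cfsg.Geo.decompositionStabilizer (summand T v) := by
  rintro ⟨σ, hσ⟩
  have hgx : (g : Matrix ι ι F) *ᵥ x ∈ summand T v (σ i) := by
    rw [← hσ i]; exact ⟨x, hx, toLin'_apply _ _⟩
  rcases eq_or_ne (σ i) j₁ with e | e
  · exact h2 (horth _ _ (e ▸ hj) _ hgx _ hy₂)
  · exact h1 (horth _ _ e _ hgx _ hy₁)

lemma summand_orth {v : Fin t → Fin k → F} (hT : ∀ x u y v, f (T x u) (T y v) = c * (f₁ x y * f₂ u v))
    (hv : ∀ i j, i ≠ j → f₁ (v i) (v j) = 0) :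
    ∀ i j, i ≠ j → ∀ x ∈ summand T v i, ∀ y ∈ summand T v j, f x y = 0 := by
  rintro i j hij _ ⟨u, rfl⟩ _ ⟨w, rfl⟩
  rw [hT, hv i j hij, zero_mul, mul_zero]

/-- A group strictly between the tensor stabiliser and the classical group. -/
theorem exists_between {S Tn : Subgroup (GL ι F)} {D : Fin t → Submodule F (ι → F)}
    (hle : ∀ g ∈ Tn, g ∈ S → g ∈ Cfsg.Geo.decompositionStabilizer D)
    (h1 : ∃ g ∈ S, g ∈ Cfsg.Geo.decompositionStabilizer D ∧ g ∉ Tn)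
    (h2 : ∃ g ∈ S, g ∉ Cfsg.Geo.decompositionStabilizer D) :
    ∃ K : Subgroup (GL ι F), Tn ⊓ S < K ∧ K < S := by
  refine ⟨Cfsg.Geo.decompositionStabilizer D ⊓ S, lt_of_le_not_ge
    (fun g hg => ⟨hle g hg.1 hg.2, hg.2⟩) fun h => ?_, lt_of_le_not_ge inf_le_right fun h => ?_⟩
  · obtain ⟨g, hgS, hgD, hgT⟩ := h1
    exact hgT (h ⟨hgD, hgS⟩).1
  · obtain ⟨g, hgS, hgD⟩ := h2
    exact hgD (h hgS).1

end Cfsg.Lib.Classical.TensorMonomial
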