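import Mathlib
import Cfsg.Agent.Lib.Classical.TensorMonomial
import Cfsg.Agent.Lib.Classical.SmallFrames
import Cfsg.Agent.Lib.Classical.SymplecticMatrix
import Cfsg.Agent.Lib.Classical.SiegelElements
import Cfsg.Agent.Lib.Classical.OmegaBridge

/-!
Tensor stabilisers with a small monomial factor are not maximal: symplectic and orthogonal cases.
-/

set_option autoImplicit false

namespace Cfsg.Lib.Classical.TensorMonomial

open Matrix Module
open scoped MatrixGroups

variable {F : Type*} [Field F] [Fintype F] {ι : Type} [Fintype ι] [DecidableEq ι]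

lemma formOfGram_bilin {κ : Type} [Fintype κ] [DecidableEq κ] {f : (κ → F) → (κ → F) → F}
    (hf : Cfsg.Geo.IsBilinearForm f) (x y : κ → F) :
    Cfsg.Geo.formOfGram id (Cfsg.Geo.gramMatrix f) x y = f x y :=
  formOfGram_gram (RingHom.id F) hf.add_left hf.smul_left hf.add_right hf.smul_right x y

/-- The hypotheses common to all cases: the small factor and its frame. -/
lemma mem_stab_of_frame {k l : ℕ} {T : (Fin k → F) →ₗ[F] (Fin l → F) →ₗ[F] (ι → F)}
    {f : (ι → F) → (ι → F) → F} {f₁ : (Fin k → F) → (Fin k → F) → F} {f₂ : (Fin l → F) → (Fin l → F) → F}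
    {c : F} (hT : ∀ x u y v, f (T x u) (T y v) = c * (f₁ x y * f₂ u v)) (hc : c ≠ 0)
    (h2 : ∃ u v, f₂ u v ≠ 0) {v : Fin k → Fin k → F} (hd : ∀ i, f₁ (v i) (v i) ≠ 0)
    (hperm : ∀ (a : GL (Fin k) F) (μ : F), μ ≠ 0 → (∀ x y, f₁ ((a : Matrix (Fin k) (Fin k) F) *ᵥ x)
        ((a : Matrix (Fin k) (Fin k) F) *ᵥ y) = μ * f₁ x y) →
      ∃ π : Fin k → Fin k, Function.Injective π ∧
        ∀ i, ∃ c : F, c ≠ 0 ∧ (a : Matrix (Fin k) (Fin k) F) *ᵥ v i = c • v (π i))
    (i₀ : Fin k) {g : GL ι F} (hgT : Factor T g)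
    (hg : ∀ x y, f ((g : Matrix ι ι F) *ᵥ x) ((g : Matrix ι ι F) *ᵥ y) = f x y) :
    g ∈ Cfsg.Geo.decompositionStabilizer (summand T v) := by
  obtain ⟨a, b, hab⟩ := hgT
  obtain ⟨μ, hμ, ha⟩ := exists_similitude T hT hc ⟨_, _, hd i₀⟩ h2 hg hab
  obtain ⟨π, hπ, hπv⟩ := hperm a μ hμ ha
  exact mem_stab_of_factor T hab π hπ hπv

/-- The symplectic case. -/
theorem symplectic_between (m : ℕ) (hm : 1 ≤ m) (hq : Fintype.card F = 3) (n₁ : ℕ)
    (e : (Fin m ⊕ Fin m) ≃ Fin n₁ × Fin 3) (P : GL (Fin m ⊕ Fin m) F)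
    (f₁ : (Fin n₁ → F) → (Fin n₁ → F) → F) (f₂ : (Fin 3 → F) → (Fin 3 → F) → F)
    (hf₁ : Cfsg.Geo.IsSymplecticForm f₁) (hf₂ : Cfsg.Geo.IsSymmetricForm f₂)
    (hT : Cfsg.Geo.IsTensorFormStructure id (Cfsg.sympForm m F) f₁ f₂ e P) :
    ∃ K : Subgroup (GL (Fin m ⊕ Fin m) F),
      Cfsg.Geo.tensorProductSubgroup n₁ 3 e P ⊓ Cfsg.spGL m F < K ∧ K < Cfsg.spGL m F := by
  classical
  obtain ⟨c, hc, hform⟩ := form_pureMap (RingHom.id F) (formOfGram_bilin hf₁.bilinear)
    (formOfGram_bilin hf₂.bilinear) hT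
  set T := (pureMap e P).flip with hTdef
  have hform' : ∀ x u y v, Cfsg.sympForm m F (T x u) (T y v) = c * (f₂ x y * f₁ u v) := fun x u y v => by
    rw [hTdef, LinearMap.flip_apply, LinearMap.flip_apply, hform, mul_comm (f₁ u v)]
  obtain ⟨v, hv0, horth, hd, hperm⟩ := SmallFrames.exists_frame_three hq hf₂
  have hn₁ : 0 < n₁ := by
    have := Fintype.card_congr e
    simp at this
    omega
  haveI : Nonempty (Fin n₁) := ⟨⟨0, hn₁⟩⟩
  obtain ⟨u₀, hu₀⟩ := exists_ne (0 : Fin n₁ → F)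
  obtain ⟨u₁, hu₁⟩ := (hf₁.nondegenerate u₀ hu₀).1
  have hu₁' : f₁ u₀ u₁ ≠ 0 := fun h => hu₁ (by rw [hf₁.skew, h, neg_zero])
  have hB := sympBilin_apply (F := F) (m := m)
  refine exists_between (D := summand T v) (fun g hg hgS => ?_) ?_ ?_
  · exact mem_stab_of_frame hform' hc ⟨u₁, u₀, hu₁⟩ hd hperm 0 (Factor.flip _ (exists_factor hg)) hgS
  · set p := T (v 0) u₀ with hp
    refine ⟨sTGL (sympBilin F m) (sympBilin_isAlt F m) p 1, sTGL_mem_spGL _ _,
      mem_stab_of_le fun i x hx => ?_, fun hg => ?_⟩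
    · obtain ⟨u, rfl⟩ := hx
      rw [sTGL_mulVec]
      rcases eq_or_ne i 0 with rfl | hi
      · exact ⟨u + (1 * sympBilin F m (T (v 0) u) p) • u₀, by rw [map_add, map_smul, hp]⟩
      · rw [hB, hp, hform', horth i 0 hi, zero_mul, mul_zero, mul_zero, zero_smul, add_zero]
        exact ⟨u, rfl⟩
    · refine not_factor T (Pure.flip _ (pureMap_pure e P)) (hv0 0) (hv0 1) hu₀ (fun u => ?_) ?_ ?_
        (Factor.flip _ (exists_factor hg)) (u₁ := u₁)
      · rw [sTGL_mulVec, hB, hform', horth 1 0 (by decide), zero_mul, mul_zero, mul_zero, zero_smul,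
          add_zero]
      · rw [sTGL_mulVec, sympBilin_isAlt F m p, mul_zero, zero_smul, add_zero]
      · rw [sTGL_mulVec, one_mul, hB, hform', Ne, add_eq_left]
        refine smul_ne_zero (mul_ne_zero hc (mul_ne_zero (hd 0) hu₁)) fun h => ?_
        exact (pureMap_eq_zero e P u₀ (v 0) h).elim hu₀ (hv0 0)
  · set p := T (v 0) u₀ + T (v 1) u₀ with hp
    refine ⟨sTGL (sympBilin F m) (sympBilin_isAlt F m) p 1, sTGL_mem_spGL _ _, ?_⟩
    set x := T (v 0) u₁ with hx
    set s := sympBilin F m x p with hs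
    have hs0 : s = c * (f₂ (v 0) (v 0) * f₁ u₁ u₀) := by
      rw [hs, hp, map_add, hB, hB, hx, hform', hform', horth 0 1 (by decide)]
      ring
    have hs' : s ≠ 0 := by rw [hs0]; exact mul_ne_zero hc (mul_ne_zero (hd 0) hu₁)
    refine not_mem_stab T (f := fun a b => sympBilin F m a b) (fun i j hij a ha b hb => ?_)
      (i := 0) (j₁ := 0) (j₂ := 1) (by decide) ⟨u₁, rfl⟩ ⟨u₁, rfl⟩ ⟨u₁, rfl⟩ ?_ ?_
    · obtain ⟨u, rfl⟩ := ha
      obtain ⟨w, rfl⟩ := hb
      show sympBilin F m _ _ = 0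
      rw [hB, hform', horth i j hij, zero_mul, mul_zero]
    · show sympBilin F m _ _ ≠ 0
      rw [← hx, sTGL_mulVec, one_mul, ← hs, map_add, LinearMap.add_apply, sympBilin_isAlt F m x, zero_add,
        map_smul, LinearMap.smul_apply, ← LinearMap.IsAlt.neg (sympBilin_isAlt F m) x p, ← hs]
      exact mul_ne_zero hs' (neg_ne_zero.2 hs')
    · show sympBilin F m _ _ ≠ 0
      rw [← hx, sTGL_mulVec, one_mul, ← hs, map_add, LinearMap.add_apply, map_smul, LinearMap.smul_apply,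
        hp, map_add, LinearMap.add_apply, hB, hB, hB, hx, hform', hform', hform', horth 0 1 (by decide)]
      simp only [zero_mul, mul_zero, zero_add, smul_eq_mul]
      exact mul_ne_zero hs' (mul_ne_zero hc (mul_ne_zero (hd 1) hu₁'))

/-- The orthogonal case. -/
theorem orthogonal_between {Q : QuadraticForm F (ι → F)} {q : (ι → F) → F} (hQ : ∀ x, Q x = q x)
    (hB : (QuadraticMap.polarBilin Q).Nondegenerate) (hn : 5 ≤ Fintype.card ι) (hq : Fintype.card F = 3)
    (n₂ : ℕ) (h4 : 4 ≤ n₂) (e : ι ≃ Fin 3 × Fin n₂) (P : GL ι F)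
    (f₁ : (Fin 3 → F) → (Fin 3 → F) → F) (f₂ : (Fin n₂ → F) → (Fin n₂ → F) → F)
    (hf₁ : Cfsg.Geo.IsSymmetricForm f₁) (hf₂ : Cfsg.Geo.IsSymmetricForm f₂)
    (hT : Cfsg.Geo.IsTensorFormStructure id (QuadraticMap.polar q) f₁ f₂ e P) :
    ∃ K : Subgroup (GL ι F),
      Cfsg.Geo.tensorProductSubgroup 3 n₂ e P ⊓ Cfsg.Geo.omegaGL q < K ∧ K < Cfsg.Geo.omegaGL q := by
  classical
  obtain ⟨c, hc, hform⟩ := form_pureMap (RingHom.id F) (formOfGram_bilin hf₁.bilinear)
    (formOfGram_bilin hf₂.bilinear) hT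
  obtain rfl : ⇑Q = q := funext hQ
  set T := pureMap e P with hTdef
  set β := QuadraticMap.polarBilin Q with hβ
  have hform' : ∀ x u y v, β (T x u) (T y v) = c * (f₁ x y * f₂ u v) := hform
  obtain ⟨v, hv0, horth, hd, hperm⟩ := SmallFrames.exists_frame_three hq hf₁
  let R : QuadraticForm F (Fin n₂ → F) := Q.comp (T (v 0))
  obtain ⟨u₀, -, hu₀, hu₀'⟩ := SingularVectors.exists_zero R ⊤ (by
    rw [finrank_top, Module.finrank_fintype_fun_eq_card, Fintype.card_fin]; omega)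
  obtain ⟨u₂, hu₂⟩ := (hf₂.nondegenerate u₀ hu₀).1
  let L : (Fin n₂ → F) →ₗ[F] F :=
    { toFun := fun u => f₂ u u₀
      map_add' := fun a b => hf₂.bilinear.add_left a b u₀
      map_smul' := fun a b => hf₂.bilinear.smul_left a b u₀ }
  obtain ⟨u₁, hu₁L, hu₁⟩ := SetLike.not_le_iff_exists.1
    (show ¬ LinearMap.ker L ≤ Submodule.span F {u₀} from fun h => by
      have := Submodule.finrank_mono h
      have h1 := L.finrank_range_add_finrank_ker
      have h2 := (LinearMap.range L).finrank_le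
      rw [finrank_self] at h2
      rw [finrank_span_singleton hu₀] at this
      rw [Module.finrank_fintype_fun_eq_card, Fintype.card_fin] at h1
      omega)
  have hu10 : f₂ u₁ u₀ = 0 := hu₁L
  set p := T (v 0) u₀ with hp
  have hQp : Q p = 0 := hu₀'
  have hxp : β (T (v 0) u₂) p ≠ 0 := by
    rw [hp, hform']; exact mul_ne_zero hc (mul_ne_zero (hd 0) hu₂)
  have sym : ∀ a b, β a b = β b a := fun a b => Witt.polar_symm' Q a b
  have hS : ∀ w, β p w = 0 → OmegaBridge.toGL (f := ⇑Q) (fun _ => rfl) (SiegelElements.siegel Q p w) ∈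
      Cfsg.Geo.omegaGL ⇑Q := fun w hw => OmegaBridge.toGL_mem _ (SiegelElements.siegel_mem_commutator Q hB
        (by rw [Module.finrank_fintype_fun_eq_card]; omega) hQp hw)
  refine exists_between (D := summand T v) (fun g hg hgS => ?_) ?_ ?_
  · refine mem_stab_of_frame (f := fun a b => β a b) hform' hc ⟨u₂, u₀, hu₂⟩ hd hperm 0 (exists_factor hg) fun x y => ?_
    obtain ⟨g', -, rfl⟩ := OmegaBridge.exists_preimage (Q := Q) (fun _ => rfl) hgS
    rw [OmegaBridge.toGL_mulVec, OmegaBridge.toGL_mulVec]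
    exact Reflections.polar_apply Q g' x y
  · set w := T (v 0) u₁ with hw
    have hpw : β p w = 0 := by rw [hp, hw, hform', hf₂.symm, hu10, mul_zero, mul_zero]
    refine ⟨_, hS w hpw, mem_stab_of_le fun i x hx => ?_, fun hg => ?_⟩
    · obtain ⟨u, rfl⟩ := hx
      rw [OmegaBridge.toGL_mulVec, SiegelElements.siegel_apply Q hQp hpw]
      rcases eq_or_ne i 0 with rfl | hi
      · refine ⟨u + β (T (v 0) u) p • u₁ - (β (T (v 0) u) w + Q w * β (T (v 0) u) p) • u₀, ?_⟩
        rw [map_sub, map_add, map_smul, map_smul, ← hw, ← hp]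
      · rw [← hβ, hp, hw, hform', hform', horth i 0 hi]
        exact ⟨u, by simp⟩
    · refine not_factor T (pureMap_pure e P) (hv0 0) (hv0 1) hu₀ (fun u => ?_) ?_ ?_
        (exists_factor hg) (u₁ := u₂)
      · rw [OmegaBridge.toGL_mulVec, SiegelElements.siegel_apply Q hQp hpw, ← hβ, hp, hw, hform',
          hform', horth 1 0 (by decide)]
        simp
      · rw [OmegaBridge.toGL_mulVec, SiegelElements.siegel_apply Q hQp hpw, ← hβ, ← hp,
          show β p p = 0 by rw [hβ, Witt.polar_self', hQp, mul_zero], hpw]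
        simp
      · rw [OmegaBridge.toGL_mulVec, SiegelElements.siegel_apply Q hQp hpw, ← hβ]
        intro h
        set a := β (T (v 0) u₂) p
        set b := β (T (v 0) u₂) w + Q w * a
        have h0 : T (v 0) (a • u₁ - b • u₀) = 0 := by
          rw [map_sub, map_smul, map_smul, ← hw, ← hp]
          linear_combination (norm := module) h
        have h1 := (pureMap_eq_zero e P _ _ h0).resolve_left (hv0 0)
        refine hu₁ (Submodule.mem_span_singleton.2 ⟨a⁻¹ * b, ?_⟩)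
        rw [mul_smul, ← sub_eq_zero.1 h1, inv_smul_smul₀ hxp]
  · set w := T (v 1) u₂ with hw
    have hpw : β p w = 0 := by rw [hp, hw, hform', horth 0 1 (by decide), zero_mul, mul_zero]
    obtain ⟨y, hy⟩ := (hf₂.nondegenerate u₂ (fun h => hu₂ (by
      rw [h]; exact map_zero L))).2
    refine ⟨_, hS w hpw, not_mem_stab T (f := fun a b => β a b)
      (fun i j hij a ha b hb => ?_) (i := 0) (j₁ := 0) (j₂ := 1) (by decide) (x := T (v 0) u₂)
      (y₁ := p) (y₂ := T (v 1) y) ⟨_, rfl⟩ ⟨_, rfl⟩ ⟨_, rfl⟩ ?_ ?_⟩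
    · obtain ⟨u, rfl⟩ := ha
      obtain ⟨u', rfl⟩ := hb
      show β _ _ = 0
      rw [hform', horth i j hij, zero_mul, mul_zero]
    · show β _ _ ≠ 0
      rw [OmegaBridge.toGL_mulVec, SiegelElements.siegel_apply Q hQp hpw, ← hβ]
      simp only [map_sub, map_add, map_smul, LinearMap.sub_apply, LinearMap.add_apply,
        LinearMap.smul_apply]
      rw [sym w p, hpw, show β p p = 0 by rw [hβ, Witt.polar_self', hQp, mul_zero]]
      simpa using hxp
    · show β _ _ ≠ 0
      rw [OmegaBridge.toGL_mulVec, SiegelElements.siegel_apply Q hQp hpw, ← hβ]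
      simp only [map_sub, map_add, map_smul, LinearMap.sub_apply, LinearMap.add_apply,
        LinearMap.smul_apply]
      rw [show β (T (v 0) u₂) (T (v 1) y) = 0 by rw [hform', horth 0 1 (by decide), zero_mul, mul_zero],
        show β p (T (v 1) y) = 0 by rw [hp, hform', horth 0 1 (by decide), zero_mul, mul_zero], zero_add,
        smul_zero, sub_zero]
      refine mul_ne_zero hxp ?_
      rw [hw, hform']
      exact mul_ne_zero hc (mul_ne_zero (hd 1) hy)

end Cfsg.Lib.Classical.TensorMonomial
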