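import Mathlib
import Cfsg.Agent.Lib.Classical.TensorMonomialCases
import Cfsg.Agent.Lib.Classical.UnitaryStd

/-!
Tensor stabilisers with a two-dimensional factor over four elements are not maximal in SU.
-/

set_option autoImplicit false

namespace Cfsg.Lib.Classical.TensorMonomial

open Matrix Module
open scoped MatrixGroups

variable {F : Type*} [Field F] [Fintype F]

/-- The unitary case. -/
theorem unitary_between (n : ℕ) (hF : Fintype.card F = 4) (n₂ : ℕ) (h3 : 3 ≤ n₂)
    (e : Fin n ≃ Fin 2 × Fin n₂) (P : GL (Fin n) F)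
    (f₁ : (Fin 2 → F) → (Fin 2 → F) → F) (f₂ : (Fin n₂ → F) → (Fin n₂ → F) → F)
    (hf₁ : Cfsg.Geo.IsUnitaryFormPow 2 f₁) (hf₂ : Cfsg.Geo.IsUnitaryFormPow 2 f₂)
    (hT : Cfsg.Geo.IsTensorFormStructure (fun x : F => x ^ 2) (Cfsg.hermForm n F 2) f₁ f₂ e P) :
    ∃ K : Subgroup (GL (Fin n) F),
      Cfsg.Geo.tensorProductSubgroup 2 n₂ e P ⊓ (Cfsg.GU n F 2 ⊓ Cfsg.Geo.specialLinear (Fin n) F) < K ∧
        K < (Cfsg.GU n F 2 ⊓ Cfsg.Geo.specialLinear (Fin n) F) := by
  classical
  obtain ⟨σ, hne, hσ, hinv⟩ := exists_frobSq (F := F) (q := 2) (by rw [hF]; norm_num)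
  have hf := hermForm_isUnitaryForm hne hσ hinv n
  have e2 : (fun x : F => x ^ 2) = ⇑σ.toRingHom := funext fun x => (hσ x).symm
  have mk : ∀ {κ : Type} [Fintype κ] {f : (κ → F) → (κ → F) → F}, Cfsg.Geo.IsUnitaryFormPow 2 f →
      Cfsg.Geo.IsUnitaryForm σ f := by
    intro κ _ f h
    exact ⟨hne, hinv, h.add_left, h.smul_left, fun v w => by rw [h.herm, hσ], h.nondegenerate⟩
  have h1 := mk hf₁
  have h2 := mk hf₂
  have g1 : ∀ x y, Cfsg.Geo.formOfGram σ.toRingHom (Cfsg.Geo.gramMatrix f₁) x y = f₁ x y :=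
    formOfGram_gram σ.toRingHom h1.add_left h1.smul_left (herm_add_right h1) (herm_smul_right h1)
  have g2 : ∀ x y, Cfsg.Geo.formOfGram σ.toRingHom (Cfsg.Geo.gramMatrix f₂) x y = f₂ x y :=
    formOfGram_gram σ.toRingHom h2.add_left h2.smul_left (herm_add_right h2) (herm_smul_right h2)
  rw [e2] at hT
  obtain ⟨c, hc, hform⟩ := form_pureMap σ.toRingHom g1 g2 hT
  set T := pureMap e P with hTdef
  obtain ⟨v, hv0, horth, hd, hperm⟩ := SmallFrames.exists_frame_two hF hf₁
  have hd' : ∀ i, f₁ (v i) (v i) ≠ 0 := fun i => by rw [hd]; exact one_ne_zero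
  have one : ∀ {κ : Type} [Fintype κ] {f : (κ → F) → (κ → F) → F}, Cfsg.Geo.IsUnitaryFormPow 2 f →
      ∀ x, f x x ≠ 0 → f x x = 1 := by
    intro κ _ f h x hx
    exact mul_left_cancel₀ hx (by rw [mul_one, ← sq]; exact (h.herm x x).symm)
  obtain ⟨a, -, ha⟩ := exists_aniso h2 (R := ⊤) (by
    rw [finrank_top, Module.finrank_fintype_fun_eq_card, Fintype.card_fin]; omega)
  obtain ⟨b, hb, hbb⟩ := exists_aniso h2 (R := LinearMap.ker (leftLin h2 a)) (by
    have h1 := (leftLin h2 a).finrank_range_add_finrank_ker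
    have h3 := (LinearMap.range (leftLin h2 a)).finrank_le
    rw [finrank_self] at h3
    rw [Module.finrank_fintype_fun_eq_card, Fintype.card_fin] at h1
    rw [Fintype.card_fin]
    omega)
  have hba : f₂ b a = 0 := hb
  have hab : f₂ a b = 0 := herm_eq_zero_symm h2 hba
  have haa := one hf₂ a ha
  have hbb' := one hf₂ b hbb
  haveI : CharP F 2 := by
    obtain ⟨p, hp⟩ := CharP.exists F
    obtain ⟨k, hp', hk⟩ := FiniteField.card F p
    rw [hF] at hk
    have : p ∣ 4 := hk ▸ dvd_pow_self p k.ne_zero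
    have := (Nat.prime_dvd_prime_iff_eq hp' Nat.prime_two).1 (hp'.dvd_of_dvd_pow (show p ∣ 2 ^ 2 from this))
    subst this
    exact hp
  have htr : (1 : F) + σ 1 = 0 := by rw [map_one]; exact CharTwo.add_self_eq_zero 1
  have add_r := herm_add_right hf
  have ha0 : a ≠ 0 := fun h => ha (by rw [h]; exact herm_zero_left h2 _)
  have hu0 : a + b ≠ 0 := fun h => ha (by
    have := h2.add_left a b a
    rw [h, herm_zero_left h2, hba, add_zero] at this
    exact this.symm)
  refine exists_between (D := summand T v) (fun g hg hgS => ?_) ?_ ?_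
  · exact mem_stab_of_frame hform hc ⟨a, a, ha⟩ hd' hperm 0 (exists_factor hg) (mem_GU_iff.1 hgS.1)
  · set p := T (v 0) (a + b) with hp
    have hpp : Cfsg.hermForm n F 2 p p = 0 := by
      rw [hp, hform, h2.add_left, herm_add_right h2, herm_add_right h2, hba, hab, haa, hbb', add_zero,
        zero_add, CharTwo.add_self_eq_zero, mul_zero, mul_zero]
    refine ⟨utv hf p hpp 1, utv_mem_SUgl hf hpp htr, mem_stab_of_le fun i x hx => ?_, fun hg => ?_⟩
    · obtain ⟨u, rfl⟩ := hx
      rw [utv_mulVec]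
      rcases eq_or_ne i 0 with rfl | hi
      · exact ⟨u + (1 * Cfsg.hermForm n F 2 (T (v 0) u) p) • (a + b), by rw [map_add, map_smul, hp]⟩
      · rw [hp, hform, horth i 0 hi, zero_mul, mul_zero, mul_zero, zero_smul, add_zero]
        exact ⟨u, rfl⟩
    · refine not_factor T (pureMap_pure e P) (hv0 0) (hv0 1) hu0 (fun u => ?_) ?_ ?_
        (exists_factor hg) (u₁ := a)
      · rw [utv_mulVec, hp, hform, horth 1 0 (by decide), zero_mul, mul_zero, mul_zero, zero_smul, add_zero]
      · rw [← hp, utv_mulVec, hpp, mul_zero, zero_smul, add_zero]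
      · rw [utv_mulVec, one_mul, hform, herm_add_right h2, haa, hab, add_zero, hd, Ne, add_eq_left]
        refine smul_ne_zero (mul_ne_zero hc (mul_ne_zero one_ne_zero one_ne_zero)) fun h => ?_
        exact (pureMap_eq_zero e P _ _ h).elim (hv0 0) hu0
  · set p := T (v 0) a + T (v 1) a with hp
    have o01 := horth 0 1 (by decide)
    have o10 := horth 1 0 (by decide)
    have hpp : Cfsg.hermForm n F 2 p p = 0 := by
      rw [hp, hf.add_left, add_r, add_r, hform, hform, hform, hform, o01, o10, hd, hd, haa]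
      simp [CharTwo.add_self_eq_zero]
    refine ⟨utv hf p hpp 1, utv_mem_SUgl hf hpp htr, ?_⟩
    refine not_mem_stab T (summand_orth T hform horth)
      (i := 0) (j₁ := 0) (j₂ := 1) (by decide) (x := T (v 0) (a + b)) (y₁ := T (v 0) b) (y₂ := T (v 1) a)
      ⟨_, rfl⟩ ⟨b, rfl⟩ ⟨a, rfl⟩ ?_ ?_
    · rw [utv_mulVec, hf.add_left, hf.smul_left, hp, add_r, hf.add_left, hform, hform, hform, hform, hform,
        o01, o10, hd]
      simp only [h2.add_left, hab, hbb', hba, haa]
      simpa using hc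
    · rw [utv_mulVec, hf.add_left, hf.smul_left, hp, add_r, hf.add_left]
      simp only [hform, o01, hd, h2.add_left, hba, haa]
      simpa using hc

end Cfsg.Lib.Classical.TensorMonomial
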