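import Mathlib
import Cfsg.Agent.Lib.Classical.TensorMax

/-!
Maximality of the stabiliser of a tensor decomposition in the special linear group.
-/

set_option autoImplicit false

namespace Cfsg.Lib.Classical.TensorSL

open Matrix Module Cfsg.Lib.Classical
open scoped MatrixGroups Kronecker

variable {n₁ n₂ : ℕ} {F : Type*} [Field F]

local notation "α" => Fin n₁
local notation "β" => Fin n₂

lemma det_el (X : Matrix α α F) (e φ : β → F) (h : φ ⬝ᵥ e = 0) :
    Matrix.GeneralLinearGroup.det (el X e φ h) = 1 := by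
  refine Units.ext ?_
  rw [Matrix.GeneralLinearGroup.val_det_apply, coe_el, Matrix.mul_assoc, det_one_add_mul_comm,
    Matrix.mul_assoc, projL_embC, h, zero_smul, Matrix.mul_zero, add_zero, det_one, Units.val_one]

lemma el_mul_self (X : Matrix α α F) (e φ : β → F) (h : φ ⬝ᵥ e = 0) :
    el X e φ h * el X e φ h = el (X + X) e φ h := by
  ext1
  simp only [Units.val_mul, coe_el]
  rw [add_mul, one_mul, mul_add, mul_one, el_sq X e φ h, Matrix.mul_add, Matrix.add_mul]
  abel

/-- The Kronecker products of determinant one form a proper subgroup. -/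
lemma exists_not_mem_kron (hn₁ : 2 ≤ n₁) (hn₂ : 2 ≤ n₂) :
    ∃ g : GL (α × β) F, Matrix.GeneralLinearGroup.det g = 1 ∧
      g ∉ Cfsg.Geo.kroneckerSubgroup n₁ n₂ F := by
  let i : α := ⟨0, by omega⟩
  let j : α := ⟨1, by omega⟩
  let k : β := ⟨0, by omega⟩
  let l : β := ⟨1, by omega⟩
  have hij : i ≠ j := by simp [i, j, Fin.ext_iff]
  have hkl : k ≠ l := by simp [k, l, Fin.ext_iff]
  refine ⟨el (Matrix.single i j (1 : F)) (Pi.single k 1) (Pi.single l 1) (by simp [hkl, hkl.symm]),
    det_el _ _ _ _, ?_⟩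
  rintro ⟨a, b, hab⟩
  have entry : ∀ p q r s, (a : Matrix α α F) p r * (b : Matrix β β F) q s =
      (1 : Matrix (α × β) (α × β) F) (p, q) (r, s) +
        Matrix.single i j (1 : F) p r * (Pi.single k (1 : F) : β → F) q * (Pi.single l (1 : F) : β → F) s := by
    intro p q r s
    have := congrFun (congrFun hab (p, q)) (r, s)
    rw [kroneckerMap_apply] at this
    rw [← this, coe_el, Matrix.add_apply]
    congr 1
    simp [embC, projL, mul_apply, Pi.single_apply, Matrix.single_apply, ite_and, eq_comm]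
    try grind
  have h1 := entry i k i k
  have h2 := entry i k j l
  have h3 := entry i k j k
  rw [Matrix.one_apply_eq] at h1
  simp [hij, hij.symm, hkl, hkl.symm] at h1 h2 h3
  rcases h3 with h | h
  · rw [h, zero_mul] at h2; exact zero_ne_one h2
  · rw [h, mul_zero] at h1; exact zero_ne_one h1

/-- An overgroup of the determinant-one Kronecker products is contained in their stabiliser or
contains the special linear group. -/
theorem le_kron_or_ker_det_le [Finite F] (M : Subgroup (GL (α × β) F)) (hn₁ : 2 ≤ n₁)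
    (h12 : n₁ < n₂) (hn₂ : 5 ≤ n₂) (hex : n₁ = 2 → ∃ t : F, t ≠ 0 ∧ t ≠ 1)
    (hK : ∀ g ∈ Cfsg.Geo.kroneckerSubgroup n₁ n₂ F, Matrix.GeneralLinearGroup.det g = 1 → g ∈ M) :
    M ≤ Cfsg.Geo.kroneckerSubgroup n₁ n₂ F ∨
      (Matrix.GeneralLinearGroup.det : GL (α × β) F →* Fˣ).ker ≤ M := by
  classical
  let M₂ : Subgroup (GL (α × β) F) :=
    { carrier := {g | g ∈ M ∨ -g ∈ M}
      mul_mem' := by
        rintro a b (ha | ha) (hb | hb)
        · exact Or.inl (M.mul_mem ha hb)
        · exact Or.inr (by simpa using M.mul_mem ha hb)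
        · exact Or.inr (by simpa using M.mul_mem ha hb)
        · exact Or.inl (by simpa using M.mul_mem ha hb)
      one_mem' := Or.inl M.one_mem
      inv_mem' := by
        rintro a (ha | ha)
        · exact Or.inl (M.inv_mem ha)
        · exact Or.inr (by simpa using M.inv_mem ha) }
  have hK₂ : ∀ g ∈ Cfsg.Geo.kroneckerSubgroup n₁ n₂ F, Matrix.GeneralLinearGroup.det g = 1 → g ∈ M₂ :=
    fun g hg hd => Or.inl (hK g hg hd)
  by_cases hS : ∀ (X : Matrix α α F) (e φ : β → F) (h : φ ⬝ᵥ e = 0), e ≠ 0 → φ ≠ 0 →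
      el X e φ h ∈ M₂ → ∃ c : F, X = c • 1
  · left
    intro g hg
    exact forall_mem_kron ⟨hK₂, hS⟩ hn₁ h12 hn₂ (Or.inr (by simp [M.one_mem])) g (Or.inl hg)
  · right
    push Not at hS
    obtain ⟨X, e, φ, h, he, hφ, hm, hX⟩ := hS
    have hm' : el X e φ h ∈ M := by
      by_cases h2 : (2 : F) = 0
      · rcases hm with hm | hm
        · exact hm
        · convert hm using 1
          refine Units.ext (Matrix.ext fun p q => ?_)
          rw [Units.val_neg, Matrix.neg_apply]
          linear_combination ((el X e φ h : Matrix (α × β) (α × β) F) p q) * h2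
      · have hR : RootIn M₂ X := rootIn_of_one hK₂ (by omega) he hφ hm
        have hY : el ((2 : F)⁻¹ • X) e φ h ∈ M₂ := RootIn.smul hK₂ hR _ e φ h
        have h3 : el X e φ h = el ((2 : F)⁻¹ • X) e φ h * el ((2 : F)⁻¹ • X) e φ h := by
          rw [el_mul_self]
          congr 1
          rw [← two_smul F, smul_smul, mul_inv_cancel₀ h2, one_smul]
        rw [h3]
        rcases hY with hY | hY
        · exact M.mul_mem hY hY
        · simpa using M.mul_mem hY hY
    exact ker_det_le_of_rootIn hK (by omega) hn₁ hex (rootIn_of_one hK (by omega) he hφ hm') hX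

/-- **The tensor product stabiliser is maximal in the special linear group.** -/
theorem isMaximalIn_tensorProduct {ι : Type} [Fintype ι] [DecidableEq ι] [Finite F] (hn₁ : 2 ≤ n₁)
    (h12 : n₁ < n₂) (hn₂ : 5 ≤ n₂) (hex : n₁ = 2 → ∃ t : F, t ≠ 0 ∧ t ≠ 1)
    (e : ι ≃ α × β) (P : GL ι F) :
    Cfsg.Geo.IsMaximalIn (Cfsg.Geo.specialLinear ι F)
      (Cfsg.Geo.tensorProductSubgroup n₁ n₂ e P ⊓ Cfsg.Geo.specialLinear ι F) := by
  classical
  let Φ : GL (α × β) F ≃* GL ι F := (Cfsg.Geo.glReindex e.symm).trans (MulAut.conj P)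
  have hdet : ∀ g, Matrix.GeneralLinearGroup.det (Φ g) = Matrix.GeneralLinearGroup.det g := by
    intro g
    have h1 : Matrix.GeneralLinearGroup.det (Cfsg.Geo.glReindex e.symm g) =
        Matrix.GeneralLinearGroup.det g := by
      refine Units.ext ?_
      rw [Matrix.GeneralLinearGroup.val_det_apply, Matrix.GeneralLinearGroup.val_det_apply]
      exact det_reindex_self _ _
    change Matrix.GeneralLinearGroup.det (P * Cfsg.Geo.glReindex e.symm g * P⁻¹) = _
    rw [map_mul, map_mul, map_inv, h1, mul_inv_cancel_comm]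
  have hT : ∀ g, Φ g ∈ Cfsg.Geo.tensorProductSubgroup n₁ n₂ e P ↔
      g ∈ Cfsg.Geo.kroneckerSubgroup n₁ n₂ F := by
    intro g
    refine ⟨?_, fun hg => ⟨_, ⟨g, hg, rfl⟩, rfl⟩⟩
    rintro ⟨_, ⟨g', hg', rfl⟩, h⟩
    have : Φ g' = Φ g := h
    rwa [← Φ.injective this]
  refine ⟨lt_of_le_of_ne inf_le_right ?_, ?_⟩
  · intro heq
    obtain ⟨g, hgd, hg⟩ := exists_not_mem_kron (F := F) (n₁ := n₁) (n₂ := n₂) hn₁ (by omega)
    have h1 : Φ g ∈ Cfsg.Geo.specialLinear ι F := (hdet g).trans hgd
    rw [← heq] at h1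
    exact hg ((hT g).1 h1.1)
  intro M hHM hMS
  have hK : ∀ g ∈ Cfsg.Geo.kroneckerSubgroup n₁ n₂ F, Matrix.GeneralLinearGroup.det g = 1 →
      g ∈ M.comap Φ.toMonoidHom := fun g hg hd => hHM ⟨(hT g).2 hg, (hdet g).trans hd⟩
  rcases le_kron_or_ker_det_le _ hn₁ h12 hn₂ hex hK with h | h
  · left
    refine le_antisymm (fun x hx => ⟨?_, hMS hx⟩) hHM
    rw [← Φ.apply_symm_apply x]
    exact (hT _).2 (h (show Φ (Φ.symm x) ∈ M by rwa [Φ.apply_symm_apply]))
  · right
    refine le_antisymm hMS fun x hx => ?_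
    rw [← Φ.apply_symm_apply x]
    refine h ?_
    change Matrix.GeneralLinearGroup.det (Φ.symm x) = 1
    rw [← hdet, Φ.apply_symm_apply]
    exact hx

end Cfsg.Lib.Classical.TensorSL
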