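import Mathlib
import Cfsg.Prelude.Def_GeometricClasses

/-!
Over two elements, a tensor factor of dimension two turns the stabiliser into a subgroup of the
normaliser of an element of order three.
-/

set_option autoImplicit false

namespace Cfsg.Lib.Classical.TensorTwoTwo

open Matrix Module
open scoped MatrixGroups Kronecker

/-- The elements sending `J` to itself or its inverse. -/
def pairStab {H : Type*} [Group H] (J : H) : Subgroup H where
  carrier := {g | g * J * g⁻¹ = J ∨ g * J * g⁻¹ = J⁻¹}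
  one_mem' := Or.inl (by simp)
  mul_mem' {g h} hg hh := by
    have e : g * h * J * (g * h)⁻¹ = g * (h * J * h⁻¹) * g⁻¹ := by group
    have e' : g * J⁻¹ * g⁻¹ = (g * J * g⁻¹)⁻¹ := by group
    show g * h * J * (g * h)⁻¹ = J ∨ g * h * J * (g * h)⁻¹ = J⁻¹
    rw [e]
    rcases hh with hh | hh <;> rw [hh]
    · exact hg
    · rw [e']
      rcases hg with hg | hg <;> rw [hg]
      · exact Or.inr rfl
      · exact Or.inl (inv_inv J)
  inv_mem' {g} hg := by
    show g⁻¹ * J * g⁻¹⁻¹ = J ∨ g⁻¹ * J * g⁻¹⁻¹ = J⁻¹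
    rcases hg with hg | hg
    · exact Or.inl (by conv_lhs => rw [← hg]
                       group)
    · refine Or.inr ?_
      calc g⁻¹ * J * g⁻¹⁻¹ = g⁻¹ * (g * J * g⁻¹)⁻¹ * g := by rw [hg, inv_inv, inv_inv]
        _ = J⁻¹ := by group

variable {F : Type*} [Field F] [Fintype F]

lemma zero_or_one (hq : Fintype.card F = 2) (x : F) : x = 0 ∨ x = 1 := by
  rcases eq_or_ne x 0 with h | h
  · exact Or.inl h
  · refine Or.inr ?_
    have := FiniteField.pow_card_sub_one_eq_one x h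
    rwa [hq, pow_one] at this

variable (F) in
/-- An element of order three of `GL 2`. -/
def J₀ : Matrix (Fin 2) (Fin 2) F := !![0, 1; 1, 1]

lemma conj_J₀ (hq : Fintype.card F = 2) [CharP F 2] (a : GL (Fin 2) F) :
    (a : Matrix (Fin 2) (Fin 2) F) * J₀ F = J₀ F * a ∨
      (a : Matrix (Fin 2) (Fin 2) F) * J₀ F = J₀ F * J₀ F * a := by
  have hd := (Matrix.GeneralLinearGroup.det a).ne_zero
  rw [Matrix.GeneralLinearGroup.val_det_apply, det_fin_two] at hd
  rcases zero_or_one hq ((a : Matrix (Fin 2) (Fin 2) F) 0 0) with h00 | h00 <;>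
    rcases zero_or_one hq ((a : Matrix (Fin 2) (Fin 2) F) 0 1) with h01 | h01 <;>
    rcases zero_or_one hq ((a : Matrix (Fin 2) (Fin 2) F) 1 0) with h10 | h10 <;>
    rcases zero_or_one hq ((a : Matrix (Fin 2) (Fin 2) F) 1 1) with h11 | h11 <;>
    simp [h00, h01, h10, h11] at hd <;>
    first
      | (left; ext i j; fin_cases i <;> fin_cases j <;>
          simp [J₀, Matrix.mul_apply, Fin.sum_univ_two, h00, h01, h10, h11, CharTwo.add_self_eq_zero]; done)
      | (right; ext i j; fin_cases i <;> fin_cases j <;>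
          simp [J₀, Matrix.mul_apply, Fin.sum_univ_two, h00, h01, h10, h11, CharTwo.add_self_eq_zero]; done)

/-- The special linear group is everything over two elements. -/
lemma specialLinear_eq_top (hq : Fintype.card F = 2) {ι : Type} [Fintype ι] [DecidableEq ι] :
    Cfsg.Geo.specialLinear ι F = ⊤ := by
  refine eq_top_iff.2 fun g _ => ?_
  show Matrix.GeneralLinearGroup.det g = 1
  exact Units.ext ((zero_or_one hq _).resolve_left (Units.ne_zero _))

/-- The tensor stabiliser is not maximal. -/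
theorem exists_between (hq : Fintype.card F = 2) {ι : Type} [Fintype ι] [DecidableEq ι] {n₂ : ℕ}
    (h2 : 2 ≤ n₂) (e : ι ≃ Fin 2 × Fin n₂) (P : GL ι F) :
    ∃ K : Subgroup (GL ι F), Cfsg.Geo.tensorProductSubgroup 2 n₂ e P ⊓ Cfsg.Geo.specialLinear ι F < K ∧
      K < Cfsg.Geo.specialLinear ι F := by
  classical
  haveI : CharP F 2 := CharTwo.of_one_ne_zero_of_two_eq_zero one_ne_zero
    (by rcases zero_or_one hq (2 : F) with h | h
        · exact h
        · exact absurd (by linear_combination h : (1 : F) = 0) one_ne_zero)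
  have hJ : J₀ F * (J₀ F * J₀ F) = 1 := by
    ext i j
    fin_cases i <;> fin_cases j <;>
      simp [J₀, Matrix.mul_apply, Fin.sum_univ_two, CharTwo.add_self_eq_zero]
  have hJ' : J₀ F * J₀ F * J₀ F = 1 := by rw [mul_assoc, hJ]
  let J : GL (Fin 2 × Fin n₂) F := ⟨J₀ F ⊗ₖ (1 : Matrix (Fin n₂) (Fin n₂) F), (J₀ F * J₀ F) ⊗ₖ 1,
    by rw [← mul_kronecker_mul, hJ, one_mul, one_kronecker_one],
    by rw [← mul_kronecker_mul, hJ', one_mul, one_kronecker_one]⟩
  have h01 : (⟨0, by omega⟩ : Fin n₂) ≠ ⟨1, by omega⟩ := by simp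
  set k0 : Fin n₂ := ⟨0, by omega⟩
  set k1 : Fin n₂ := ⟨1, by omega⟩
  let E : Matrix (Fin n₂) (Fin n₂) F := Matrix.single k0 k1 1
  have hE : E * E = 0 := by
    ext a b
    rw [Matrix.mul_apply]
    refine Finset.sum_eq_zero fun j _ => ?_
    rcases eq_or_ne j k0 with rfl | h <;> simp [E, Matrix.single, h01.symm, *, Ne.symm]
  have hX : ∀ X : Matrix (Fin 2) (Fin 2) F, (1 + X ⊗ₖ E) * (1 + X ⊗ₖ E) = 1 := fun X => by
    rw [add_mul, mul_add, mul_add, one_mul, one_mul, mul_one, ← mul_kronecker_mul, hE, kronecker_zero,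
      add_zero]
    ext a b
    simp [Matrix.add_apply, add_assoc, CharTwo.add_self_eq_zero]
  let u : Matrix (Fin 2) (Fin 2) F → GL (Fin 2 × Fin n₂) F := fun X => ⟨1 + X ⊗ₖ E, 1 + X ⊗ₖ E, hX X, hX X⟩
  have hle : Cfsg.Geo.kroneckerSubgroup 2 n₂ F ≤ pairStab J := by
    rintro g ⟨a, b, hab⟩
    show g * J * g⁻¹ = J ∨ g * J * g⁻¹ = J⁻¹
    rcases conj_J₀ hq a with h | h
    · refine Or.inl (mul_inv_eq_iff_eq_mul.2 (Units.ext ?_))
      show _ * (J₀ F ⊗ₖ (1 : Matrix (Fin n₂) (Fin n₂) F)) = (J₀ F ⊗ₖ (1 : Matrix (Fin n₂) (Fin n₂) F)) * _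
      rw [hab, ← mul_kronecker_mul, ← mul_kronecker_mul, h, mul_one, one_mul]
    · refine Or.inr (mul_inv_eq_iff_eq_mul.2 (Units.ext ?_))
      show _ * (J₀ F ⊗ₖ (1 : Matrix (Fin n₂) (Fin n₂) F)) = ((J₀ F * J₀ F) ⊗ₖ (1 : Matrix (Fin n₂) (Fin n₂) F)) * _
      rw [hab, ← mul_kronecker_mul, ← mul_kronecker_mul, h, mul_one, one_mul]
  have hlt : Cfsg.Geo.kroneckerSubgroup 2 n₂ F < pairStab J := by
    refine lt_of_le_not_ge hle fun h => ?_
    have hu : u (J₀ F) ∈ pairStab J := Or.inl (mul_inv_eq_iff_eq_mul.2 (Units.ext (by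
      show (1 + J₀ F ⊗ₖ E) * (J₀ F ⊗ₖ (1 : Matrix (Fin n₂) (Fin n₂) F)) =
        (J₀ F ⊗ₖ (1 : Matrix (Fin n₂) (Fin n₂) F)) * (1 + J₀ F ⊗ₖ E)
      rw [add_mul, mul_add, one_mul, mul_one, ← mul_kronecker_mul, ← mul_kronecker_mul, mul_one, one_mul])))
    obtain ⟨a, b, hab⟩ := h hu
    have e1 := congrFun (congrFun hab (0, k1)) (0, k1)
    have e2 := congrFun (congrFun hab (0, k1)) (1, k1)
    have e3 := congrFun (congrFun hab (0, k0)) (1, k1)
    simp [u, E, J₀, Matrix.single, Matrix.one_apply, h01, h01.symm] at e1 e2 e3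
    rcases e2 with h' | h'
    · simp [h'] at e3
    · simp [h'] at e1
  have htop : pairStab J < ⊤ := by
    refine lt_top_iff_ne_top.2 fun h => ?_
    set N : Matrix (Fin 2) (Fin 2) F := Matrix.single 0 0 1
    rcases (h ▸ Subgroup.mem_top (u N) : u N ∈ pairStab J) with hu | hu
    all_goals
      have e : ((1 : Matrix _ _ F) + N ⊗ₖ E) * (J₀ F ⊗ₖ (1 : Matrix (Fin n₂) (Fin n₂) F)) = _ :=
        congrArg Units.val (mul_inv_eq_iff_eq_mul.1 hu)
    · change _ = (J₀ F ⊗ₖ (1 : Matrix (Fin n₂) (Fin n₂) F)) * (1 + N ⊗ₖ E) at e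
      have e1 := congrFun (congrFun e (0, k0)) (1, k1)
      simp [N, E, J₀, add_mul, mul_add, Matrix.mul_apply, Matrix.single, Matrix.one_apply, Fintype.sum_prod_type,
        Fin.sum_univ_two, h01, h01.symm] at e1
    · change _ = ((J₀ F * J₀ F) ⊗ₖ (1 : Matrix (Fin n₂) (Fin n₂) F)) * (1 + N ⊗ₖ E) at e
      have e1 := congrFun (congrFun e (0, k1)) (0, k1)
      simp [N, E, J₀, add_mul, mul_add, Matrix.mul_apply, Matrix.single, Matrix.one_apply, Fintype.sum_prod_type,
        Fin.sum_univ_two, h01, h01.symm] at e1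
      simp [Finset.sum_add_distrib, h01, h01.symm] at e1
  have hinj : Function.Injective (fun H : Subgroup (GL (Fin 2 × Fin n₂) F) =>
      (H.map (Cfsg.Geo.glReindex e.symm).toMonoidHom).map (MulAut.conj P).toMonoidHom) :=
    (Subgroup.map_injective (MulAut.conj P).injective).comp
      (Subgroup.map_injective (Cfsg.Geo.glReindex e.symm).injective)
  refine ⟨((pairStab J).map (Cfsg.Geo.glReindex e.symm).toMonoidHom).map (MulAut.conj P).toMonoidHom, ?_, ?_⟩
  · rw [specialLinear_eq_top hq, inf_top_eq]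
    exact lt_of_le_of_ne (Subgroup.map_mono (Subgroup.map_mono hle)) fun h => hlt.ne (hinj h)
  · rw [specialLinear_eq_top hq]
    refine lt_of_le_of_ne le_top fun h => htop.ne (hinj ?_)
    show _ = ((⊤ : Subgroup (GL (Fin 2 × Fin n₂) F)).map (Cfsg.Geo.glReindex e.symm).toMonoidHom).map
      (MulAut.conj P).toMonoidHom
    rw [Subgroup.map_top_of_surjective (Cfsg.Geo.glReindex e.symm).toMonoidHom (Cfsg.Geo.glReindex e.symm).surjective,
      Subgroup.map_top_of_surjective (MulAut.conj P).toMonoidHom (MulAut.conj P).surjective]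
    exact h

end Cfsg.Lib.Classical.TensorTwoTwo
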