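import Mathlib
import Cfsg.Agent.Lib.Classical.TensorTwoTwo
import Cfsg.Agent.Lib.Classical.TensorMonomialCases

/-!
Over two elements, the stabiliser of a tensor decomposition `Sp 2 ⊗ Sp n` is not maximal in the
orthogonal group.
-/

set_option autoImplicit false

namespace Cfsg.Lib.Classical.TensorTwoTwo

open Matrix Module
open TensorMonomial (pureMap pureMap_pure exists_factor form_pureMap formOfGram_bilin)
open scoped MatrixGroups Kronecker

variable {F : Type*} [Field F] [Fintype F]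

/-- The orthogonal case. -/
theorem orthogonal_between (hq : Fintype.card F = 2) {ι : Type} [Fintype ι] [DecidableEq ι]
    {Q : QuadraticForm F (ι → F)} {q : (ι → F) → F} (hQ : ∀ x, Q x = q x)
    (hB : (QuadraticMap.polarBilin Q).Nondegenerate) (hn : 5 ≤ Fintype.card ι) {n₂ : ℕ} (h5 : 5 ≤ n₂)
    (e : ι ≃ Fin 2 × Fin n₂) (P : GL ι F)
    (f₁ : (Fin 2 → F) → (Fin 2 → F) → F) (f₂ : (Fin n₂ → F) → (Fin n₂ → F) → F)
    (hf₁ : Cfsg.Geo.IsSymplecticForm f₁) (hf₂ : Cfsg.Geo.IsSymplecticForm f₂)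
    (hT : Cfsg.Geo.IsTensorFormStructure id (QuadraticMap.polar q) f₁ f₂ e P)
    (hpure : ∀ (x : Fin 2 → F) (u : Fin n₂ → F), q (pureMap e P x u) = 0) :
    ∃ K : Subgroup (GL ι F),
      Cfsg.Geo.tensorProductSubgroup 2 n₂ e P ⊓ Cfsg.Geo.omegaGL q < K ∧ K < Cfsg.Geo.omegaGL q := by
  classical
  haveI : CharP F 2 := CharTwo.of_one_ne_zero_of_two_eq_zero one_ne_zero
    (by rcases zero_or_one hq (2 : F) with h | h
        · exact h
        · exact absurd (by linear_combination h : (1 : F) = 0) one_ne_zero)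
  obtain ⟨c, hc, hform⟩ := form_pureMap (RingHom.id F) (formOfGram_bilin hf₁.bilinear)
    (formOfGram_bilin hf₂.bilinear) hT
  obtain rfl : ⇑Q = q := funext hQ
  set T := pureMap e P with hTdef
  set β := QuadraticMap.polarBilin Q with hβ
  have hc1 : c = 1 := (zero_or_one hq c).resolve_left hc
  have hform' : ∀ x u y v, β (T x u) (T y v) = f₁ x y * f₂ u v := fun x u y v => by
    rw [← one_mul (f₁ x y * _), ← hc1]; exact hform x u y v
  let e0 : Fin 2 → F := ![1, 0]
  let e1 : Fin 2 → F := ![0, 1]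
  have he0 : e0 ≠ 0 := fun h => one_ne_zero (α := F) (congrFun h 0)
  have hsplit : ∀ x : Fin 2 → F, x = x 0 • e0 + x 1 • e1 := fun x => by
    funext i; fin_cases i <;> simp [e0, e1]
  have f00 : f₁ e0 e0 = 0 := hf₁.alternating _
  have f11 : f₁ e1 e1 = 0 := hf₁.alternating _
  have f01 : f₁ e0 e1 = 1 := by
    refine (zero_or_one hq _).resolve_left fun h => ?_
    obtain ⟨y, hy⟩ := (hf₁.nondegenerate e0 he0).2
    rw [hsplit y, hf₁.bilinear.add_right, hf₁.bilinear.smul_right, hf₁.bilinear.smul_right, f00, h] at hy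
    simp at hy
  have f10 : f₁ e1 e0 = 1 := by rw [hf₁.skew, f01, CharTwo.neg_eq]
  have J0 : J₀ F *ᵥ e0 = e1 := by funext i; fin_cases i <;> simp [J₀, e0, e1]
  have J1 : J₀ F *ᵥ e1 = e0 + e1 := by funext i; fin_cases i <;> simp [J₀, e0, e1]
  -- the element of order three
  have hJu : IsUnit (J₀ F) := (Matrix.isUnit_iff_isUnit_det _).2 (by simp [J₀, det_fin_two])
  let Jk : GL (Fin 2 × Fin n₂) F := ⟨J₀ F ⊗ₖ (1 : Matrix (Fin n₂) (Fin n₂) F),
    (↑hJu.unit⁻¹ : Matrix (Fin 2) (Fin 2) F) ⊗ₖ 1,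
    by rw [← mul_kronecker_mul, IsUnit.mul_val_inv, one_mul, one_kronecker_one],
    by rw [← mul_kronecker_mul, IsUnit.val_inv_mul, one_mul, one_kronecker_one]⟩
  let J : GL ι F := MulAut.conj P (Cfsg.Geo.glReindex e.symm Jk)
  have hJmem : J ∈ Cfsg.Geo.tensorProductSubgroup 2 n₂ e P :=
    ⟨_, ⟨Jk, ⟨hJu.unit, 1, rfl⟩, rfl⟩, rfl⟩
  have hJT : ∀ x u, (J : Matrix ι ι F) *ᵥ T x u = T (J₀ F *ᵥ x) u := fun x u => by
    rw [hTdef, TensorMonomial.pureMap_apply, TensorMonomial.pureMap_apply]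
    show ((P * Cfsg.Geo.glReindex e.symm Jk * P⁻¹ : GL ι F) : Matrix ι ι F) *ᵥ _ = _
    rw [mulVec_mulVec, ← Units.val_mul, inv_mul_cancel_right, Units.val_mul, ← mulVec_mulVec]
    congr 1
    show (Matrix.reindex e.symm e.symm (J₀ F ⊗ₖ (1 : Matrix (Fin n₂) (Fin n₂) F))) *ᵥ _ = _
    funext i
    simp only [mulVec, dotProduct, Matrix.reindex_apply, Equiv.symm_symm, Matrix.submatrix_apply,
      Function.comp_apply, Matrix.kroneckerMap_apply]
    rw [Equiv.sum_comp e (fun b => J₀ F (e i).1 b.1 * (1 : Matrix (Fin n₂) (Fin n₂) F) (e i).2 b.2 *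
      (x b.1 * u b.2)), Fintype.sum_prod_type, Finset.sum_mul]
    refine Finset.sum_congr rfl fun j _ => ?_
    rw [Finset.sum_eq_single (e i).2 (fun b _ hb => by rw [Matrix.one_apply_ne hb.symm]; ring) (by simp),
      Matrix.one_apply_eq]
    ring
  -- J is an isometry
  have hspan : ∀ z : ι → F, z ∈ Submodule.span F {w | ∃ x u, w = T x u} := by
    intro z
    obtain ⟨z', hz⟩ : ∃ z', z = (P : Matrix ι ι F) *ᵥ z' :=
      ⟨((P⁻¹ : GL ι F) : Matrix ι ι F) *ᵥ z, by rw [mulVec_mulVec, Units.mul_inv, one_mulVec]⟩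
    rw [hz, pi_eq_sum_univ' z', mulVec_sum]
    refine Submodule.sum_mem _ fun i _ => ?_
    rw [mulVec_smul]
    refine Submodule.smul_mem _ _ (Submodule.subset_span ⟨Pi.single (e i).1 1, Pi.single (e i).2 1, ?_⟩)
    rw [hTdef, TensorMonomial.pureMap_apply]
    congr 1
    funext j
    rcases eq_or_ne i j with rfl | h
    · simp
    · have h' : e i ≠ e j := fun he => h (e.injective he)
      rw [Pi.single_eq_of_ne' h]
      rcases eq_or_ne (e i).1 (e j).1 with h1 | h1
      · have h2 : (e i).2 ≠ (e j).2 := fun h2 => h' (Prod.ext h1 h2)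
        simp [h1, h2, Ne.symm h2]
      · simp [h1, Ne.symm h1]
  have hf1J : ∀ x y, f₁ (J₀ F *ᵥ x) (J₀ F *ᵥ y) = f₁ x y := by
    intro x y
    have add := hf₁.bilinear
    rw [hsplit x, hsplit y]
    simp only [mulVec_add, mulVec_smul, J0, J1, add.add_left, add.add_right, add.smul_left, add.smul_right,
      f00, f11, f01, f10, CharTwo.add_self_eq_zero, add_zero, zero_add]
    ring
  have hJβ : ∀ a b, β ((J : Matrix ι ι F) *ᵥ a) ((J : Matrix ι ι F) *ᵥ b) = β a b := by
    intro a b
    induction hspan a using Submodule.span_induction with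
    | mem a ha =>
      obtain ⟨x, u, rfl⟩ := ha
      induction hspan b using Submodule.span_induction with
      | mem b hb =>
        obtain ⟨y, v, rfl⟩ := hb
        rw [hJT, hJT, hform', hform', hf1J]
      | zero => simp [mulVec_zero]
      | add b b' _ _ h h' => rw [mulVec_add, map_add, map_add, h, h']
      | smul s b _ h => rw [mulVec_smul, map_smul, map_smul, h]
    | zero => simp [mulVec_zero]
    | add a a' _ _ h h' => rw [mulVec_add, map_add, map_add, LinearMap.add_apply, LinearMap.add_apply, h, h']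
    | smul s a _ h => rw [mulVec_smul, map_smul, map_smul, LinearMap.smul_apply, LinearMap.smul_apply, h]
  have hJQ : ∀ a, Q ((J : Matrix ι ι F) *ᵥ a) = Q a := by
    intro a
    induction hspan a using Submodule.span_induction with
    | mem a ha => obtain ⟨x, u, rfl⟩ := ha; rw [hJT, hpure, hpure]
    | zero => rw [mulVec_zero]
    | add a b _ _ h h' => rw [mulVec_add, Witt.quad_add, Witt.quad_add, h, h', hJβ]
    | smul s a _ h => rw [mulVec_smul, Witt.quad_smul, Witt.quad_smul, h]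
  let jQ : Witt.quadIso Q := ⟨glEquiv ι F J, hJQ⟩
  -- vectors
  obtain ⟨a, ha0⟩ : ∃ a : Fin n₂ → F, a ≠ 0 := ⟨Pi.single ⟨0, by omega⟩ 1, by simp⟩
  let L : (Fin n₂ → F) → ((Fin n₂ → F) →ₗ[F] F) := fun v =>
    { toFun := fun u => f₂ u v
      map_add' := fun s t => hf₂.bilinear.add_left s t v
      map_smul' := fun s t => hf₂.bilinear.smul_left s t v }
  have hker : ∀ v, n₂ ≤ finrank F (LinearMap.ker (L v)) + 1 := fun v => by
    have h1 := (L v).finrank_range_add_finrank_ker
    have h2 := (LinearMap.range (L v)).finrank_le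
    rw [finrank_self] at h2
    rw [Module.finrank_fintype_fun_eq_card, Fintype.card_fin] at h1
    omega
  obtain ⟨b, hba, hbsp⟩ := SetLike.not_le_iff_exists.1
    (show ¬ LinearMap.ker (L a) ≤ Submodule.span F {a} from fun h => by
      have := Submodule.finrank_mono h
      rw [finrank_span_singleton ha0] at this
      have := hker a
      omega)
  have hba' : f₂ b a = 0 := hba
  have hab : f₂ a b = 0 := by rw [hf₂.skew, hba', neg_zero]
  have hb0 : b ≠ 0 := fun h => hbsp (h ▸ zero_mem _)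
  obtain ⟨w, hw, hw0⟩ := Submodule.exists_mem_ne_zero_of_ne_bot
    (p := LinearMap.ker (L a) ⊓ LinearMap.ker (L b)) (fun h => by
      have h1 := Submodule.finrank_sup_add_finrank_inf_eq (LinearMap.ker (L a)) (LinearMap.ker (L b))
      have h2 := Submodule.finrank_le (LinearMap.ker (L a) ⊔ LinearMap.ker (L b))
      rw [h, finrank_bot] at h1
      rw [Module.finrank_fintype_fun_eq_card, Fintype.card_fin] at h2
      have := hker a
      have := hker b
      omega)
  have hwa : f₂ w a = 0 := hw.1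
  have hwb : f₂ w b = 0 := hw.2
  obtain ⟨z, hza, hzb⟩ : ∃ z, f₂ z a = 1 ∧ f₂ z b = 0 := by
    obtain ⟨z₁, h1⟩ := (hf₂.nondegenerate a ha0).1
    have h1' : f₂ z₁ a = 1 := (zero_or_one hq _).resolve_left h1
    rcases zero_or_one hq (f₂ z₁ b) with h | h
    · exact ⟨z₁, h1', h⟩
    have hab' : a + b ≠ 0 := fun h0 => hbsp (by
      rw [show b = a from funext fun i => (CharTwo.add_eq_zero.1 (congrFun h0 i)).symm]
      exact Submodule.mem_span_singleton_self a)
    obtain ⟨z₂, h2⟩ := (hf₂.nondegenerate _ hab').1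
    have h2' := (zero_or_one hq _).resolve_left h2
    rw [hf₂.bilinear.add_right] at h2'
    rcases zero_or_one hq (f₂ z₂ b) with h3 | h3
    · exact ⟨z₂, by rw [h3, add_zero] at h2'; exact h2', h3⟩
    · refine ⟨z₁ + z₂, ?_, by rw [hf₂.bilinear.add_left, h, h3, CharTwo.add_self_eq_zero]⟩
      rw [h3] at h2'
      rw [hf₂.bilinear.add_left, h1', show f₂ z₂ a = 0 by linear_combination h2', add_zero]
  have hmemΩ : ∀ p v, Q p = 0 → β p v = 0 → OmegaBridge.toGL (f := ⇑Q) (fun _ => rfl)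
      (SiegelElements.siegel Q p v) ∈ Cfsg.Geo.omegaGL ⇑Q := fun p v h h' =>
    OmegaBridge.toGL_mem _ (SiegelElements.siegel_mem_commutator Q hB
      (by rw [Module.finrank_fintype_fun_eq_card]; omega) h h')
  refine ⟨pairStab J ⊓ Cfsg.Geo.omegaGL ⇑Q, lt_of_le_not_ge (fun g hg => ⟨?_, hg.2⟩) ?_,
    lt_of_le_not_ge inf_le_right ?_⟩
  · obtain ⟨_, ⟨h, ⟨A, B, hAB⟩, rfl⟩, rfl⟩ := hg.1
    have key : h * Jk * h⁻¹ = Jk ∨ h * Jk * h⁻¹ = Jk⁻¹ := by
      rcases conj_J₀ hq A with hA | hA
      · refine Or.inl (mul_inv_eq_iff_eq_mul.2 (Units.ext ?_))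
        show _ * (J₀ F ⊗ₖ (1 : Matrix (Fin n₂) (Fin n₂) F)) = (J₀ F ⊗ₖ (1 : Matrix (Fin n₂) (Fin n₂) F)) * _
        rw [hAB, ← mul_kronecker_mul, ← mul_kronecker_mul, hA, mul_one, one_mul]
      · refine Or.inr (mul_inv_eq_iff_eq_mul.2 (Units.ext ?_))
        show _ * (J₀ F ⊗ₖ (1 : Matrix (Fin n₂) (Fin n₂) F)) =
          ((↑hJu.unit⁻¹ : Matrix (Fin 2) (Fin 2) F) ⊗ₖ (1 : Matrix (Fin n₂) (Fin n₂) F)) * _
        have hi : (↑hJu.unit⁻¹ : Matrix (Fin 2) (Fin 2) F) = J₀ F * J₀ F := by
          have h3 : J₀ F * (J₀ F * J₀ F) = 1 := by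
            ext i j
            fin_cases i <;> fin_cases j <;>
              simp [J₀, Matrix.mul_apply, Fin.sum_univ_two, CharTwo.add_self_eq_zero]
          calc (↑hJu.unit⁻¹ : Matrix (Fin 2) (Fin 2) F) = ↑hJu.unit⁻¹ * (J₀ F * (J₀ F * J₀ F)) := by
                rw [h3, mul_one]
            _ = J₀ F * J₀ F := by rw [← mul_assoc, IsUnit.val_inv_mul, one_mul]
        rw [hAB, ← mul_kronecker_mul, ← mul_kronecker_mul, hA, hi, mul_one, one_mul]
    let φ := (MulAut.conj P).toMonoidHom.comp (Cfsg.Geo.glReindex e.symm).toMonoidHom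
    show φ h * φ Jk * (φ h)⁻¹ = φ Jk ∨ φ h * φ Jk * (φ h)⁻¹ = (φ Jk)⁻¹
    rw [← map_inv, ← map_inv, ← map_mul, ← map_mul]
    exact key.imp (congrArg φ) (congrArg φ)
  · set p := T e0 a + T e1 b with hp
    set p' := T e1 (a + b) + T e0 b with hp'
    have hJp : (J : Matrix ι ι F) *ᵥ p = p' := by
      rw [hp, mulVec_add, hJT, hJT, J0, J1, hp', map_add T, LinearMap.add_apply, map_add (T e1)]
      abel
    have bil := hf₂.bilinear
    have qp : Q p = 0 := by
      rw [hp, Witt.quad_add, hpure, hpure, hform', hab]; ring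
    have qp' : Q p' = 0 := by
      rw [hp', Witt.quad_add, hpure, hpure, hform', bil.add_left, hab, hf₂.alternating]; ring
    have bpp : β p p' = 0 := by
      rw [hp, hp']
      simp only [map_add, LinearMap.add_apply, hform', f00, f11, f01, f10, bil.add_right, hf₂.alternating, hab]
      ring
    intro hle
    set g := OmegaBridge.toGL (f := ⇑Q) (fun _ => rfl) (SiegelElements.siegel Q p p') with hg
    have hgK : g ∈ pairStab J := by
      refine Or.inl (mul_inv_eq_iff_eq_mul.2 (gl_ext fun x => ?_))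
      rw [Units.val_mul, Units.val_mul, ← mulVec_mulVec, ← mulVec_mulVec, hg, OmegaBridge.toGL_mulVec,
        OmegaBridge.toGL_mulVec, SiegelElements.siegel_apply Q qp bpp, SiegelElements.siegel_apply Q qp bpp,
        qp', zero_mul, zero_mul, add_zero, add_zero, mulVec_sub, mulVec_add, mulVec_smul, mulVec_smul, hJp]
      have hJJp : (J : Matrix ι ι F) *ᵥ p' = p + p' := by
        rw [hp', mulVec_add, hJT, hJT, J0, J1, hp, map_add T, LinearMap.add_apply, map_add (T e0),
          map_add (T e1)]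
        abel
      have hx1 : β ((J : Matrix ι ι F) *ᵥ x) p = β x p' + β x p := by
        have h3 := hJβ x (p + p')
        rw [mulVec_add, hJp, hJJp, map_add (β x) p p', map_add (β ((J : Matrix ι ι F) *ᵥ x)) p' (p + p'),
          map_add (β ((J : Matrix ι ι F) *ᵥ x)) p p'] at h3
        linear_combination h3 - (β ((J : Matrix ι ι F) *ᵥ x) p') * (CharTwo.two_eq_zero (R := F))
      have hx2 : β ((J : Matrix ι ι F) *ᵥ x) p' = β x p := by rw [← hJp, hJβ]
      rw [← hβ, hx1, hx2, hJJp]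
      have h2 : ∀ v : ι → F, v + v = 0 := fun v => by rw [← two_smul F, CharTwo.two_eq_zero, zero_smul]
      linear_combination (norm := module) (1 : F) • h2 (β x p' • p') + (-1 : F) • h2 (β x p • p)
    obtain ⟨A, B, hAB⟩ := exists_factor (hle ⟨hgK, hmemΩ p p' qp bpp⟩).1
    have hgw : (g : Matrix ι ι F) *ᵥ T e0 w = T e0 w := by
      rw [hg, OmegaBridge.toGL_mulVec, SiegelElements.siegel_apply Q qp bpp, ← hβ, hp, hp']
      simp [-QuadraticMap.polarBilin_apply_apply, hform', hf₂.bilinear.add_right, hwa, hwb, map_add]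
    rw [hAB] at hgw
    obtain ⟨ν, hν, hνA, -⟩ := pureMap_pure e P e0 w _ _ he0 hw0 hgw.symm
    have hgz := hAB e0 z
    rw [hg, OmegaBridge.toGL_mulVec, SiegelElements.siegel_apply Q qp bpp, qp', zero_mul, add_zero, ← hβ,
      hνA, map_smul, LinearMap.smul_apply] at hgz
    have c1 : β (T e0 z) p = 0 := by
      rw [hp, map_add, hform', hform', f00, f01, hzb]; ring
    have c2 : β (T e0 z) p' = 1 := by
      rw [hp', map_add, hform', hform', f00, f01, hf₂.bilinear.add_right, hza, hzb]; ring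
    rw [c1, c2, zero_smul, add_zero, one_smul, hp] at hgz
    have h3 : T e0 (z - a - ν • (((B : Matrix (Fin n₂) (Fin n₂) F)) *ᵥ z)) = T e1 b := by
      rw [map_sub, map_sub, map_smul]
      linear_combination (norm := module) hgz
    obtain ⟨t, ht, hte, -⟩ := pureMap_pure e P e0 _ e1 b he0 (fun h0 => by
      rw [h0, map_zero] at h3
      rcases TensorMonomial.pureMap_eq_zero e P e1 b h3.symm with h' | h'
      · exact one_ne_zero (α := F) (congrFun h' 1)
      · exact hb0 h') h3
    simpa [e0, e1] using congrFun hte 1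
  · intro hle
    set p := T e0 a with hp
    set v := T e0 b with hv
    have qp : Q p = 0 := hpure _ _
    have bpv : β p v = 0 := by rw [hp, hv, hform', f00, zero_mul]
    set g := OmegaBridge.toGL (f := ⇑Q) (fun _ => rfl) (SiegelElements.siegel Q p v) with hg
    have hgK : g * J * g⁻¹ = J ∨ g * J * g⁻¹ = J⁻¹ := (hle (hmemΩ p v qp bpv)).1
    have g0 : (g : Matrix ι ι F) *ᵥ T e0 z = T e0 z := by
      rw [hg, OmegaBridge.toGL_mulVec, SiegelElements.siegel_apply Q qp bpv, ← hβ, hp, hv, hform', hform', f00]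
      simp
    have g1 : (g : Matrix ι ι F) *ᵥ T e1 z = T e1 z + T e0 b := by
      rw [hg, OmegaBridge.toGL_mulVec, SiegelElements.siegel_apply Q qp bpv, ← hβ, hp, hv, hpure, hform',
        hform', f10, hza, hzb]
      simp
    rcases hgK with h | h
    · have h' := congrArg (fun k : GL ι F => (k : Matrix ι ι F) *ᵥ T e0 z) (mul_inv_eq_iff_eq_mul.1 h)
      simp only [Units.val_mul, ← mulVec_mulVec, g0, hJT, J0, g1, add_eq_left] at h'
      exact (TensorMonomial.pureMap_eq_zero e P e0 b h').elim he0 hb0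
    · have h' := congrArg (fun k : GL ι F => (J : Matrix ι ι F) *ᵥ ((k : Matrix ι ι F) *ᵥ T e0 z))
        (mul_inv_eq_iff_eq_mul.1 h)
      simp only [Units.val_mul, ← mulVec_mulVec, g0, hJT, J0, g1, mulVec_add] at h'
      rw [mulVec_mulVec, ← Units.val_mul, mul_inv_cancel, Units.val_one, one_mulVec, J1, map_add,
        LinearMap.add_apply] at h'
      have h2 : T e0 z + T e0 z = 0 := by rw [← two_smul F, CharTwo.two_eq_zero, zero_smul]
      have h3 : T e1 (z + b) = 0 := by
        rw [map_add]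
        linear_combination (norm := module) h'
      refine (TensorMonomial.pureMap_eq_zero e P e1 _ h3).elim (fun h4 => one_ne_zero (α := F) (congrFun h4 1))
        fun h4 => ?_
      have h5 : f₂ (z + b) a = 0 := by rw [h4]; exact map_zero (L a)
      rw [hf₂.bilinear.add_left, hza, hba', add_zero] at h5
      exact one_ne_zero h5

end Cfsg.Lib.Classical.TensorTwoTwo
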