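import Mathlib
import Cfsg.Prelude.Def_ClassicalGeometry
import Cfsg.Agent.Lib.Classical.Transvection

/-! In SL_n, n ≥ 3, every transvection is conjugate to the elementary one. -/

set_option autoImplicit false

namespace Cfsg.Agent.TvConj

open Matrix Cfsg.Lib.Classical

variable {F : Type*} [Field F] {n : ℕ}

/-- similarity by an invertible matrix -/
def Sim (A B : Matrix (Fin n) (Fin n) F) : Prop :=
  ∃ P : GL (Fin n) F, A = (P : Matrix (Fin n) (Fin n) F) * B * ((P⁻¹ : GL (Fin n) F) : Matrix _ _ F)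

theorem sim_tv (g : GL (Fin n) F) (v φ : Fin n → F) :
    Sim (tv ((g : Matrix (Fin n) (Fin n) F) *ᵥ v) (φ ᵥ* ((g⁻¹ : GL (Fin n) F) : Matrix _ _ F)))
      (tv v φ) := ⟨g, (conj_tv g v φ).symm⟩

theorem Sim.trans {A B C : Matrix (Fin n) (Fin n) F} (h : Sim A B) (h' : Sim B C) : Sim A C := by
  obtain ⟨P, rfl⟩ := h; obtain ⟨Q, rfl⟩ := h'
  exact ⟨P * Q, by simp [Matrix.mul_assoc]⟩

theorem perm_gl (σ : Equiv.Perm (Fin n)) :
    ∃ g : GL (Fin n) F, (∀ k, (g : Matrix (Fin n) (Fin n) F) *ᵥ Pi.single k 1 = Pi.single (σ k) 1) ∧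
      (∀ k, (Pi.single k 1 : Fin n → F) ᵥ* ((g⁻¹ : GL (Fin n) F) : Matrix _ _ F) = Pi.single (σ k) 1) := by
  let A : Matrix (Fin n) (Fin n) F := (1 : Matrix (Fin n) (Fin n) F).submatrix σ.symm id
  let B : Matrix (Fin n) (Fin n) F := (1 : Matrix (Fin n) (Fin n) F).submatrix id σ.symm
  have hAB : A * B = 1 := by
    ext i j; simp [A, B, mul_apply, Matrix.one_apply, eq_comm]
  let g : GL (Fin n) F := ⟨A, B, hAB, mul_eq_one_comm.1 hAB⟩
  refine ⟨g, fun k => ?_, fun k => ?_⟩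
  · funext i
    simp [g, A, Matrix.one_apply, Pi.single_apply, Equiv.symm_apply_eq]
  · funext i
    simp [g, B, Matrix.one_apply, Pi.single_apply, Equiv.eq_symm_apply, eq_comm]

theorem normal_form [NeZero n] {N : Matrix (Fin n) (Fin n) F} (hr : N.rank = 1) (h0 : N * N = 0)
    (i1 : Fin n) (hi1 : i1 ≠ 0) :
    Sim (1 + N) (tv (Pi.single 0 1) (Pi.single i1 1)) := by
  obtain ⟨v, hv0, hv⟩ := finrank_eq_one_iff'.1 hr
  choose c hc using fun j => hv ⟨N *ᵥ Pi.single j 1, LinearMap.mem_range_self _ _⟩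
  have hN : N = vecMulVec (v : Fin n → F) c := by
    ext i j
    have := congrFun (congrArg Subtype.val (hc j)) i
    simp at this
    rw [vecMulVec_apply, ← this]; ring
  have hv' : (v : Fin n → F) ≠ 0 := fun h => hv0 (Subtype.ext h)
  have hc0 : c ≠ 0 := by
    intro h; rw [hN, h, vecMulVec_zero, rank_zero] at hr; omega
  have hcv : c ⬝ᵥ (v : Fin n → F) = 0 := by
    by_contra hne
    obtain ⟨i, hi⟩ := Function.ne_iff.1 hv'
    obtain ⟨j, hj⟩ := Function.ne_iff.1 hc0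
    have := congrFun (congrFun h0 i) j
    rw [hN, vecMulVec_mul_vecMulVec, vecMulVec_apply] at this
    simp at this
    tauto
  have hA : (1 : Matrix (Fin n) (Fin n) F) + N = tv (v : Fin n → F) c := congrArg (1 + ·) hN
  rw [hA]
  obtain ⟨i0, hi0⟩ := Function.ne_iff.1 hv'
  have hd1 : ((1 : Matrix (Fin n) (Fin n) F).updateCol i0 (v : Fin n → F)).det ≠ 0 := by
    have : ((1 : Matrix (Fin n) (Fin n) F).updateCol i0 (v : Fin n → F))ᵀ =
        (1 : Matrix (Fin n) (Fin n) F).updateRow i0 (∑ k, (v : Fin n → F) k • (1 : Matrix (Fin n) (Fin n) F) k) := by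
      rw [← updateRow_transpose, transpose_one]; congr 1
      funext j; simp [Matrix.one_apply]
    rw [← det_transpose, this, det_updateRow_sum, det_one, smul_eq_mul, mul_one]
    exact hi0
  let g1 : GL (Fin n) F := GeneralLinearGroup.mkOfDetNeZero _ hd1
  obtain ⟨π, hπ, hπ'⟩ := perm_gl (F := F) (Equiv.swap (0 : Fin n) i0)
  set ψ := c ᵥ* ((g1 * π : GL (Fin n) F) : Matrix (Fin n) (Fin n) F) with hψ
  have hg : ((g1 * π : GL (Fin n) F) : Matrix (Fin n) (Fin n) F) *ᵥ Pi.single 0 1 = (v : Fin n → F) := by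
    rw [Units.val_mul, ← mulVec_mulVec, hπ, Equiv.swap_apply_left]
    funext i
    simp [g1, GeneralLinearGroup.mkOfDetNeZero]
  have s1 : Sim (tv (v : Fin n → F) c) (tv (Pi.single 0 1) ψ) := by
    refine ⟨g1 * π, ?_⟩
    rw [conj_tv, hg, hψ, vecMul_vecMul, Units.mul_inv, vecMul_one]
  refine s1.trans ?_
  have hψ0 : ψ 0 = 0 := by
    have : ψ ⬝ᵥ Pi.single 0 1 = 0 := by rw [hψ, ← dotProduct_mulVec, hg, hcv]
    simpa using this
  have hψne : ψ ≠ 0 := by
    intro h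
    apply hc0
    have := congrArg (fun x => x ᵥ* (((g1 * π)⁻¹ : GL (Fin n) F) : Matrix (Fin n) (Fin n) F)) h
    simp only [hψ, vecMul_vecMul, Units.mul_inv, vecMul_one, zero_vecMul] at this
    exact this
  obtain ⟨j, hj⟩ := Function.ne_iff.1 hψne
  have hj0 : j ≠ 0 := fun h => hj (by rw [h]; exact hψ0)
  have hd2 : ((1 : Matrix (Fin n) (Fin n) F).updateRow j ψ).det ≠ 0 := by
    have : ψ = ∑ k, ψ k • (1 : Matrix (Fin n) (Fin n) F) k := by
      funext i; simp [Matrix.one_apply]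
    rw [this, det_updateRow_sum, det_one, smul_eq_mul, mul_one]; exact hj
  let g2 : GL (Fin n) F := GeneralLinearGroup.mkOfDetNeZero _ hd2
  obtain ⟨τ, hτ, hτ'⟩ := perm_gl (F := F) (Equiv.swap i1 j)
  refine ⟨g2⁻¹ * τ, ?_⟩
  rw [conj_tv]
  have e1 : ((g2⁻¹ * τ : GL (Fin n) F) : Matrix (Fin n) (Fin n) F) *ᵥ Pi.single 0 1 = Pi.single 0 1 := by
    rw [Units.val_mul, ← mulVec_mulVec, hτ, Equiv.swap_apply_of_ne_of_ne hi1.symm hj0.symm]
    have : (g2 : Matrix (Fin n) (Fin n) F) *ᵥ Pi.single 0 1 = Pi.single 0 1 := by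
      funext i
      rcases eq_or_ne i j with rfl | hij
      · simp [g2, GeneralLinearGroup.mkOfDetNeZero, hψ0, hj0]
      · simp [g2, GeneralLinearGroup.mkOfDetNeZero, hij, Matrix.one_apply, Pi.single_apply]
    conv_lhs => rw [← this]
    rw [inv_mulVec_mulVec]
  have e2 : (Pi.single i1 1 : Fin n → F) ᵥ*
      (((g2⁻¹ * τ)⁻¹ : GL (Fin n) F) : Matrix (Fin n) (Fin n) F) = ψ := by
    rw [_root_.mul_inv_rev, inv_inv, Units.val_mul, ← vecMul_vecMul, hτ', Equiv.swap_apply_left]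
    funext i
    simp [g2, GeneralLinearGroup.mkOfDetNeZero]
  rw [e1, e2]

theorem isConj_sl {n : ℕ} (hn : 3 ≤ n) (s t : Matrix.SpecialLinearGroup (Fin n) F)
    (hs : Cfsg.IsTransvection (s : Matrix (Fin n) (Fin n) F))
    (ht : Cfsg.IsTransvection (t : Matrix (Fin n) (Fin n) F)) : IsConj s t := by
  have : NeZero n := ⟨by omega⟩
  set i1 : Fin n := ⟨1, by omega⟩
  set i2 : Fin n := ⟨2, by omega⟩
  have h10 : i1 ≠ 0 := by intro h; simp [i1, Fin.ext_iff] at h
  have h20 : i2 ≠ 0 := by intro h; simp [i2, Fin.ext_iff] at h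
  have h12 : i2 ≠ i1 := by intro h; simp [i1, i2, Fin.ext_iff] at h
  obtain ⟨P, hP⟩ := normal_form hs.1 hs.2 i1 h10
  obtain ⟨Q, hQ⟩ := normal_form ht.1 ht.2 i1 h10
  rw [add_sub_cancel] at hP hQ
  set E := tv (Pi.single (0 : Fin n) (1 : F)) (Pi.single i1 1) with hE
  set d : F := (P : Matrix (Fin n) (Fin n) F).det / (Q : Matrix (Fin n) (Fin n) F).det with hd
  have hQd : (Q : Matrix (Fin n) (Fin n) F).det ≠ 0 := det_ne_zero_of_right_inverse (Units.mul_inv Q)
  have hPd : (P : Matrix (Fin n) (Fin n) F).det ≠ 0 := det_ne_zero_of_right_inverse (Units.mul_inv P)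
  set D : Matrix (Fin n) (Fin n) F := diagonal (Function.update 1 i2 d) with hD
  have hDd : D.det = d := by
    rw [hD, det_diagonal, Finset.prod_update_of_mem (Finset.mem_univ _)]; simp
  have hDE : E * D = D * E := by
    rw [hE, tv, Matrix.add_mul, Matrix.mul_add, Matrix.one_mul, Matrix.mul_one, hD]
    congr 1
    ext a b
    simp only [mul_diagonal, diagonal_mul, vecMulVec_apply]
    rcases eq_or_ne a 0 with rfl | ha
    · rcases eq_or_ne b i1 with rfl | hb
      · simp [Function.update_of_ne h12.symm, Function.update_of_ne h20.symm]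
      · simp [Pi.single_eq_of_ne hb]
    · simp [Pi.single_eq_of_ne ha]
  set U := (Q : Matrix (Fin n) (Fin n) F) * D * ((P⁻¹ : GL (Fin n) F) : Matrix (Fin n) (Fin n) F) with hU
  have hUd : U.det = 1 := by
    have hPi : (P : Matrix (Fin n) (Fin n) F).det * ((P⁻¹ : GL (Fin n) F) : Matrix (Fin n) (Fin n) F).det = 1 := by
      rw [← det_mul, Units.mul_inv, det_one]
    rw [hU, det_mul, det_mul, hDd, hd]; field_simp; exact hPi
  rw [isConj_iff]
  let u : Matrix.SpecialLinearGroup (Fin n) F := ⟨U, hUd⟩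
  refine ⟨u, mul_inv_eq_iff_eq_mul.2 ?_⟩
  apply Subtype.ext
  show U * (s : Matrix (Fin n) (Fin n) F) = (t : Matrix (Fin n) (Fin n) F) * U
  rw [hP, hQ, hU]
  simp only [Matrix.mul_assoc, Units.inv_mul_cancel_left]
  rw [← Matrix.mul_assoc E D, hDE, Matrix.mul_assoc]

end Cfsg.Agent.TvConj
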