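import Mathlib

/-! Two-parts of scalars in a finite field. -/

set_option autoImplicit false

namespace Cfsg.Lib.Classical.TwoParts

lemma split {n : ℕ} (hn : n ≠ 0) : ∃ b, Odd b ∧ n = 2 ^ padicValNat 2 n * b := by
  haveI : Fact (Nat.Prime 2) := ⟨Nat.prime_two⟩
  obtain ⟨b, hb⟩ : 2 ^ padicValNat 2 n ∣ n := pow_padicValNat_dvd
  refine ⟨b, ?_, hb⟩
  by_contra h
  obtain ⟨c, rfl⟩ := even_iff_two_dvd.1 (Nat.not_odd_iff_even.1 h)
  exact pow_succ_padicValNat_not_dvd hn ⟨c, by rw [pow_succ, mul_assoc]; exact hb⟩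

variable {F : Type*} [Field F] [Fintype F] {q : ℕ}

theorem not_neg_one (hF : Fintype.card F = q) (hq : Odd q) {n : ℕ} {x : F} (hx : x ≠ 0)
    (h : padicValNat 2 (q - 1) ≤ padicValNat 2 n) : x ^ n ≠ -1 := by
  have hq2 : 2 ≤ q := hF ▸ Fintype.one_lt_card
  rcases eq_or_ne n 0 with rfl | hn
  · rw [pow_zero]
    intro e
    have h2 : ((2 : ℕ) : F) = 0 := by push_cast; linear_combination e
    have h3 := (ringChar.spec F 2).1 h2
    haveI : CharP F 2 := ringChar.of_eq ((Nat.prime_dvd_prime_iff_eq (CharP.char_prime_of_ne_zero F (CharP.ringChar_ne_zero_of_finite F)) Nat.prime_two).1 h3)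
    have := FiniteField.even_card_of_char_two (F := F) (ringChar.eq F 2)
    rw [hF] at this
    exact absurd (Nat.odd_iff.1 hq) (by omega)
  intro e
  obtain ⟨t, ht, hqt⟩ := split (n := q - 1) (by omega)
  obtain ⟨b, hb, hnb⟩ := split hn
  have hd : q - 1 ∣ n * t := by
    rw [hqt, hnb, mul_assoc]
    exact mul_dvd_mul (pow_dvd_pow 2 h) (dvd_mul_left t b)
  obtain ⟨k, hk⟩ := hd
  have h1 : x ^ (n * t) = 1 := by rw [hk, pow_mul, ← hF, FiniteField.pow_card_sub_one_eq_one x hx, one_pow]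
  rw [pow_mul, e, ht.neg_one_pow] at h1
  exact not_neg_one_zero hF hq h1
where
  not_neg_one_zero (hF : Fintype.card F = q) (hq : Odd q) (e : (-1 : F) = 1) : False := by
    have hchar : ringChar F = 2 := by
      by_contra h
      exact Ring.two_ne_zero h (by linear_combination -e)
    have := FiniteField.even_card_of_char_two (F := F) hchar
    rw [hF] at this
    exact absurd (Nat.odd_iff.1 hq) (by omega)

theorem exists_neg_one (hF : Fintype.card F = q) (hq : Odd q) {n : ℕ} (hn : n ≠ 0)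
    (h : padicValNat 2 n < padicValNat 2 (q - 1)) : ∃ x : F, x ≠ 0 ∧ x ^ n = -1 := by
  classical
  obtain ⟨g, hg⟩ := IsCyclic.exists_ofOrder_eq_natCard (α := Fˣ)
  have hord : orderOf (g : F) = q - 1 := by rw [orderOf_units, hg, Nat.card_eq_fintype_card, Fintype.card_units, hF]
  have hq2 : 2 ≤ q := hF ▸ Fintype.one_lt_card
  obtain ⟨t, ht, hqt⟩ := split (n := q - 1) (by omega)
  obtain ⟨b, hb, hnb⟩ := split hn
  refine ⟨(g : F) ^ (2 ^ (padicValNat 2 (q - 1) - padicValNat 2 n - 1) * t), pow_ne_zero _ g.ne_zero, ?_⟩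
  have hhalf : (g : F) ^ ((q - 1) / 2) = -1 := by
    have h1 : (g : F) ^ ((q - 1) / 2) * (g : F) ^ ((q - 1) / 2) = 1 := by
      rw [← pow_add, show (q - 1) / 2 + (q - 1) / 2 = q - 1 by obtain ⟨k, rfl⟩ := hq; omega, ← hord, pow_orderOf_eq_one]
    refine (mul_self_eq_one_iff.1 h1).resolve_left fun e => ?_
    have h2 := Nat.le_of_dvd (by obtain ⟨k, rfl⟩ := hq; omega) (orderOf_dvd_of_pow_eq_one e)
    rw [hord] at h2
    omega
  set s := padicValNat 2 (q - 1)
  set a := padicValNat 2 n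
  have e : 2 ^ (s - a - 1) * t * (2 ^ a * b) = (q - 1) / 2 * b := by
    rw [hqt, show 2 ^ s = 2 * 2 ^ (s - 1) by rw [← pow_succ']; congr 1; omega, mul_assoc 2, Nat.mul_div_cancel_left _ two_pos,
      show s - 1 = (s - a - 1) + a by omega, pow_add]
    ring
  rw [← pow_mul, hnb, e, pow_mul, hhalf, hb.neg_one_pow]

end Cfsg.Lib.Classical.TwoParts
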