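import Mathlib
import Cfsg.Agent.Lib.Classical.UnitarySpace
import Cfsg.Agent.Lib.Classical.UnitaryStd

/-!
Over the field with four elements a decomposition into nondegenerate planes refines to orthogonal lines.
-/

set_option autoImplicit false

namespace Cfsg.Lib.Classical.UnitaryDecompTwo

open Matrix Module
open scoped MatrixGroups

variable {F : Type*} [Field F] [Fintype F] {n t : ℕ}

theorem exists_between (hF : Fintype.card F = 4) (hn : 13 ≤ n) (D : Fin t → Submodule F (Fin n → F))
    (hD : Cfsg.Geo.IsNondegenerateMDecomposition (Cfsg.hermForm n F 2) 2 D) :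
    ∃ K : Subgroup (GL (Fin n) F),
      Cfsg.Geo.decompositionStabilizer D ⊓ (Cfsg.GU n F 2 ⊓ Cfsg.Geo.specialLinear (Fin n) F) < K ∧
        K < (Cfsg.GU n F 2 ⊓ Cfsg.Geo.specialLinear (Fin n) F) := by
  classical
  obtain ⟨σ, hne, hσ, hinv⟩ := exists_frobSq (F := F) (q := 2) hF
  set f := Cfsg.hermForm n F 2 with hfdef
  have hf : Cfsg.Geo.IsUnitaryForm σ f := hermForm_isUnitaryForm hne hσ hinv n
  have hchar : (1 : F) + 1 = 0 := by
    have h := FiniteField.cast_card_eq_zero F
    rw [hF] at h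
    have : ((1 : F) + 1) * (1 + 1) = 0 := by rw [← h]; norm_num
    exact mul_self_eq_zero.1 this
  have hnorm : ∀ c : F, c ≠ 0 → c * σ c = 1 := fun c hc => by
    have := FiniteField.pow_card_sub_one_eq_one c hc
    rw [hF] at this
    rw [hσ, ← pow_succ']; exact this
  have hval : ∀ x, f x x ≠ 0 → f x x = 1 := fun x hx => by
    have h := herm_self_fixed hf (v := x)
    rw [hσ, sq, mul_eq_right₀ hx] at h
    exact h
  have hd := hD.decomp.finrank_eq
  have horth : ∀ i j, i ≠ j → ∀ x ∈ D i, ∀ y ∈ D j, f x y = 0 := fun i j hij x hx y hy =>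
    hD.orthogonal i j hij x hx y hy
  -- an orthonormal pair in each member
  have hpair : ∀ i, ∃ e : Fin 2 → (Fin n → F), (∀ a, e a ∈ D i) ∧
      (∀ a b, f (e a) (e b) = if a = b then 1 else 0) ∧ ∀ x ∈ D i, x = ∑ a, f x (e a) • e a := by
    intro i
    have hW : NondegOnH f (D i) := fun w hw hw0 => (hD.nondegenerate i w hw hw0).2
    obtain ⟨r, hr, hrr⟩ := hW.exists_aniso hf (by rw [hd]; norm_num)
    have hW' := hW.inf_unit hf hr (hval r hrr)
    obtain ⟨s, hs, hss⟩ := hW'.exists_aniso hf (by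
      have := finrank_inf_unit hf hr (hval r hrr)
      rw [hd] at this
      omega)
    obtain ⟨hsD, hsr⟩ := (mem_inf_unit hf).1 hs
    have hrs : f r s = 0 := herm_eq_zero_symm hf hsr
    have hli : LinearIndependent F ![r, s] := by
      rw [LinearIndependent.pair_iff]
      intro a b hab
      have h1 := congrArg (fun z => f z r) hab
      have h2 := congrArg (fun z => f z s) hab
      simp only [hf.add_left, hf.smul_left, hval r hrr, hval s hss, hrs, hsr, herm_zero_left hf] at h1 h2
      exact ⟨by simpa using h1, by simpa using h2⟩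
    have hsp : Submodule.span F (Set.range ![r, s]) = D i := by
      refine Submodule.eq_of_le_of_finrank_eq (Submodule.span_le.2 ?_) ?_
      · rintro _ ⟨j, rfl⟩; fin_cases j <;> simp [hr, hsD]
      · rw [finrank_span_eq_card hli, hd, Fintype.card_fin]
    refine ⟨![r, s], fun a => by fin_cases a <;> simp [hr, hsD], fun a b => ?_, fun x hx => ?_⟩
    · fin_cases a <;> fin_cases b <;> simp [hval r hrr, hval s hss, hrs, hsr]
    · rw [← hsp] at hx
      obtain ⟨c, hc⟩ := (Submodule.mem_span_range_iff_exists_fun F).1 hx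
      simp only [Fin.sum_univ_two, Matrix.cons_val_zero, Matrix.cons_val_one] at hc ⊢
      rw [← hc]
      simp [hf.add_left, hf.smul_left, hval r hrr, hval s hss, hrs, hsr]
  choose e he hee hex using hpair
  let ε : Fin t × Fin 2 ≃ Fin (t * 2) := finProdFinEquiv
  let E : Fin (t * 2) → (Fin n → F) := fun p => e (ε.symm p).1 (ε.symm p).2
  have hEE : ∀ p q, f (E p) (E q) = if p = q then 1 else 0 := fun p q => by
    by_cases h1 : (ε.symm p).1 = (ε.symm q).1
    · show f (e (ε.symm p).1 _) (e (ε.symm q).1 _) = _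
      rw [h1, hee]
      refine if_congr ?_ rfl rfl
      rw [← ε.symm.injective.eq_iff, Prod.ext_iff]
      simp [h1]
    · rw [if_neg (fun h => h1 (by rw [h]))]
      exact horth _ _ h1 _ (he _ _) _ (he _ _)
  let L : Fin (t * 2) → Submodule F (Fin n → F) := fun p => Submodule.span F {E p}
  have hline : ∀ g : GL (Fin n) F, (∀ p, ∃ q, ∃ c : F, c ≠ 0 ∧ (g : Matrix (Fin n) (Fin n) F) *ᵥ E p = c • E q) →
      g ∈ Cfsg.Geo.decompositionStabilizer L := by
    intro g hg
    choose τ c hc hτ using hg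
    have hinj : Function.Injective τ := fun p p' hpp => by
      by_contra hne
      have h1 : (g : Matrix (Fin n) (Fin n) F) *ᵥ (c p' • E p) = (g : Matrix (Fin n) (Fin n) F) *ᵥ (c p • E p') := by
        rw [mulVec_smul, mulVec_smul, hτ, hτ, hpp, smul_smul, smul_smul, mul_comm]
      have h2 := congrArg (fun z => f z (E p)) ((Cfsg.Lib.Classical.mulVec_inj g).1 h1)
      simp only [hf.smul_left, hEE, if_neg (Ne.symm hne), if_true, mul_zero, mul_one] at h2
      exact hc p' h2
    refine ⟨Equiv.ofBijective τ (Finite.injective_iff_bijective.1 hinj), fun p => ?_⟩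
    show (Submodule.span F {E p}).map _ = Submodule.span F {E (τ p)}
    rw [Submodule.map_span, Set.image_singleton, Matrix.toLin'_apply, hτ,
      Submodule.span_singleton_smul_eq (IsUnit.mk0 _ (hc p))]
  have hN : ∀ g ∈ Cfsg.Geo.decompositionStabilizer D ⊓ (Cfsg.GU n F 2 ⊓ Cfsg.Geo.specialLinear (Fin n) F),
      g ∈ Cfsg.Geo.decompositionStabilizer L := by
    intro g hg
    have hgd : ∃ π : Equiv.Perm (Fin t), ∀ i, (D i).map (Matrix.toLin' (g : Matrix (Fin n) (Fin n) F)) = D (π i) :=
      (Subgroup.mem_inf.1 hg).1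
    obtain ⟨π, hπ⟩ := hgd
    have hgf := mem_GU_iff.1 (Subgroup.mem_inf.1 (Subgroup.mem_inf.1 hg).2).1
    refine hline g fun p => ?_
    set i := (ε.symm p).1
    have hy : (g : Matrix (Fin n) (Fin n) F) *ᵥ E p ∈ D (π i) := by
      rw [← hπ i]; exact ⟨E p, he _ _, by rw [Matrix.toLin'_apply]⟩
    have hy1 : f ((g : Matrix (Fin n) (Fin n) F) *ᵥ E p) ((g : Matrix (Fin n) (Fin n) F) *ᵥ E p) = 1 :=
      (hgf (E p) (E p)).trans ((hEE p p).trans (if_pos rfl))
    obtain ⟨α, β, hαβ⟩ : ∃ α β : F, (g : Matrix (Fin n) (Fin n) F) *ᵥ E p = α • e (π i) 0 + β • e (π i) 1 :=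
      ⟨_, _, by rw [← Fin.sum_univ_two (f := fun a => f ((g : Matrix (Fin n) (Fin n) F) *ᵥ E p) (e (π i) a) • e (π i) a)]
                exact hex _ _ hy⟩
    have hE : ∀ a, e (π i) a = E (ε (π i, a)) := fun a => by simp [E]
    rw [hαβ] at hy1 ⊢
    simp only [hf.add_left, herm_add_right hf, hf.smul_left, herm_smul_right hf, hee] at hy1
    simp only [Fin.isValue, if_true, zero_ne_one, one_ne_zero, if_false, mul_zero, add_zero, mul_one,
      zero_add] at hy1
    by_cases hα : α = 0
    · subst hα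
      refine ⟨ε (π i, 1), β, fun hb => ?_, by rw [zero_smul, zero_add, hE]⟩
      subst hb; simp at hy1
    by_cases hβ : β = 0
    · subst hβ
      exact ⟨ε (π i, 0), α, hα, by rw [zero_smul, add_zero, hE]⟩
    rw [hnorm α hα, hnorm β hβ, hchar] at hy1
    exact absurd hy1 zero_ne_one
  have hc1 : (1 : F) + σ 1 = 0 := by rw [map_one, hchar]
  have ht : 4 ≤ t := by
    by_contra hc
    have h := DirectSum.isInternal_submodule_of_iSupIndep_of_iSup_eq_top hD.decomp.indep hD.decomp.iSup_eq_top
    have h1 := finrank_eq_card_basis (h.collectedBasis fun i => Module.finBasisOfFinrankEq F (D i) (hd i))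
    rw [Module.finrank_fin_fun] at h1
    simp at h1
    omega
  let P : Fin 4 → Fin (t * 2) := fun a => ε (⟨a.1, by omega⟩, 0)
  have hP : ∀ a b, P a = P b ↔ a = b := fun a b => by simp [P, Fin.ext_iff]
  refine ⟨Cfsg.Geo.decompositionStabilizer L ⊓ (Cfsg.GU n F 2 ⊓ Cfsg.Geo.specialLinear (Fin n) F),
    lt_of_le_of_ne (le_inf hN inf_le_right) (fun heq => ?_), lt_of_le_of_ne inf_le_right fun heq => ?_⟩
  · -- interchange two lines of different members
    set v := E (P 0) + E (P 1) with hv
    have hvv : f v v = 0 := by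
      simp [hv, hf.add_left, herm_add_right hf, hEE, hP, hchar]
    have hswap : utv hf v hvv 1 ∈ Cfsg.Geo.decompositionStabilizer L := by
      refine hline _ fun p => ?_
      rw [utv_mulVec hf v hvv, hv, herm_add_right hf, hEE, hEE, one_mul]
      by_cases h0 : p = P 0
      · refine ⟨P 1, 1, one_ne_zero, ?_⟩
        subst h0
        rw [if_pos rfl, if_neg (by simp [hP]), add_zero, one_smul, one_smul, ← add_assoc,
          show E (P 0) + E (P 0) = (0 : Fin n → F) by rw [← two_smul F, ← one_add_one_eq_two, hchar, zero_smul],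
          zero_add]
      by_cases h1 : p = P 1
      · refine ⟨P 0, 1, one_ne_zero, ?_⟩
        subst h1
        rw [if_neg (by simp [hP]), if_pos rfl, zero_add, one_smul, one_smul, add_comm (E (P 0)), ← add_assoc,
          show E (P 1) + E (P 1) = (0 : Fin n → F) by rw [← two_smul F, ← one_add_one_eq_two, hchar, zero_smul],
          zero_add]
      exact ⟨p, 1, one_ne_zero, by rw [if_neg h0, if_neg h1, add_zero, zero_smul, add_zero, one_smul]⟩
    have hmem := heq.ge (Subgroup.mem_inf.2 ⟨hswap, utv_mem_SUgl hf hvv hc1⟩)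
    have hd' : ∃ π : Equiv.Perm (Fin t), ∀ i,
        (D i).map (Matrix.toLin' (utv hf v hvv 1 : Matrix _ _ F)) = D (π i) := (Subgroup.mem_inf.1 hmem).1
    obtain ⟨π, hπ⟩ := hd'
    let i₀ : Fin t := ⟨0, by omega⟩
    let i₁ : Fin t := ⟨1, by omega⟩
    have h01 : i₁ ≠ i₀ := by simp [i₀, i₁]
    have hE0 : E (P 0) = e i₀ 0 := by simp [E, P, i₀]
    have hE1 : E (P 1) = e i₁ 0 := by simp [E, P, i₁]
    have hfix : (utv hf v hvv 1 : Matrix _ _ F) *ᵥ e i₀ 1 = e i₀ 1 := by
      rw [utv_mulVec hf v hvv, hv, herm_add_right hf, hE0, hE1, hee, horth _ _ h01.symm _ (he _ _) _ (he _ _)]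
      simp
    have m1 : e i₀ 1 ∈ D (π i₀) := by
      rw [← hπ i₀]; exact ⟨e i₀ 1, he _ _, by rw [Matrix.toLin'_apply, hfix]⟩
    have m2 : e i₁ 0 ∈ D (π i₀) := by
      rw [← hπ i₀]
      refine ⟨e i₀ 0, he _ _, ?_⟩
      rw [Matrix.toLin'_apply, utv_mulVec hf v hvv, hv, herm_add_right hf, hE0, hE1, hee,
        horth _ _ h01.symm _ (he _ _) _ (he _ _)]
      rw [if_pos rfl, add_zero, one_mul, one_smul, ← add_assoc,
          show e i₀ 0 + e i₀ 0 = (0 : Fin n → F) by rw [← two_smul F, ← one_add_one_eq_two, hchar, zero_smul],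
          zero_add]
    have hp : ∀ j a, e j a ∈ D (π i₀) → π i₀ = j := fun j a hm => by
      by_contra hne
      have := horth _ _ hne _ hm _ (he j a)
      rw [hee, if_pos rfl] at this
      exact one_ne_zero this
    exact h01 ((hp _ _ m2).symm.trans (hp _ _ m1))
  · -- a transvection moving the lines
    set v := E (P 0) + E (P 1) + (E (P 2) + E (P 3)) with hv
    have hvv : f v v = 0 := by
      simp [hv, hf.add_left, herm_add_right hf, hEE, hP, hchar]
    have hmem := heq.ge (utv_mem_SUgl hf hvv hc1)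
    have hd' : ∃ π : Equiv.Perm (Fin (t * 2)), ∀ p,
        (L p).map (Matrix.toLin' (utv hf v hvv 1 : Matrix _ _ F)) = L (π p) := (Subgroup.mem_inf.1 hmem).1
    obtain ⟨π, hπ⟩ := hd'
    have hy : (utv hf v hvv 1 : Matrix _ _ F) *ᵥ E (P 0) ∈ L (π (P 0)) := by
      rw [← hπ]; exact ⟨E (P 0), Submodule.mem_span_singleton_self _, by rw [Matrix.toLin'_apply]⟩
    obtain ⟨c, hc⟩ := Submodule.mem_span_singleton.1 hy
    have hh : ∀ a : Fin 4, a ≠ 0 → c * (if π (P 0) = P a then 1 else 0) = 1 := fun a ha => by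
      have h := congrArg (fun z => f z (E (P a))) hc
      simp only [utv_mulVec hf v hvv, hf.smul_left, hf.add_left, hEE] at h
      rw [h]
      simp only [hv, hf.add_left, herm_add_right hf, hEE, hP]
      fin_cases a <;> simp at ha ⊢
    have q1 := hh 1 (by decide)
    have q2 := hh 2 (by decide)
    by_cases h : π (P 0) = P 1
    · rw [if_neg (fun h2 => by rw [h, hP] at h2; exact absurd h2 (by decide)), mul_zero] at q2
      exact zero_ne_one q2
    · rw [if_neg h, mul_zero] at q1
      exact zero_ne_one q1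

end Cfsg.Lib.Classical.UnitaryDecompTwo
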