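import Mathlib
import Cfsg.Agent.Lib.Classical.Unitary
import Cfsg.Agent.Lib.Classical.SymplecticInSL

/-!
A subgroup of `SL` properly containing the unitary similitudes is `SL`.
-/

set_option autoImplicit false

namespace Cfsg.Lib.Classical

open Matrix
open scoped MatrixGroups

variable {ι : Type} [Fintype ι] [DecidableEq ι] {F : Type*} [Field F] {σ : F ≃+* F}
  {f : (ι → F) → (ι → F) → F}

/-- `tvGL a (hvec b) ∈ M`, phrased without the side condition. -/
def PairIn (f : (ι → F) → (ι → F) → F) (M : Subgroup (GL ι F)) (a b : ι → F) : Prop :=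
  f a b = 0 ∧ ∀ h : hvec f b ⬝ᵥ a = 0, tvGL a (hvec f b) h ∈ M

variable (hf : Cfsg.Geo.IsUnitaryForm σ f) {M : Subgroup (GL ι F)}

include hf

lemma pairIn_mem {a b : ι → F} (h : PairIn f M a b) (g : GL ι F)
    (hg : (g : Matrix ι ι F) = tv a (hvec f b)) : g ∈ M := by
  have hz : hvec f b ⬝ᵥ a = 0 := by rw [hvec_dot hf, h.1]
  have : g = tvGL a (hvec f b) hz := Units.ext hg
  exact this ▸ h.2 hz

lemma pairIn_add_right {a b b' : ι → F} (h : PairIn f M a b) (h' : PairIn f M a b') :
    PairIn f M a (b + b') := by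
  refine ⟨by rw [herm_add_right hf, h.1, h'.1, add_zero], fun hz => ?_⟩
  have h1 : hvec f b ⬝ᵥ a = 0 := by rw [hvec_dot hf, h.1]
  have h2 : hvec f b' ⬝ᵥ a = 0 := by rw [hvec_dot hf, h'.1]
  have : tvGL a (hvec f (b + b')) hz = tvGL a (hvec f b) h1 * tvGL a (hvec f b') h2 :=
    Units.ext (by rw [Units.val_mul, coe_tvGL, coe_tvGL, coe_tvGL, tv_mul_right _ _ _ h1,
      hvec_add hf])
  rw [this]
  exact mul_mem (h.2 h1) (h'.2 h2)

lemma pairIn_neg_right {a b : ι → F} (h : PairIn f M a b) : PairIn f M a (-b) := by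
  refine ⟨by rw [herm_neg_right hf, h.1, neg_zero], fun hz => ?_⟩
  have h1 : hvec f b ⬝ᵥ a = 0 := by rw [hvec_dot hf, h.1]
  have : tvGL a (hvec f (-b)) hz = (tvGL a (hvec f b) h1)⁻¹ := by
    refine eq_inv_of_mul_eq_one_left (Units.ext ?_)
    rw [Units.val_mul, coe_tvGL, coe_tvGL, tv_mul_right _ _ _ hz, ← hvec_add hf,
      neg_add_cancel, hvec_zero hf, tv_zero_right, Units.val_one]
  rw [this]
  exact inv_mem (h.2 h1)

lemma pairIn_neg_left {a b : ι → F} (h : PairIn f M a b) : PairIn f M (-a) b := by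
  have h1 : hvec f b ⬝ᵥ a = 0 := by rw [hvec_dot hf, h.1]
  refine ⟨?_, fun hz => ?_⟩
  · rw [← neg_one_smul F a, hf.smul_left, h.1, mul_zero]
  have : tvGL (-a) (hvec f b) hz = (tvGL a (hvec f b) h1)⁻¹ := by
    refine eq_inv_of_mul_eq_one_left (Units.ext ?_)
    rw [Units.val_mul, coe_tvGL, coe_tvGL, tv_mul_left _ _ _ h1, neg_add_cancel, tv_zero_left,
      Units.val_one]
  rw [this]
  exact inv_mem (h.2 h1)

lemma pairIn_add_left {a a' b : ι → F} (h : PairIn f M a b) (h' : PairIn f M a' b) :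
    PairIn f M (a + a') b := by
  refine ⟨by rw [hf.add_left, h.1, h'.1, add_zero], fun hz => ?_⟩
  have h1 : hvec f b ⬝ᵥ a = 0 := by rw [hvec_dot hf, h.1]
  have h2 : hvec f b ⬝ᵥ a' = 0 := by rw [hvec_dot hf, h'.1]
  have : tvGL (a + a') (hvec f b) hz = tvGL a (hvec f b) h1 * tvGL a' (hvec f b) h2 :=
    Units.ext (by rw [Units.val_mul, coe_tvGL, coe_tvGL, coe_tvGL, tv_mul_left _ _ _ h2])
  rw [this]
  exact mul_mem (h.2 h1) (h'.2 h2)

lemma pairIn_conj {a b : ι → F} (h : PairIn f M a b) {g : GL ι F} (hg : g ∈ M)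
    (hgi : ∀ x y, f ((g : Matrix ι ι F) *ᵥ x) ((g : Matrix ι ι F) *ᵥ y) = f x y) :
    PairIn f M ((g : Matrix ι ι F) *ᵥ a) ((g : Matrix ι ι F) *ᵥ b) := by
  refine ⟨by rw [hgi, h.1], fun hz => ?_⟩
  have h1 : hvec f b ⬝ᵥ a = 0 := by rw [hvec_dot hf, h.1]
  have : tvGL ((g : Matrix ι ι F) *ᵥ a) (hvec f ((g : Matrix ι ι F) *ᵥ b)) hz =
      g * tvGL a (hvec f b) h1 * g⁻¹ := by
    refine Units.ext ?_
    rw [Units.val_mul, Units.val_mul, coe_tvGL, coe_tvGL, conj_tv, hvec_vecMul_isometry hf g hgi]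
  rw [this]
  exact mul_mem (mul_mem hg (h.2 h1)) (inv_mem hg)

variable (hU : ∀ (v : ι → F) (hv : f v v = 0) (c : F), c + σ c = 0 → utv hf v hv c ∈ M)

include hU

/-- An isotropic `w ⊥ a` splits off from `b`. -/
lemma pairIn_split_right {a b w : ι → F} (h : PairIn f M a b) (hw : f w w = 0)
    (haw : f a w = 0) {δ : F} (hδ : δ + σ δ = 0) : PairIn f M a ((δ * f b w) • w) := by
  have h1 := pairIn_conj hf h (hU w hw δ hδ) (utv_isometry hf w hw hδ)
  rw [utv_mulVec hf, utv_mulVec hf, haw, mul_zero, zero_smul, add_zero] at h1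
  have h2 := pairIn_add_right hf (pairIn_neg_right hf h) h1
  rwa [neg_add_cancel_left] at h2

/-- An isotropic `w ⊥ b` splits off from `a`. -/
lemma pairIn_split_left {a b w : ι → F} (h : PairIn f M a b) (hw : f w w = 0)
    (hbw : f b w = 0) {δ : F} (hδ : δ + σ δ = 0) : PairIn f M ((δ * f a w) • w) b := by
  have h1 := pairIn_conj hf h (hU w hw δ hδ) (utv_isometry hf w hw hδ)
  rw [utv_mulVec hf, utv_mulVec hf, hbw, mul_zero, zero_smul, add_zero] at h1
  have h2 := pairIn_add_left hf (pairIn_neg_left hf h) h1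
  rwa [neg_add_cancel_left] at h2

/-- From one non-degenerate pair, all transvections. -/
theorem ker_det_le_of_pair [Finite F] (hn : 9 ≤ Fintype.card ι) {a b : ι → F}
    (hab : LinearIndependent F ![a, b]) (h : PairIn f M a b) :
    (Matrix.GeneralLinearGroup.det : GL ι F →* Fˣ).ker ≤ M := by
  obtain ⟨δ, hδ0, hδ⟩ := exists_skew hf.ne_refl hf.involutive
  have hδs : δ + σ δ = 0 := by rw [hδ, add_neg_cancel]
  have smul_ne : ∀ {x : ι → F} {c : F}, c ≠ 0 → x ≠ 0 → c • x ≠ 0 := fun hc hx => smul_ne_zero hc hx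
  -- make both entries isotropic
  obtain ⟨w₀, hw₀, hw₀v⟩ := exists_iso_values hf hab (by omega) ![0, 1]
  have hwa : f w₀ a = 0 := hw₀v 0
  have hwb : f w₀ b = 1 := hw₀v 1
  have h1 : PairIn f M a (δ • w₀) := by
    have := pairIn_split_right hf hU h hw₀ (herm_eq_zero_symm hf hwa) hδs
    rwa [herm_eq_one_symm hf hwb, mul_one] at this
  set w := δ • w₀ with hwdef
  have hw0 : w₀ ≠ 0 := fun e => by rw [e, herm_zero_left hf] at hwb; exact zero_ne_one hwb
  have hwne : w ≠ 0 := smul_ne hδ0 hw0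
  have hww : f w w = 0 := by rw [hwdef, hf.smul_left, herm_smul_right hf, hw₀]; simp
  have hwa' : LinearIndependent F ![w, a] := by
    rw [LinearIndependent.pair_iff' hwne]
    intro c hc
    have hz : f a b = 0 := h.1
    rw [← hc, hwdef, hf.smul_left, hf.smul_left, hwb, mul_one, mul_eq_zero] at hz
    have ha0 : a ≠ 0 := by simpa using hab.ne_zero 0
    rcases hz with hc0 | hc0
    · exact ha0 (by rw [← hc, hc0, zero_smul])
    · exact hδ0 hc0
  obtain ⟨u₀, hu₀, hu₀v⟩ := exists_iso_values hf hwa' (by omega) ![0, 1]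
  have huw₀ : f u₀ w = 0 := hu₀v 0
  have hua : f u₀ a = 1 := hu₀v 1
  have h2 : PairIn f M (δ • u₀) w := by
    have := pairIn_split_left hf hU h1 hu₀ (herm_eq_zero_symm hf huw₀) hδs
    rwa [herm_eq_one_symm hf hua, mul_one] at this
  set u := δ • u₀ with hudef
  have hu0 : u₀ ≠ 0 := fun e => by rw [e, herm_zero_left hf] at hua; exact zero_ne_one hua
  have hune : u ≠ 0 := smul_ne hδ0 hu0
  have huu : f u u = 0 := by rw [hudef, hf.smul_left, herm_smul_right hf, hu₀]; simp
  have huw : LinearIndependent F ![u, w] := by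
    rw [LinearIndependent.pair_iff' hune]
    intro c hc
    have hz : f w a = 0 := by rw [hwdef, hf.smul_left, hwa, mul_zero]
    rw [← hc, hudef, hf.smul_left, hf.smul_left, hua, mul_one, mul_eq_zero] at hz
    rcases hz with hc0 | hc0
    · exact hwne (by rw [← hc, hc0, zero_smul])
    · exact hδ0 hc0
  -- full lines
  have hline : ∀ x : ι → F, f x x = 0 → f x u = 0 → f x w ≠ 0 →
      LinearIndependent F ![u, w, x] ∧ ∀ s : F, PairIn f M u (s • x) := by
    intro x hx hxu hxw
    have hind : LinearIndependent F ![u, w, x] := by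
      rw [Fintype.linearIndependent_iff]
      intro c hc
      simp [Fin.sum_univ_three] at hc
      have h3 : c 2 = 0 := by
        have huw' : f u w = 0 := h2.1
        have := congrArg (fun z => f z w) hc
        simp only [hf.add_left, hf.smul_left, huw', hww, herm_zero_left hf, mul_zero, zero_add,
          add_zero] at this
        exact (mul_eq_zero.1 this).resolve_right hxw
      rw [h3, zero_smul, add_zero] at hc
      have := LinearIndependent.pair_iff.1 huw _ _ hc
      intro i
      fin_cases i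
      · exact this.1
      · exact this.2
      · exact h3
    refine ⟨hind, fun s => ?_⟩
    obtain ⟨y, hy, hyv⟩ := exists_iso_values hf hind (by omega) ![0, 1, s / (δ * δ)]
    have hyu : f y u = 0 := hyv 0
    have hyw : f y w = 1 := hyv 1
    have hyx : f y x = s / (δ * δ) := hyv 2
    have h3 := pairIn_split_right hf hU h2 hy (herm_eq_zero_symm hf hyu) hδs
    rw [herm_eq_one_symm hf hyw, mul_one] at h3
    have h4 := pairIn_split_right hf hU h3 hx (herm_eq_zero_symm hf hxu) hδs
    rwa [hf.smul_left, hyx, ← mul_assoc, mul_div_cancel₀ _ (mul_ne_zero hδ0 hδ0)] at h4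
  -- everything orthogonal to `u`
  have hperp : ∀ z : ι → F, f z u = 0 → LinearIndependent F ![u, w, z] → PairIn f M u z := by
    intro z hzu hind
    obtain ⟨x, hx, hxv⟩ := exists_iso_values hf hind (by omega) ![0, 1, 1]
    have hxu : f x u = 0 := hxv 0
    have hxw : f x w = 1 := hxv 1
    have hxz : f x z = 1 := hxv 2
    obtain ⟨s₀, hs₀⟩ := exists_trace_eq hf.ne_refl hf.involutive (a := - f z z)
      (by rw [map_neg, herm_self_fixed hf])
    obtain ⟨s, hs, hsne⟩ : ∃ s, s + σ s = - f z z ∧ f z w + s ≠ 0 := by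
      by_cases h0 : f z w + s₀ = 0
      · exact ⟨s₀ + δ, by rw [map_add, hδ]; linear_combination hs₀, by
          rw [← add_assoc, h0, zero_add]; exact hδ0⟩
      · exact ⟨s₀, hs₀, h0⟩
    have hiso : f (z + s • x) (z + s • x) = 0 := by
      simp only [hf.add_left, hf.smul_left, herm_add_right hf, herm_smul_right hf, hx, hxz,
        herm_eq_one_symm hf hxz]
      linear_combination hs
    have hne : f (z + s • x) w ≠ 0 := by
      rw [hf.add_left, hf.smul_left, hxw, mul_one]
      exact hsne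
    have h5 := (hline _ hiso (by rw [hf.add_left, hf.smul_left, hzu, hxu, mul_zero, add_zero]) hne).2 1
    have h6 := (hline x hx hxu (by rw [hxw]; exact one_ne_zero)).2 (-s)
    have h7 := pairIn_add_right hf h5 h6
    rwa [one_smul, neg_smul, add_neg_cancel_right] at h7
  have hperp' : ∀ z : ι → F, f z u = 0 → PairIn f M u z := by
    intro z hz
    by_cases hind : LinearIndependent F ![u, w, z]
    · exact hperp z hz hind
    obtain ⟨x, hx, hxv⟩ := exists_iso_values hf huw (by omega) ![0, 1]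
    have hxu : f x u = 0 := hxv 0
    have hxw : f x w = 1 := hxv 1
    have hix := (hline x hx hxu (by rw [hxw]; exact one_ne_zero))
    have hzx : LinearIndependent F ![u, w, z + x] := by
      have hzspan : ∃ p q : F, z = p • u + q • w := by
        by_contra hcon
        push Not at hcon
        apply hind
        rw [Fintype.linearIndependent_iff]
        intro c hc
        simp [Fin.sum_univ_three] at hc
        have h3 : c 2 = 0 := by
          by_contra h3
          apply hcon (-(c 0 / c 2)) (-(c 1 / c 2))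
          have := congrArg ((c 2)⁻¹ • ·) hc
          simp only [smul_add, smul_zero, smul_smul, inv_mul_cancel₀ h3, one_smul] at this
          rw [neg_smul, neg_smul, div_eq_inv_mul, div_eq_inv_mul]
          rw [← sub_eq_zero]
          rw [← this]
          abel
        rw [h3, zero_smul, add_zero] at hc
        have := LinearIndependent.pair_iff.1 huw _ _ hc
        intro i
        fin_cases i
        · exact this.1
        · exact this.2
        · exact h3
      obtain ⟨p, q, rfl⟩ := hzspan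
      rw [Fintype.linearIndependent_iff]
      intro c hc
      simp [Fin.sum_univ_three] at hc
      have := Fintype.linearIndependent_iff.1 hix.1 ![c 0 + c 2 * p, c 1 + c 2 * q, c 2] (by
        simp [Fin.sum_univ_three]
        rw [← hc]
        simp only [add_smul, smul_add, smul_smul]
        abel)
      have e2 : c 2 = 0 := this 2
      have e0 : c 0 + c 2 * p = 0 := this 0
      have e1 : c 1 + c 2 * q = 0 := this 1
      rw [e2, zero_mul, add_zero] at e0 e1
      intro i
      fin_cases i <;> assumption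
    have h5 := hperp (z + x) (by rw [hf.add_left, hz, hxu, add_zero]) hzx
    have h6 := pairIn_add_right hf h5 (pairIn_neg_right hf (hperp x hxu hix.1))
    rwa [add_neg_cancel_right] at h6
  -- the centre space is everything
  have huC : u ∈ centreSpace M := by
    intro φ hφ
    obtain ⟨z, rfl⟩ := exists_hvec hf φ
    rw [hvec_dot hf] at hφ
    exact (hperp' z (herm_eq_zero_symm hf hφ)).2 _
  have h1C : ∀ x : ι → F, f x x = 0 → f x u ≠ 0 → x ∈ centreSpace M := by
    intro x hx hxu
    have := centreSpace_map_mem (hU x hx δ hδs) huC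
    rw [utv_mulVec hf] at this
    have h8 := Submodule.sub_mem _ this huC
    rw [add_sub_cancel_left] at h8
    exact (Submodule.smul_mem_iff _
      (mul_ne_zero hδ0 fun e => hxu (herm_eq_zero_symm hf e))).1 h8
  have h2C : ∀ x : ι → F, f x x = 0 → x ∈ centreSpace M := by
    intro x hx
    by_cases hxu : f x u = 0
    · by_cases hdep : ∃ c : F, c • u = x
      · obtain ⟨c, rfl⟩ := hdep
        exact Submodule.smul_mem _ c huC
      push Not at hdep
      have hli : LinearIndependent F ![u, x] := (LinearIndependent.pair_iff' hune).2 hdep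
      obtain ⟨y, hy, hyv⟩ := exists_iso_values hf hli (by omega) ![1, 1]
      have hyu : f y u = 1 := hyv 0
      have hyx : f y x = 1 := hyv 1
      have hyC := h1C y hy (by rw [hyu]; exact one_ne_zero)
      have := centreSpace_map_mem (hU x hx δ hδs) hyC
      rw [utv_mulVec hf, hyx, mul_one] at this
      have h8 := Submodule.sub_mem _ this hyC
      rw [add_sub_cancel_left] at h8
      exact (Submodule.smul_mem_iff _ hδ0).1 h8
    · exact h1C x hx hxu
  refine centreSpace_top_le ((Submodule.eq_top_iff').2 fun v => ?_)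
  by_cases hv : v = 0
  · rw [hv]
    exact Submodule.zero_mem _
  have hv1 : LinearIndependent F ![v] := by
    rw [Fintype.linearIndependent_iff]
    intro c hc i
    fin_cases i
    simpa [hv] using hc
  obtain ⟨x, hx, hxv⟩ := exists_iso_values hf hv1 (by omega) ![1]
  have hxv1 : f x v = 1 := hxv 0
  obtain ⟨s, hs⟩ := exists_trace_eq hf.ne_refl hf.involutive (a := - f v v)
    (by rw [map_neg, herm_self_fixed hf])
  have hiso : f (v + s • x) (v + s • x) = 0 := by
    simp only [hf.add_left, hf.smul_left, herm_add_right hf, herm_smul_right hf, hx, hxv1,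
      herm_eq_one_symm hf hxv1]
    linear_combination hs
  have := Submodule.sub_mem _ (h2C _ hiso) (Submodule.smul_mem _ s (h2C x hx))
  rwa [add_sub_cancel_right] at this

omit hU in
/-- Isotropic vectors detect proportionality. -/
lemma exists_scalar_on_iso [Finite F] (hn : 5 ≤ Fintype.card ι) (g : GL ι F)
    (h : ∀ v, f v v = 0 → v ≠ 0 →
      ∃ c : F, hvec f v ᵥ* ((g⁻¹ : GL ι F) : Matrix ι ι F) =
        c • hvec f ((g : Matrix ι ι F) *ᵥ v)) :
    ∃ c : F, ∀ x v, f x v = c * f ((g : Matrix ι ι F) *ᵥ x) ((g : Matrix ι ι F) *ᵥ v) := by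
  obtain ⟨δ, hδ0, hδ⟩ := exists_skew hf.ne_refl hf.involutive
  have : Nonempty ι := Fintype.card_pos_iff.1 (by omega)
  obtain ⟨p, hp⟩ := exists_ne (0 : ι → F)
  have hp1 : LinearIndependent F ![p] := by
    rw [Fintype.linearIndependent_iff]
    intro c hc i
    fin_cases i
    simpa [hp] using hc
  obtain ⟨v₀, hv₀, hv₀p⟩ := exists_iso_values hf hp1 (by omega) ![1]
  have hv₀ne : v₀ ≠ 0 := fun e => by
    have := hv₀p 0
    rw [e, herm_zero_left hf] at this
    exact zero_ne_one this
  obtain ⟨c, hc⟩ := h v₀ hv₀ hv₀ne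
  refine ⟨c, ?_⟩
  have key : ∀ v, f v v = 0 → v ≠ 0 → ∀ cv : F,
      hvec f v ᵥ* ((g⁻¹ : GL ι F) : Matrix ι ι F) = cv • hvec f ((g : Matrix ι ι F) *ᵥ v) →
      cv = c := by
    intro v hv hv0 cv hcv
    by_cases hdep : ∃ a : F, a • v₀ = v
    · obtain ⟨a, rfl⟩ := hdep
      rw [hvec_smul hf, smul_vecMul, hc, mulVec_smul, hvec_smul hf, smul_comm] at hcv
      have hne : σ a • hvec f ((g : Matrix ι ι F) *ᵥ v₀) ≠ 0 := by
        refine smul_ne_zero (fun e => hv0 ?_) (fun e => mulVec_ne_zero g hv₀ne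
          (hvec_injective hf (e.trans (hvec_zero hf).symm)))
        rw [σ.map_eq_zero_iff.1 e, zero_smul]
      exact (smul_left_injective F hne hcv).symm
    push Not at hdep
    have hli : LinearIndependent F ![v₀, v] := (LinearIndependent.pair_iff' hv₀ne).2 hdep
    obtain ⟨s, hs0, hs⟩ : ∃ s : F, s ≠ 0 ∧ f (v₀ + s • v) (v₀ + s • v) = 0 := by
      simp only [hf.add_left, hf.smul_left, herm_add_right hf, herm_smul_right hf, hv₀, hv]
      by_cases ht : f v₀ v = 0
      · exact ⟨1, one_ne_zero, by rw [ht, herm_eq_zero_symm hf ht]; simp⟩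
      · refine ⟨σ (δ / f v₀ v), fun e => div_ne_zero hδ0 ht (σ.map_eq_zero_iff.1 e), ?_⟩
        rw [hf.herm v v₀, hf.involutive, div_mul_cancel₀ _ ht, mul_zero, add_zero, zero_add, ← map_mul,
          div_mul_cancel₀ _ ht, hδ]
        ring
    have hne : v₀ + s • v ≠ 0 := fun e => hs0 (LinearIndependent.pair_iff.1 hli 1 s (by rwa [one_smul])).2
    obtain ⟨cs, hcs⟩ := h _ hs hne
    rw [hvec_add hf, hvec_smul hf, add_vecMul, smul_vecMul, hc, hcv, mulVec_add, mulVec_smul,
      hvec_add hf, hvec_smul hf, smul_add] at hcs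
    obtain ⟨x, hx⟩ := exists_herm_values hf (r := ![(g : Matrix ι ι F) *ᵥ v₀,
        (g : Matrix ι ι F) *ᵥ v]) (by
      rw [LinearIndependent.pair_iff]
      intro a b hab
      rw [← mulVec_smul, ← mulVec_smul, ← mulVec_add] at hab
      exact LinearIndependent.pair_iff.1 hli a b ((mulVec_inj g).1 (hab.trans (mulVec_zero _).symm)))
      ![1, 0]
    obtain ⟨y, hy⟩ := exists_herm_values hf (r := ![(g : Matrix ι ι F) *ᵥ v₀,
        (g : Matrix ι ι F) *ᵥ v]) (by
      rw [LinearIndependent.pair_iff]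
      intro a b hab
      rw [← mulVec_smul, ← mulVec_smul, ← mulVec_add] at hab
      exact LinearIndependent.pair_iff.1 hli a b ((mulVec_inj g).1 (hab.trans (mulVec_zero _).symm)))
      ![0, 1]
    have hx0 : f x ((g : Matrix ι ι F) *ᵥ v₀) = 1 := hx 0
    have hx1 : f x ((g : Matrix ι ι F) *ᵥ v) = 0 := hx 1
    have hy0 : f y ((g : Matrix ι ι F) *ᵥ v₀) = 0 := hy 0
    have hy1 : f y ((g : Matrix ι ι F) *ᵥ v) = 1 := hy 1
    have e1 := congrArg (fun ψ => ψ ⬝ᵥ x) hcs
    have e2 := congrArg (fun ψ => ψ ⬝ᵥ y) hcs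
    simp only [add_dotProduct, smul_dotProduct, hvec_dot hf, hx0, hx1, hy0, hy1, smul_eq_mul,
      mul_zero, mul_one, add_zero, zero_add] at e1 e2
    have hσs : σ s ≠ 0 := fun e => hs0 (σ.map_eq_zero_iff.1 e)
    refine mul_right_cancel₀ hσs ?_
    linear_combination e2 - σ s * e1
  have hiso : ∀ v, f v v = 0 →
      ∀ x, f x v = c * f ((g : Matrix ι ι F) *ᵥ x) ((g : Matrix ι ι F) *ᵥ v) := by
    intro v hv x
    by_cases hv0 : v = 0
    · simp [hv0, herm_zero_right hf]
    obtain ⟨cv, hcv⟩ := h v hv hv0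
    have hcc := key v hv hv0 cv hcv
    subst hcc
    have := congrArg (fun ψ => ψ ⬝ᵥ ((g : Matrix ι ι F) *ᵥ x)) hcv
    rw [← dotProduct_mulVec, inv_mulVec_mulVec, hvec_dot hf, smul_dotProduct, hvec_dot hf,
      smul_eq_mul] at this
    exact this
  intro x v
  by_cases hv : v = 0
  · simp [hv, herm_zero_right hf]
  have hv1 : LinearIndependent F ![v] := by
    rw [Fintype.linearIndependent_iff]
    intro c hc i
    fin_cases i
    simpa [hv] using hc
  obtain ⟨y, hy, hyv⟩ := exists_iso_values hf hv1 (by omega) ![1]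
  have hyv1 : f y v = 1 := hyv 0
  obtain ⟨s, hs⟩ := exists_trace_eq hf.ne_refl hf.involutive (a := - f v v)
    (by rw [map_neg, herm_self_fixed hf])
  have hiso' : f (v + s • y) (v + s • y) = 0 := by
    simp only [hf.add_left, hf.smul_left, herm_add_right hf, herm_smul_right hf, hy, hyv1,
      herm_eq_one_symm hf hyv1]
    linear_combination hs
  have e1 := hiso _ hiso' x
  have e2 := hiso y hy x
  rw [mulVec_add, mulVec_smul, herm_add_right hf, herm_smul_right hf, herm_add_right hf,
    herm_smul_right hf] at e1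
  linear_combination e1 - σ s * e2

/-- The key step: `SU` and a non-similitude generate `SL`. -/
theorem ker_det_le_of_not_unitary [Finite F] (hn : 9 ≤ Fintype.card ι) (g : GL ι F) (hg : g ∈ M)
    (hgn : ¬ ∃ c : Fˣ, ∀ x y,
      f ((g : Matrix ι ι F) *ᵥ x) ((g : Matrix ι ι F) *ᵥ y) = (c : F) * f x y) :
    (Matrix.GeneralLinearGroup.det : GL ι F →* Fˣ).ker ≤ M := by
  obtain ⟨δ, hδ0, hδ⟩ := exists_skew hf.ne_refl hf.involutive
  by_cases hpair : ∃ v, f v v = 0 ∧ v ≠ 0 ∧ ∀ c : F,
      hvec f v ᵥ* ((g⁻¹ : GL ι F) : Matrix ι ι F) ≠ c • hvec f ((g : Matrix ι ι F) *ᵥ v)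
  · obtain ⟨v, hv, hv0, hno⟩ := hpair
    obtain ⟨b, hb⟩ :=
      exists_hvec hf ((δ • hvec f v) ᵥ* ((g⁻¹ : GL ι F) : Matrix ι ι F))
    have hz : f ((g : Matrix ι ι F) *ᵥ v) b = 0 := by
      rw [← hvec_dot hf, hb, ← dotProduct_mulVec, inv_mulVec_mulVec, smul_dotProduct, hvec_dot hf,
        hv, smul_zero]
    refine ker_det_le_of_pair hf hU hn (a := (g : Matrix ι ι F) *ᵥ v) (b := b) ?_ ⟨hz, fun hz' => ?_⟩
    · rw [LinearIndependent.pair_iff' (mulVec_ne_zero g hv0)]
      intro c hc
      apply hno (δ⁻¹ * σ c)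
      rw [← hc, hvec_smul hf, smul_vecMul] at hb
      rw [← smul_smul, hb, smul_smul, inv_mul_cancel₀ hδ0, one_smul]
    · have key : tvGL ((g : Matrix ι ι F) *ᵥ v) (hvec f b) hz' = g * utv hf v hv δ * g⁻¹ := by
        refine Units.ext ?_
        rw [Units.val_mul, Units.val_mul, coe_tvGL, utv, coe_tvGL, conj_tv, hb]
      rw [key]
      exact mul_mem (mul_mem hg (hU v hv δ (by rw [hδ, add_neg_cancel]))) (inv_mem hg)
  · push Not at hpair
    obtain ⟨c, hc⟩ := exists_scalar_on_iso hf (by omega) g hpair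
    have hc0 : c ≠ 0 := by
      intro e
      have : Nonempty ι := Fintype.card_pos_iff.1 (by omega)
      obtain ⟨p, hp⟩ := exists_ne (0 : ι → F)
      obtain ⟨x, hx⟩ := (hf.nondegenerate p hp).1
      exact hx (by rw [hc, e, zero_mul])
    exact absurd ⟨(Units.mk0 c hc0)⁻¹, fun x y => by
      rw [Units.val_inv_eq_inv_val, Units.val_mk0, hc x y, inv_mul_cancel_left₀ hc0]⟩ hgn

omit hU in
/-- Some element of determinant one is not a similitude. -/
lemma exists_not_unitary [Finite F] (hn : 5 ≤ Fintype.card ι) :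
    ∃ g : GL ι F, Matrix.GeneralLinearGroup.det g = 1 ∧ ¬ ∃ c : Fˣ, ∀ x y,
      f ((g : Matrix ι ι F) *ᵥ x) ((g : Matrix ι ι F) *ᵥ y) = (c : F) * f x y := by
  have : Nonempty ι := Fintype.card_pos_iff.1 (by omega)
  obtain ⟨a, ha⟩ := exists_ne (0 : ι → F)
  have ha1 : LinearIndependent F ![a] := by
    rw [Fintype.linearIndependent_iff]
    intro c hc i
    fin_cases i
    simpa [ha] using hc
  have hdim := card_le_finrank_upFam hf ![a]
  obtain ⟨b, hb, hba⟩ : ∃ b, f b a = 0 ∧ LinearIndependent F ![a, b] := by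
    by_contra! hcon
    have hle : upFam hf ![a] ≤ Submodule.span F {a} := by
      intro x hx
      have hx' : f x a = 0 := ((mem_upFam hf).1 hx) 0
      by_contra hns
      exact hcon x hx' ((LinearIndependent.pair_iff' ha).2 fun c e =>
        hns (Submodule.mem_span_singleton.2 ⟨c, e⟩))
    have h1 := Submodule.finrank_mono hle
    rw [finrank_span_singleton ha] at h1
    omega
  have hz : hvec f b ⬝ᵥ a = 0 := by rw [hvec_dot hf, herm_eq_zero_symm hf hb]
  refine ⟨tvGL a (hvec f b) hz, tvGL_mem_ker_det _ _ hz, ?_⟩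
  rintro ⟨c, hc⟩
  simp only [coe_tvGL, tv_mulVec, hvec_dot hf] at hc
  obtain ⟨z, hzz⟩ := exists_herm_values hf hba ![0, 1]
  obtain ⟨w, hww⟩ := exists_herm_values hf hba ![1, 0]
  have hza : f z a = 0 := hzz 0
  have hzb : f z b = 1 := hzz 1
  have hwa : f w a = 1 := hww 0
  have hwb : f w b = 0 := hww 1
  have e1 := hc a w
  rw [herm_eq_zero_symm hf hb, zero_smul, add_zero, hwb, zero_smul, add_zero,
    herm_eq_one_symm hf hwa, mul_one] at e1
  have e2 := hc z w
  rw [hzb, one_smul, hwb, zero_smul, add_zero, hf.add_left, herm_eq_one_symm hf hwa, ← e1, one_mul] at e2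
  exact one_ne_zero (by linear_combination e2)

end Cfsg.Lib.Classical
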