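import Mathlib
import Cfsg.Agent.Lib.Classical.LineCount
import Cfsg.Agent.Lib.Classical.UnitaryOrders

/-!
Isotropic vectors and totally isotropic lines of unitary spaces.
-/

set_option autoImplicit false

namespace Cfsg.Lib.Classical.UnitaryLines

open Module UnitaryOrders

variable {ι : Type} [Fintype ι] [DecidableEq ι] {F : Type*} [Field F] [Fintype F] {σ : F ≃+* F}
  {f : (ι → F) → (ι → F) → F} (hf : Cfsg.Geo.IsUnitaryForm σ f) {q : ℕ}

include hf

lemma span_totally {u w : ι → F} (hu : f u u = 0) (hw : f w w = 0) (huw : f u w = 0) :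
    ∀ x ∈ Submodule.span F ({u, w} : Set (ι → F)), ∀ y ∈ Submodule.span F ({u, w} : Set (ι → F)), f x y = 0 := by
  intro x hx y hy
  obtain ⟨a, b, rfl⟩ := Submodule.mem_span_pair.1 hx
  obtain ⟨c, d, rfl⟩ := Submodule.mem_span_pair.1 hy
  simp only [hf.add_left, herm_add_right hf, hf.smul_left, herm_smul_right hf, hu, hw, huw, herm_eq_zero_symm hf huw, mul_zero,
    add_zero]

lemma card_isotropic_perp (hF : Fintype.card F = q ^ 2) {v : ι → F} (hv : v ≠ 0) (hvv : f v v = 0) {n : ℕ}
    (hn : Fintype.card ι = n + 2) :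
    (q : ℤ) * Nat.card {w : ι → F // f w w = 0 ∧ f v w = 0} =
      (q : ℤ) ^ 2 * ((q : ℤ) ^ (2 * n) + (-1) ^ n * (q : ℤ) ^ n * (q - 1)) := by
  classical
  obtain ⟨z, hz⟩ := (hf.nondegenerate v hv).2
  set P := Submodule.span F ({v, z} : Set (ι → F))
  have hzv : f z v ≠ 0 := fun h => hz (herm_eq_zero_symm hf h)
  have hP : NondegOnH f P := by
    intro w hw hw0
    obtain ⟨a, b, rfl⟩ := Submodule.mem_span_pair.1 hw
    by_cases hb : b = 0
    · refine ⟨z, Submodule.subset_span (by simp), ?_⟩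
      have ha : a ≠ 0 := fun ha => hw0 (by simp [ha, hb])
      simp [hb, hf.add_left, hf.smul_left, herm_zero_left hf, ha, hz]
    · refine ⟨v, Submodule.subset_span (by simp), ?_⟩
      simp [hf.add_left, hf.smul_left, hvv, hb, hzv]
  have hdim : finrank F P = 2 := by
    have hi : LinearIndependent F ![v, z] := LinearIndependent.pair_iff.2 fun s t hst => by
      have h1 := congrArg (fun x => f x v) hst
      simp only [hf.add_left, hf.smul_left, hvv, mul_zero, zero_add, herm_zero_left hf] at h1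
      have ht : t = 0 := (mul_eq_zero.1 h1).resolve_right hzv
      rw [ht, zero_smul, add_zero] at hst
      exact ⟨(smul_eq_zero.1 hst).resolve_right hv, ht⟩
    have := finrank_span_eq_card hi
    rwa [Matrix.range_cons, Matrix.range_cons, Matrix.range_empty, Set.union_empty, ← Set.insert_eq, Fintype.card_fin] at this
  have hfin : finrank F (hperp hf P) = n := by have := hP.finrank_add hf; omega
  have hvP : ∀ w ∈ hperp hf P, f w v = 0 := fun w hw => hw v (Submodule.subset_span (by simp))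
  have hvP' : ∀ w ∈ hperp hf P, f v w = 0 := fun w hw => herm_eq_zero_symm hf (hvP w hw)
  have hexp : ∀ (a : F) (w : ι → F), w ∈ hperp hf P → f (a • v + w) (a • v + w) = f w w := fun a w hw => by
    simp [hf.add_left, herm_add_right hf, hf.smul_left, herm_smul_right hf, hvv, hvP w hw, hvP' w hw]
  have e : Nat.card {w : ι → F // f w w = 0 ∧ f v w = 0} = Nat.card (F × {w : ι → F // w ∈ hperp hf P ∧ f w w = 0}) := by
    refine (Nat.card_congr (Equiv.ofBijective (fun p : F × {w : ι → F // w ∈ hperp hf P ∧ f w w = 0} =>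
      (⟨p.1 • v + p.2.1, by rw [hexp _ _ p.2.2.1, p.2.2.2], by
        rw [herm_add_right hf, herm_smul_right hf, hvv, hvP' _ p.2.2.1, mul_zero, add_zero]⟩ : {w : ι → F // f w w = 0 ∧ f v w = 0}))
      ⟨fun p p' h => ?_, fun w => ?_⟩)).symm
    · have h' : p.1 • v + p.2.1 = p'.1 • v + p'.2.1 := congrArg Subtype.val h
      have h1 : p.1 = p'.1 := by
        have := congrArg (fun x => f x z) h'
        simp only [hf.add_left, hf.smul_left, p.2.2.1 z (Submodule.subset_span (by simp)), p'.2.2.1 z (Submodule.subset_span (by simp)),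
          add_zero] at this
        exact mul_right_cancel₀ hz this
      exact Prod.ext h1 (Subtype.ext (by rw [h1] at h'; exact add_left_cancel h'))
    · obtain ⟨a, ha, b, hb, hab⟩ := hP.exists_decomp hf w.1
      obtain ⟨c, d, rfl⟩ := Submodule.mem_span_pair.1 ha
      have hd : d = 0 := by
        have h0 := herm_eq_zero_symm hf w.2.2
        rw [← hab] at h0
        simpa [hf.add_left, hf.smul_left, hvv, hvP b hb, hzv] using h0
      rw [hd, zero_smul, add_zero] at hab
      exact ⟨(c, ⟨b, hb, by rw [← hexp c b hb, hab]; exact w.2.1⟩), Subtype.ext hab⟩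
  rw [e, Nat.card_prod, Nat.card_eq_fintype_card (α := F), hF]
  have := (num_formula hf hF n _ (hP.hperp hf) hfin).1
  push_cast
  rw [← this]
  unfold num
  ring

theorem card_lines (hF : Fintype.card F = q ^ 2) {n L c : ℕ} (hn : Fintype.card ι = n + 2)
    (hc : ((q : ℤ) ^ 2) * ((q : ℤ) ^ (2 * n) + (-1) ^ n * (q : ℤ) ^ n * (q - 1)) = q * (c * (((q : ℤ) ^ 2) ^ 2 - (q : ℤ) ^ 2) + (q : ℤ) ^ 2))
    (hL : (q : ℤ) ^ (2 * (n + 2)) + (-1) ^ (n + 2) * (q : ℤ) ^ (n + 2) * (q - 1) = q * (1 + L))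
    {N : ℕ} (hN : (L : ℤ) * c = N * (((q : ℤ) ^ 2) ^ 2 - 1)) :
    Nat.card {W : Submodule F (ι → F) // finrank F W = 2 ∧ ∀ u ∈ W, ∀ v ∈ W, f u v = 0} = N := by
  classical
  have hq2 : 1 < q ^ 2 := hF ▸ Fintype.one_lt_card
  have hq0 : (q : ℤ) ≠ 0 := by
    intro h0
    rw [show q = 0 by exact_mod_cast h0] at hq2
    simp at hq2
  have hq2' : (1 : ℤ) < (q : ℤ) ^ 2 := by exact_mod_cast hq2
  have h1 : ∀ v : ι → F, v ≠ 0 → f v v = 0 →
      Nat.card {W : Submodule F (ι → F) // finrank F W = 2 ∧ v ∈ W ∧ ∀ u ∈ W, ∀ w ∈ W, f u w = 0} = c := by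
    intro v hv hvv
    have h := LineCount.per_vertex (R := fun u w => f u w = 0) (fun u w => span_totally hf) hv hvv
    rw [hF] at h
    have h' := congrArg (fun k : ℕ => (q : ℤ) * k) h
    push_cast [Nat.cast_sub (show q ^ 2 ≤ (q ^ 2) ^ 2 from Nat.le_self_pow two_ne_zero _)] at h'
    rw [card_isotropic_perp hf hF hv hvv hn, hc] at h'
    have := mul_left_cancel₀ hq0 h'
    have hne : (((q : ℤ) ^ 2) ^ 2 - (q : ℤ) ^ 2) ≠ 0 := by nlinarith
    exact_mod_cast mul_right_cancel₀ hne (add_right_cancel this)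
  have hiso : Nat.card {v : ι → F // v ≠ 0 ∧ f v v = 0} = L := by
    have h := (num_formula hf hF (n + 2) ⊤ (nondegOnH_top hf) (by rw [finrank_top, finrank_fintype_fun_eq_card, hn])).1
    rw [hL] at h
    have h' : num f ⊤ 0 = 1 + L := by exact_mod_cast mul_left_cancel₀ hq0 h
    have : num f ⊤ 0 = 1 + Nat.card {v : ι → F // v ≠ 0 ∧ f v v = 0} := by
      rw [num, ← Nat.card_unique (α := {v : ι → F // v = 0}), ← Nat.card_sum]
      refine Nat.card_congr
        { toFun := fun v => if h : v.1 = 0 then Sum.inl ⟨v.1, h⟩ else Sum.inr ⟨v.1, h, v.2.2⟩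
          invFun := Sum.elim (fun v => ⟨v.1, Submodule.mem_top, by rw [v.2]; exact herm_zero_left hf 0⟩) (fun v => ⟨v.1, Submodule.mem_top, v.2.2⟩)
          left_inv := fun v => by simp only; split_ifs <;> rfl
          right_inv := fun v => by rcases v with ⟨v, h⟩ | ⟨v, h, h'⟩ <;> simp [h] }
    omega
  have h2 := LineCount.global (F := F) (R := fun u w => f u w = 0) h1
  rw [hiso, hF] at h2
  have h3 := congrArg (fun k : ℕ => (k : ℤ)) h2
  push_cast [Nat.cast_sub (show 1 ≤ (q ^ 2) ^ 2 from Nat.one_le_pow _ _ (by omega))] at h3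
  rw [hN] at h3
  exact_mod_cast mul_right_cancel₀ (show ((q : ℤ) ^ 2) ^ 2 - 1 ≠ 0 by nlinarith) h3

end Cfsg.Lib.Classical.UnitaryLines
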