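import Mathlib
import Cfsg.Agent.Lib.Classical.UnitarySpace

/-!
A group containing the stabiliser in `SU` of a totally singular or of a nondegenerate subspace and
an isometry not stabilising it contains all unitary transvections.
-/

set_option autoImplicit false

namespace Cfsg.Lib.Classical

open Matrix Module
open scoped MatrixGroups

variable {ι : Type} [Fintype ι] [DecidableEq ι] {F : Type*} [Field F] {σ : F ≃+* F}
  {f : (ι → F) → (ι → F) → F} (hf : Cfsg.Geo.IsUnitaryForm σ f) {M : Subgroup (GL ι F)}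

include hf

omit M in
lemma utv_mem_stab {W : Submodule F (ι → F)} {v : ι → F} (hv : f v v = 0) (c : F)
    (h : v ∈ W ∨ ∀ w ∈ W, f v w = 0) : utv hf v hv c ∈ Cfsg.Geo.subspaceStabilizer W := by
  refine map_eq_of_maps_to fun x hx => ?_
  rw [utv_mulVec]
  rcases h with h | h
  · exact W.add_mem hx (W.smul_mem _ h)
  · rw [herm_eq_zero_symm hf (h x hx), mul_zero, zero_smul, add_zero]
    exact hx

omit hf in
/-- All the transvections with centre `x` lie in `M`. -/
def UCentre (hf : Cfsg.Geo.IsUnitaryForm σ f) (M : Subgroup (GL ι F)) (x : ι → F) : Prop :=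
  ∀ (hx : f x x = 0) (c : F), c + σ c = 0 → utv hf x hx c ∈ M

omit M in
lemma conj_utv (g : GL ι F)
    (hg : ∀ x y, f ((g : Matrix ι ι F) *ᵥ x) ((g : Matrix ι ι F) *ᵥ y) = f x y) (v : ι → F)
    (hv : f v v = 0) (c : F) (hgv : f ((g : Matrix ι ι F) *ᵥ v) ((g : Matrix ι ι F) *ᵥ v) = 0) :
    g * utv hf v hv c * g⁻¹ = utv hf ((g : Matrix ι ι F) *ᵥ v) hgv c := by
  refine Units.ext (ext_mulVec fun x => ?_)
  rw [Units.val_mul, Units.val_mul, ← mulVec_mulVec, ← mulVec_mulVec, utv_mulVec, utv_mulVec,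
    mulVec_add, mulVec_smul, mulVec_inv_mulVec]
  conv_rhs => rw [← mulVec_inv_mulVec g x, hg, mulVec_inv_mulVec]

lemma UCentre.map {x : ι → F} (hx : UCentre hf M x) {g : GL ι F} (hgM : g ∈ M)
    (hg : ∀ x y, f ((g : Matrix ι ι F) *ᵥ x) ((g : Matrix ι ι F) *ᵥ y) = f x y) :
    UCentre hf M ((g : Matrix ι ι F) *ᵥ x) := by
  intro hgx c hc
  rw [← conj_utv hf g hg x (by rw [← hg, hgx]) c hgx]
  exact mul_mem (mul_mem hgM (hx _ c hc)) (inv_mem hgM)

lemma UCentre.smul {x : ι → F} (hx : f x x = 0) (h : UCentre hf M x) (k : F) :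
    UCentre hf M (k • x) := by
  intro hkx c hc
  have : utv hf (k • x) hkx c = utv hf x hx (c * (k * σ k)) := by
    refine Units.ext (ext_mulVec fun y => ?_)
    rw [utv_mulVec, utv_mulVec, herm_smul_right hf, smul_smul]
    congr 2
    ring
  rw [this]
  refine h hx _ ?_
  rw [map_mul, map_mul, hf.involutive]
  linear_combination (k * σ k) * hc

omit M in
/-- The transformation `x ↦ x + f(x,w) d - (f(x,d) + s f(x,w)) w`. -/
lemma exists_eichler {w d : ι → F} (hw : f w w = 0) (hdw : f d w = 0) {s : F}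
    (hs : s + σ s = f d d) : ∃ E : GL ι F, Matrix.GeneralLinearGroup.det E = 1 ∧
      (∀ x y, f ((E : Matrix ι ι F) *ᵥ x) ((E : Matrix ι ι F) *ᵥ y) = f x y) ∧
      ∀ x, (E : Matrix ι ι F) *ᵥ x = x + f x w • d - (f x d + s * f x w) • w := by
  have h1 : hvec f w ⬝ᵥ d = 0 := by rw [hvec_dot hf, hdw]
  have hwd : f w d = 0 := herm_eq_zero_symm hf hdw
  have h2 : (-(hvec f d + s • hvec f w)) ⬝ᵥ w = 0 := by
    rw [neg_dotProduct, add_dotProduct, smul_dotProduct, hvec_dot hf, hvec_dot hf, hwd, hw]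
    simp
  have hE : ∀ x, ((tvGL d (hvec f w) h1 * tvGL w _ h2 : GL ι F) : Matrix ι ι F) *ᵥ x =
      x + f x w • d - (f x d + s * f x w) • w := by
    intro x
    rw [Units.val_mul, ← mulVec_mulVec, coe_tvGL, coe_tvGL, tv_mulVec, tv_mulVec, hvec_dot hf,
      neg_dotProduct, add_dotProduct, smul_dotProduct, hvec_dot hf, hvec_dot hf, hf.add_left,
      hf.smul_left, hw, mul_zero, add_zero, smul_eq_mul]
    module
  refine ⟨tvGL d (hvec f w) h1 * tvGL w _ h2, ?_, fun x y => ?_, hE⟩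
  · rw [map_mul, tvGL_mem_ker_det d _ h1, tvGL_mem_ker_det w _ h2, one_mul]
  · rw [hE, hE]
    simp only [herm_sub_left hf, herm_sub_right hf, hf.add_left, hf.smul_left, herm_add_right hf,
      herm_smul_right hf, hw, hdw, hwd, map_add, map_mul, mul_zero, sub_zero, add_zero]
    rw [← hf.herm w y, ← hf.herm d y]
    linear_combination -(f x w * f w y) * hs

variable {W : Submodule F (ι → F)}
  (hM : ∀ h : GL ι F, Matrix.GeneralLinearGroup.det h = 1 →
    (∀ x y, f ((h : Matrix ι ι F) *ᵥ x) ((h : Matrix ι ι F) *ᵥ y) = f x y) →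
    h ∈ Cfsg.Geo.subspaceStabilizer W → h ∈ M)

include hM

lemma ucentre_of_stab {v : ι → F} (h : v ∈ W ∨ ∀ w ∈ W, f v w = 0) : UCentre hf M v :=
  fun hv c hc => hM _ (utv_det hf v hv c) (utv_isometry hf v hv hc) (utv_mem_stab hf hv c h)

/-- Totally singular case. -/
theorem uGen_top_le_of_singular [Finite F] (hW : ∀ u ∈ W, ∀ v ∈ W, f u v = 0) {g : GL ι F}
    (hgi : ∀ x y, f ((g : Matrix ι ι F) *ᵥ x) ((g : Matrix ι ι F) *ᵥ y) = f x y) (hg : g ∈ M)
    (hgn : g ∉ Cfsg.Geo.subspaceStabilizer W) : uGen hf (⊤ : Submodule F (ι → F)) ≤ M := by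
  obtain ⟨w, hw, hgw⟩ : ∃ w ∈ W, (g : Matrix ι ι F) *ᵥ w ∉ W := by
    by_contra! h
    exact hgn (map_eq_of_maps_to h)
  obtain ⟨x, hxX, hxx, w₀, hw₀, hxw⟩ :
      ∃ x, UCentre hf M x ∧ f x x = 0 ∧ ∃ w₀ ∈ W, f x w₀ ≠ 0 := by
    set a := (g : Matrix ι ι F) *ᵥ w with ha
    have haa : f a a = 0 := by rw [ha, hgi, hW w hw w hw]
    by_cases hao : ∀ u ∈ W, f a u = 0
    · obtain ⟨ψ, hψ, hψa⟩ := exists_dot_sep W hgw
      obtain ⟨y₀, rfl⟩ := exists_hvec hf ψ
      rw [hvec_dot hf] at hψa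
      obtain ⟨t, ht⟩ := exists_trace_eq hf.ne_refl hf.involutive (a := - f y₀ y₀)
        (by rw [map_neg, herm_self_fixed hf])
      have hay : f y₀ a = 1 := herm_eq_one_symm hf hψa
      have hyW : ∀ u ∈ W, f (y₀ + t • a) u = 0 := fun u hu => by
        have := hψ u hu
        rw [hvec_dot hf] at this
        rw [hf.add_left, hf.smul_left, hao u hu, herm_eq_zero_symm hf this, mul_zero, add_zero]
      have hyy : f (y₀ + t • a) (y₀ + t • a) = 0 := by
        rw [hf.add_left, herm_add_right hf, herm_add_right hf, hf.smul_left, hf.smul_left,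
          herm_smul_right hf, herm_smul_right hf, hψa, hay, haa]
        linear_combination ht
      have hgi' : ∀ x y, f (((g⁻¹ : GL ι F) : Matrix ι ι F) *ᵥ x)
          (((g⁻¹ : GL ι F) : Matrix ι ι F) *ᵥ y) = f x y := fun x y => by
        rw [← hgi, mulVec_inv_mulVec, mulVec_inv_mulVec]
      refine ⟨_, (ucentre_of_stab hf hM (Or.inr hyW)).map hf (inv_mem hg) hgi',
        by rw [hgi']; exact hyy, w, hw, ?_⟩
      rw [← hgi, mulVec_inv_mulVec, hf.add_left, hf.smul_left, ← ha, hay, haa, mul_zero, add_zero]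
      exact one_ne_zero
    · push Not at hao
      obtain ⟨u, hu, hau⟩ := hao
      exact ⟨a, (ucentre_of_stab hf hM (Or.inl hw)).map hf hg hgi, haa, u, hu, hau⟩
  refine uGen_le fun y _ hy c hc => ?_
  revert hy c hc
  change ∀ (hy : f y y = 0) c, c + σ c = 0 → utv hf y hy c ∈ M
  intro hy
  suffices h : UCentre hf M y from h hy
  by_cases hyo : ∀ u ∈ W, f y u = 0
  · exact ucentre_of_stab hf hM (Or.inr hyo)
  push Not at hyo
  obtain ⟨w₁, hw₁, hyw₁⟩ := hyo
  obtain ⟨u, hu, hxu, hyu⟩ : ∃ u ∈ W, f x u ≠ 0 ∧ f y u ≠ 0 := by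
    by_cases h1 : f x w₁ = 0
    · by_cases h2 : f y w₀ = 0
      · exact ⟨w₁ + w₀, W.add_mem hw₁ hw₀, by rwa [herm_add_right hf, h1, zero_add],
          by rwa [herm_add_right hf, h2, add_zero]⟩
      · exact ⟨w₀, hw₀, hxw, h2⟩
    · exact ⟨w₁, hw₁, h1, hyw₁⟩
  set x' := (f x u)⁻¹ • x with hx'
  set y' := (f y u)⁻¹ • y with hy'
  have hx'u : f x' u = 1 := by rw [hx', hf.smul_left, inv_mul_cancel₀ hxu]
  have hy'u : f y' u = 1 := by rw [hy', hf.smul_left, inv_mul_cancel₀ hyu]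
  have hx'x : f x' x' = 0 := by rw [hx', hf.smul_left, herm_smul_right hf, hxx, mul_zero, mul_zero]
  have hy'y : f y' y' = 0 := by rw [hy', hf.smul_left, herm_smul_right hf, hy, mul_zero, mul_zero]
  have hs : - f x' (y' - x') + σ (- f x' (y' - x')) = f (y' - x') (y' - x') := by
    rw [map_neg, ← hf.herm, herm_sub_left hf, herm_sub_left hf, herm_sub_right hf,
      herm_sub_right hf, hx'x, hy'y]
    ring
  obtain ⟨E, hEd, hEi, hE⟩ := exists_eichler hf (w := u) (d := y' - x') (hW u hu u hu)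
    (by rw [herm_sub_left hf, hx'u, hy'u, sub_self]) hs
  have hES : E ∈ Cfsg.Geo.subspaceStabilizer W := map_eq_of_maps_to fun z hz => by
    rw [hE, hW z hz u hu, zero_smul, add_zero]
    exact W.sub_mem hz (W.smul_mem _ hu)
  have hEx : (E : Matrix ι ι F) *ᵥ x' = y' := by
    rw [hE, hx'u, one_smul, mul_one, add_neg_cancel, zero_smul, sub_zero, add_sub_cancel]
  have hy'X : UCentre hf M y' := hEx ▸ ((hxX.smul hf hxx _).map hf (hM E hEd hEi hES) hEi)
  have := hy'X.smul hf hy'y (f y u)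
  rwa [hy', smul_smul, mul_inv_cancel₀ hyu, one_smul] at this

/-- Nondegenerate case. -/
theorem uGen_top_le_of_nondeg [Finite F] (hW : NondegOnH f W)
    (hdim : 2 * finrank F W < Fintype.card ι) (hn : 13 ≤ Fintype.card ι) {g : GL ι F}
    (hgi : ∀ x y, f ((g : Matrix ι ι F) *ᵥ x) ((g : Matrix ι ι F) *ᵥ y) = f x y) (hg : g ∈ M)
    (hgn : g ∉ Cfsg.Geo.subspaceStabilizer W) : uGen hf (⊤ : Submodule F (ι → F)) ≤ M := by
  obtain ⟨δ, hδ0, hδ⟩ := exists_skew hf.ne_refl hf.involutive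
  set P := Cfsg.Lib.Classical.hperp hf W with hPdef
  have hP : NondegOnH f P := hW.hperp hf
  have hsum := hW.finrank_add hf
  rw [← hPdef] at hsum
  have hP7 : 7 ≤ finrank F P := by omega
  have hPW : ∀ b ∈ P, ∀ a ∈ W, f b a = 0 := fun b hb a ha => hb a ha
  have hWP : ∀ a ∈ W, ∀ b ∈ P, f a b = 0 := fun a ha b hb => herm_eq_zero_symm hf (hb a ha)
  have cW : ∀ v ∈ W, UCentre hf M v := fun v hv => ucentre_of_stab hf hM (Or.inl hv)
  have cP : ∀ v ∈ P, UCentre hf M v := fun v hv => ucentre_of_stab hf hM (Or.inr hv)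
  have norm : ∀ a ∈ W, ∀ b ∈ P, f (a + b) (a + b) = f a a + f b b := fun a ha b hb => by
    rw [hf.add_left, herm_add_right hf, herm_add_right hf, hPW b hb a ha, hWP a ha b hb]
    ring
  -- moving the component in `P`
  have move : ∀ a ∈ W, ∀ b ∈ P, ∀ b' ∈ P, b ≠ 0 → b' ≠ 0 → f b b = f b' b' →
      UCentre hf M (a + b) → UCentre hf M (a + b') := by
    intro a ha b hb b' hb' hb0 hb0' hbb hX
    obtain ⟨h, hh, hhb⟩ := exists_move_norm hf hP hP7 hb hb' hb0 hb0' hbb
    have hhM : h ∈ M := uGen_le (fun v hv hvv c hc => cP v hv hvv c hc) hh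
    have := hX.map hf hhM (uGen_isometry hh)
    rwa [mulVec_add, hhb, uGen_fix hh (hWP a ha)] at this
  -- an isotropic vector of `P` is sent out of `W ∪ P`
  obtain ⟨a₀, ha₀, b₀, hb₀, ha₀0, hb₀0, hxx, hxX⟩ : ∃ a ∈ W, ∃ b ∈ P, a ≠ 0 ∧ b ≠ 0 ∧
      f (a + b) (a + b) = 0 ∧ UCentre hf M (a + b) := by
    by_contra hcon
    push Not at hcon
    have hor : ∀ v ∈ P, f v v = 0 →
        (g : Matrix ι ι F) *ᵥ v ∈ W ∨ (g : Matrix ι ι F) *ᵥ v ∈ P := by
      intro v hv hvv
      obtain ⟨a, ha, b, hb, hab⟩ := hW.exists_decomp hf ((g : Matrix ι ι F) *ᵥ v)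
      by_cases ha0 : a = 0
      · right; rw [← hab, ha0, zero_add]; exact hb
      by_cases hb0 : b = 0
      · left; rw [← hab, hb0, add_zero]; exact ha
      exact absurd (hab ▸ (cP v hv).map hf hg hgi)
        (hcon a ha b hb ha0 hb0 (by rw [hab, hgi, hvv]))
    have link : ∀ v ∈ P, ∀ v' ∈ P, f v v = 0 → f v' v' = 0 → f v v' ≠ 0 →
        (g : Matrix ι ι F) *ᵥ v ∈ W → (g : Matrix ι ι F) *ᵥ v' ∈ W := by
      intro v hv v' hv' hvv hvv' hne hgv
      refine (hor v' hv' hvv').resolve_right fun h => hne ?_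
      rw [← hgi]
      exact hWP _ hgv _ h
    have one : ∀ v : ι → F, v ≠ 0 → LinearIndependent F ![v] := fun v hv => by
      rw [Fintype.linearIndependent_iff]
      intro c hc i
      fin_cases i
      simpa [hv] using hc
    -- `P` is spanned by isotropic vectors
    have hspan : ∀ (V : Submodule F (ι → F)), (∀ v ∈ P, f v v = 0 → (g : Matrix ι ι F) *ᵥ v ∈ V) →
        ∀ p ∈ P, (g : Matrix ι ι F) *ᵥ p ∈ V := by
      intro V hV p hp
      by_cases hp0 : p = 0
      · simp [hp0]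
      obtain ⟨v, hv, hvv, hvp⟩ := exists_norm_values_rel hf hP (one p hp0)
        (by intro i; fin_cases i; exact hp) (by omega) ![1] (map_zero σ)
      have hvp1 : f v p = 1 := hvp 0
      obtain ⟨t, ht⟩ := exists_trace_eq hf.ne_refl hf.involutive (a := - f p p)
        (by rw [map_neg, herm_self_fixed hf])
      have hiso : f (p + t • v) (p + t • v) = 0 := by
        rw [hf.add_left, herm_add_right hf, herm_add_right hf, hf.smul_left, hf.smul_left,
          herm_smul_right hf, herm_smul_right hf, hvp1, herm_eq_one_symm hf hvp1, hvv]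
        linear_combination ht
      have h1 := V.sub_mem (hV _ (P.add_mem hp (P.smul_mem t hv)) hiso)
        (V.smul_mem t (hV v hv hvv))
      rwa [← mulVec_smul, ← mulVec_sub, add_sub_cancel_right] at h1
    by_cases hall : ∀ v ∈ P, f v v = 0 → (g : Matrix ι ι F) *ᵥ v ∈ P
    · have hst : g ∈ Cfsg.Geo.subspaceStabilizer P := map_eq_of_maps_to (hspan P hall)
      refine hgn (map_eq_of_maps_to fun w hw => ?_)
      rw [← hW.hperp_hperp hf]
      intro p hp
      have h2 : (g : Matrix ι ι F) *ᵥ (((g⁻¹ : GL ι F) : Matrix ι ι F) *ᵥ p) = p :=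
        mulVec_inv_mulVec g p
      rw [← h2, hgi]
      exact hWP w hw _ (((mem_subspaceStabilizer.1 hst) _).2 (by rwa [h2]))
    push Not at hall
    obtain ⟨v, hv, hvv, hgv⟩ := hall
    have hgvW := (hor v hv hvv).resolve_right hgv
    have hv0 : v ≠ 0 := fun e => hgv (by rw [e, mulVec_zero]; exact P.zero_mem)
    have hallW : ∀ v' ∈ P, f v' v' = 0 → (g : Matrix ι ι F) *ᵥ v' ∈ W := by
      intro v' hv' hvv'
      by_cases hne : f v v' = 0
      · by_cases hv'0 : v' = 0
        · simp [hv'0]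
        by_cases hli : LinearIndependent F ![v, v']
        · obtain ⟨z, hz, hzz, hzr⟩ := exists_norm_values_rel hf hP hli
            (by intro i; fin_cases i <;> assumption) (by omega) ![1, 1] (map_zero σ)
          have hz0 : f z v = 1 := hzr 0
          have hz1 : f z v' = 1 := hzr 1
          have := link v hv z hz hvv hzz (by rw [herm_eq_one_symm hf hz0]; exact one_ne_zero) hgvW
          exact link z hz v' hv' hzz hvv' (by rw [hz1]; exact one_ne_zero) this
        · obtain ⟨t, rfl⟩ : ∃ t : F, t • v = v' := by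
            by_contra! hno
            exact hli ((LinearIndependent.pair_iff' hv0).2 hno)
          rw [mulVec_smul]
          exact W.smul_mem t hgvW
      · exact link v hv v' hv' hvv hvv' hne hgvW
    have hle : P.map (Matrix.mulVecLin (g : Matrix ι ι F)) ≤ W := by
      rintro _ ⟨p, hp, rfl⟩
      exact hspan W hallW p hp
    have hinj : Function.Injective (Matrix.mulVecLin (g : Matrix ι ι F)) := fun x y hxy =>
      (mulVec_inj g).1 hxy
    have h1 := Submodule.finrank_mono hle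
    rw [← LinearEquiv.finrank_eq (Submodule.equivMapOfInjective _ hinj P)] at h1
    omega
  let A : Set (ι → F) :=
    {a | a ∈ W ∧ ∀ b ∈ P, b ≠ 0 → f (a + b) (a + b) = 0 → UCentre hf M (a + b)}
  have hin : ∀ a ∈ W, ∀ b ∈ P, b ≠ 0 → f (a + b) (a + b) = 0 → UCentre hf M (a + b) → a ∈ A :=
    fun a ha b hb hb0 hab hX => ⟨ha, fun b' hb' hb0' hab' => move a ha b hb b' hb' hb0 hb0' (by
      rw [norm a ha b hb] at hab
      rw [norm a ha b' hb'] at hab'
      linear_combination hab - hab') hX⟩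
  have hA₀ : a₀ ∈ A := hin a₀ ha₀ b₀ hb₀ hb₀0 hxx hxX
  have hcomb : ∀ a₁ ∈ A, ∀ a₂ ∈ A, ∀ μ : F, a₂ + μ • a₁ ∈ A := by
    rintro a₁ ⟨h1W, h1⟩ a₂ ⟨h2W, h2⟩ μ
    by_cases hμ : μ = 0
    · rw [hμ, zero_smul, add_zero]
      exact ⟨h2W, h2⟩
    refine ⟨W.add_mem h2W (W.smul_mem _ h1W), fun b hb hb0 hab => ?_⟩
    obtain ⟨p, hp, hp0⟩ := P.exists_mem_ne_zero_of_ne_bot (fun h => by
      rw [h, finrank_bot] at hP7
      omega)
    have hp1 : LinearIndependent F ![p] := by
      rw [Fintype.linearIndependent_iff]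
      intro c hc i
      fin_cases i
      simpa [hp0] using hc
    obtain ⟨b₁, hb₁, hb₁b, hb₁p⟩ := exists_norm_values_rel hf hP hp1
      (by intro i; fin_cases i; exact hp) (by omega) ![1] (α := - f a₁ a₁)
      (by rw [map_neg, herm_self_fixed hf])
    have hb₁p1 : f b₁ p = 1 := hb₁p 0
    have hb₁0 : b₁ ≠ 0 := fun e => by
      rw [e, herm_zero_left hf] at hb₁p1
      exact zero_ne_one hb₁p1
    obtain ⟨q, hq, hqb, hqi⟩ : ∃ q ∈ P, f q b₁ = 0 ∧ LinearIndependent F ![b₁, q] := by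
      by_contra! hcon
      have hle : P ⊓ upFam hf ![b₁] ≤ Submodule.span F {b₁} := fun y hy => by
        by_contra hns
        exact hcon y hy.1 (((mem_upFam hf).1 hy.2) 0) ((LinearIndependent.pair_iff' hb₁0).2
          fun c e => hns (Submodule.mem_span_singleton.2 ⟨c, e⟩))
      have := Submodule.finrank_mono hle
      rw [finrank_span_singleton hb₁0] at this
      have h3 := Submodule.finrank_sup_add_finrank_inf_eq P (upFam hf ![b₁])
      have h4 := (P ⊔ upFam hf ![b₁]).finrank_le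
      have h5 := card_le_finrank_upFam hf ![b₁]
      rw [Module.finrank_fintype_fun_eq_card] at h4
      omega
    obtain ⟨b₂, hb₂, hb₂b, hb₂r⟩ := exists_norm_values_rel hf hP hqi
      (by intro i; fin_cases i <;> assumption) (by omega)
      ![μ / δ - f a₂ a₁, 1] (α := - f a₂ a₂) (by rw [map_neg, herm_self_fixed hf])
    have hb₂1 : f b₂ b₁ = μ / δ - f a₂ a₁ := hb₂r 0
    have hx₁ : f (a₁ + b₁) (a₁ + b₁) = 0 := by rw [norm a₁ h1W b₁ hb₁, hb₁b, add_neg_cancel]
    have hX₁ := h1 b₁ hb₁ hb₁0 hx₁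
    have hb₂q : f b₂ q = 1 := hb₂r 1
    have hno : ∀ c : F, b₂ ≠ c • b₁ := fun c e => by
      rw [e, hf.smul_left, herm_eq_zero_symm hf hqb, mul_zero] at hb₂q
      exact zero_ne_one hb₂q
    have hb₂0 : b₂ + μ • b₁ ≠ 0 ∧ b₂ ≠ 0 := ⟨fun e => hno (-μ) (by
      rw [eq_neg_of_add_eq_zero_left e, neg_smul]), fun e => hno 0 (by rw [e, zero_smul])⟩
    have hx₂ : f (a₂ + b₂) (a₂ + b₂) = 0 := by rw [norm a₂ h2W b₂ hb₂, hb₂b, add_neg_cancel]
    have hX₂ := (h2 b₂ hb₂ hb₂0.2 hx₂).map hf (hX₁ hx₁ δ (by rw [hδ, add_neg_cancel]))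
      (utv_isometry hf _ hx₁ (by rw [hδ, add_neg_cancel]))
    have hval : f (a₂ + b₂) (a₁ + b₁) = μ / δ := by
      rw [hf.add_left, herm_add_right hf, herm_add_right hf, hPW b₂ hb₂ a₁ h1W,
        hWP a₂ h2W b₁ hb₁, hb₂1]
      ring
    rw [utv_mulVec, hval, mul_div_cancel₀ _ hδ0,
      show a₂ + b₂ + μ • (a₁ + b₁) = (a₂ + μ • a₁) + (b₂ + μ • b₁) by module] at hX₂
    have hnorm : f b b = f (b₂ + μ • b₁) (b₂ + μ • b₁) := by
      have e1 : f (a₂ + b₂ + μ • (a₁ + b₁)) (a₂ + b₂ + μ • (a₁ + b₁)) = 0 := by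
        have := utv_isometry hf _ hx₁ (c := δ) (by rw [hδ, add_neg_cancel]) (a₂ + b₂) (a₂ + b₂)
        rwa [utv_mulVec, hval, mul_div_cancel₀ _ hδ0, hx₂] at this
      rw [show a₂ + b₂ + μ • (a₁ + b₁) = (a₂ + μ • a₁) + (b₂ + μ • b₁) by module,
        norm _ (W.add_mem h2W (W.smul_mem _ h1W)) _ (P.add_mem hb₂ (P.smul_mem _ hb₁))] at e1
      rw [norm _ (W.add_mem h2W (W.smul_mem _ h1W)) _ hb] at hab
      linear_combination hab - e1
    exact move _ (W.add_mem h2W (W.smul_mem _ h1W)) _ (P.add_mem hb₂ (P.smul_mem _ hb₁)) b hb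
      hb₂0.1 hb0 hnorm.symm hX₂
  have hsmul : ∀ a ∈ A, ∀ μ : F, μ • a ∈ A := fun a ha μ => by
    have := hcomb a ha a ha (μ - 1)
    rwa [sub_smul, one_smul, add_sub_cancel] at this
  have hadd : ∀ a ∈ A, ∀ a' ∈ A, a + a' ∈ A := fun a ha a' ha' => by
    simpa using hcomb a' ha' a ha 1
  have hsub : ∀ a ∈ A, ∀ a' ∈ A, a - a' ∈ A := fun a ha a' ha' => by
    simpa [sub_eq_add_neg] using hcomb a' ha' a ha (-1)
  obtain ⟨p₀, hp₀, hp₀0⟩ := P.exists_mem_ne_zero_of_ne_bot (fun h => by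
    rw [h, finrank_bot] at hP7
    omega)
  have hp₀1 : LinearIndependent F ![p₀] := by
    rw [Fintype.linearIndependent_iff]
    intro c hc i
    fin_cases i
    simpa [hp₀0] using hc
  -- isotropic vectors of `W` not orthogonal to a member of `A` belong to `A`
  have hiso : ∀ a ∈ A, ∀ u ∈ W, f u u = 0 → f a u ≠ 0 → u ∈ A := by
    intro a ha u hu huu hau
    obtain ⟨b, hb, hbb, hbp⟩ := exists_norm_values_rel hf hP hp₀1
      (by intro i; fin_cases i; exact hp₀) (by omega) ![1] (α := - f a a)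
      (by rw [map_neg, herm_self_fixed hf])
    have hb0 : b ≠ 0 := fun e => by
      have h1 : f b p₀ = 1 := hbp 0
      rw [e, herm_zero_left hf] at h1
      exact zero_ne_one h1
    have hab : f (a + b) (a + b) = 0 := by rw [norm a ha.1 b hb, hbb, add_neg_cancel]
    have hX := (ha.2 b hb hb0 hab).map hf (cW u hu huu δ (by rw [hδ, add_neg_cancel]))
      (utv_isometry hf u huu (by rw [hδ, add_neg_cancel]))
    have hiso' := utv_isometry hf u huu (c := δ) (by rw [hδ, add_neg_cancel]) (a + b) (a + b)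
    have hfu : f (a + b) u = f a u := by rw [hf.add_left, hPW b hb u hu, add_zero]
    rw [hab, utv_mulVec, hfu,
      show a + b + (δ * f a u) • u = (a + (δ * f a u) • u) + b by abel] at hiso'
    rw [utv_mulVec, hfu,
      show a + b + (δ * f a u) • u = (a + (δ * f a u) • u) + b by abel] at hX
    have h1 := hsub _ (hin _ (W.add_mem ha.1 (W.smul_mem _ hu)) b hb hb0 hiso' hX) _ ha
    rw [add_sub_cancel_left] at h1
    have h2 := hsmul _ h1 (δ * f a u)⁻¹
    rwa [smul_smul, inv_mul_cancel₀ (mul_ne_zero hδ0 hau), one_smul] at h2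
  obtain ⟨e, he, hee⟩ : ∃ e ∈ A, f e e = 1 := by
    obtain ⟨r, hr, hrr⟩ : ∃ r ∈ A, f r r ≠ 0 := by
      by_cases h0 : f a₀ a₀ = 0
      · obtain ⟨z, hz, hne⟩ := hW a₀ ha₀ ha₀0
        obtain ⟨z', hz'W, hza⟩ : ∃ z' ∈ W, f z' a₀ = 1 := ⟨(f z a₀)⁻¹ • z, W.smul_mem _ hz, by
          rw [hf.smul_left, inv_mul_cancel₀ fun h => hne (herm_eq_zero_symm hf h)]⟩
        obtain ⟨t, ht⟩ := exists_trace_eq hf.ne_refl hf.involutive (a := - f z' z')
          (by rw [map_neg, herm_self_fixed hf])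
        obtain ⟨s, hs⟩ := exists_trace_eq hf.ne_refl hf.involutive (map_one σ)
        set v := z' + t • a₀ with hv
        have hvv : f v v = 0 := by
          rw [hv, hf.add_left, herm_add_right hf, herm_add_right hf, hf.smul_left, hf.smul_left,
            herm_smul_right hf, herm_smul_right hf, h0, hza, herm_eq_one_symm hf hza]
          linear_combination ht
        have hva : f v a₀ = 1 := by rw [hv, hf.add_left, hf.smul_left, h0, hza, mul_zero, add_zero]
        have hvA := hiso a₀ hA₀ v (W.add_mem hz'W (W.smul_mem _ ha₀)) hvv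
          (by rw [herm_eq_one_symm hf hva]; exact one_ne_zero)
        refine ⟨a₀ + s • v, hcomb v hvA a₀ hA₀ s, ?_⟩
        rw [hf.add_left, herm_add_right hf, herm_add_right hf, hf.smul_left, hf.smul_left,
          herm_smul_right hf, herm_smul_right hf, h0, hvv, hva, herm_eq_one_symm hf hva,
          show (0 : F) + σ s * 1 + (s * 1 + s * (σ s * 0)) = 1 by linear_combination hs]
        exact one_ne_zero
      · exact ⟨a₀, hA₀, h0⟩
    obtain ⟨z, hz⟩ := exists_scale hf hrr (map_one σ)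
    exact ⟨z • r, hsmul r hr z, hz⟩
  obtain ⟨z, hz⟩ := exists_norm_eq hf.ne_refl hf.involutive (a := (-1 : F)) (by simp)
  have hz0 : z ≠ 0 := fun h => by simp [h] at hz
  have hW' := hW.inf_unit hf he.1 hee
  have hunit : ∀ w ∈ W, f w e = 0 → f w w = 1 → w ∈ A := by
    intro w hw hwe hww
    have hu : f (e + z • w) (e + z • w) = 0 := by
      rw [hf.add_left, herm_add_right hf, herm_add_right hf, hf.smul_left, hf.smul_left,
        herm_smul_right hf, herm_smul_right hf, hee, hww, hwe, herm_eq_zero_symm hf hwe]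
      linear_combination hz
    have h1 := hsub _ (hiso e he _ (W.add_mem he.1 (W.smul_mem z hw)) hu (by
      rw [herm_add_right hf, herm_smul_right hf, hee, herm_eq_zero_symm hf hwe, mul_zero, add_zero]
      exact one_ne_zero)) _ he
    rw [add_sub_cancel_left] at h1
    simpa [smul_smul, inv_mul_cancel₀ hz0] using hsmul _ h1 z⁻¹
  have horth : ∀ p ∈ W, f p e = 0 → p ∈ A := by
    intro p hp hpe
    by_cases hpp : f p p = 0
    · by_cases hp0 : p = 0
      · rw [hp0]; simpa using hsmul _ he (0 : F)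
      obtain ⟨k, hk, hne⟩ := hW' p ((mem_inf_unit hf).2 ⟨hp, hpe⟩) hp0
      rw [mem_inf_unit] at hk
      obtain ⟨k', hk'W, hk'p, hk'e⟩ : ∃ k' ∈ W, f k' p = 1 ∧ f k' e = 0 :=
        ⟨(f k p)⁻¹ • k, W.smul_mem _ hk.1,
          by rw [hf.smul_left, inv_mul_cancel₀ fun h => hne (herm_eq_zero_symm hf h)],
          by rw [hf.smul_left, hk.2, mul_zero]⟩
      obtain ⟨t, ht⟩ := exists_trace_eq hf.ne_refl hf.involutive (a := 1 - f k' k')
        (by rw [map_sub, map_one, herm_self_fixed hf])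
      have key : ∀ s : F, s + σ s = 1 - f k' k' → k' + s • p ∈ A := fun s hs =>
        hunit _ (W.add_mem hk'W (W.smul_mem _ hp))
          (by rw [hf.add_left, hf.smul_left, hk'e, hpe, mul_zero, add_zero])
          (by
            rw [hf.add_left, herm_add_right hf, herm_add_right hf, hf.smul_left, hf.smul_left,
              herm_smul_right hf, herm_smul_right hf, hpp, hk'p, herm_eq_one_symm hf hk'p]
            linear_combination hs)
      have h1 := hsub _ (key (t + δ) (by rw [map_add, hδ]; linear_combination ht)) _ (key t ht)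
      rw [show k' + (t + δ) • p - (k' + t • p) = δ • p by module] at h1
      simpa [smul_smul, inv_mul_cancel₀ hδ0] using hsmul _ h1 δ⁻¹
    · obtain ⟨s, hs⟩ := exists_scale hf hpp (map_one σ)
      have hs0 : s ≠ 0 := fun h => by simp [h, herm_zero_left hf] at hs
      have h1 := hunit _ (W.smul_mem s hp) (by rw [hf.smul_left, hpe, mul_zero]) hs
      simpa [smul_smul, inv_mul_cancel₀ hs0] using hsmul _ h1 s⁻¹
  have hall : ∀ a ∈ W, a ∈ A := fun a ha => by
    have h1 := hadd _ (horth (a - f a e • e) (W.sub_mem ha (W.smul_mem _ he.1))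
      (by rw [herm_sub_left hf, hf.smul_left, hee, mul_one, sub_self])) _ (hsmul e he (f a e))
    rwa [sub_add_cancel] at h1
  refine uGen_le fun y _ hy c hc => ?_
  obtain ⟨a, ha, b, hb, rfl⟩ := hW.exists_decomp hf y
  by_cases hb0 : b = 0
  · subst hb0
    exact cW (a + 0) (by rwa [add_zero]) hy c hc
  · exact (hall a ha).2 b hb hb0 hy hy c hc


end Cfsg.Lib.Classical
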