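import Mathlib
import Cfsg.Agent.Lib.Classical.UnitarySubspaceMax

/-!
A pair of complementary totally singular subspaces in a unitary space: root elements of their
stabiliser in `SU`.
-/

set_option autoImplicit false

namespace Cfsg.Lib.Classical

open Matrix Module
open scoped MatrixGroups

variable {ι : Type} [Fintype ι] [DecidableEq ι] {F : Type*} [Field F] {σ : F ≃+* F}
  {f : (ι → F) → (ι → F) → F}

/-- `A` and `A'` are complementary totally singular subspaces of dimension `m`. -/
structure IsUPol (σ : F ≃+* F) (f : (ι → F) → (ι → F) → F) (A A' : Submodule F (ι → F)) (m : ℕ) :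
    Prop where
  form : Cfsg.Geo.IsUnitaryForm σ f
  iso : ∀ u ∈ A, ∀ v ∈ A, f u v = 0
  iso' : ∀ u ∈ A', ∀ v ∈ A', f u v = 0
  compl : IsCompl A A'
  dim : finrank F A = m
  dim' : finrank F A' = m

namespace IsUPol

variable {A A' : Submodule F (ι → F)} {m : ℕ}

omit [Fintype ι] [DecidableEq ι] in
lemma symm (P : IsUPol σ f A A' m) : IsUPol σ f A' A m :=
  ⟨P.form, P.iso', P.iso, P.compl.symm, P.dim', P.dim⟩

omit [Fintype ι] [DecidableEq ι] in
lemma decomp (P : IsUPol σ f A A' m) (x : ι → F) : ∃ a ∈ A, ∃ b ∈ A', a + b = x :=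
  Submodule.mem_sup.1 (P.compl.sup_eq_top ▸ Submodule.mem_top)

omit [Fintype ι] [DecidableEq ι] in
lemma eq_zero_of_orth' (P : IsUPol σ f A A' m) {a : ι → F} (ha : a ∈ A)
    (h : ∀ b ∈ A', f a b = 0) : a = 0 := by
  by_contra h0
  obtain ⟨z, hz⟩ := (P.form.nondegenerate a h0).2
  obtain ⟨u, hu, b, hb, rfl⟩ := P.decomp z
  exact hz (by rw [herm_add_right P.form, P.iso a ha u hu, h b hb, add_zero])

/-- Values against an independent family of `A` may be prescribed by a vector of `A'`. -/
lemma exists_dual [Finite F] (P : IsUPol σ f A A' m) {k : ℕ} {r : Fin k → ι → F}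
    (hr : LinearIndependent F r) (hrA : ∀ i, r i ∈ A) (a : Fin k → F) :
    ∃ θ ∈ A', ∀ i, f (r i) θ = a i := by
  obtain ⟨v, hv⟩ := exists_herm_values P.form hr fun i => σ (a i)
  obtain ⟨u, hu, b, hb, rfl⟩ := P.decomp v
  refine ⟨b, hb, fun i => ?_⟩
  rw [P.form.herm, ← add_zero (f b (r i)), ← P.iso u hu _ (hrA i), add_comm, ← P.form.add_left,
    hv, P.form.involutive]

/-- As `exists_dual`, avoiding a small subspace. -/
lemma exists_dual_avoid [Finite F] (P : IsUPol σ f A A' m) {k : ℕ} {r : Fin k → ι → F}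
    (hr : LinearIndependent F r) (hrA : ∀ i, r i ∈ A) (a : Fin k → F)
    (S : Submodule F (ι → F)) (hS : finrank F S + k < m) :
    ∃ θ ∈ A', (∀ i, f (r i) θ = a i) ∧ θ ∉ S := by
  obtain ⟨θ, hθ, hθv⟩ := P.exists_dual hr hrA a
  by_cases hθS : θ ∈ S
  · obtain ⟨ν, hν, hν0, hνS⟩ : ∃ ν ∈ A', (∀ i, f ν (r i) = 0) ∧ ν ∉ S := by
      by_contra! hcon
      have h1 := Submodule.finrank_mono (show A' ⊓ upFam P.form r ≤ S from
        fun x hx => hcon x hx.1 ((mem_upFam P.form).1 hx.2))
      have h2 := Submodule.finrank_sup_add_finrank_inf_eq A' (upFam P.form r)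
      have h3 := (A' ⊔ upFam P.form r).finrank_le
      have h4 := card_le_finrank_upFam P.form r
      rw [Module.finrank_fintype_fun_eq_card] at h3
      rw [P.dim'] at h2
      omega
    refine ⟨θ + ν, A'.add_mem hθ hν, fun i => ?_, fun h => hνS ((S.add_mem_iff_right hθS).1 h)⟩
    rw [herm_add_right P.form, hθv, herm_eq_zero_symm P.form (hν0 i), add_zero]
  · exact ⟨θ, hθ, hθv, hθS⟩

end IsUPol

variable (hf : Cfsg.Geo.IsUnitaryForm σ f)

/-- The root element `x ↦ x + f(x,p) q - f(x,q) p`. -/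
noncomputable def rootR (f : (ι → F) → (ι → F) → F) (p q : ι → F) : GL ι F := by
  classical
  exact if h : hvec f p ⬝ᵥ q = 0 ∧ (-hvec f q) ⬝ᵥ p = 0 then
    tvGL q (hvec f p) h.1 * tvGL p (-hvec f q) h.2 else 1

/-- A pair spanning a totally singular plane. -/
structure RootPair (f : (ι → F) → (ι → F) → F) (p q : ι → F) : Prop where
  left : f p p = 0
  right : f q q = 0
  orth : f p q = 0

include hf

omit [Fintype ι] [DecidableEq ι] in
lemma RootPair.orth' {p q : ι → F} (h : RootPair f p q) : f q p = 0 :=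
  herm_eq_zero_symm hf h.orth

lemma rootR_spec {p q : ι → F} (h : RootPair f p q) :
    ∃ (h1 : hvec f p ⬝ᵥ q = 0) (h2 : (-hvec f q) ⬝ᵥ p = 0),
      rootR f p q = tvGL q (hvec f p) h1 * tvGL p (-hvec f q) h2 := by
  have h1 : hvec f p ⬝ᵥ q = 0 := by rw [hvec_dot hf, h.orth' hf]
  have h2 : (-hvec f q) ⬝ᵥ p = 0 := by rw [neg_dotProduct, hvec_dot hf, h.orth, neg_zero]
  exact ⟨h1, h2, by rw [rootR, dif_pos ⟨h1, h2⟩]⟩

lemma rootR_mulVec {p q : ι → F} (h : RootPair f p q) (x : ι → F) :
    (rootR f p q : Matrix ι ι F) *ᵥ x = x + f x p • q - f x q • p := by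
  obtain ⟨h1, h2, e⟩ := rootR_spec hf h
  rw [e, Units.val_mul, ← mulVec_mulVec, coe_tvGL, coe_tvGL, tv_mulVec, tv_mulVec,
    neg_dotProduct, hvec_dot hf, hvec_dot hf, hf.add_left, hf.smul_left, h.left, mul_zero, add_zero]
  module

lemma rootR_det {p q : ι → F} (h : RootPair f p q) :
    Matrix.GeneralLinearGroup.det (rootR f p q) = 1 := by
  obtain ⟨h1, h2, e⟩ := rootR_spec hf h
  rw [e, map_mul, tvGL_mem_ker_det _ _ h1, tvGL_mem_ker_det _ _ h2, one_mul]

lemma rootR_isometry {p q : ι → F} (h : RootPair f p q) (x y : ι → F) :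
    f ((rootR f p q : Matrix ι ι F) *ᵥ x) ((rootR f p q : Matrix ι ι F) *ᵥ y) =
      f x y := by
  rw [rootR_mulVec hf h, rootR_mulVec hf h]
  simp only [herm_sub_left hf, herm_sub_right hf, hf.add_left, hf.smul_left, herm_add_right hf,
    herm_smul_right hf, h.left, h.right, h.orth, h.orth' hf, mul_zero, sub_zero, add_zero]
  rw [← hf.herm q y, ← hf.herm p y]
  ring

omit [Fintype ι] [DecidableEq ι] in
lemma RootPair.map [Fintype ι] [DecidableEq ι] {p q : ι → F} (h : RootPair f p q) {g : GL ι F}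
    (hg : ∀ x y, f ((g : Matrix ι ι F) *ᵥ x) ((g : Matrix ι ι F) *ᵥ y) = f x y) :
    RootPair f ((g : Matrix ι ι F) *ᵥ p) ((g : Matrix ι ι F) *ᵥ q) :=
  ⟨by rw [hg, h.left], by rw [hg, h.right], by rw [hg, h.orth]⟩

lemma conj_rootR {p q : ι → F} (h : RootPair f p q) (g : GL ι F)
    (hg : ∀ x y, f ((g : Matrix ι ι F) *ᵥ x) ((g : Matrix ι ι F) *ᵥ y) = f x y) :
    g * rootR f p q * g⁻¹ =
      rootR f ((g : Matrix ι ι F) *ᵥ p) ((g : Matrix ι ι F) *ᵥ q) := by
  refine Units.ext (ext_mulVec fun x => ?_)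
  rw [Units.val_mul, Units.val_mul, ← mulVec_mulVec, ← mulVec_mulVec, rootR_mulVec hf h,
    rootR_mulVec hf (h.map hf hg), mulVec_sub, mulVec_add, mulVec_smul, mulVec_smul,
    mulVec_inv_mulVec]
  conv_rhs => rw [← mulVec_inv_mulVec g x, hg, hg, mulVec_inv_mulVec]

/-- The Heisenberg relation. -/
lemma rootR_comm_rel {c d e : ι → F} (hd : RootPair f c d) (he : RootPair f c e)
    (hκ : (f d e - f e d) + σ (f d e - f e d) = 0) :
    rootR f c d * rootR f c e =
      utv hf c hd.left (f d e - f e d) * (rootR f c e * rootR f c d) := by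
  have _ := hκ
  refine Units.ext (ext_mulVec fun x => ?_)
  simp only [Units.val_mul, ← mulVec_mulVec, rootR_mulVec hf hd, rootR_mulVec hf he, utv_mulVec,
    herm_sub_left hf, hf.add_left, hf.smul_left, hd.left, hd.right, he.right, hd.orth, he.orth,
    hd.orth' hf, he.orth' hf, mul_zero, add_zero, sub_zero]
  module

omit [Fintype ι] [DecidableEq ι] in
lemma skew_herm_diff (d e : ι → F) : (f d e - f e d) + σ (f d e - f e d) = 0 := by
  rw [map_sub, ← hf.herm e d, ← hf.herm d e]
  ring

lemma rootR_add {c d e : ι → F} (hd : RootPair f c d) (he : RootPair f c e) (hde : f d e = 0) :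
    rootR f c d * rootR f c e = rootR f c (d + e) := by
  have h : RootPair f c (d + e) := ⟨hd.left, by
    rw [hf.add_left, herm_add_right hf, herm_add_right hf, hd.right, he.right, hde,
      herm_eq_zero_symm hf hde]
    ring, by rw [herm_add_right hf, hd.orth, he.orth, add_zero]⟩
  refine Units.ext (ext_mulVec fun x => ?_)
  simp only [Units.val_mul, ← mulVec_mulVec, rootR_mulVec hf hd, rootR_mulVec hf he,
    rootR_mulVec hf h, herm_sub_left hf, hf.add_left, hf.smul_left, hd.left, hd.orth, he.orth,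
    hd.orth' hf, he.orth' hf, herm_eq_zero_symm hf hde, herm_add_right hf, mul_zero, add_zero,
    sub_zero]
  module

lemma rootR_inv {c d : ι → F} (hd : RootPair f c d) :
    (rootR f c d)⁻¹ = rootR f c (-d) := by
  have h : RootPair f c (-d) := ⟨hd.left, by rw [herm_neg_left hf, herm_neg_right hf, hd.right]; simp,
    by rw [herm_neg_right hf, hd.orth, neg_zero]⟩
  refine inv_eq_of_mul_eq_one_right ?_
  rw [rootR_add hf hd h (by rw [herm_neg_right hf, hd.right, neg_zero]), add_neg_cancel]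
  refine Units.ext (ext_mulVec fun x => ?_)
  rw [rootR_mulVec hf ⟨hd.left, by simp [herm_zero_left hf], by simp [herm_zero_right hf]⟩]
  simp [herm_zero_right hf]

lemma rootR_zero {c : ι → F} (hc : f c c = 0) : rootR f c 0 = 1 := by
  refine Units.ext (ext_mulVec fun x => ?_)
  rw [rootR_mulVec hf ⟨hc, herm_zero_left hf 0, herm_zero_right hf c⟩]
  simp [herm_zero_right hf]

lemma rootR_swap {p q : ι → F} (h : RootPair f p q) :
    rootR f q p = rootR f p (-q) := by
  have h1 : RootPair f q p := ⟨h.right, h.left, h.orth' hf⟩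
  have h2 : RootPair f p (-q) := ⟨h.left,
    by rw [herm_neg_left hf, herm_neg_right hf, h.right]; simp,
    by rw [herm_neg_right hf, h.orth, neg_zero]⟩
  refine Units.ext (ext_mulVec fun x => ?_)
  rw [rootR_mulVec hf h1, rootR_mulVec hf h2, herm_neg_right hf]
  module

lemma rootR_shift {c d : ι → F} (hd : RootPair f c d) (t : F) :
    rootR f c (d + t • c) = utv hf c hd.left (t - σ t) * rootR f c d := by
  have h : RootPair f c (d + t • c) := ⟨hd.left, by
    simp only [hf.add_left, hf.smul_left, herm_add_right hf, herm_smul_right hf, hd.left, hd.right,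
      hd.orth, hd.orth' hf]
    ring, by rw [herm_add_right hf, herm_smul_right hf, hd.orth, hd.left, mul_zero, add_zero]⟩
  refine Units.ext (ext_mulVec fun x => ?_)
  simp only [Units.val_mul, ← mulVec_mulVec, rootR_mulVec hf h, rootR_mulVec hf hd, utv_mulVec,
    herm_sub_left hf, hf.add_left, hf.smul_left, hd.left, hd.orth, hd.orth' hf, herm_add_right hf,
    herm_smul_right hf, mul_zero, add_zero, sub_zero]
  module

lemma rootR_add_left {p q ν : ι → F} (hp : RootPair f p ν) (hq : RootPair f q ν)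
    (hpq : f p q = 0) :
    rootR f (p + q) ν = rootR f p ν * rootR f q ν := by
  have h : RootPair f (p + q) ν := ⟨by
    rw [hf.add_left, herm_add_right hf, herm_add_right hf, hp.left, hq.left, hpq,
      herm_eq_zero_symm hf hpq]
    ring, hp.right, by rw [hf.add_left, hp.orth, hq.orth, add_zero]⟩
  refine Units.ext (ext_mulVec fun x => ?_)
  simp only [Units.val_mul, ← mulVec_mulVec, rootR_mulVec hf h, rootR_mulVec hf hp,
    rootR_mulVec hf hq, herm_sub_left hf, hf.add_left, hf.smul_left, hpq,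
    herm_eq_zero_symm hf hpq, hp.right, hp.orth' hf, hq.orth' hf, hp.orth, hq.orth,
    herm_add_right hf, mul_zero, add_zero, sub_zero]
  module

end Cfsg.Lib.Classical
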