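import Mathlib
import Cfsg.Agent.Lib.Classical.UnitaryPair

/-!
Centres in a totally singular subspace from root elements outside the stabiliser of a pair.
-/

set_option autoImplicit false

namespace Cfsg.Lib.Classical

open Matrix Module
open scoped MatrixGroups

variable {ι : Type} [Fintype ι] [DecidableEq ι] {F : Type*} [Field F] [Finite F] {σ : F ≃+* F}
  {f : (ι → F) → (ι → F) → F} {A A' : Submodule F (ι → F)} {m : ℕ} {M : Subgroup (GL ι F)}

/-- `g` maps both subspaces into themselves. -/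
def UPres (A A' : Submodule F (ι → F)) : Subgroup (GL ι F) :=
  Cfsg.Geo.subspaceStabilizer A ⊓ Cfsg.Geo.subspaceStabilizer A'

/-- Some nontrivial transvection of `M` has its centre in `A`. -/
def HasUCentre (hf : Cfsg.Geo.IsUnitaryForm σ f) (A : Submodule F (ι → F))
    (M : Subgroup (GL ι F)) : Prop :=
  ∃ θ ∈ A, θ ≠ 0 ∧ ∃ (hθ : f θ θ = 0) (c : F), c ≠ 0 ∧ c + σ c = 0 ∧ utv hf θ hθ c ∈ M

omit [Fintype ι] [DecidableEq ι] [Finite F] in
lemma li_one {x : ι → F} (hx : x ≠ 0) : LinearIndependent F ![x] := by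
  rw [Fintype.linearIndependent_iff]
  intro c hc i
  fin_cases i
  simpa [hx] using hc

omit [Fintype ι] [DecidableEq ι] [Finite F] in
lemma li_two_of_notMem {x y : ι → F} (hx : x ≠ 0) (hy : y ∉ Submodule.span F {x}) :
    LinearIndependent F ![x, y] :=
  (LinearIndependent.pair_iff' hx).2 fun _ e => hy (Submodule.mem_span_singleton.2 ⟨_, e⟩)

omit [Fintype ι] [DecidableEq ι] [Finite F] in
lemma li_three {x y z : ι → F} (h : LinearIndependent F ![x, y])
    (hz : z ∉ Submodule.span F {x} ⊔ Submodule.span F {y}) : LinearIndependent F ![x, y, z] := by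
  rw [Fintype.linearIndependent_iff]
  intro g hg
  rw [Fin.sum_univ_three] at hg
  simp only [Matrix.cons_val_zero, Matrix.cons_val_one, Matrix.cons_val_two, Matrix.tail_cons,
    Matrix.head_cons] at hg
  have hg2 : g 2 = 0 := by
    by_contra h0
    refine hz ?_
    have h1 : g 2 • z = (-(g 0)) • x + (-(g 1)) • y := by
      linear_combination (norm := module) hg
    rw [show z = (g 2)⁻¹ • (g 2 • z) by rw [smul_smul, inv_mul_cancel₀ h0, one_smul], h1, smul_add,
      smul_smul, smul_smul]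
    exact Submodule.add_mem_sup (Submodule.smul_mem _ _ (Submodule.mem_span_singleton_self x))
      (Submodule.smul_mem _ _ (Submodule.mem_span_singleton_self y))
  rw [hg2, zero_smul, add_zero] at hg
  have := LinearIndependent.pair_iff.1 h _ _ hg
  intro i
  fin_cases i
  exacts [this.1, this.2, hg2]

variable (P : IsUPol σ f A A' m)

include P

omit [Fintype ι] [DecidableEq ι] [Finite F] in
lemma rootPair_of_mem {p q : ι → F} (hp : p ∈ A) (hq : q ∈ A') (h : f p q = 0) :
    RootPair f p q :=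
  ⟨P.iso p hp p hp, P.iso' q hq q hq, h⟩

omit [Finite F] in
lemma rootR_mem_upres {p q : ι → F} (hp : p ∈ A) (hq : q ∈ A') (h : f p q = 0) :
    rootR f p q ∈ UPres A A' := by
  have hr := rootPair_of_mem P hp hq h
  refine ⟨map_eq_of_maps_to fun x hx => ?_, map_eq_of_maps_to fun x hx => ?_⟩
  · rw [rootR_mulVec P.form hr, P.iso x hx p hp, zero_smul, add_zero]
    exact A.sub_mem hx (A.smul_mem _ hp)
  · rw [rootR_mulVec P.form hr, P.iso' x hx q hq, zero_smul, sub_zero]
    exact A'.add_mem hx (A'.smul_mem _ hq)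

variable (hM : ∀ p ∈ A, ∀ q ∈ A', f p q = 0 → rootR f p q ∈ M)

include hM

omit [Finite F] in
lemma hM_swap : ∀ p ∈ A', ∀ q ∈ A, f p q = 0 → rootR f p q ∈ M := fun p hp q hq h => by
  have h' : f q p = 0 := herm_eq_zero_symm P.form h
  rw [rootR_swap P.form (rootPair_of_mem P hq hp h')]
  exact hM q hq _ (A'.neg_mem hp) (by rw [herm_neg_right P.form, h', neg_zero])

/-- Centres in `A'` from an element of `U_{A'}`. -/
lemma hasUCentre_of_uElt (hm : 2 ≤ m) {k : GL ι F}
    (hki : ∀ x y, f ((k : Matrix ι ι F) *ᵥ x) ((k : Matrix ι ι F) *ᵥ y) = f x y)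
    (hkfix : ∀ b ∈ A', (k : Matrix ι ι F) *ᵥ b = b)
    (hkmod : ∀ x, (k : Matrix ι ι F) *ᵥ x - x ∈ A') (hk1 : k ≠ 1) (hkM : k ∈ M) :
    HasUCentre P.form A' M := by
  have hf := P.form
  set K : (ι → F) → (ι → F) := fun x => (k : Matrix ι ι F) *ᵥ x - x with hKdef
  have e : ∀ z, (k : Matrix ι ι F) *ᵥ z = z + K z := fun z => by simp [hKdef]
  have hKK : ∀ x y, f (K x) (K y) = 0 := fun x y => P.iso' _ (hkmod x) _ (hkmod y)
  have hsk : ∀ x y, f (K x) y + f x (K y) = 0 := by
    intro x y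
    have h := hki x y
    rw [e x, e y, hf.add_left, herm_add_right hf, herm_add_right hf, hKK] at h
    linear_combination h
  have hKlin : ∀ (s : F) y z, K (y + s • z) = K y + s • K z := fun s y z => by
    simp only [hKdef, mulVec_add, mulVec_smul, smul_sub]
    abel
  have hK0 : ∀ b ∈ A', K b = 0 := fun b hb => by simp [hKdef, hkfix b hb]
  obtain ⟨u, hu, huu⟩ : ∃ u ∈ A, f (K u) u ≠ 0 := by
    by_contra! hcon
    refine hk1 (Units.ext (ext_mulVec fun x => ?_))
    obtain ⟨a, ha, b, hb, rfl⟩ := P.decomp x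
    rw [Units.val_one, one_mulVec, mulVec_add, hkfix b hb]
    congr 1
    have hKa : K a = 0 := by
      refine P.symm.eq_zero_of_orth' (hkmod a) fun y hy => ?_
      obtain ⟨l, hl0, hl⟩ : ∃ l : F, l ≠ 0 ∧ σ l ≠ l := by
        obtain ⟨l, hl⟩ : ∃ l, σ l ≠ l := by
          by_contra! h
          exact hf.ne_refl (RingEquiv.ext h)
        exact ⟨l, fun h0 => hl (by rw [h0, map_zero]), hl⟩
      have h1 : ∀ t : F, σ t * f (K a) y + t * f (K y) a = 0 := fun t => by
        have h := hcon (a + t • y) (A.add_mem ha (A.smul_mem t hy))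
        rw [hKlin, hf.add_left, herm_add_right hf, herm_add_right hf, hf.smul_left, hf.smul_left,
          herm_smul_right hf, herm_smul_right hf, hcon a ha, hcon y hy] at h
        linear_combination h
      have h3 : (σ l - l) * f (K a) y = 0 := by
        have e1 := h1 1
        rw [map_one] at e1
        linear_combination h1 l - l * e1
      exact (mul_eq_zero.1 h3).resolve_left (sub_ne_zero.2 hl)
    exact sub_eq_zero.1 hKa
  set ω := f (K u) u with hω
  have hωσ : ω + σ ω = 0 := by rw [hω, ← hf.herm u (K u)]; exact hsk u u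
  obtain ⟨θ, hθ, hθ0, huθ⟩ : ∃ θ ∈ A', θ ≠ 0 ∧ f θ u = 0 := by
    by_contra! hcon
    have h1 := Submodule.finrank_sup_add_finrank_inf_eq A' (upFam hf ![u])
    have h2 := (A' ⊔ upFam hf ![u]).finrank_le
    have h3 := card_le_finrank_upFam hf ![u]
    have h4 : A' ⊓ upFam hf ![u] = ⊥ := by
      rw [eq_bot_iff]
      rintro x ⟨hx, hx'⟩
      by_contra h0
      exact hcon x hx h0 (((mem_upFam hf).1 hx') 0)
    rw [Module.finrank_fintype_fun_eq_card] at h2
    rw [h4, finrank_bot, P.dim'] at h1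
    omega
  have huθ' : f u θ = 0 := herm_eq_zero_symm hf huθ
  have hKθ : ∀ z, f (K z) θ = 0 := fun z => P.iso' _ (hkmod z) θ hθ
  have hθθ : f θ θ = 0 := P.iso' θ hθ θ hθ
  have huu0 : f u u = 0 := P.iso u hu u hu
  have hpair : ∀ t : F, RootPair f u (t • θ) := fun t =>
    rootPair_of_mem P hu (A'.smul_mem t hθ) (by rw [herm_smul_right hf, huθ', mul_zero])
  set C : F → GL ι F := fun t => rootR f u (t • θ) * k * (rootR f u (t • θ))⁻¹ with hC
  have hCM : ∀ t, C t ∈ M := fun t =>
    mul_mem (mul_mem (hM u hu _ (A'.smul_mem t hθ) (hpair t).orth) hkM)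
      (inv_mem (hM u hu _ (A'.smul_mem t hθ) (hpair t).orth))
  set D : F → (ι → F) → (ι → F) := fun t x =>
    K x + (σ t * f x θ) • K u + (t * f (K x) u + t * σ t * f x θ * ω) • θ with hD
  have hCx : ∀ t x, (C t : Matrix ι ι F) *ᵥ x = x + D t x := by
    intro t x
    have hy : K (x + f x u • -(t • θ) - f x (-(t • θ)) • u) = K x + (σ t * f x θ) • K u := by
      rw [show x + f x u • -(t • θ) - f x (-(t • θ)) • u =
        x + (-(f x u * t)) • θ + (σ t * f x θ) • u by
          rw [herm_neg_right hf, herm_smul_right hf]; module,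
        hKlin, hKlin, hK0 θ hθ, smul_zero, add_zero]
    have hn : RootPair f u (-(t • θ)) := ⟨huu0, by
      rw [herm_neg_left hf, herm_neg_right hf, (hpair t).right]; simp, by
      rw [herm_neg_right hf, (hpair t).orth, neg_zero]⟩
    simp only [hC, hD, Units.val_mul, ← mulVec_mulVec, rootR_inv hf (hpair t),
      rootR_mulVec hf hn, e, hy, rootR_mulVec hf (hpair t)]
    simp only [hf.add_left, herm_sub_left hf, hf.smul_left, herm_neg_left hf, herm_smul_right hf,
      herm_neg_right hf, hKθ, huθ, huθ', hθθ, huu0, ← hω]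
    module
  have hDmem : ∀ t x, D t x ∈ A' := fun t x =>
    A'.add_mem (A'.add_mem (hkmod x) (A'.smul_mem _ (hkmod u))) (A'.smul_mem _ hθ)
  obtain ⟨t, ht⟩ := exists_trace_eq hf.ne_refl hf.involutive (map_one σ)
  have hω' : -ω + σ (-ω) = 0 := by rw [map_neg]; linear_combination -hωσ
  refine ⟨θ, hθ, hθ0, hθθ, -ω, neg_ne_zero.2 huu, hω', ?_⟩
  have key : utv hf θ hθθ (-ω) * (k * C (t + 1)) = C t * C 1 := by
    refine Units.ext (ext_mulVec fun x => ?_)
    have hdA : ∀ s y, ∀ w ∈ A', D s (y + w) = D s y := fun s y w hw => by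
      simp only [hD]
      have h1 : K (y + w) = K y := by
        rw [show y + w = y + (1 : F) • w by rw [one_smul], hKlin, hK0 w hw, smul_zero, add_zero]
      rw [h1, hf.add_left, P.iso' w hw θ hθ, add_zero]
    have hKA : K (x + D (t + 1) x) = K x := by
      rw [show x + D (t + 1) x = x + (1 : F) • D (t + 1) x by rw [one_smul], hKlin,
        hK0 _ (hDmem (t + 1) x), smul_zero, add_zero]
    simp only [Units.val_mul, ← mulVec_mulVec, hCx, e, utv_mulVec]
    rw [hdA t x _ (hDmem 1 x), hKA]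
    simp only [hD, hf.add_left, hf.smul_left, hKθ, hθθ, mul_zero, add_zero, map_add, map_one]
    match_scalars
    all_goals first
      | ring1
      | linear_combination (f x θ * ω) * ht
      | linear_combination -(f x θ * ω) * ht
  have h1 := mul_mem (mul_mem (hCM t) (hCM 1)) (inv_mem (mul_mem hkM (hCM (t + 1))))
  rwa [← key, mul_inv_cancel_right] at h1

/-- One transvection with centre in `A'` gives all. -/
lemma ucentre_of_hasUCentre (hm : 5 ≤ m) (h : HasUCentre P.form A' M) :
    ∀ θ ∈ A', UCentre P.form M θ := by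
  have hf := P.form
  obtain ⟨θ₀, hθ₀, hθ₀0, h00, c₀, hc₀, hc₀s, hT⟩ := h
  have step : ∀ a b, a ∈ A' → b ∈ A' → LinearIndependent F ![a, b] →
      (∀ h : f a a = 0, utv hf a h c₀ ∈ M) → ∀ h : f b b = 0, utv hf b h c₀ ∈ M := by
    intro a b ha hb hli hMa hbb
    obtain ⟨u, hu, huv⟩ := P.symm.exists_dual hli (by intro i; fin_cases i <;> assumption) ![1, 1]
    have h1 : f a u = 1 := huv 0
    have h1' : f b u = 1 := huv 1
    have hub : f u (b - a) = 0 := by
      rw [herm_sub_right hf, herm_eq_one_symm hf h1, herm_eq_one_symm hf h1', sub_self]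
    have hr := rootPair_of_mem P hu (A'.sub_mem hb ha) hub
    have hha : (rootR f u (b - a) : Matrix ι ι F) *ᵥ a = b := by
      rw [rootR_mulVec hf hr, h1, one_smul, P.iso' a ha (b - a) (A'.sub_mem hb ha), zero_smul,
        sub_zero, add_sub_cancel]
    have h3 := mul_mem (mul_mem (hM u hu _ (A'.sub_mem hb ha) hub) (hMa (P.iso' a ha a ha)))
      (inv_mem (hM u hu _ (A'.sub_mem hb ha) hub))
    rw [conj_utv hf _ (rootR_isometry hf hr) a _ c₀ (by rw [hha, hbb])] at h3
    simpa only [hha] using h3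
  have all : ∀ θ ∈ A', θ ≠ 0 → ∀ h : f θ θ = 0, utv hf θ h c₀ ∈ M := by
    intro θ hθ hθ0
    obtain ⟨w, hw, -, hwn⟩ := P.exists_dual_avoid (r := ![]) linearIndependent_empty_type
      (fun i => i.elim0) ![] (Submodule.span F {θ₀} ⊔ Submodule.span F {θ}) (by
        have h1 := Submodule.finrank_add_le_finrank_add_finrank (Submodule.span F {θ₀})
          (Submodule.span F {θ})
        rw [finrank_span_singleton hθ₀0, finrank_span_singleton hθ0] at h1
        omega)
    exact step w θ hw hθ (LinearIndependent.pair_symm_iff.1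
        (li_two_of_notMem hθ0 fun h => hwn (Submodule.mem_sup_right h)))
      (step θ₀ w hθ₀ hw (li_two_of_notMem hθ₀0 fun h => hwn (Submodule.mem_sup_left h))
        fun _ => hT)
  intro θ hθ hθθ c hc
  have h00' : f θ θ = 0 := hθθ
  have hfix : σ (c / c₀) = c / c₀ := by
    rw [map_div₀, eq_neg_of_add_eq_zero_right hc, eq_neg_of_add_eq_zero_right hc₀s, neg_div_neg_eq]
  obtain ⟨z, hz⟩ := exists_norm_eq hf.ne_refl hf.involutive hfix
  by_cases hz0 : z • θ = 0
  · have : utv hf θ hθθ c = 1 := by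
      refine Units.ext (ext_mulVec fun x => ?_)
      rw [utv_mulVec, Units.val_one, one_mulVec]
      rcases smul_eq_zero.1 hz0 with h | h
      · rw [h, zero_mul] at hz
        rw [(div_eq_zero_iff.1 hz.symm).resolve_right hc₀]
        simp
      · simp [h]
    rw [this]
    exact one_mem M
  have hzz : f (z • θ) (z • θ) = 0 := P.iso' _ (A'.smul_mem z hθ) _ (A'.smul_mem z hθ)
  have : utv hf θ hθθ c = utv hf (z • θ) hzz c₀ := by
    refine Units.ext (ext_mulVec fun x => ?_)
    rw [utv_mulVec, utv_mulVec, herm_smul_right hf, smul_smul]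
    congr 2
    have h1 : c / c₀ * c₀ = c := div_mul_cancel₀ _ hc₀
    linear_combination -(f x θ) * h1 - (c₀ * f x θ) * hz
  rw [this]
  exact all _ (A'.smul_mem z hθ) hz0 hzz

/-- A mixed product of two transvections gives a centre. -/
lemma hasUCentre_of_mixed (hm : 5 ≤ m) {p q : ι → F} (hp : p ∈ A) (hq : q ∈ A') (hq0 : q ≠ 0)
    (hpq : f p q = 0) (hqq : f q q = 0) (hpqq : f (p + q) (p + q) = 0) {a b : F}
    (ha : a + σ a = 0) (hb : b + σ b = 0) (hab : a + b ≠ 0)
    (hk : utv P.form q hqq a * utv P.form (p + q) hpqq b ∈ M) : HasUCentre P.form A' M := by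
  have hf := P.form
  obtain ⟨ν, hν, hνp, hνq⟩ : ∃ ν ∈ A', f p ν = 0 ∧ ν ∉ Submodule.span F {q} := by
    by_cases hp0 : p = 0
    · obtain ⟨ν, hν, -, hνq⟩ := P.exists_dual_avoid (r := ![]) linearIndependent_empty_type
        (fun i => i.elim0) ![] (Submodule.span F {q}) (by rw [finrank_span_singleton hq0]; omega)
      exact ⟨ν, hν, by rw [hp0, herm_zero_left hf], hνq⟩
    · obtain ⟨ν, hν, hνv, hνq⟩ := P.exists_dual_avoid (li_one hp0)
        (by intro i; fin_cases i; exact hp) ![0] (Submodule.span F {q})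
        (by rw [finrank_span_singleton hq0]; omega)
      exact ⟨ν, hν, hνv 0, hνq⟩
  have hli : LinearIndependent F ![q, ν] := li_two_of_notMem hq0 hνq
  obtain ⟨u, hu, huv⟩ := P.symm.exists_dual hli (by intro i; fin_cases i <;> assumption) ![1, 0]
  have hqu : f q u = 1 := huv 0
  have huν : f u ν = 0 := herm_eq_zero_symm hf (huv 1)
  have hr := rootPair_of_mem P hu hν huν
  have hhp : (rootR f u ν : Matrix ι ι F) *ᵥ p = p := by
    rw [rootR_mulVec hf hr, hνp, P.iso p hp u hu, zero_smul, zero_smul, add_zero, sub_zero]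
  have hhq : (rootR f u ν : Matrix ι ι F) *ᵥ q = q + ν := by
    rw [rootR_mulVec hf hr, hqu, one_smul, P.iso' q hq ν hν, zero_smul, sub_zero]
  have hqν : f (q + ν) (q + ν) = 0 := P.iso' _ (A'.add_mem hq hν) _ (A'.add_mem hq hν)
  have hpqν : f (p + (q + ν)) (p + (q + ν)) = 0 := by
    rw [← hhq]
    conv_lhs => rw [← hhp]
    rw [← mulVec_add, rootR_isometry hf hr, hpqq]
  have hiso := rootR_isometry hf hr
  have hk' := mul_mem (mul_mem (hM u hu ν hν huν) hk) (inv_mem (hM u hu ν hν huν))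
  have hconj : rootR f u ν * (utv hf q hqq a * utv hf (p + q) hpqq b) * (rootR f u ν)⁻¹ =
      utv hf (q + ν) hqν a * utv hf (p + (q + ν)) hpqν b := by
    have e1 := conj_utv hf _ hiso q hqq a (by rw [hiso, hqq])
    have e2 := conj_utv hf _ hiso (p + q) hpqq b (by rw [hiso, hpqq])
    simp only [hhq] at e1
    simp only [mulVec_add, hhp, hhq] at e2
    rw [← e1, ← e2]
    group
  rw [hconj] at hk'
  have hbν : f p (b • ν) = 0 := by rw [herm_smul_right hf, hνp, mul_zero]
  have hrb := rootPair_of_mem P hp (A'.smul_mem b hν) hbν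
  set U := utv hf (q + ν) hqν (a + b) * utv hf q hqq (-(a + b)) with hU
  have hσb : σ b = -b := eq_neg_of_add_eq_zero_right hb
  have hUk : U * (rootR f p (b • ν) * (utv hf q hqq a * utv hf (p + q) hpqq b)) =
      utv hf (q + ν) hqν a * utv hf (p + (q + ν)) hpqν b := by
    refine Units.ext (ext_mulVec fun x => ?_)
    simp only [hU, Units.val_mul, ← mulVec_mulVec, rootR_mulVec hf hrb, utv_mulVec,
      herm_sub_left hf, hf.add_left, hf.smul_left, herm_add_right hf, herm_smul_right hf, hσb,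
      hpq, herm_eq_zero_symm hf hpq, hνp, herm_eq_zero_symm hf hνp, P.iso p hp p hp,
      P.iso' q hq q hq, P.iso' q hq ν hν, P.iso' ν hν q hq, P.iso' ν hν ν hν, mul_zero, add_zero,
      sub_zero]
    module
  have hUM : U ∈ M := by
    have := mul_mem hk' (inv_mem (mul_mem (hM p hp _ (A'.smul_mem b hν) hbν) hk))
    rwa [← hUk, mul_inv_cancel_right] at this
  have hUx : ∀ x, (U : Matrix ι ι F) *ᵥ x =
      x + ((a + b) * f x (q + ν)) • (q + ν) - ((a + b) * f x q) • q := by
    intro x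
    simp only [hU, Units.val_mul, ← mulVec_mulVec, utv_mulVec, hf.add_left, hf.smul_left,
      herm_add_right hf, hqq, P.iso' q hq ν hν, mul_zero, add_zero]
    module
  refine hasUCentre_of_uElt P hM (by omega) (k := U) (fun x y => ?_) (fun y hy => ?_) (fun x => ?_)
    ?_ hUM
  · have hab' : (a + b) + σ (a + b) = 0 := by rw [map_add]; linear_combination ha + hb
    have hn : -(a + b) + σ (-(a + b)) = 0 := by rw [map_neg]; linear_combination -hab'
    rw [hU, Units.val_mul, ← mulVec_mulVec, ← mulVec_mulVec, utv_isometry hf _ hqν hab',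
      utv_isometry hf _ hqq hn]
  · rw [hUx, P.iso' y hy q hq, P.iso' y hy _ (A'.add_mem hq hν)]
    simp
  · rw [hUx, add_sub_assoc, add_sub_cancel_left]
    exact A'.sub_mem (A'.smul_mem _ (A'.add_mem hq hν)) (A'.smul_mem _ hq)
  · intro h1
    obtain ⟨x, -, hxv⟩ := P.symm.exists_dual hli (by intro i; fin_cases i <;> assumption) ![1, -1]
    have hxq : f x q = 1 := herm_eq_one_symm hf (hxv 0)
    have hxν : f x ν = -1 := by rw [hf.herm, show f ν x = -1 from hxv 1, map_neg, map_one]
    have h3 := hUx x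
    rw [h1, Units.val_one, one_mulVec, herm_add_right hf, hxq, hxν, add_neg_cancel, mul_zero,
      zero_smul, add_zero, mul_one] at h3
    exact hq0 ((smul_eq_zero.1 (sub_eq_self.1 h3.symm)).resolve_left hab)

/-- A root element on a singular point `c = p + q` with `d ∈ k c + A'`. -/
lemma hasUCentre_of_half (hm : 5 ≤ m) {p q β : ι → F} (hp : p ∈ A)
    (hq : q ∈ A') (hp0 : p ≠ 0) (hq0 : q ≠ 0) (hpq : f p q = 0) (hβ : β ∈ A') (hpβ : f p β = 0)
    (k : F) (hs : rootR f (p + q) (k • (p + q) + β) ∈ M)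
    (hn : rootR f (p + q) (k • (p + q) + β) ∉ UPres A A') :
    HasUCentre P.form A' M ∨ HasUCentre P.form A M := by
  have hf := P.form
  have hqp : f q p = 0 := herm_eq_zero_symm hf hpq
  have hqq : f q q = 0 := P.iso' q hq q hq
  have hpp : f p p = 0 := P.iso p hp p hp
  have hcc : f (p + q) (p + q) = 0 := by
    rw [hf.add_left, herm_add_right hf, herm_add_right hf, hpp, hqq, hpq, hqp]; ring
  have hcβ : f (p + q) β = 0 := by rw [hf.add_left, hpβ, P.iso' q hq β hβ, add_zero]
  have hrc : RootPair f (p + q) β := ⟨hcc, P.iso' β hβ β hβ, hcβ⟩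
  by_cases hl : ∃ l : F, l • q = β
  · obtain ⟨l, rfl⟩ := hl
    have hrp := rootPair_of_mem P hp (A'.smul_mem l hq) hpβ
    have hrq : RootPair f q (l • q) := ⟨hqq, P.iso' _ hβ _ hβ, P.iso' q hq _ hβ⟩
    have hq2 : rootR f q (l • q) = utv hf q hqq (l - σ l) := by
      have := rootR_shift hf (c := q) (d := 0)
        ⟨hqq, herm_zero_left hf 0, herm_zero_right hf q⟩ l
      rwa [zero_add, rootR_zero hf hqq, mul_one] at this
    have hb : (k - σ k) + σ (k - σ k) = 0 := by rw [map_sub, hf.involutive]; ring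
    have hl' : (l - σ l) + σ (l - σ l) = 0 := by rw [map_sub, hf.involutive]; ring
    rw [add_comm (k • (p + q)), rootR_shift hf hrc, rootR_add_left hf hrp hrq hpq, hq2] at hs hn
    by_cases hkl : (l - σ l) + (k - σ k) = 0
    · have hr2 : f p ((k - σ k + l) • q) = 0 := by rw [herm_smul_right hf, hpq, mul_zero]
      have hrp2 := rootPair_of_mem P hp (A'.smul_mem (k - σ k + l) hq) hr2
      have hid : utv hf (p + q) hrc.left (k - σ k) * (rootR f p (l • q) * utv hf q hqq (l - σ l)) =
          utv hf p hpp (k - σ k) * rootR f p ((k - σ k + l) • q) := by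
        refine Units.ext (ext_mulVec fun x => ?_)
        simp only [Units.val_mul, ← mulVec_mulVec, rootR_mulVec hf hrp, rootR_mulVec hf hrp2,
          utv_mulVec, herm_sub_left hf, hf.add_left, hf.smul_left, herm_add_right hf,
          herm_smul_right hf, map_add, map_sub, hf.involutive, hpp, hqq, hpq, hqp, mul_zero,
          add_zero, sub_zero]
        match_scalars
        all_goals first
          | ring1
          | linear_combination (f x q) * hkl
          | linear_combination -(f x q) * hkl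
      rw [hid] at hs hn
      have hR : rootR f p ((k - σ k + l) • q) ∈ M := hM p hp _ (A'.smul_mem _ hq) hr2
      right
      refine ⟨p, hp, hp0, hpp, k - σ k, fun h0 => hn ?_, hb, (M.mul_mem_cancel_right hR).1 hs⟩
      have : utv hf p hpp (k - σ k) = 1 := by
        refine Units.ext (ext_mulVec fun x => ?_)
        rw [utv_mulVec, h0, zero_mul, zero_smul, add_zero, Units.val_one, one_mulVec]
      rw [this, one_mul]
      exact rootR_mem_upres P hp (A'.smul_mem _ hq) hr2
    · left
      refine hasUCentre_of_mixed P hM hm hp hq hq0 hpq hqq hrc.left hl' hb hkl ?_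
      have h3 : utv hf q hqq (l - σ l) * utv hf (p + q) hrc.left (k - σ k) =
          (rootR f p (l • q))⁻¹ *
            (utv hf (p + q) hrc.left (k - σ k) * (rootR f p (l • q) * utv hf q hqq (l - σ l))) := by
        rw [eq_inv_mul_iff_mul_eq]
        refine Units.ext (ext_mulVec fun x => ?_)
        simp only [Units.val_mul, ← mulVec_mulVec, rootR_mulVec hf hrp, utv_mulVec,
          herm_sub_left hf, hf.add_left, hf.smul_left, herm_add_right hf, herm_smul_right hf, hpp,
          hqq, hpq, hqp, mul_zero, add_zero, sub_zero]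
        module
      rw [h3]
      exact mul_mem (inv_mem (hM p hp _ (A'.smul_mem l hq) hpβ)) hs
  left
  push Not at hl
  obtain ⟨u, hu, huv⟩ := P.symm.exists_dual ((LinearIndependent.pair_iff' hq0).2 hl)
    (by intro i; fin_cases i <;> assumption) ![0, -1]
  have hqu : f q u = 0 := huv 0
  have hβu : f β u = -1 := huv 1
  obtain ⟨θ, hθ, hpθ, huθ, hθq⟩ : ∃ θ ∈ A', f p θ = 0 ∧ f u θ = 0 ∧ θ ∉ Submodule.span F {q} := by
    by_cases hpu : ∃ t : F, t • p = u
    · obtain ⟨t, rfl⟩ := hpu
      obtain ⟨θ, hθ, hθv, hθq⟩ := P.exists_dual_avoid (li_one hp0)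
        (by intro i; fin_cases i; exact hp) ![0] (Submodule.span F {q})
        (by rw [finrank_span_singleton hq0]; omega)
      exact ⟨θ, hθ, hθv 0, by rw [hf.smul_left, show f p θ = 0 from hθv 0, mul_zero], hθq⟩
    · push Not at hpu
      obtain ⟨θ, hθ, hθv, hθq⟩ := P.exists_dual_avoid ((LinearIndependent.pair_iff' hp0).2 hpu)
        (by intro i; fin_cases i <;> assumption) ![0, 0] (Submodule.span F {q})
        (by rw [finrank_span_singleton hq0]; omega)
      exact ⟨θ, hθ, hθv 0, hθv 1, hθq⟩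
  have hru := rootPair_of_mem P hu hθ huθ
  have hcθ : f (p + q) θ = 0 := by rw [hf.add_left, hpθ, P.iso' q hq θ hθ, add_zero]
  set c := p + q with hc
  set d := k • c + β with hd
  have hcd : RootPair f c d := ⟨hcc, by
    simp only [hd, hf.add_left, hf.smul_left, herm_add_right hf, herm_smul_right hf, hcc,
      P.iso' β hβ β hβ, hcβ, herm_eq_zero_symm hf hcβ]
    ring, by rw [hd, herm_add_right hf, herm_smul_right hf, hcc, hcβ, mul_zero, add_zero]⟩
  have hhc : (rootR f u θ : Matrix ι ι F) *ᵥ c = c := by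
    rw [rootR_mulVec hf hru, hcθ, zero_smul, sub_zero, hc, hf.add_left, P.iso p hp u hu, hqu,
      add_zero, zero_smul, add_zero]
  have hhd : (rootR f u θ : Matrix ι ι F) *ᵥ d = d - θ := by
    rw [hd, mulVec_add, mulVec_smul, hhc, rootR_mulVec hf hru, hβu, P.iso' β hβ θ hθ, zero_smul,
      sub_zero, neg_one_smul]
    abel
  have hh' : rootR f u θ ∈ M := hM u hu θ hθ huθ
  have hs' := mul_mem (mul_mem hh' hs) (inv_mem hh')
  rw [conj_rootR hf hcd _ (rootR_isometry hf hru), hhc, hhd] at hs'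
  have hcθ' : RootPair f c (-θ) :=
    ⟨hcc, P.iso' _ (A'.neg_mem hθ) _ (A'.neg_mem hθ), by rw [herm_neg_right hf, hcθ, neg_zero]⟩
  have hdd' : RootPair f c (d - θ) := by
    have := hcd.map hf (rootR_isometry hf hru)
    rwa [hhc, hhd] at this
  have hdn : RootPair f c (-d) := ⟨hcc, by rw [herm_neg_left hf, herm_neg_right hf, hcd.right]; simp,
    by rw [herm_neg_right hf, hcd.orth, neg_zero]⟩
  have hθd : f θ d = 0 := by
    rw [hd, herm_add_right hf, herm_smul_right hf, herm_eq_zero_symm hf hcθ, P.iso' θ hθ β hβ,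
      mul_zero, add_zero]
  have hθc : rootR f c (-θ) ∈ M := by
    have h1 := mul_mem hs' (inv_mem hs)
    rwa [rootR_inv hf hcd, rootR_add hf hdd' hdn (by
      rw [herm_neg_right hf, herm_sub_left hf, hcd.right, hθd, sub_zero, neg_zero]),
      show d - θ + -d = -θ by abel] at h1
  have hrp := rootPair_of_mem P hp (A'.neg_mem hθ) (by rw [herm_neg_right hf, hpθ, neg_zero])
  have hrq : RootPair f q (-θ) := ⟨hqq, hcθ'.right, P.iso' q hq _ (A'.neg_mem hθ)⟩
  rw [hc, rootR_add_left hf hrp hrq hpq] at hθc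
  have hU : rootR f q (-θ) ∈ M :=
    (M.mul_mem_cancel_left (hM p hp _ (A'.neg_mem hθ) hrp.orth)).1 hθc
  refine hasUCentre_of_uElt P hM (by omega) (rootR_isometry hf hrq) (fun y hy => ?_) (fun x => ?_)
    ?_ hU
  · rw [rootR_mulVec hf hrq, P.iso' y hy q hq, P.iso' y hy _ (A'.neg_mem hθ)]
    simp
  · rw [rootR_mulVec hf hrq, add_sub_assoc, add_sub_cancel_left]
    exact A'.sub_mem (A'.smul_mem _ (A'.neg_mem hθ)) (A'.smul_mem _ hq)
  · intro h1
    obtain ⟨x, -, hxv⟩ := P.symm.exists_dual (li_two_of_notMem hq0 hθq)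
      (by intro i; fin_cases i <;> assumption) ![1, 0]
    have hxq : f x q = 1 := herm_eq_one_symm hf (hxv 0)
    have hxθ : f x θ = 0 := herm_eq_zero_symm hf (hxv 1)
    have h3 := rootR_mulVec hf hrq x
    rw [h1, Units.val_one, one_mulVec, hxq, herm_neg_right hf, hxθ, neg_zero, zero_smul, sub_zero,
      one_smul, left_eq_add, neg_eq_zero] at h3
    exact hθq (h3 ▸ Submodule.zero_mem _)

/-- A root element `rootR c d` in `M` outside `UPres` with `c` singular gives a centre. -/
lemma hasUCentre_of_root (hm : 7 ≤ m) {c d : ι → F} (hcd : RootPair f c d) {p q : ι → F}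
    (hp : p ∈ A) (hq : q ∈ A') (hpq : f p q = 0) (hc : p + q = c) (hc0 : c ≠ 0)
    (hs : rootR f c d ∈ M) (hn : rootR f c d ∉ UPres A A') :
    HasUCentre P.form A' M ∨ HasUCentre P.form A M := by
  have hf := P.form
  obtain ⟨α, hα, β, hβ, hab⟩ := P.decomp d
  have hpβ : f p β + f q α = 0 := by
    have h := hcd.orth
    rw [← hc, ← hab, hf.add_left, herm_add_right hf, herm_add_right hf, P.iso p hp α hα,
      P.iso' q hq β hβ] at h
    linear_combination h
  have comm : ∀ e, RootPair f c e → rootR f c e ∈ M → f d e - f e d ≠ 0 →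
      ∃ (hcc : f c c = 0) (κ : F), κ ≠ 0 ∧ κ + σ κ = 0 ∧ utv hf c hcc κ ∈ M := by
    intro e he heM hne
    have h1 := mul_mem (mul_mem hs heM) (inv_mem (mul_mem heM hs))
    rw [rootR_comm_rel hf hcd he (skew_herm_diff hf d e), mul_inv_cancel_right] at h1
    exact ⟨hcd.left, _, hne, skew_herm_diff hf d e, h1⟩
  have shiftTriv : ∀ (t : F) (v : ι → F) (hv : f v v = 0), t - σ t = 0 → utv hf v hv (t - σ t) = 1 :=
    fun t v hv h0 => Units.ext (ext_mulVec fun x => by
      rw [utv_mulVec, h0, zero_mul, zero_smul, add_zero, Units.val_one, one_mulVec])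
  obtain ⟨z, hz⟩ : ∃ z : F, z - σ z ≠ 0 := by
    by_contra! h
    exact hf.ne_refl (RingEquiv.ext fun x => (sub_eq_zero.1 (h x)).symm)
  by_cases hq0 : q = 0
  · subst hq0
    rw [add_zero] at hc
    subst hc
    rw [herm_zero_left hf, add_zero] at hpβ
    by_cases hαp : ∃ k : F, k • p = α
    · obtain ⟨k, rfl⟩ := hαp
      have hr := rootPair_of_mem P hp hβ hpβ
      rw [← hab, add_comm, rootR_shift hf hr] at hs hn
      by_cases hk : k - σ k = 0
      · rw [shiftTriv k p _ hk, one_mul] at hn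
        exact absurd (rootR_mem_upres P hp hβ hpβ) hn
      · exact Or.inr ⟨p, hp, hc0, hr.left, k - σ k, hk,
          by rw [map_sub, hf.involutive]; ring,
          (M.mul_mem_cancel_right (hM p hp β hβ hpβ)).1 hs⟩
    push Not at hαp
    obtain ⟨e, he, hev⟩ := P.exists_dual ((LinearIndependent.pair_iff' hc0).2 hαp)
      (by intro i; fin_cases i <;> assumption) ![0, z]
    have hde : f d e = z := by
      rw [← hab, hf.add_left, show f α e = z from hev 1, P.iso' β hβ e he, add_zero]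
    obtain ⟨hcc, κ, hκ, hκs, hT⟩ := comm e (rootPair_of_mem P hp he (hev 0))
      (hM p hp e he (hev 0)) (by rw [hde, hf.herm e d, hde]; exact hz)
    exact Or.inr ⟨p, hp, hc0, hcc, κ, hκ, hκs, hT⟩
  by_cases hp0 : p = 0
  · subst hp0
    rw [zero_add] at hc
    subst hc
    rw [herm_zero_left hf, zero_add] at hpβ
    by_cases hβq : ∃ k : F, k • q = β
    · obtain ⟨k, rfl⟩ := hβq
      have hr := rootPair_of_mem P.symm hq hα hpβ
      have hR : rootR f q α ∈ M := hM_swap P hM q hq α hα hpβ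
      rw [← hab, rootR_shift hf hr] at hs hn
      by_cases hk : k - σ k = 0
      · rw [shiftTriv k q _ hk, one_mul] at hn
        have h1 := rootR_mem_upres P.symm hq hα hpβ
        exact absurd ⟨h1.2, h1.1⟩ hn
      · exact Or.inl ⟨q, hq, hc0, hr.left, k - σ k, hk,
          by rw [map_sub, hf.involutive]; ring, (M.mul_mem_cancel_right hR).1 hs⟩
    push Not at hβq
    obtain ⟨e, he, hev⟩ := P.symm.exists_dual ((LinearIndependent.pair_iff' hc0).2 hβq)
      (by intro i; fin_cases i <;> assumption) ![0, z]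
    have hde : f d e = z := by
      rw [← hab, hf.add_left, show f β e = z from hev 1, P.iso α hα e he, zero_add]
    obtain ⟨hcc, κ, hκ, hκs, hT⟩ := comm e (rootPair_of_mem P.symm hq he (hev 0))
      (hM_swap P hM q hq e he (hev 0)) (by rw [hde, hf.herm e d, hde]; exact hz)
    exact Or.inl ⟨q, hq, hc0, hcc, κ, hκ, hκs, hT⟩
  have hqp : f q p = 0 := herm_eq_zero_symm hf hpq
  by_cases hαp : ∃ k : F, k • p = α
  · obtain ⟨k, rfl⟩ := hαp
    have hpβ0 : f p β = 0 := by rwa [herm_smul_right hf, hqp, mul_zero, add_zero] at hpβ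
    have hd : d = k • (p + q) + (β - k • q) := by rw [← hab]; module
    rw [hd, ← hc] at hs hn
    exact hasUCentre_of_half P hM (by omega) hp hq hp0 hq0 hpq
      (A'.sub_mem hβ (A'.smul_mem k hq))
      (by rw [herm_sub_right hf, herm_smul_right hf, hpq, hpβ0, mul_zero, sub_zero]) k hs hn
  by_cases hβq : ∃ k : F, k • q = β
  · obtain ⟨k, rfl⟩ := hβq
    have hqα : f q α = 0 := by rwa [herm_smul_right hf, hpq, mul_zero, zero_add] at hpβ
    have hd : d = k • (q + p) + (α - k • p) := by rw [← hab]; module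
    rw [hd, ← hc, add_comm p q] at hs hn
    exact (hasUCentre_of_half P.symm (hM_swap P hM) (by omega) hq hp hq0 hp0 hqp
      (A.sub_mem hα (A.smul_mem k hp))
      (by rw [herm_sub_right hf, herm_smul_right hf, hqp, hqα, mul_zero, sub_zero]) k hs
      fun h => hn ⟨h.2, h.1⟩).symm
  push Not at hαp hβq
  left
  have hS2 : ∀ x y : ι → F, finrank F ↥(Submodule.span F {x} ⊔ Submodule.span F {y}) ≤ 2 := by
    intro x y
    have h1 := Submodule.finrank_add_le_finrank_add_finrank (Submodule.span F {x}) (Submodule.span F {y})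
    have h3 := finrank_span_le_card (R := F) ({x} : Set (ι → F))
    have h4 := finrank_span_le_card (R := F) ({y} : Set (ι → F))
    simp at h3 h4
    omega
  have hliA : LinearIndependent F ![p, α] := (LinearIndependent.pair_iff' hp0).2 hαp
  have hliA' : LinearIndependent F ![q, β] := (LinearIndependent.pair_iff' hq0).2 hβq
  obtain ⟨θ₁, hθ₁, hθ₁v, hθ₁n⟩ := P.exists_dual_avoid hliA
    (by intro i; fin_cases i <;> assumption) ![0, 1] (Submodule.span F {q} ⊔ Submodule.span F {β})
    (by have := hS2 q β; omega)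
  have hpθ₁ : f p θ₁ = 0 := hθ₁v 0
  have hαθ₁ : f α θ₁ = 1 := hθ₁v 1
  have hli3 := li_three hliA' hθ₁n
  obtain ⟨u₂, hu₂, hu₂v, hu₂n⟩ := P.symm.exists_dual_avoid hli3
    (by intro i; fin_cases i <;> assumption) ![0, 1, 0]
    (Submodule.span F {p} ⊔ Submodule.span F {α}) (by have := hS2 p α; omega)
  have hliU := li_three hliA hu₂n
  obtain ⟨u₁, hu₁, hu₁v, hu₁n⟩ := P.symm.exists_dual_avoid hli3
    (by intro i; fin_cases i <;> assumption) ![0, 0, 0]
    (Submodule.span F {p} ⊔ Submodule.span F {α} ⊔ Submodule.span F {u₂}) (by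
      have h1 := hS2 p α
      have h3 := Submodule.finrank_add_le_finrank_add_finrank
        (Submodule.span F {p} ⊔ Submodule.span F {α}) (Submodule.span F {u₂})
      have h4 := finrank_span_le_card (R := F) ({u₂} : Set (ι → F))
      simp at h4
      omega)
  have hli4 : LinearIndependent F (Fin.snoc ![p, α, u₂] u₁ : Fin 4 → ι → F) := by
    refine linearIndependent_finSnoc.2 ⟨hliU, fun h => hu₁n ?_⟩
    refine (Submodule.span_le.2 ?_) h
    rintro _ ⟨i, rfl⟩
    fin_cases i
    · exact Submodule.mem_sup_left (Submodule.mem_sup_left (Submodule.mem_span_singleton_self p))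
    · exact Submodule.mem_sup_left (Submodule.mem_sup_right (Submodule.mem_span_singleton_self α))
    · exact Submodule.mem_sup_right (Submodule.mem_span_singleton_self u₂)
  obtain ⟨θ₂, hθ₂, hθ₂v⟩ := P.exists_dual hli4
    (by intro i; fin_cases i <;> assumption) ![0, 0, 0, σ z]
  have hpθ₂ : f p θ₂ = 0 := hθ₂v 0
  have hαθ₂ : f α θ₂ = 0 := hθ₂v 1
  have hu₂θ₂ : f u₂ θ₂ = 0 := hθ₂v 2
  have hθ₂u₁ : f θ₂ u₁ = z := by
    rw [hf.herm, show f u₁ θ₂ = σ z from hθ₂v 3, hf.involutive]
  have hqu₁ : f q u₁ = 0 := hu₁v 0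
  have hβu₁ : f β u₁ = 0 := hu₁v 1
  have hu₁θ₁ : f u₁ θ₁ = 0 := herm_eq_zero_symm hf (hu₁v 2)
  have hqu₂ : f q u₂ = 0 := hu₂v 0
  have hβu₂ : f β u₂ = 1 := hu₂v 1
  have hr₁ := rootPair_of_mem P hu₁ hθ₁ hu₁θ₁
  have hr₂ := rootPair_of_mem P hu₂ hθ₂ hu₂θ₂
  have h1d : (rootR f u₂ θ₂ : Matrix ι ι F) *ᵥ d = d + θ₂ := by
    rw [← hab, rootR_mulVec hf hr₂, hf.add_left, hf.add_left, P.iso α hα u₂ hu₂, hβu₂, hαθ₂,
      P.iso' β hβ θ₂ hθ₂]
    module
  have h2d : (rootR f u₁ θ₁ : Matrix ι ι F) *ᵥ (d + θ₂) = d + θ₂ + (z • θ₁ - u₁) := by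
    rw [← hab, rootR_mulVec hf hr₁, hf.add_left, hf.add_left, hf.add_left, hf.add_left,
      P.iso α hα u₁ hu₁, hβu₁, hθ₂u₁, hαθ₁, P.iso' β hβ θ₁ hθ₁, P.iso' θ₂ hθ₂ θ₁ hθ₁]
    module
  have hhc : ∀ u θ, u ∈ A → θ ∈ A' → f q u = 0 → f p θ = 0 → RootPair f u θ →
      (rootR f u θ : Matrix ι ι F) *ᵥ c = c := fun u θ hu hθ h1 h2 hr => by
    rw [← hc, rootR_mulVec hf hr, hf.add_left, hf.add_left, P.iso p hp u hu, h1, h2,
      P.iso' q hq θ hθ]
    module
  have c1 := hhc u₁ θ₁ hu₁ hθ₁ hqu₁ hpθ₁ hr₁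
  have c2 := hhc u₂ θ₂ hu₂ hθ₂ hqu₂ hpθ₂ hr₂
  set e := d + θ₂ + (z • θ₁ - u₁) with he
  have hcd₁ : RootPair f c (d + θ₂) := by
    have h := hcd.map hf (rootR_isometry hf hr₂)
    rwa [c2, h1d] at h
  have hce : RootPair f c e := by
    have h := hcd₁.map hf (rootR_isometry hf hr₁)
    rwa [c1, h2d] at h
  have hh₁ : rootR f u₁ θ₁ ∈ M := hM u₁ hu₁ θ₁ hθ₁ hu₁θ₁
  have hh₂ : rootR f u₂ θ₂ ∈ M := hM u₂ hu₂ θ₂ hθ₂ hu₂θ₂
  have hs₂ := mul_mem (mul_mem hh₂ hs) (inv_mem hh₂)
  rw [conj_rootR hf hcd _ (rootR_isometry hf hr₂), c2, h1d] at hs₂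
  have hse := mul_mem (mul_mem hh₁ hs₂) (inv_mem hh₁)
  rw [conj_rootR hf hcd₁ _ (rootR_isometry hf hr₁), c1, h2d] at hse
  have hval : f d e = σ z := by
    rw [he, herm_add_right hf, herm_add_right hf, herm_sub_right hf, herm_smul_right hf,
      hcd.right, ← hab, hf.add_left, hf.add_left, hf.add_left, hαθ₂, hαθ₁, P.iso α hα u₁ hu₁,
      hβu₁, P.iso' β hβ θ₁ hθ₁, P.iso' β hβ θ₂ hθ₂]
    ring
  obtain ⟨hcc, κ, hκ, hκs, hT⟩ := comm e hce hse (by
    rw [hval, hf.herm e d, hval, hf.involutive]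
    exact fun h => hz (by linear_combination -h))
  have hqq : f q q = 0 := P.iso' q hq q hq
  have h0 : utv hf q hqq 0 = 1 := Units.ext (ext_mulVec fun x => by
    rw [utv_mulVec, zero_mul, zero_smul, add_zero, Units.val_one, one_mulVec])
  subst hc
  exact hasUCentre_of_mixed P hM (by omega) hp hq hq0 hpq hqq hcc (a := 0)
    (by rw [map_zero, add_zero]) hκs (by rwa [zero_add]) (by rw [h0, one_mul]; exact hT)

end Cfsg.Lib.Classical
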