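import Mathlib
import Cfsg.Agent.Lib.Classical.SympRational
import Cfsg.Agent.Lib.Classical.UnitarySpace
import Cfsg.Agent.Lib.Classical.UnitaryPairMax
import Cfsg.Agent.Lib.Classical.UnitaryGen

/-!
The rational vectors of a hermitian space whose form is rational over a `σ`-stable subfield.
-/

set_option autoImplicit false

namespace Cfsg.Lib.Classical

open Matrix Module
open scoped MatrixGroups

variable {ι : Type} [Fintype ι] [DecidableEq ι]

section generic

variable {K : Type*} [Field K] [Finite K] {σ : K ≃+* K} {f : (ι → K) → (ι → K) → K}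
  (hf : Cfsg.Geo.IsUnitaryForm σ f)

include hf

/-- Isotropic vectors orthogonal to a small family avoiding a small subspace. -/
lemma exists_iso_orth_avoid {k : ℕ} (r : Fin k → ι → K) (S : Submodule K (ι → K))
    (h1 : finrank K S + k < Fintype.card ι) (h2 : 2 * (k + 1) < Fintype.card ι) :
    ∃ z, f z z = 0 ∧ (∀ i, f z (r i) = 0) ∧ z ∉ S := by
  obtain ⟨y, hyR, hyS⟩ := SetLike.not_le_iff_exists.1 (show ¬ upFam hf r ≤ S from fun h => by
    have h3 := Submodule.finrank_mono h
    have h4 := card_le_finrank_upFam hf r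
    omega)
  rw [mem_upFam] at hyR
  by_cases hy : f y y = 0
  · exact ⟨y, hy, hyR, hyS⟩
  have hdim := card_le_finrank_upFam hf (Fin.snoc r y : Fin (k + 1) → ι → K)
  obtain ⟨s, hs, hss⟩ := exists_aniso hf (R := upFam hf (Fin.snoc r y : Fin (k + 1) → ι → K))
    (by omega)
  rw [mem_upFam] at hs
  have hsy : f s y = 0 := by simpa using hs (Fin.last k)
  have hsr : ∀ i, f s (r i) = 0 := fun i => by simpa using hs i.castSucc
  obtain ⟨c, hc⟩ := exists_norm_eq hf.ne_refl hf.involutive (a := -f y y / f s s)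
    (by rw [map_div₀, map_neg, herm_self_fixed hf, herm_self_fixed hf])
  obtain ⟨m, hm0, hm⟩ := exists_nonfixed hf
  have hiso : ∀ c' : K, c' * σ c' = c * σ c →
      f (y + c' • s) (y + c' • s) = 0 ∧ ∀ i, f (y + c' • s) (r i) = 0 := by
    intro c' hc'
    refine ⟨?_, fun i => by rw [hf.add_left, hf.smul_left, hyR, hsr, mul_zero, add_zero]⟩
    simp only [hf.add_left, hf.smul_left, herm_add_right hf, herm_smul_right hf, hsy,
      herm_eq_zero_symm hf hsy, mul_zero, zero_add, add_zero]
    rw [← mul_assoc, hc', hc, div_mul_cancel₀ _ hss, add_neg_cancel]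
  by_cases h3 : y + c • s ∈ S
  swap
  · exact ⟨_, (hiso c rfl).1, (hiso c rfl).2, h3⟩
  have hσm : σ m ≠ 0 := (map_ne_zero σ).2 hm0
  have hη : c * (σ m / m) * σ (c * (σ m / m)) = c * σ c := by
    rw [map_mul, map_div₀, hf.involutive]
    field_simp
  refine ⟨_, (hiso _ hη).1, (hiso _ hη).2, fun h4 => hyS ?_⟩
  have hc0 : c ≠ 0 := fun e => hy (by
    rw [e, zero_mul, eq_comm, div_eq_zero_iff] at hc
    simpa [hss] using hc)
  have h5 : s ∈ S := by
    have := S.sub_mem h3 h4
    rw [add_sub_add_left_eq_sub, ← sub_smul] at this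
    exact (Submodule.smul_mem_iff _ (sub_ne_zero.2 fun e => hm
      ((div_eq_one_iff_eq hm0).1 (mul_left_cancel₀ hc0 (e.symm.trans (mul_one c).symm))))).1 this
  exact (Submodule.add_mem_iff_left _ (S.smul_mem c h5)).1 h3

/-- A plane contains an isotropic vector. -/
lemma exists_iso_of_two_le {W : Submodule K (ι → K)} (hW : 2 ≤ finrank K W) :
    ∃ w ∈ W, w ≠ 0 ∧ f w w = 0 := by
  obtain ⟨x, hx, hx0⟩ := Submodule.exists_mem_ne_zero_of_ne_bot
    (p := W) (fun e => by rw [e, finrank_bot] at hW; omega)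
  by_cases hxx : f x x = 0
  · exact ⟨x, hx, hx0, hxx⟩
  obtain ⟨z, hz, hzx⟩ := SetLike.not_le_iff_exists.1 (show ¬ W ≤ Submodule.span K {x} from fun h => by
    have := Submodule.finrank_mono h
    rw [finrank_span_singleton hx0] at this
    omega)
  set y := z - (f z x / f x x) • x with hy
  have hyW : y ∈ W := W.sub_mem hz (W.smul_mem _ hx)
  have hy0 : y ≠ 0 := fun e => hzx (Submodule.mem_span_singleton.2 ⟨_, (sub_eq_zero.1 e).symm⟩)
  have hyx : f y x = 0 := by
    rw [hy, herm_sub_left hf, hf.smul_left, div_mul_cancel₀ _ hxx, sub_self]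
  by_cases hyy : f y y = 0
  · exact ⟨y, hyW, hy0, hyy⟩
  obtain ⟨c, hc⟩ := exists_norm_eq hf.ne_refl hf.involutive (a := -f x x / f y y)
    (by rw [map_div₀, map_neg, herm_self_fixed hf, herm_self_fixed hf])
  refine ⟨x + c • y, W.add_mem hx (W.smul_mem _ hyW), fun e => hxx ?_, ?_⟩
  · have := congrArg (fun v => f v x) e
    simpa [hf.add_left, hf.smul_left, hyx, herm_zero_left hf] using this
  · simp only [hf.add_left, hf.smul_left, herm_add_right hf, herm_smul_right hf, hyx,
      herm_eq_zero_symm hf hyx, mul_zero, zero_add, add_zero]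
    rw [← mul_assoc, hc, div_mul_cancel₀ _ hyy, add_neg_cancel]

/-- The vectors orthogonal to `e` are combinations of isotropic ones. -/
lemma exists_iso_decomp (hn : 7 ≤ Fintype.card ι) {e y : ι → K} (he : e ≠ 0) (hee : f e e = 0)
    (hye : f y e = 0) :
    ∃ a b : ι → K, ∃ t : K, f a a = 0 ∧ f a e = 0 ∧ f b b = 0 ∧ f b e = 0 ∧ y = a + t • b := by
  by_cases hys : y ∈ Submodule.span K {e}
  · obtain ⟨s, rfl⟩ := Submodule.mem_span_singleton.1 hys
    refine ⟨s • e, e, 0, ?_, hye, hee, hee, by simp⟩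
    rw [hf.smul_left, herm_smul_right hf, hee, mul_zero, mul_zero]
  obtain ⟨b, hbb, hb⟩ := exists_iso_values hf (li_two_of_notMem he hys) (by omega) ![0, 1]
  have hbe : f b e = 0 := hb 0
  have hby : f b y = 1 := hb 1
  obtain ⟨s, hs⟩ := exists_trace_eq hf.ne_refl hf.involutive (a := -f y y)
    (by rw [map_neg, herm_self_fixed hf])
  refine ⟨y + s • b, b, -s, ?_, ?_, hbb, hbe, by module⟩
  · simp only [hf.add_left, hf.smul_left, herm_add_right hf, herm_smul_right hf, hbb, hby,
      herm_eq_one_symm hf hby, mul_zero, add_zero]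
    linear_combination hs
  · rw [hf.add_left, hf.smul_left, hye, hbe, mul_zero, add_zero]

end generic

variable {F : Type*} [Field F] [Finite F] {σ : F ≃+* F} {F₀ : Subfield F}
  {h : (ι → F) → (ι → F) → F}

/-- The hypotheses on a hermitian form rational over a stable subfield. -/
structure IsRatHerm (σ : F ≃+* F) (F₀ : Subfield F) (h : (ι → F) → (ι → F) → F) : Prop where
  form : Cfsg.Geo.IsUnitaryForm σ h
  stable : ∀ a ∈ F₀, σ a ∈ F₀
  nonfixed : ∃ a ∈ F₀, σ a ≠ a
  rat : ∀ u v : ι → F₀, h (co u) (co v) ∈ F₀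

namespace IsRatHerm

variable (R : IsRatHerm σ F₀ h)

/-- The restricted automorphism. -/
def aut : F₀ ≃+* F₀ where
  toFun a := ⟨σ a, R.stable _ a.2⟩
  invFun a := ⟨σ a, R.stable _ a.2⟩
  left_inv a := Subtype.ext (R.form.involutive _)
  right_inv a := Subtype.ext (R.form.involutive _)
  map_mul' a b := Subtype.ext (map_mul σ _ _)
  map_add' a b := Subtype.ext (map_add σ _ _)

omit [Fintype ι] [DecidableEq ι] [Finite F] in
@[simp] lemma coe_aut (a : F₀) : (R.aut a : F) = σ a := rfl

/-- The restricted form. -/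
def sub (u v : ι → F₀) : F₀ := ⟨h (co u) (co v), R.rat u v⟩

omit [Fintype ι] [DecidableEq ι] [Finite F] in
@[simp] lemma coe_sub (u v : ι → F₀) : (R.sub u v : F) = h (co u) (co v) := rfl

include R in
omit [Finite F] in
/-- A vector orthogonal to all rational vectors vanishes. -/
lemma eq_zero_of_orth {w : ι → F} (hw : ∀ x : ι → F₀, h (co x) w = 0) : w = 0 := by
  refine hvec_injective R.form (funext fun i => ?_)
  rw [hvec_zero R.form, hvec]
  simpa using hw (Pi.single i 1)

omit [Finite F] in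
lemma sub_form : Cfsg.Geo.IsUnitaryForm R.aut R.sub := by
  refine ⟨fun e => ?_, fun a => Subtype.ext (R.form.involutive _), fun x y v => Subtype.ext ?_,
    fun c x v => Subtype.ext ?_, fun v w => Subtype.ext ?_, fun w hw => ?_⟩
  · obtain ⟨a, ha, ha'⟩ := R.nonfixed
    exact ha' (congrArg Subtype.val (RingEquiv.congr_fun e ⟨a, ha⟩))
  · simp [R.form.add_left]
  · simp [R.form.smul_left]
  · simpa using R.form.herm (co v) (co w)
  · obtain ⟨x, hx⟩ : ∃ x, h (co x) (co w) ≠ 0 := by
      by_contra! hh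
      exact co_ne_zero hw (R.eq_zero_of_orth hh)
    refine ⟨⟨x, fun e => hx (congrArg Subtype.val e)⟩, ⟨x, fun e => hx ?_⟩⟩
    have e' : h (co w) (co x) = 0 := congrArg Subtype.val e
    exact herm_eq_zero_symm R.form e'

include R

/-- Values against an independent family of rational vectors. -/
lemma exists_values {k : ℕ} {r : Fin k → ι → F₀} (hr : LinearIndependent F₀ r) (a : Fin k → F₀) :
    ∃ z : ι → F₀, ∀ i, h (co z) (co (r i)) = a i := by
  obtain ⟨z, hz⟩ := exists_herm_values R.sub_form hr a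
  exact ⟨z, fun i => congrArg Subtype.val (hz i)⟩

lemma exists_iso_values' {k : ℕ} {r : Fin k → ι → F₀} (hr : LinearIndependent F₀ r)
    (hn : 2 * k + 3 ≤ Fintype.card ι) (a : Fin k → F₀) :
    ∃ z : ι → F₀, h (co z) (co z) = 0 ∧ ∀ i, h (co z) (co (r i)) = a i := by
  obtain ⟨z, hz, hzi⟩ := exists_iso_values R.sub_form hr hn a
  exact ⟨z, congrArg Subtype.val hz, fun i => congrArg Subtype.val (hzi i)⟩

lemma exists_iso_avoid {k l : ℕ} (r : Fin k → ι → F₀) (s : Fin l → ι → F₀)
    (h1 : l + k < Fintype.card ι) (h2 : 2 * (k + 1) < Fintype.card ι) :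
    ∃ z : ι → F₀, h (co z) (co z) = 0 ∧ (∀ i, h (co z) (co (r i)) = 0) ∧
      z ∉ Submodule.span F₀ (Set.range s) := by
  have h3 := finrank_range_le_card s (R := F₀)
  rw [Set.finrank, Fintype.card_fin] at h3
  obtain ⟨z, hz, hzr, hzs⟩ := exists_iso_orth_avoid R.sub_form r (Submodule.span F₀ (Set.range s))
    (by omega) h2
  exact ⟨z, congrArg Subtype.val hz, fun i => congrArg Subtype.val (hzr i), hzs⟩

lemma exists_decomp (hn : 7 ≤ Fintype.card ι) {e y : ι → F₀} (he : e ≠ 0)
    (hee : h (co e) (co e) = 0) (hye : h (co y) (co e) = 0) :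
    ∃ a b : ι → F₀, ∃ t : F₀, h (co a) (co a) = 0 ∧ h (co a) (co e) = 0 ∧
      h (co b) (co b) = 0 ∧ h (co b) (co e) = 0 ∧ y = a + t • b := by
  obtain ⟨a, b, t, h1, h2, h3, h4, h5⟩ := exists_iso_decomp R.sub_form hn he
    (Subtype.ext hee : R.sub e e = 0) (Subtype.ext hye : R.sub y e = 0)
  exact ⟨a, b, t, congrArg Subtype.val h1, congrArg Subtype.val h2, congrArg Subtype.val h3,
    congrArg Subtype.val h4, h5⟩

/-- A vector orthogonal to the rational isotropic vectors of `e^⊥` is a multiple of `e`. -/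
lemma eq_smul_of_iso_orth (hn : 7 ≤ Fintype.card ι) {w : ι → F} {e : ι → F₀} (he : e ≠ 0)
    (hee : h (co e) (co e) = 0)
    (hw : ∀ x : ι → F₀, h (co x) (co x) = 0 → h (co x) (co e) = 0 → h (co x) w = 0) :
    ∃ μ : F, w = μ • co e := by
  obtain ⟨y, hy⟩ := R.exists_values (r := ![e]) (LinearIndependent.of_subsingleton (0 : Fin 1) he) ![1]
  have hye : h (co y) (co e) = 1 := hy 0
  refine ⟨σ (h (co y) w), sub_eq_zero.1 (R.eq_zero_of_orth fun x => ?_)⟩
  have h1 : h (co (x - R.sub x e • y)) w = 0 := by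
    obtain ⟨a, b, t, haa, hae, hbb, hbe, hab⟩ :=
      R.exists_decomp hn he hee (y := x - R.sub x e • y)
        (by rw [co_sub, co_smul, herm_sub_left R.form, R.form.smul_left, hye, mul_one, coe_sub, sub_self])
    rw [hab, co_add, co_smul, R.form.add_left, R.form.smul_left, hw a haa hae, hw b hbb hbe,
      mul_zero, add_zero]
  rw [co_sub, co_smul, herm_sub_left R.form, R.form.smul_left, coe_sub] at h1
  rw [herm_sub_right R.form, herm_smul_right R.form, R.form.involutive]
  linear_combination h1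

/-- A vector with rational form values is rational. -/
lemma exists_rat {w : ι → F} (hw : ∀ z : ι → F₀, h (co z) w ∈ F₀) : ∃ r : ι → F₀, co r = w := by
  obtain ⟨r, hr⟩ := exists_hvec R.sub_form fun i => (⟨_, hw (Pi.single i 1)⟩ : F₀)
  refine ⟨r, hvec_injective R.form (funext fun i => ?_)⟩
  have h1 : h (co (Pi.single i (1 : F₀))) (co r) = h (co (Pi.single i (1 : F₀))) w :=
    congrArg Subtype.val (congrFun hr i)
  simpa [hvec] using h1

end IsRatHerm

end Cfsg.Lib.Classical
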