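import Mathlib
import Cfsg.Agent.Lib.Classical.SympSubfieldMax

/-!
Overgroups of the rational symplectic group in a unitary group.

`B` is an alternating form, rational on rational vectors, and the unitary structure is the skew
hermitian form `(x, y) ↦ B x (cj σ y)` for the involution `σ` with fixed field `F₀`.
-/

set_option autoImplicit false

namespace Cfsg.Lib.Classical.SkewSub

open Matrix Module Cfsg.Lib.Classical
open scoped MatrixGroups

variable {ι : Type} [Fintype ι] [DecidableEq ι] {F : Type*} [Field F] {F₀ : Subfield F}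

/-- Apply `σ` to all coordinates. -/
def cj (σ : F ≃+* F) (v : ι → F) : ι → F := fun i => σ (v i)

omit [Fintype ι] [DecidableEq ι] in
@[simp] lemma cj_add (σ : F ≃+* F) (u v : ι → F) : cj σ (u + v) = cj σ u + cj σ v :=
  funext fun _ => map_add σ _ _

omit [Fintype ι] [DecidableEq ι] in
@[simp] lemma cj_smul (σ : F ≃+* F) (a : F) (v : ι → F) : cj σ (a • v) = σ a • cj σ v :=
  funext fun _ => map_mul σ _ _

variable {σ : F ≃+* F} (hinv : ∀ a, σ (σ a) = a) (hfix : ∀ a : F, a ∈ F₀ ↔ σ a = a)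

omit [Fintype ι] [DecidableEq ι] in
include hfix in
lemma cj_co (v : ι → F₀) : cj σ (co v) = co v := funext fun i => (hfix _).1 (v i).2

omit [Fintype ι] [DecidableEq ι] in
include hinv in
lemma cj_cj (v : ι → F) : cj σ (cj σ v) = v := funext fun _ => hinv _

include hinv hfix in
/-- Two elements span the field over the fixed field. -/
lemma exists_coords {j : F} (hj : j ∉ F₀) (d : F) :
    ∃ a ∈ F₀, ∃ b ∈ F₀, d = a + b * j := by
  have hne : j - σ j ≠ 0 := sub_ne_zero.2 fun e => hj ((hfix j).2 e.symm)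
  refine ⟨d - (d - σ d) / (j - σ j) * j, (hfix _).2 ?_, (d - σ d) / (j - σ j), (hfix _).2 ?_,
    by ring⟩
  · have hne' : σ j - j ≠ 0 := by rw [← neg_sub]; exact neg_ne_zero.2 hne
    rw [map_sub, map_mul, map_div₀, map_sub, map_sub, hinv, hinv]
    field_simp
    ring
  · rw [map_div₀, map_sub, map_sub, hinv, hinv, ← neg_sub d, ← neg_sub j, neg_div_neg_eq]

/-- Some element of `M` acts as `φ`. -/
def Acts (M : Subgroup (GL ι F)) (φ : (ι → F) → ι → F) : Prop :=
  ∃ g ∈ M, ∀ p, (g : Matrix ι ι F) *ᵥ p = φ p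

variable {M : Subgroup (GL ι F)}

lemma Acts.comp {φ₁ φ₂ ψ : (ι → F) → ι → F} (h₁ : Acts M φ₁) (h₂ : Acts M φ₂)
    (h : ∀ p, ψ p = φ₁ (φ₂ p)) : Acts M ψ := by
  obtain ⟨g₁, hg₁, e₁⟩ := h₁
  obtain ⟨g₂, hg₂, e₂⟩ := h₂
  exact ⟨g₁ * g₂, mul_mem hg₁ hg₂, fun p => by rw [Units.val_mul, ← mulVec_mulVec, e₁, e₂, h]⟩

lemma Acts.cancel {φ₁ φ₂ ψ : (ι → F) → ι → F} (h₁ : Acts M φ₁) (h₂ : Acts M φ₂)
    (h : ∀ p, φ₁ p = ψ (φ₂ p)) : Acts M ψ := by
  obtain ⟨g₁, hg₁, e₁⟩ := h₁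
  obtain ⟨g₂, hg₂, e₂⟩ := h₂
  refine ⟨g₁ * g₂⁻¹, mul_mem hg₁ (inv_mem hg₂), fun p => ?_⟩
  rw [Units.val_mul, ← mulVec_mulVec, e₁, h, ← e₂, mulVec_inv_mulVec]

lemma Acts.conj {φ ψ : (ι → F) → ι → F} {g : GL ι F} (hg : g ∈ M) (h₁ : Acts M φ)
    (h : ∀ p, (g : Matrix ι ι F) *ᵥ φ p = ψ ((g : Matrix ι ι F) *ᵥ p)) : Acts M ψ := by
  obtain ⟨g₁, hg₁, e₁⟩ := h₁
  refine ⟨g * g₁ * g⁻¹, mul_mem (mul_mem hg hg₁) (inv_mem hg), fun p => ?_⟩
  rw [Units.val_mul, Units.val_mul, ← mulVec_mulVec, ← mulVec_mulVec, e₁, h, mulVec_inv_mulVec]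

variable {B : LinearMap.BilinForm F (ι → F)} (hA : B.IsAlt) (hB : B.Nondegenerate)
  (hBR : ∀ u v : ι → F₀, B (co u) (co v) ∈ F₀)

include hfix hBR in
/-- The form commutes with `σ`. -/
lemma map_form (p q : ι → F) : σ (B p q) = B (cj σ p) (cj σ q) := by
  have hexp : ∀ p q : ι → F, B p q = ∑ a, ∑ b, p a * q b * B (Pi.single a 1) (Pi.single b 1) := by
    intro p q
    nth_rw 1 [pi_eq_sum_univ' p, pi_eq_sum_univ' q]
    simp only [map_sum, map_smul, LinearMap.sum_apply, LinearMap.smul_apply, smul_eq_mul,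
      Finset.mul_sum, mul_assoc]
    exact Finset.sum_comm.trans (Finset.sum_congr rfl fun a _ => Finset.sum_congr rfl fun b _ => by ring)
  have he : ∀ a b : ι, σ (B (Pi.single a 1) (Pi.single b 1)) = B (Pi.single a 1) (Pi.single b 1) := by
    intro a b
    refine (hfix _).1 ?_
    have := hBR (Pi.single a 1) (Pi.single b 1)
    simpa using this
  rw [hexp p q, hexp (cj σ p)]
  simp only [map_sum, map_mul, he, cj]

include hinv hfix hBR hA in
lemma form_skew (p q : ι → F) : B q (cj σ p) = -σ (B p (cj σ q)) := by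
  rw [map_form hfix hBR, cj_cj hinv, alt_swap hA]

/-- The short root map with rational centres. -/
def qh (σ : F ≃+* F) (B : LinearMap.BilinForm F (ι → F)) (u v : ι → F₀) (c : F) (p : ι → F) :
    ι → F := p + (c * B p (co u)) • co v + (σ c * B p (co v)) • co u

/-- All short root maps with parameter `c`. -/
def ShortP (σ : F ≃+* F) (B : LinearMap.BilinForm F (ι → F)) (F₀ : Subfield F)
    (M : Subgroup (GL ι F)) (c : F) : Prop :=
  ∀ u v : ι → F₀, u ≠ 0 → v ∉ Submodule.span F₀ {u} → B (co u) (co v) = 0 →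
    Acts M (qh σ B u v c)

variable (hM : ∀ g : GL ι F, (∀ i j, (g : Matrix ι ι F) i j ∈ F₀) →
    (∀ x y, B ((g : Matrix ι ι F) *ᵥ x) ((g : Matrix ι ι F) *ᵥ y) = B x y) → g ∈ M)
  (hn : 9 ≤ Fintype.card ι)

include hinv in
lemma qh_symm (u v : ι → F₀) (c : F) : qh σ B u v c = qh σ B v u (σ c) := by
  funext p
  rw [qh, qh, hinv]
  abel

include hinv hfix hA hB hBR hM hn

lemma shortP_rat {c : F} (hc : c ∈ F₀) : ShortP σ B F₀ M c := fun u v _ _ huv =>
  ⟨_, ratQ_mem hA hB hBR hM u v hc, fun p => by rw [sQ_mulVec hA huv, qh, (hfix c).1 hc]⟩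

lemma short_step {v z z' : ι → F₀} {c : F} (hv : v ≠ 0) (hz : z ∉ Submodule.span F₀ {v})
    (hz' : z' ∉ Submodule.span F₀ {v}) (hvz : B (co v) (co z) = 0)
    (hvz' : B (co v) (co z') = 0) (h : Acts M (qh σ B v z c)) : Acts M (qh σ B v z' c) := by
  obtain ⟨y, hvy, hzy, hz'y⟩ : ∃ y, B (co v) (co y) = 0 ∧ B (co z) (co y) ≠ 0 ∧
      B (co z') (co y) ≠ 0 := by
    obtain ⟨y₁, h0, h1⟩ := exists_ratDual₂ hA hB hBR hv hz 0 1
    obtain ⟨y₂, h0', h2⟩ := exists_ratDual₂ hA hB hBR hv hz' 0 1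
    rw [ZeroMemClass.coe_zero] at h0 h0'
    by_cases hu1 : B (co z') (co y₁) = 0
    · by_cases hv2 : B (co z) (co y₂) = 0
      · exact ⟨y₁ + y₂, by simp [h0, h0'], by simp [h1, hv2], by simp [h2, hu1]⟩
      · exact ⟨y₂, h0', hv2, by simp [h2]⟩
    · exact ⟨y₁, h0, by simp [h1], hu1⟩
  obtain ⟨g, hg, hgi, hgz, hgv⟩ := exists_ratMove hA hB hBR hM hvz hvz' hvy hzy hz'y
  refine h.conj hg fun p => ?_
  rw [qh, qh, mulVec_add, mulVec_add, mulVec_smul, mulVec_smul, hgz, hgv]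
  nth_rw 1 [← hgi p (co v), ← hgi p (co z), hgv, hgz]

lemma shortP_of_one {v z : ι → F₀} {c : F} (hv : v ≠ 0) (hz : z ∉ Submodule.span F₀ {v})
    (hvz : B (co v) (co z) = 0) (h : Acts M (qh σ B v z c)) : ShortP σ B F₀ M c := by
  intro u w hu hw huw
  obtain ⟨m, hm, hms⟩ := exists_orth_avoid hBR ![v, u] ![v, u] (by omega)
  have hmv : m ∉ Submodule.span F₀ {v} := fun hc => hms (Submodule.span_mono (by simp) hc)
  have hmu : m ∉ Submodule.span F₀ {u} := fun hc => hms (Submodule.span_mono (by simp) hc)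
  obtain ⟨hm0, hvm⟩ := not_mem_span_symm hv hmv
  obtain ⟨-, hum⟩ := not_mem_span_symm hu hmu
  have h1 := short_step hinv hfix hA hB hBR hM hn hv hz hmv hvz (hm 0) h
  have hvm0 : B (co m) (co v) = 0 := by
    rw [alt_swap hA, show B (co v) (co m) = 0 from hm 0, neg_zero]
  have hum0 : B (co m) (co u) = 0 := by
    rw [alt_swap hA, show B (co u) (co m) = 0 from hm 1, neg_zero]
  rw [qh_symm hinv v m] at h1
  have h2 := short_step hinv hfix hA hB hBR hM hn hm0 hvm hum hvm0 hum0 h1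
  rw [qh_symm hinv m u, hinv] at h2
  exact short_step hinv hfix hA hB hBR hM hn hu hmu hw (hm 1) huw h2

/-- One irrational short parameter gives all parameters. -/
lemma shortP_all {c : F} (hc : c ∉ F₀) (h : ShortP σ B F₀ M c) (d : F) : ShortP σ B F₀ M d := by
  obtain ⟨a, ha, b, hb, rfl⟩ := exists_coords hinv hfix hc d
  intro u v hu hv huv
  rcases eq_or_ne b 0 with rfl | hb0
  · rw [zero_mul, add_zero]
    exact shortP_rat hinv hfix hA hB hBR hM hn ha u v hu hv huv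
  have hbv : (⟨b, hb⟩ : F₀) • v ∉ Submodule.span F₀ {u} := by
    rwa [Submodule.smul_mem_iff _ (fun e => hb0 (congrArg Subtype.val e))]
  refine (shortP_rat hinv hfix hA hB hBR hM hn ha u v hu hv huv).comp
    (h u _ hu hbv (by rw [co_smul, map_smul, huv, smul_zero])) fun p => ?_
  have hvu : B (co v) (co u) = 0 := by rw [alt_swap hA, huv, neg_zero]
  simp only [qh, co_smul, map_add, map_mul, map_smul, LinearMap.add_apply, LinearMap.smul_apply,
    smul_eq_mul, alt_self hA, huv, hvu, (hfix b).1 hb, (hfix a).1 ha]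
  module

/-- Extracting short root maps from an element of the unipotent radical of a point. -/
lemma shortP_of_radical {v b : ι → F₀} {x : ι → F} {γ : F} (hv : v ≠ 0)
    (hvx : B (co v) (cj σ x) = 0) (hvb : B (co v) (co b) = 0)
    (h : Acts M fun p => p + B p (co v) • x + (B p (cj σ x) + γ * B p (co v)) • co v) :
    ShortP σ B F₀ M (B x (co b)) := by
  set c := B x (co b) with hc
  have hxv : B x (co v) = 0 := by
    rw [← cj_co hfix v, form_skew hinv hfix hA hBR, hvx, map_zero, neg_zero]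
  by_cases hb : b ∈ Submodule.span F₀ {v}
  · obtain ⟨a, rfl⟩ := Submodule.mem_span_singleton.1 hb
    exact shortP_rat hinv hfix hA hB hBR hM hn
      (by rw [hc, co_smul, map_smul, hxv, smul_zero]; exact F₀.zero_mem)
  have hbv : B (co b) (co v) = 0 := by rw [alt_swap hA, hvb, neg_zero]
  set g := sTGL B hA (co b) 1 with hg
  have hgM : g ∈ M := ratT_mem' hA hB hBR hM b F₀.one_mem
  have hgv : (g : Matrix ι ι F) *ᵥ co v = co v := by rw [hg, sTGL_mulVec, hvb]; simp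
  have hgx : (g : Matrix ι ι F) *ᵥ x = x + c • co b := by rw [hg, sTGL_mulVec, one_mul]
  have hgi := sTGL_isometry B hA (co b) 1
  rw [← hg] at hgi
  have hgc : (g : Matrix ι ι F) *ᵥ cj σ x = cj σ x + σ c • co b := by
    rw [hg, sTGL_mulVec, one_mul, ← cj_co hfix b, ← map_form hfix hBR, cj_co hfix b]
  set E : (ι → F) → ι → F := fun p =>
    p + (c * B p (co v)) • co b + (σ c * B p (co b) - σ c * c * B p (co v)) • co v
  have hE : Acts M E := by
    refine (h.conj hgM (ψ := fun p =>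
      p + B p (co v) • (x + c • co b) +
        (B p (cj σ x + σ c • co b) + γ * B p (co v)) • co v) fun p => ?_).cancel h fun p => ?_
    · rw [mulVec_add, mulVec_add, mulVec_smul, mulVec_smul, hgx, hgv, ← hgc]
      nth_rw 1 [← hgi p (co v), hgv]
      nth_rw 1 [← hgi p (cj σ x)]
      nth_rw 1 [← hgi p (co v), hgv]
    · simp only [E, map_add, map_smul, LinearMap.add_apply, LinearMap.smul_apply, alt_self hA, hxv,
        hvb, ← hc, smul_eq_mul]
      module
  obtain ⟨hb0, -⟩ := not_mem_span_symm hv hb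
  obtain ⟨a, hva, hba⟩ := exists_ratDual₂ hA hB hBR hv hb 0 1
  rw [ZeroMemClass.coe_zero] at hva
  rw [OneMemClass.coe_one] at hba
  obtain ⟨z, hz, hzs⟩ := exists_orth_avoid hBR ![v, b, a] ![v, b] (by omega)
  have hzv : B (co v) (co z) = 0 := hz 0
  have hzb : B (co b) (co z) = 0 := hz 1
  have hza : B (co a) (co z) = 0 := hz 2
  set g' := sQ hA (co a) (co z) 1
  have hg'v : (g' : Matrix ι ι F) *ᵥ co v = co v := by rw [sQ_mulVec hA hza, hva, hzv]; simp
  have hg'b : (g' : Matrix ι ι F) *ᵥ co b = co b + co z := by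
    rw [sQ_mulVec hA hza, hba, hzb]
    simp
  have hg'M : g' ∈ M := ratQ_mem hA hB hBR hM a z F₀.one_mem
  have hg'i := sQ_isometry hA (co a) (co z) 1
  refine shortP_of_one hinv hfix hA hB hBR hM hn hv
    (fun hc' => hzs (Submodule.span_mono (by simp) hc')) hzv
    ((hE.conj hg'M (ψ := fun p => p + (c * B p (co v)) • (co b + co z) +
      (σ c * B p (co b + co z) - σ c * c * B p (co v)) • co v) fun p => ?_).cancel hE fun p => ?_)
  · simp only [E]
    rw [mulVec_add, mulVec_add, mulVec_smul, mulVec_smul, hg'b, hg'v]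
    nth_rw 1 [← hg'i p (co v), hg'v]
    nth_rw 1 [← hg'i p (co b), hg'b]
    nth_rw 1 [← hg'i p (co v), hg'v]
  · simp only [E, qh, map_add, map_sub, map_smul, LinearMap.add_apply, LinearMap.smul_apply,
      alt_self hA, hbv, hzv, hzb, hvb, smul_eq_mul]
    module

variable (hS : ∀ c, ShortP σ B F₀ M c → c ∈ F₀)

include hS

/-- A transvection in `M` orthogonal to a rational point has rational centre. -/
lemma exists_rat_of_point {w : ι → F} (hww : B w (cj σ w) = 0) {e : ι → F₀} (he : e ≠ 0)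
    (hew : B (co e) (cj σ w) = 0) (h : Acts M fun p => p + B p (cj σ w) • w) :
    ∃ ρ : F, ρ ≠ 0 ∧ ∃ r₀ : ι → F₀, co r₀ = ρ • w := by
  have hwe : B w (co e) = 0 := by
    rw [← cj_co hfix e, form_skew hinv hfix hA hBR, hew, map_zero, neg_zero]
  by_cases hex : ∃ u : ι → F₀, B (co e) (co u) = 0 ∧ B w (co u) ≠ 0
  swap
  · push Not at hex
    obtain ⟨μ, rfl⟩ := eq_smul_of_orth hA hB hBR he hex
    rcases eq_or_ne μ 0 with rfl | hμ
    · exact ⟨1, one_ne_zero, 0, by simp⟩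
    · exact ⟨μ⁻¹, inv_ne_zero hμ, e, by rw [smul_smul, inv_mul_cancel₀ hμ, one_smul]⟩
  obtain ⟨u, heu, hwu⟩ := hex
  set b := B w (co u) with hb
  -- rational short root elements move `w` along the point
  have rad : ∀ e' : ι → F₀, B (co e') (co u) = 0 → B w (co e') = 0 →
      Acts M fun p => p + B p (co e') • (σ b • w) +
        (B p (cj σ (σ b • w)) + σ b * b * B p (co e')) • co e' := by
    intro e' he'u hwe'
    set g := sQ hA (co e') (co u) 1 with hg
    have hgw : (g : Matrix ι ι F) *ᵥ w = w + b • co e' := by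
      rw [sQ_mulVec hA he'u, hwe', ← hb]
      simp
    have hgc : (g : Matrix ι ι F) *ᵥ cj σ w = cj σ w + σ b • co e' := by
      rw [sQ_mulVec hA he'u, ← cj_co hfix e', ← cj_co hfix u, ← map_form hfix hBR,
        ← map_form hfix hBR, cj_co hfix e', cj_co hfix u, hwe', ← hb]
      simp
    have he'w : B (co e') (cj σ w) = 0 := by
      rw [form_skew hinv hfix hA hBR, cj_co hfix e', hwe', map_zero, neg_zero]
    refine (h.conj (ratQ_mem hA hB hBR hM e' u F₀.one_mem) (ψ := fun p =>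
      p + B p (cj σ w + σ b • co e') • (w + b • co e')) fun p => ?_).cancel h fun p => ?_
    · rw [mulVec_add, mulVec_smul, hgw, ← hgc, hg]
      nth_rw 1 [← sQ_isometry hA (co e') (co u) 1 p (cj σ w)]
    · simp only [map_add, map_smul, LinearMap.add_apply, LinearMap.smul_apply, cj_smul, hinv, hww,
        hwe', smul_eq_mul]
      module
  have key : ∀ z : ι → F₀, B (co e) (co z) = 0 → σ b * B w (co z) ∈ F₀ := by
    intro z hz
    have h1 := hS _ (shortP_of_radical hinv hfix hA hB hBR hM hn he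
      (by rw [cj_smul, map_smul, hew, smul_zero]) hz (rad e heu hwe))
    rwa [map_smul, LinearMap.smul_apply, smul_eq_mul] at h1
  have hσb : σ b ≠ 0 := (map_ne_zero σ).2 hwu
  obtain ⟨e', hee', hue', hwe', he'⟩ : ∃ e' : ι → F₀, B (co e) (co e') = 0 ∧ B (co u) (co e') = 0 ∧
      B w (co e') = 0 ∧ e' ∉ Submodule.span F₀ {e} := by
    obtain ⟨x₁, h1, h1s⟩ := exists_orth_avoid hBR ![e, u] ![e] (by omega)
    obtain ⟨x₂, h2, h2s⟩ := exists_orth_avoid hBR ![e, u] ![e, x₁] (by omega)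
    have hx1 : x₁ ∉ Submodule.span F₀ {e} := fun hc => h1s (Submodule.span_mono (by simp) hc)
    by_cases hw1 : B w (co x₁) = 0
    · exact ⟨x₁, h1 0, h1 1, hw1, hx1⟩
    have hq : B w (co x₂) / B w (co x₁) ∈ F₀ := by
      have := F₀.div_mem (key x₂ (h2 0)) (key x₁ (h1 0))
      rwa [mul_div_mul_left _ _ hσb] at this
    have e1 : B (co e) (co x₁) = 0 := h1 0
    have e2 : B (co e) (co x₂) = 0 := h2 0
    have e3 : B (co u) (co x₁) = 0 := h1 1
    have e4 : B (co u) (co x₂) = 0 := h2 1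
    refine ⟨x₂ - (⟨_, hq⟩ : F₀) • x₁, ?_, ?_, ?_, fun hc => h2s ?_⟩
    · simp [e1, e2]
    · simp [e3, e4]
    · rw [co_sub, co_smul, map_sub, map_smul, smul_eq_mul]
      simp [div_mul_cancel₀ _ hw1]
    · have h3 := Submodule.add_mem _ (Submodule.span_mono
        (show ({e} : Set (ι → F₀)) ⊆ Set.range ![e, x₁] by simp) hc)
          (Submodule.smul_mem _ (⟨_, hq⟩ : F₀)
            (Submodule.subset_span (Set.mem_range_self (f := ![e, x₁]) 1)))
      simpa using h3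
  obtain ⟨y, hy1, hy2⟩ := exists_ratDual₂ hA hB hBR he he' 1 0
  rw [OneMemClass.coe_one] at hy1
  rw [ZeroMemClass.coe_zero] at hy2
  obtain ⟨he'0, -⟩ := not_mem_span_symm he he'
  have all : ∀ z : ι → F₀, σ b * B w (co z) ∈ F₀ := by
    intro z
    have h1 := key (z - ratForm hBR e z • y) (by simp [hy1])
    have h2 : σ b * B w (co y) ∈ F₀ := by
      have hex' : B (co e') (co u) = 0 := by rw [alt_swap hA, hue', neg_zero]
      have h5 := hS _ (shortP_of_radical hinv hfix hA hB hBR hM hn he'0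
        (by rw [cj_smul, map_smul, form_skew hinv hfix hA hBR, cj_co hfix e', hwe', map_zero, neg_zero,
          smul_zero]) hy2 (rad e' hex' hwe'))
      rwa [map_smul, LinearMap.smul_apply, smul_eq_mul] at h5
    have h3 := F₀.add_mem h1 (F₀.mul_mem (ratForm hBR e z).2 h2)
    convert h3 using 1
    simp only [co_sub, co_smul, map_sub, map_smul, smul_eq_mul, coe_ratForm]
    ring
  obtain ⟨r₀, hr₀⟩ := exists_rat_multiple (w := σ b • w) hA hB hBR
    fun z => by rw [map_smul, LinearMap.smul_apply, smul_eq_mul]; exact all z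
  exact ⟨σ b, hσb, r₀, hr₀⟩

variable (hMi : ∀ g ∈ M, ∀ x y, B ((g : Matrix ι ι F) *ᵥ x) (cj σ ((g : Matrix ι ι F) *ᵥ y)) =
    B x (cj σ y))

omit hinv hA hB hBR hn hS hM in
include hMi in
lemma rat_iso {g : GL ι F} (hg : g ∈ M) (hR : RatMat F₀ (g : Matrix ι ι F))
    (hinv : ∀ a, σ (σ a) = a) (x y : ι → F) :
    B ((g : Matrix ι ι F) *ᵥ x) ((g : Matrix ι ι F) *ᵥ y) = B x y := by
  have h : cj σ ((g : Matrix ι ι F) *ᵥ cj σ y) = (g : Matrix ι ι F) *ᵥ y := by
    funext i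
    simp only [cj, mulVec, dotProduct, map_sum, map_mul, hinv, (hfix _).1 (hR i _)]
  rw [← h, hMi g hg, cj_cj hinv]

include hMi

/-- An element intertwining two rational involutions is rational up to a scalar. -/
lemma scalRat_of_intertwine {Z : GL ι F} {Z' : Matrix ι ι F} (hZM : Z ∈ M)
    (hZ : RatMat F₀ (Z : Matrix ι ι F)) (hZ' : RatMat F₀ Z') (hZg : Z * Z = 1)
    (h1 : (Z : Matrix ι ι F) ≠ 1) (h1' : (Z : Matrix ι ι F) ≠ -1) {y : GL ι F} (hy : y ∈ M)
    (hyZ : (y : Matrix ι ι F) * (Z : Matrix ι ι F) = Z' * (y : Matrix ι ι F)) :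
    ScalRat F₀ (y : Matrix ι ι F) := by
  classical
  have hZZ : (Z : Matrix ι ι F) * (Z : Matrix ι ι F) = 1 := by
    rw [← Units.val_mul, hZg, Units.val_one]
  have hZi := rat_iso hfix hMi hZM hZ hinv
  set Zm := (Z : Matrix ι ι F) with hZm
  have hyi := hMi y hy
  obtain ⟨ε, hε, W, hW, hWe⟩ := exists_fixed_space Zm hZ hZZ (by omega)
  have hN : (y : Matrix ι ι F) * (Zm - ε • 1) = (Z' - ε • 1) * (y : Matrix ι ι F) := by
    rw [mul_sub, sub_mul, hyZ]
    simp
  obtain ⟨k, hk⟩ : ∃ k, (Z' - ε • 1) *ᵥ (Pi.single k 1 : ι → F) ≠ 0 := by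
    by_contra! hcon
    have h0 : Z' - ε • 1 = 0 := by
      refine ext_mulVec fun x => ?_
      rw [pi_eq_sum_univ' x, mulVec_sum, mulVec_sum]
      refine Finset.sum_congr rfl fun k _ => ?_
      rw [mulVec_smul, hcon k, smul_zero, zero_mulVec]
    rw [h0, zero_mul] at hN
    have h3 : Zm - ε • 1 = 0 := by
      have := congrArg (fun X => ((y⁻¹ : GL ι F) : Matrix ι ι F) * X) hN
      simpa [← mul_assoc] using this
    rcases hε with rfl | rfl
    · exact h1 (by simpa [sub_eq_zero] using h3)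
    · exact h1' (eq_neg_of_add_eq_zero_left (by simpa using h3))
  have hek : ∀ i, ((Z' - ε • 1) *ᵥ (Pi.single k 1 : ι → F)) i ∈ F₀ := by
    intro i
    rw [mulVec_single_one]
    refine F₀.sub_mem (hZ' i k) ?_
    rw [Matrix.smul_apply, smul_eq_mul]
    exact F₀.mul_mem (by rcases hε with rfl | rfl <;> simp) (ratMat_one i k)
  let e : ι → F₀ := fun i => ⟨_, hek i⟩
  have he : e ≠ 0 := fun h => hk (funext fun i => congrArg Subtype.val (congrFun h i))
  have hce : co e = (Z' - ε • 1) *ᵥ (Pi.single k 1 : ι → F) := rfl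
  have hWo : ∀ v ∈ W, B (co e) (cj σ ((y : Matrix ι ι F) *ᵥ co v)) = 0 := by
    intro v hv
    obtain ⟨x', hx'⟩ : ∃ x', (y : Matrix ι ι F) *ᵥ x' = Pi.single k 1 :=
      ⟨_, mulVec_inv_mulVec y _⟩
    rw [hce, ← hx', mulVec_mulVec, ← hN, ← mulVec_mulVec, hyi, cj_co hfix, sub_mulVec, smul_mulVec,
      one_mulVec, map_sub, map_smul, LinearMap.sub_apply, LinearMap.smul_apply, smul_eq_mul]
    have h3 : B (Zm *ᵥ x') (co v) * ε = B x' (co v) := by
      rw [← hZi x' (co v), hWe v hv, map_smul, smul_eq_mul, mul_comm]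
    have hεε : ε * ε = 1 := by rcases hε with rfl | rfl <;> simp
    linear_combination ε * h3 - B (Zm *ᵥ x') (co v) * hεε
  have conjT : ∀ v : ι → F₀,
      Acts M fun p => p + B p (cj σ ((y : Matrix ι ι F) *ᵥ co v)) • ((y : Matrix ι ι F) *ᵥ co v) := by
    intro v
    refine Acts.conj hy ⟨_, ratT_mem' hA hB hBR hM v F₀.one_mem, fun p => rfl⟩ fun p => ?_
    rw [hyi, cj_co hfix, sTGL_mulVec, one_mul, mulVec_add, mulVec_smul]
  have iso0 : ∀ v : ι → F₀,
      B ((y : Matrix ι ι F) *ᵥ co v) (cj σ ((y : Matrix ι ι F) *ᵥ co v)) = 0 := fun v => by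
    rw [hyi, cj_co hfix, alt_self hA]
  have line : ∀ x : ι → F₀, ∃ ρ : F, ρ ≠ 0 ∧
      ∃ r₀ : ι → F₀, co r₀ = ρ • ((y : Matrix ι ι F) *ᵥ co x) := by
    intro x
    let L : W →ₗ[F₀] F₀ := (ratForm hBR x).comp W.subtype
    obtain ⟨⟨v, hvW⟩, hv, hv0⟩ := Submodule.exists_mem_ne_zero_of_ne_bot
      (LinearMap.ker_ne_bot_of_finrank_lt (f := L) (by rw [Module.finrank_self]; omega))
    have hxv : B (co x) (co v) = 0 := congrArg Subtype.val hv
    have hv0' : v ≠ 0 := fun h => hv0 (Subtype.ext h)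
    obtain ⟨ρ, hρ, r₀, hr₀⟩ := exists_rat_of_point hinv hfix hA hB hBR hM hn hS (iso0 v) he
      (hWo v hvW) (conjT v)
    have hr₀0 : r₀ ≠ 0 := fun h => smul_ne_zero hρ (mulVec_ne_zero y (co_ne_zero hv0'))
      (by rw [← hr₀, h, co_zero])
    refine exists_rat_of_point hinv hfix hA hB hBR hM hn hS (iso0 x) hr₀0 ?_ (conjT x)
    rw [hr₀, map_smul, LinearMap.smul_apply, hyi, cj_co hfix, alt_swap hA, hxv, neg_zero, smul_zero]
  obtain ⟨i₀⟩ : Nonempty ι := Fintype.card_pos_iff.1 (by omega)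
  obtain ⟨s, hs, r₁, hr₁⟩ := line (Pi.single i₀ 1)
  refine ⟨s, hs, fun i j => ?_⟩
  suffices hcol : ∃ r₀ : ι → F₀, co r₀ = s • ((y : Matrix ι ι F) *ᵥ co (Pi.single j (1 : F₀))) by
    obtain ⟨r₀, hr₀⟩ := hcol
    have h3 := congrFun hr₀ i
    rw [co_single, OneMemClass.coe_one, mulVec_single_one] at h3
    rw [Matrix.smul_apply]
    simp only [Pi.smul_apply] at h3
    exact (h3 : (r₀ i : F) = _) ▸ (r₀ i).2
  rcases eq_or_ne j i₀ with rfl | hj
  · exact ⟨r₁, hr₁⟩
  obtain ⟨ρ, hρ, r₂, hr₂⟩ := line (Pi.single j 1)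
  obtain ⟨τ, hτ, r₃, hr₃⟩ := line (Pi.single i₀ 1 + Pi.single j 1)
  have hy1 : (y : Matrix ι ι F) *ᵥ co (Pi.single i₀ (1 : F₀)) = s⁻¹ • co r₁ := by
    rw [hr₁, smul_smul, inv_mul_cancel₀ hs, one_smul]
  have hy2 : (y : Matrix ι ι F) *ᵥ co (Pi.single j (1 : F₀)) = ρ⁻¹ • co r₂ := by
    rw [hr₂, smul_smul, inv_mul_cancel₀ hρ, one_smul]
  have hne : r₁ ≠ 0 := fun h => by
    refine smul_ne_zero hs (mulVec_ne_zero y (co_ne_zero fun h' => ?_)) (by rw [← hr₁, h, co_zero])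
    exact one_ne_zero (α := F₀) (by simpa using congrFun h' i₀)
  have hind : r₂ ∉ Submodule.span F₀ {r₁} := by
    intro hc
    obtain ⟨a, ha⟩ := Submodule.mem_span_singleton.1 hc
    have h3 : (y : Matrix ι ι F) *ᵥ (ρ • co (Pi.single j (1 : F₀))) =
        (y : Matrix ι ι F) *ᵥ (((a : F) * s) • co (Pi.single i₀ (1 : F₀))) := by
      rw [mulVec_smul, mulVec_smul, ← hr₂, ← ha, co_smul, hr₁, smul_smul]
    have h4 := congrFun ((mulVec_inj y).1 h3) j
    simp [hj, hρ] at h4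
  obtain ⟨z, hz1, hz2⟩ := exists_ratDual₂ hA hB hBR hne hind 1 0
  obtain ⟨z', hz1', hz2'⟩ := exists_ratDual₂ hA hB hBR hne hind 0 1
  rw [OneMemClass.coe_one] at hz1 hz2'
  rw [ZeroMemClass.coe_zero] at hz2 hz1'
  rw [co_add, mulVec_add, hy1, hy2] at hr₃
  have hc1 : τ * s⁻¹ ∈ F₀ := by
    have h3 := hBR r₃ z
    rw [hr₃] at h3
    simpa [hz1, hz2] using h3
  have hc2 : τ * ρ⁻¹ ∈ F₀ := by
    have h3 := hBR r₃ z'
    rw [hr₃] at h3
    simpa [hz1', hz2'] using h3
  have hsρ : s * ρ⁻¹ ∈ F₀ := by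
    have h3 := F₀.div_mem hc2 hc1
    rwa [mul_div_mul_left _ _ hτ, div_inv_eq_mul, mul_comm] at h3
  exact ⟨(⟨_, hsρ⟩ : F₀) • r₂, by rw [co_smul, hy2, smul_smul]⟩

/-- Without irrational short root maps all of `M` is rational up to scalars. -/
theorem forall_scalRat [Finite F] (hn' : 13 ≤ Fintype.card ι) :
    ∀ g ∈ M, ScalRat F₀ (g : Matrix ι ι F) := by
  obtain ⟨s, s₀, hsR, hs₀R, hsM, hs₀M, hss, hs₀s, hs1, hs1', hs₀1, hs₀1', hsr, hs₀r, hcl⟩ :=
    Cfsg.Lib.Classical.exists_two_invol hA hB hBR hM hn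
  exact forall_scalRat_of_intertwine (k := 4) (fun {Z} {Z'} hZ hZR hZ'R hZZ h1 h1' _ {y} hy h =>
    scalRat_of_intertwine hinv hfix hA hB hBR hM hn hS hMi hZ hZR hZ'R hZZ h1 h1' hy h)
    (by omega) hsR hs₀R hsM hs₀M hss hs₀s hs1 hs1' hs₀1 hs₀1' hsr hs₀r hcl

omit hS

/-- An irrational short root map gives every unitary transvection. -/
theorem transvection_mem {c : F} (hc : c ∉ F₀) (h : ShortP σ B F₀ M c) {w : ι → F}
    (hw : B w (cj σ w) = 0) {a : F} (ha : a ∈ F₀) :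
    Acts M fun p => p + (a * B p (cj σ w)) • w := by
  have hne : c - σ c ≠ 0 := sub_ne_zero.2 fun e => hc ((hfix c).2 e.symm)
  choose A hA₀ D hD₀ hwi using fun i => exists_coords hinv hfix hc (w i)
  let u : ι → F₀ := fun i => ⟨A i, hA₀ i⟩
  let v : ι → F₀ := fun i => ⟨D i, hD₀ i⟩
  have hwe : w = co u + c • co v := funext fun i => by
    simp [u, v, co, hwi i, mul_comm]
  have hcw : cj σ w = co u + σ c • co v := by
    rw [hwe, cj_add, cj_smul, cj_co hfix, cj_co hfix]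
  have hT : ∀ r : ι → F₀, ∀ {b : F}, b ∈ F₀ →
      Acts M fun p => p + (b * B p (co r)) • co r := fun r b hb =>
    ⟨_, ratT_mem' hA hB hBR hM r hb, fun p => by rw [sTGL_mulVec]⟩
  have huv : B (co u) (co v) = 0 := by
    rw [hcw, hwe] at hw
    simp only [map_add, map_smul, LinearMap.add_apply, LinearMap.smul_apply, alt_self hA,
      alt_swap hA (co u) (co v), smul_eq_mul] at hw
    refine (mul_eq_zero.1 (?_ : (c - σ c) * B (co u) (co v) = 0)).resolve_left hne
    linear_combination -hw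
  have hvu : B (co v) (co u) = 0 := by rw [alt_swap hA, huv, neg_zero]
  have hscal : ∀ (r : ι → F₀) (μ : F), w = μ • co r →
      Acts M fun p => p + (a * B p (cj σ w)) • w := by
    intro r μ hμ
    have hb : a * (σ μ * μ) ∈ F₀ :=
      F₀.mul_mem ha ((hfix _).2 (by rw [map_mul, hinv, mul_comm]))
    obtain ⟨g, hg, hgp⟩ := hT r hb
    refine ⟨g, hg, fun p => ?_⟩
    rw [hgp, hμ, cj_smul, cj_co hfix]
    simp only [map_smul, smul_eq_mul]
    module
  by_cases hu : u = 0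
  · exact hscal v c (by rw [hwe, hu, co_zero, zero_add])
  by_cases hvs : v ∈ Submodule.span F₀ {u}
  · obtain ⟨t, ht⟩ := Submodule.mem_span_singleton.1 hvs
    exact hscal u (1 + c * t) (by rw [hwe, ← ht, co_smul]; module)
  obtain ⟨x, hux, hvx⟩ := exists_ratDual₂ hA hB hBR hu hvs 1 0
  rw [OneMemClass.coe_one] at hux
  rw [ZeroMemClass.coe_zero] at hvx
  obtain ⟨hv0, -⟩ := not_mem_span_symm hu hvs
  have hxv : B (co x) (co v) = 0 := by rw [alt_swap hA, hvx, neg_zero]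
  have hx0 : x ≠ 0 := fun e => by simp [e] at hux
  have hvx' : v ∉ Submodule.span F₀ {x} := by
    intro hm
    obtain ⟨t, ht⟩ := Submodule.mem_span_singleton.1 hm
    have h1 := huv
    rw [← ht, co_smul, map_smul, hux, smul_eq_mul, mul_one] at h1
    exact hv0 (by rw [← ht, show t = 0 from Subtype.ext h1, zero_smul])
  obtain ⟨g, hg, hgp⟩ := h x v hx0 hvx' hxv
  have hgu : (g : Matrix ι ι F) *ᵥ co u = w := by
    rw [hgp, qh, hux, huv, hwe]
    simp
  refine (hT u ha).conj hg fun p => ?_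
  rw [← hgu, hMi g hg, cj_co hfix, mulVec_add, mulVec_smul]

end Cfsg.Lib.Classical.SkewSub
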