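import Mathlib
import Cfsg.Agent.Lib.Classical.UnitarySympSubfield
import Cfsg.Agent.Lib.Classical.UnitarySubfieldBase
import Cfsg.Agent.Lib.Classical.UnitaryPair

/-!
Rational short root maps in a unitary group over an extension of odd prime degree: one irrational
parameter gives all transvections.
-/

set_option autoImplicit false

namespace Cfsg.Lib.Classical.HermSub

open Matrix Module Cfsg.Lib.Classical Cfsg.Lib.Classical.SkewSub
open scoped MatrixGroups

variable {ι : Type} [Fintype ι] [DecidableEq ι] {F : Type*} [Field F] [Finite F] {σ : F ≃+* F}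
  {F₀ : Subfield F} {h : (ι → F) → (ι → F) → F}

omit [Finite F] in
lemma ratMat_of_maps {g : Matrix ι ι F} (hg : ∀ v : ι → F₀, ∀ i, (g *ᵥ co v) i ∈ F₀) :
    RatMat F₀ g := fun i j => by
  have h1 := hg (Pi.single j 1) i
  rwa [co_single, OneMemClass.coe_one, mulVec_single_one] at h1

/-- The short root map with rational centres. -/
def qhH (σ : F ≃+* F) (h : (ι → F) → (ι → F) → F) (u v : ι → F₀) (c : F) (p : ι → F) : ι → F :=
  p + (c * h p (co u)) • co v - (σ c * h p (co v)) • co u

/-- All short root maps with parameter `c`. -/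
def ShortH (σ : F ≃+* F) (h : (ι → F) → (ι → F) → F) (F₀ : Subfield F) (M : Subgroup (GL ι F))
    (c : F) : Prop :=
  ∀ u v : ι → F₀, u ≠ 0 → v ∉ Submodule.span F₀ {u} → RootPair h (co u) (co v) →
    Acts M (qhH σ h u v c)

variable (R : IsRatHerm σ F₀ h) {M : Subgroup (GL ι F)}
  (hM : ∀ g : GL ι F, RatMat F₀ (g : Matrix ι ι F) → Matrix.GeneralLinearGroup.det g = 1 →
    (∀ x y, h ((g : Matrix ι ι F) *ᵥ x) ((g : Matrix ι ι F) *ᵥ y) = h x y) → g ∈ M)
  (hn : 9 ≤ Fintype.card ι)

include R in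
omit [Fintype ι] [DecidableEq ι] [Finite F] in
lemma qhH_symm (u v : ι → F₀) (c : F) : qhH σ h u v c = qhH σ h v u (-σ c) := by
  funext p
  rw [qhH, qhH, map_neg, R.form.involutive]
  module

omit [Fintype ι] [Finite F] in
lemma li_perm [Fintype ι] {v z m : ι → F₀} (h3 : LinearIndependent F₀ ![v, z, m]) :
    LinearIndependent F₀ ![v, m, z] := by
  have e : ![v, m, z] = ![v, z, m] ∘ (Equiv.swap (1 : Fin 3) 2) := by
    funext i
    fin_cases i <;> rfl
  rw [e]
  exact h3.comp _ (Equiv.swap _ _).injective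

include R hM

omit [Finite F] in
lemma ratT_mem {v : ι → F₀} (hv : h (co v) (co v) = 0) {κ : F} (hκ : κ ∈ F₀) (hκs : κ + σ κ = 0) :
    utv R.form (co v) hv κ ∈ M := by
  refine hM _ (ratMat_of_maps fun x i => ?_) (utv_det R.form _ hv _) (utv_isometry R.form _ hv hκs)
  rw [utv_mulVec]
  exact F₀.add_mem (x i).2 (F₀.mul_mem (F₀.mul_mem hκ (R.rat x v)) (v i).2)

omit [Finite F] in
lemma ratQ_mem {u v : ι → F₀} (huv : RootPair h (co u) (co v)) {c : F} (hc : c ∈ F₀) :
    ∃ g ∈ M, (∀ p, (g : Matrix ι ι F) *ᵥ p = qhH σ h u v c p) := by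
  have hp : RootPair h (co u) (c • co v) := ⟨huv.left,
    by rw [R.form.smul_left, herm_smul_right R.form, huv.right, mul_zero, mul_zero],
    by rw [herm_smul_right R.form, huv.orth, mul_zero]⟩
  have e : ∀ p, (rootR h (co u) (c • co v) : Matrix ι ι F) *ᵥ p = qhH σ h u v c p := by
    intro p
    rw [rootR_mulVec R.form hp, qhH, herm_smul_right R.form]
    module
  refine ⟨_, hM _ (ratMat_of_maps fun x i => ?_) (rootR_det R.form hp) (rootR_isometry R.form hp), e⟩
  rw [e, qhH]
  exact F₀.sub_mem (F₀.add_mem (x i).2 (F₀.mul_mem (F₀.mul_mem hc (R.rat x u)) (v i).2))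
    (F₀.mul_mem (F₀.mul_mem (R.stable _ hc) (R.rat x v)) (u i).2)

omit hM in
lemma exists_skew₀ : ∃ δ ∈ F₀, δ ≠ 0 ∧ σ δ = -δ := by
  obtain ⟨δ, hδ0, hδ⟩ := exists_skew R.sub_form.ne_refl R.sub_form.involutive
  exact ⟨δ, δ.2, fun e => hδ0 (Subtype.ext e), congrArg Subtype.val hδ⟩

include hn

lemma shortH_rat {c : F} (hc : c ∈ F₀) : ShortH σ h F₀ M c := fun _ _ _ _ huv =>
  ratQ_mem R hM huv hc

/-- Moving the second centre to an independent one. -/
lemma short_move {v z z' : ι → F₀} {c : F} (hvz : RootPair h (co v) (co z))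
    (hvz' : RootPair h (co v) (co z')) (hli : LinearIndependent F₀ ![v, z, z'])
    (hq : Acts M (qhH σ h v z c)) : Acts M (qhH σ h v z' c) := by
  obtain ⟨δ, hδ₀, hδ0, hδ⟩ := exists_skew₀ R
  obtain ⟨x, hxx, hx⟩ := R.exists_iso_values' hli (by omega) ![0, ⟨δ, hδ₀⟩, -⟨δ, hδ₀⟩]
  have hxv : h (co x) (co v) = 0 := hx 0
  have hxz : h (co x) (co z) = δ := hx 1
  have hxz' : h (co x) (co z') = -δ := hx 2
  have hzx : h (co z) (co x) = -δ := by rw [R.form.herm, hxz, hδ]
  have hz'x : h (co z') (co x) = δ := by rw [R.form.herm, hxz', map_neg, hδ, neg_neg]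
  have hc : -δ⁻¹ + σ (-δ⁻¹) = 0 := by rw [map_neg, map_inv₀, hδ, inv_neg, neg_neg, neg_add_cancel]
  have hk : -δ⁻¹ ∈ F₀ := F₀.neg_mem (F₀.inv_mem hδ₀)
  have h1 : h (co (x - z)) (co (x - z)) = 0 := by
    rw [co_sub, herm_sub_left R.form, herm_sub_right R.form, herm_sub_right R.form, hxx, hvz.right,
      hxz, hzx]
    ring
  have h2 : h (co (z' - x)) (co (z' - x)) = 0 := by
    rw [co_sub, herm_sub_left R.form, herm_sub_right R.form, herm_sub_right R.form, hxx, hvz'.right,
      hxz', hz'x]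
    ring
  set g := utv R.form _ h2 (-δ⁻¹) * utv R.form _ h1 (-δ⁻¹)
  have hg : g ∈ M := mul_mem (ratT_mem R hM h2 hk hc) (ratT_mem R hM h1 hk hc)
  have hgi : ∀ p r, h ((g : Matrix ι ι F) *ᵥ p) ((g : Matrix ι ι F) *ᵥ r) = h p r := fun p r => by
    simp only [g, Units.val_mul, ← mulVec_mulVec, utv_isometry R.form _ _ hc]
  have hgz : (g : Matrix ι ι F) *ᵥ co z = co z' := by
    have e1 : (utv R.form _ h1 (-δ⁻¹) : Matrix ι ι F) *ᵥ co z = co x := by
      rw [utv_mulVec, co_sub, herm_sub_right R.form, hzx, hvz.right, sub_zero, neg_mul_neg,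
        inv_mul_cancel₀ hδ0, one_smul, add_sub_cancel]
    rw [Units.val_mul, ← mulVec_mulVec, e1, utv_mulVec, co_sub, herm_sub_right R.form, hxz', hxx,
      sub_zero, neg_mul_neg, inv_mul_cancel₀ hδ0, one_smul, add_sub_cancel]
  have hgv : (g : Matrix ι ι F) *ᵥ co v = co v := by
    have e1 : h (co v) (co (x - z)) = 0 := by
      rw [co_sub, herm_sub_right R.form, herm_eq_zero_symm R.form hxv, hvz.orth, sub_zero]
    have e2 : h (co v) (co (z' - x)) = 0 := by
      rw [co_sub, herm_sub_right R.form, herm_eq_zero_symm R.form hxv, hvz'.orth, sub_zero]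
    rw [Units.val_mul, ← mulVec_mulVec, utv_mulVec R.form _ h1, e1, mul_zero, zero_smul, add_zero,
      utv_mulVec, e2, mul_zero, zero_smul, add_zero]
  refine hq.conj hg fun p => ?_
  rw [qhH, qhH, mulVec_sub, mulVec_add, mulVec_smul, mulVec_smul, hgz, hgv]
  nth_rw 1 [← hgi p (co v), ← hgi p (co z), hgv, hgz]

/-- Changing the second centre. -/
lemma short_step {v z z' : ι → F₀} {c : F} (hv : v ≠ 0) (hz : z ∉ Submodule.span F₀ {v})
    (hz' : z' ∉ Submodule.span F₀ {v}) (hvz : RootPair h (co v) (co z))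
    (hvz' : RootPair h (co v) (co z')) (hq : Acts M (qhH σ h v z c)) :
    Acts M (qhH σ h v z' c) := by
  obtain ⟨m, hmm, hm, hms⟩ := R.exists_iso_avoid ![v] ![v, z, z'] (by omega) (by omega)
  have hp : RootPair h (co v) (co m) := ⟨hvz.left, hmm, herm_eq_zero_symm R.form (hm 0)⟩
  have aux : ∀ y : ι → F₀, y ∉ Submodule.span F₀ {v} → y ∈ ({z, z'} : Set (ι → F₀)) →
      LinearIndependent F₀ ![v, y, m] := by
    intro y hy hyz
    refine li_three (li_pair hv hy) fun hc => hms ?_
    refine (sup_le ?_ ?_ : Submodule.span F₀ {v} ⊔ Submodule.span F₀ {y} ≤ _) hc <;>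
      rw [Submodule.span_singleton_le_iff_mem] <;> refine Submodule.subset_span ?_
    · exact ⟨0, rfl⟩
    · rcases hyz with rfl | hy'
      · exact ⟨1, rfl⟩
      · rw [Set.mem_singleton_iff] at hy'
        exact ⟨2, by simp [hy']⟩
  exact short_move R hM hn hp hvz' (li_perm (aux z' hz' (by simp)))
    (short_move R hM hn hvz hp (aux z hz (by simp)) hq)

lemma shortH_of_one {v z : ι → F₀} {c : F} (hv : v ≠ 0) (hz : z ∉ Submodule.span F₀ {v})
    (hvz : RootPair h (co v) (co z)) (hq : Acts M (qhH σ h v z c)) : ShortH σ h F₀ M c := by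
  intro u w hu hw huw
  obtain ⟨m, hmm, hm, hms⟩ := R.exists_iso_avoid ![v, u] ![v, u] (by omega) (by omega)
  have hmv : m ∉ Submodule.span F₀ {v} := fun hc => hms (Submodule.span_mono (by simp) hc)
  have hmu : m ∉ Submodule.span F₀ {u} := fun hc => hms (Submodule.span_mono (by simp) hc)
  obtain ⟨hm0, hvm⟩ := not_mem_span_symm hv hmv
  obtain ⟨-, hum⟩ := not_mem_span_symm hu hmu
  have pmv : RootPair h (co m) (co v) := ⟨hmm, hvz.left, hm 0⟩
  have pmu : RootPair h (co m) (co u) := ⟨hmm, huw.left, hm 1⟩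
  have pvm : RootPair h (co v) (co m) := ⟨hvz.left, hmm, pmv.orth' R.form⟩
  have pum : RootPair h (co u) (co m) := ⟨huw.left, hmm, pmu.orth' R.form⟩
  have h1 := short_step R hM hn hv hz hmv hvz pvm hq
  rw [qhH_symm R v m] at h1
  have h2 := short_step R hM hn hm0 hvm hum pmv pmu h1
  rw [qhH_symm R m u, map_neg, R.form.involutive, neg_neg] at h2
  exact short_step R hM hn hu hmu hw pum huw h2

lemma shortH_conj {c : F} (hc : ShortH σ h F₀ M c) : ShortH σ h F₀ M (-σ c) := by
  intro u v hu hv huv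
  obtain ⟨hv0, huv'⟩ := not_mem_span_symm hu hv
  rw [qhH_symm R, map_neg, R.form.involutive, neg_neg]
  exact hc v u hv0 huv' ⟨huv.right, huv.left, huv.orth' R.form⟩

lemma shortH_add {c d : F} (hc : ShortH σ h F₀ M c) (hd : ShortH σ h F₀ M d) :
    ShortH σ h F₀ M (c + d) := by
  intro u v hu hv huv
  refine (hc u v hu hv huv).comp (hd u v hu hv huv) fun p => ?_
  simp only [qhH, map_add, herm_sub_left R.form, R.form.add_left, R.form.smul_left, huv.left,
    huv.right, huv.orth, huv.orth' R.form]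
  module

lemma shortH_smul {c : F} (hc : ShortH σ h F₀ M c) {a : F} (ha : a ∈ F₀) :
    ShortH σ h F₀ M (c * a) := by
  rcases eq_or_ne a 0 with rfl | ha0
  · rw [mul_zero]
    exact shortH_rat R hM hn F₀.zero_mem
  intro u v hu hv huv
  have hav : (⟨a, ha⟩ : F₀) • v ∉ Submodule.span F₀ {u} := by
    rwa [Submodule.smul_mem_iff _ (fun e => ha0 (congrArg Subtype.val e))]
  have e : qhH σ h u v (c * a) = qhH σ h u ((⟨a, ha⟩ : F₀) • v) c := by
    funext p
    simp only [qhH, co_smul, herm_smul_right R.form, map_mul]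
    module
  rw [e]
  refine hc u _ hu hav ⟨huv.left, ?_, ?_⟩
  · rw [co_smul, R.form.smul_left, herm_smul_right R.form, huv.right, mul_zero, mul_zero]
  · rw [co_smul, herm_smul_right R.form, huv.orth, mul_zero]

lemma shortH_mul {c d : F} (hc : ShortH σ h F₀ M c) (hd : ShortH σ h F₀ M d)
    (hMi : ∀ g ∈ M, ∀ x y, h ((g : Matrix ι ι F) *ᵥ x) ((g : Matrix ι ι F) *ᵥ y) = h x y) :
    ShortH σ h F₀ M (c * d) := by
  obtain ⟨u, huu, -, hus⟩ := R.exists_iso_avoid (Fin.elim0 : Fin 0 → ι → F₀) ![0] (by omega) (by omega)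
  have hu : u ≠ 0 := fun e => hus (by rw [e]; exact Submodule.zero_mem _)
  obtain ⟨w, hww, hw, hws⟩ := R.exists_iso_avoid ![u] ![u] (by omega) (by omega)
  have hwu : w ∉ Submodule.span F₀ {u} := fun hc' => hws (Submodule.span_mono (by simp) hc')
  obtain ⟨hw0, -⟩ := not_mem_span_symm hu hwu
  obtain ⟨v, hvv, hv, hvs⟩ := R.exists_iso_avoid ![u, w] ![u, w] (by omega) (by omega)
  have hvu : v ∉ Submodule.span F₀ {u} := fun hc' => hvs (Submodule.span_mono (by simp) hc')
  have hli : LinearIndependent F₀ ![u, w, v] := by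
    refine li_three (li_pair hu hwu) fun hc' => hvs ?_
    refine (sup_le ?_ ?_ : Submodule.span F₀ {u} ⊔ Submodule.span F₀ {w} ≤ _) hc' <;>
      rw [Submodule.span_singleton_le_iff_mem] <;> refine Submodule.subset_span ?_
    exacts [⟨0, rfl⟩, ⟨1, rfl⟩]
  obtain ⟨v', hv'v', hv'⟩ := R.exists_iso_values' hli (by omega) ![0, 0, 1]
  have a1 : h (co v') (co u) = 0 := hv' 0
  have a2 : h (co v') (co w) = 0 := hv' 1
  have a3 : h (co v') (co v) = 1 := hv' 2
  have b1 : h (co w) (co u) = 0 := hw 0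
  have b2 : h (co v) (co u) = 0 := hv 0
  have b3 : h (co v) (co w) = 0 := hv 1
  have c1 : h (co u) (co w) = 0 := herm_eq_zero_symm R.form b1
  have c2 : h (co u) (co v) = 0 := herm_eq_zero_symm R.form b2
  have c3 : h (co w) (co v) = 0 := herm_eq_zero_symm R.form b3
  have c4 : h (co w) (co v') = 0 := herm_eq_zero_symm R.form a2
  have c5 : h (co u) (co v') = 0 := herm_eq_zero_symm R.form a1
  have hv'0 : v' ≠ 0 := fun e => by simp [e, herm_zero_left R.form] at a3
  have hwv' : w ∉ Submodule.span F₀ {v'} := by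
    intro hm
    obtain ⟨t, ht⟩ := Submodule.mem_span_singleton.1 hm
    have h1 := c3
    rw [← ht, co_smul, R.form.smul_left, a3, mul_one] at h1
    exact hw0 (by rw [← ht, show t = 0 from Subtype.ext h1, zero_smul])
  have hA := hc u v hu hvu ⟨huu, hvv, c2⟩
  have hB := hd v' w hv'0 hwv' ⟨hv'v', hww, a2⟩
  obtain ⟨g, hg, hgp⟩ := hA
  have hgv' : (g : Matrix ι ι F) *ᵥ co v' = co v' - σ c • co u := by
    rw [hgp, qhH, a1, a3]
    simp
  have hgw : (g : Matrix ι ι F) *ᵥ co w = co w := by rw [hgp, qhH, b1, c3]; simp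
  have hC : ShortH σ h F₀ M (-(d * c)) := by
    refine shortH_of_one R hM hn hu hwu ⟨huu, hww, c1⟩
      ((hB.conj hg (ψ := fun p => p + (d * h p (co v' - σ c • co u)) • co w -
        (σ d * h p (co w)) • (co v' - σ c • co u)) fun p => ?_).cancel hB fun p => ?_)
    · rw [qhH, mulVec_sub, mulVec_add, mulVec_smul, mulVec_smul, ← hgv']
      nth_rw 1 [← hMi g hg p (co v')]
      nth_rw 1 [← hMi g hg p (co w)]
      rw [hgw]
    · simp only [qhH, map_neg, map_mul, herm_sub_left R.form, R.form.add_left, R.form.smul_left,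
        herm_sub_right R.form, herm_smul_right R.form, R.form.involutive, hww, a1, a2, b1]
      module
  have := shortH_smul R hM hn hC (F₀.neg_mem F₀.one_mem)
  rwa [show -(d * c) * -1 = c * d by ring] at this

/-- One irrational short parameter gives all. -/
lemma shortH_all
    (hMi : ∀ g ∈ M, ∀ x y, h ((g : Matrix ι ι F) *ᵥ x) ((g : Matrix ι ι F) *ᵥ y) = h x y)
    {r : ℕ} (hr : r.Prime) (hcard : Nat.card F = Nat.card F₀ ^ r) {c : F} (hc : c ∉ F₀)
    (hs : ShortH σ h F₀ M c) (d : F) : ShortH σ h F₀ M d := by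
  have := Fintype.ofFinite F
  have pw : ∀ {a : F}, ShortH σ h F₀ M a → ∀ m : ℕ, ShortH σ h F₀ M (a ^ m) := fun {a} ha m => by
    induction m with
    | zero => rw [pow_zero]; exact shortH_rat R hM hn F₀.one_mem
    | succ m ih => rw [pow_succ]; exact shortH_mul R hM hn ih ha hMi
  let K : Subfield F :=
    { carrier := {a | ShortH σ h F₀ M a}
      mul_mem' := fun ha hb => shortH_mul R hM hn ha hb hMi
      one_mem' := shortH_rat R hM hn F₀.one_mem
      add_mem' := shortH_add R hM hn
      zero_mem' := shortH_rat R hM hn F₀.zero_mem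
      neg_mem' := fun {a} ha => by
        have := shortH_smul R hM hn ha (F₀.neg_mem F₀.one_mem)
        rwa [mul_neg, mul_one] at this
      inv_mem' := fun a ha => by
        rcases eq_or_ne a 0 with rfl | h0
        · rw [_root_.inv_zero]; exact shortH_rat R hM hn F₀.zero_mem
        · have h2 : 2 ≤ Fintype.card F := Fintype.one_lt_card
          have h1 : a ^ (Fintype.card F - 2) = a⁻¹ := by
            refine eq_inv_of_mul_eq_one_left ?_
            rw [← pow_succ, show Fintype.card F - 2 + 1 = Fintype.card F - 1 by omega,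
              FiniteField.pow_card_sub_one_eq_one a h0]
          rw [← h1]
          exact pw ha _ }
  exact eq_top_of_prime_degree hr hcard K (fun a ha => shortH_rat R hM hn ha) hs hc d

/-- All short parameters give the long root maps with rational centre. -/
lemma long_mem (hall : ∀ d, ShortH σ h F₀ M d) {f₀ : ι → F₀} (hf₀ : f₀ ≠ 0)
    (hff : h (co f₀) (co f₀) = 0) {κ : F} (hκ : κ + σ κ = 0) :
    Acts M fun p => p + (κ * h p (co f₀)) • co f₀ := by
  obtain ⟨v, hvv, hv, hvs⟩ := R.exists_iso_avoid ![f₀] ![f₀] (by omega) (by omega)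
  have hvf : v ∉ Submodule.span F₀ {f₀} := fun hc' => hvs (Submodule.span_mono (by simp) hc')
  obtain ⟨v', hv'v', hv'⟩ := R.exists_iso_values' (li_pair hf₀ hvf) (by omega) ![0, 1]
  have a1 : h (co v') (co f₀) = 0 := hv' 0
  have a2 : h (co v') (co v) = 1 := hv' 1
  have a3 : h (co v) (co v') = 1 := herm_eq_one_symm R.form a2
  have a4 : h (co v) (co f₀) = 0 := hv 0
  have hv'f : v' ∉ Submodule.span F₀ {f₀} := by
    intro hm
    obtain ⟨t, ht⟩ := Submodule.mem_span_singleton.1 hm
    have h1 := a3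
    rw [← ht, co_smul, herm_smul_right R.form, a4, mul_zero] at h1
    exact zero_ne_one h1
  obtain ⟨τ, hτ⟩ := exists_trace_eq R.form.ne_refl R.form.involutive (map_one σ)
  have hc : τ * κ - σ (τ * κ) = κ := by
    rw [map_mul, eq_neg_of_add_eq_zero_right hκ]
    linear_combination κ * hτ
  set c := τ * κ
  have hA := hall c f₀ v hf₀ hvf ⟨hff, hvv, herm_eq_zero_symm R.form a4⟩
  have hB := hall 1 f₀ v' hf₀ hv'f ⟨hff, hv'v', herm_eq_zero_symm R.form a1⟩
  refine (hA.comp hB fun p => rfl).cancel (hB.comp hA fun p => rfl) fun p => ?_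
  simp only [qhH, map_one, one_mul, herm_sub_left R.form, R.form.add_left, R.form.smul_left, hff,
    a1, a2, a3, a4, herm_eq_zero_symm R.form a1, herm_eq_zero_symm R.form a4, ← hc]
  module

/-- All short parameters give all transvections. -/
theorem transvection_mem
    (hMi : ∀ g ∈ M, ∀ x y, h ((g : Matrix ι ι F) *ᵥ x) ((g : Matrix ι ι F) *ᵥ y) = h x y)
    (hall : ∀ d, ShortH σ h F₀ M d) {w : ι → F} (hw : h w w = 0) {a : F} (ha : a + σ a = 0) :
    Acts M fun p => p + (a * h p w) • w := by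
  rcases eq_or_ne w 0 with rfl | hw0
  · exact ⟨1, one_mem M, fun p => by simp⟩
  obtain ⟨f₀, hff, hf₀w⟩ : ∃ f₀ : ι → F₀, h (co f₀) (co f₀) = 0 ∧ h (co f₀) w ≠ 0 := by
    by_contra! hcon
    obtain ⟨e₀, hee, -, hes⟩ :=
      R.exists_iso_avoid (Fin.elim0 : Fin 0 → ι → F₀) ![0] (by omega) (by omega)
    have he : e₀ ≠ 0 := fun e => hes (by rw [e]; exact Submodule.zero_mem _)
    obtain ⟨μ, rfl⟩ := R.eq_smul_of_iso_orth (by omega) he hee fun x hx _ => hcon x hx
    obtain ⟨z, hzz, hz⟩ := R.exists_iso_values' (r := ![e₀])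
      (LinearIndependent.of_subsingleton (0 : Fin 1) he) (by omega) ![1]
    have h1 := hcon z hzz
    rw [herm_smul_right R.form, show h (co z) (co e₀) = 1 from hz 0, mul_one] at h1
    exact hw0 (by rw [(map_eq_zero σ).1 h1, zero_smul])
  have hf0 : f₀ ≠ 0 := fun e => hf₀w (by rw [e, co_zero, herm_zero_left R.form])
  obtain ⟨e, hee, he⟩ := R.exists_iso_values' (r := ![f₀])
    (LinearIndependent.of_subsingleton (0 : Fin 1) hf0) (by omega) ![1]
  have hef : h (co e) (co f₀) = 1 := he 0
  have hfe : h (co f₀) (co e) = 1 := herm_eq_one_symm R.form hef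
  have he0 : e ≠ 0 := fun e' => by simp [e', herm_zero_left R.form] at hef
  set l := h w (co f₀) with hl
  have hl0 : l ≠ 0 := fun e' => hf₀w (herm_eq_zero_symm R.form e')
  -- the translations fixing `f₀`
  let D : (ι → F) → Prop := fun d => ∃ g ∈ M, ∃ s : F, (g : Matrix ι ι F) *ᵥ co f₀ = co f₀ ∧
    (g : Matrix ι ι F) *ᵥ co e = co e + d + s • co f₀ ∧
    ∀ q, h q (co f₀) = 0 → h q (co e) = 0 → ∃ κ : F, (g : Matrix ι ι F) *ᵥ q = q + κ • co f₀
  have D0 : D 0 := ⟨1, one_mem M, 0, by simp, by simp, fun q _ _ => ⟨0, by simp⟩⟩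
  have Dadd : ∀ d₁ d₂, h d₂ (co f₀) = 0 → h d₂ (co e) = 0 → D d₁ → D d₂ → D (d₁ + d₂) := by
    rintro d₁ d₂ hd hd' ⟨g, hg, s, g1, g2, g3⟩ ⟨g', hg', s', g1', g2', g3'⟩
    obtain ⟨κ, hκ⟩ := g3 d₂ hd hd'
    refine ⟨g * g', mul_mem hg hg', s + s' + κ, ?_, ?_, fun q hq hq' => ?_⟩
    · rw [Units.val_mul, ← mulVec_mulVec, g1', g1]
    · rw [Units.val_mul, ← mulVec_mulVec, g2', mulVec_add, mulVec_add, mulVec_smul, g1, g2, hκ]
      module
    · obtain ⟨κ₂, hκ₂⟩ := g3' q hq hq'
      obtain ⟨κ₁, hκ₁⟩ := g3 q hq hq'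
      refine ⟨κ₁ + κ₂, ?_⟩
      rw [Units.val_mul, ← mulVec_mulVec, hκ₂, mulVec_add, mulVec_smul, g1, hκ₁]
      module
  have Diso : ∀ (v : ι → F₀) (c : F), h (co v) (co v) = 0 → h (co v) (co f₀) = 0 →
      h (co v) (co e) = 0 → D (c • co v) := by
    intro v c hvv hvf hve
    rcases eq_or_ne v 0 with rfl | hv0
    · simpa using D0
    have hvs : v ∉ Submodule.span F₀ {f₀} := by
      intro hm
      obtain ⟨t, ht⟩ := Submodule.mem_span_singleton.1 hm
      have h1 := hve
      rw [← ht, co_smul, R.form.smul_left, hfe, mul_one] at h1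
      exact hv0 (by rw [← ht, show t = 0 from Subtype.ext h1, zero_smul])
    obtain ⟨g, hg, hgp⟩ := hall c f₀ v hf0 hvs ⟨hff, hvv, herm_eq_zero_symm R.form hvf⟩
    refine ⟨g, hg, 0, ?_, ?_, fun q hq _ => ⟨-(σ c * h q (co v)), ?_⟩⟩
    · rw [hgp, qhH, hff, herm_eq_zero_symm R.form hvf]; simp
    · rw [hgp, qhH, hef, herm_eq_zero_symm R.form hve]; simp
    · rw [hgp, qhH, hq]; module
  have Drat : ∀ (y : ι → F₀) (c : F), h (co y) (co f₀) = 0 → h (co y) (co e) = 0 → D (c • co y) := by
    intro y c hyf hye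
    rcases eq_or_ne y 0 with rfl | hy0
    · simpa using D0
    have hli : LinearIndependent F₀ ![f₀, e, y] := by
      rw [Fintype.linearIndependent_iff]
      intro k hk
      rw [Fin.sum_univ_three] at hk
      simp only [Matrix.cons_val_zero, Matrix.cons_val_one, Matrix.cons_val_two, Matrix.tail_cons,
        Matrix.head_cons] at hk
      have h1 := congrArg (fun x => h (co x) (co e)) hk
      have h2 := congrArg (fun x => h (co x) (co f₀)) hk
      simp [R.form.add_left, R.form.smul_left, hfe, hee, hye, herm_zero_left R.form] at h1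
      simp [R.form.add_left, R.form.smul_left, hef, hff, hyf, herm_zero_left R.form] at h2
      rw [h1, h2, zero_smul, zero_smul, zero_add, zero_add, smul_eq_zero] at hk
      intro i
      fin_cases i
      exacts [h1, h2, hk.resolve_right hy0]
    obtain ⟨b, hbb, hb⟩ := R.exists_iso_values' hli (by omega) ![0, 0, 1]
    obtain ⟨t, ht⟩ := exists_trace_eq R.sub_form.ne_refl R.sub_form.involutive (a := -R.sub y y)
      (by rw [map_neg, herm_self_fixed R.sub_form])
    have ht' : (t : F) + σ t = -h (co y) (co y) := congrArg Subtype.val ht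
    have hbf : h (co b) (co f₀) = 0 := hb 0
    have hbe : h (co b) (co e) = 0 := hb 1
    have hby : h (co b) (co y) = 1 := hb 2
    have e' : c • co y = c • co (y + t • b) + (-(c * t)) • co b := by
      rw [co_add, co_smul]
      module
    rw [e']
    refine Dadd _ _ ?_ ?_ (Diso _ _ ?_ ?_ ?_) (Diso b _ hbb hbf hbe)
    · rw [R.form.smul_left, hbf, mul_zero]
    · rw [R.form.smul_left, hbe, mul_zero]
    · rw [co_add, co_smul]
      simp only [R.form.add_left, R.form.smul_left, herm_add_right R.form, herm_smul_right R.form,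
        hbb, hby, herm_eq_one_symm R.form hby, mul_zero, add_zero, mul_one]
      linear_combination ht'
    · rw [co_add, co_smul, R.form.add_left, R.form.smul_left, hyf, hbf, mul_zero, add_zero]
    · rw [co_add, co_smul, R.form.add_left, R.form.smul_left, hye, hbe, mul_zero, add_zero]
  let Pr : (ι → F₀) → ι → F₀ := fun x => x - R.sub x f₀ • e - R.sub x e • f₀
  have Dall : ∀ x : ι → F, h x (co f₀) = 0 → h x (co e) = 0 → D x := by
    intro x hxf hxe
    have hPf : ∀ y, h (co (Pr y)) (co f₀) = 0 := fun y => by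
      simp [Pr, herm_sub_left R.form, R.form.smul_left, hef, hff]
    have hPe : ∀ y, h (co (Pr y)) (co e) = 0 := fun y => by
      simp [Pr, herm_sub_left R.form, R.form.smul_left, hfe, hee]
    have hx : x = ∑ i, x i • co (Pr (Pi.single i 1)) := by
      simp only [Pr, co_sub, co_smul, co_single, IsRatHerm.coe_sub, OneMemClass.coe_one, smul_sub,
        smul_smul, Finset.sum_sub_distrib, ← Finset.sum_smul]
      have e1 : ∀ v : ι → F, ∑ i, x i * h (Pi.single i 1) v = h x v := fun v => by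
        conv_rhs => rw [pi_eq_sum_univ' x, herm_sum_left R.form]
        simp [R.form.smul_left]
      rw [e1, e1, hxf, hxe, zero_smul, zero_smul, sub_zero, sub_zero, ← pi_eq_sum_univ' x]
    have hsum : ∀ s : Finset ι, D (∑ i ∈ s, x i • co (Pr (Pi.single i 1))) := by
      intro s
      classical
      induction s using Finset.induction with
      | empty => simpa using D0
      | insert i s his ih =>
        rw [Finset.sum_insert his, add_comm]
        refine Dadd _ _ ?_ ?_ ih (Drat _ _ (hPf _) (hPe _))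
        · rw [R.form.smul_left, hPf, mul_zero]
        · rw [R.form.smul_left, hPe, mul_zero]
    rw [hx]
    exact hsum _
  set d := l⁻¹ • w - co e - (h (l⁻¹ • w) (co e)) • co f₀ with hd
  have hdf : h d (co f₀) = 0 := by
    simp [hd, herm_sub_left R.form, R.form.smul_left, hef, hff, ← hl, hl0]
  have hde : h d (co e) = 0 := by
    simp [hd, herm_sub_left R.form, R.form.smul_left, hfe, hee]
  obtain ⟨g, hg, s, g1, g2, -⟩ := Dall d hdf hde
  have hiso : h (l⁻¹ • w) (l⁻¹ • w) = 0 := by
    rw [R.form.smul_left, herm_smul_right R.form, hw, mul_zero, mul_zero]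
  set t := h (l⁻¹ • w) (co e)
  have hwd : l⁻¹ • w = co e + d + t • co f₀ := by rw [hd]; module
  have hed : h (co e) d = 0 := herm_eq_zero_symm R.form hde
  have hfd : h (co f₀) d = 0 := herm_eq_zero_symm R.form hdf
  have ts : t + σ t = -h d d := by
    rw [hwd] at hiso
    simp only [R.form.add_left, R.form.smul_left, herm_add_right R.form, herm_smul_right R.form, hee,
      hff, hef, hfe, hde, hdf, hed, hfd] at hiso
    linear_combination hiso
  have ss : s + σ s = -h d d := by
    have h1 := hMi g hg (co e) (co e)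
    rw [g2, hee] at h1
    simp only [R.form.add_left, R.form.smul_left, herm_add_right R.form, herm_smul_right R.form, hee,
      hff, hef, hfe, hde, hdf, hed, hfd] at h1
    linear_combination h1
  obtain ⟨T, hT, hTp⟩ := long_mem R hM hn hall hf0 hff (κ := t - s)
    (by rw [map_sub]; linear_combination ts - ss)
  set g' := T * g with hg'
  have hge : (g' : Matrix ι ι F) *ᵥ co e = l⁻¹ • w := by
    rw [hg', Units.val_mul, ← mulVec_mulVec, g2, hTp]
    simp only [R.form.add_left, R.form.smul_left, hef, hdf, hff]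
    rw [hwd]
    module
  have hg'M : g' ∈ M := mul_mem hT hg
  refine (long_mem R hM hn hall he0 hee (κ := a * (l * σ l))
    (by rw [map_mul, map_mul, R.form.involutive]; linear_combination (l * σ l) * ha)).conj hg'M
      fun p => ?_
  have hw' : w = l • ((g' : Matrix ι ι F) *ᵥ co e) := by
    rw [hge, smul_smul, mul_inv_cancel₀ hl0, one_smul]
  rw [mulVec_add, mulVec_smul, hw', herm_smul_right R.form, hMi g' hg'M]
  module

end Cfsg.Lib.Classical.HermSub
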