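import Mathlib
import Cfsg.Prelude.Def_ClassicalGeometry
import Cfsg.Agent.Lib.Classical.UnitaryStd
import Cfsg.Agent.Lib.Classical.UnitarySubspaceMax

/-!
The matrices `unitaryTransvection n q v c` and the maps `utv`; transvections as commutators.
-/

set_option autoImplicit false

namespace Cfsg.Lib.Classical

open Matrix
open scoped MatrixGroups commutatorElement

variable {F : Type*} [Field F] {n q : ℕ} {σ : F ≃+* F}
  (hf : Cfsg.Geo.IsUnitaryForm σ (Cfsg.hermForm n F q))

lemma hvec_hermForm (v : Fin n → F) : hvec (Cfsg.hermForm n F q) v = fun j => (v j) ^ q := by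
  funext j
  simp [hvec, Cfsg.hermForm, Pi.single_apply]

include hf

lemma coe_utv (v : Fin n → F) (hv : Cfsg.hermForm n F q v v = 0) (c : F) :
    (utv hf v hv c : Matrix (Fin n) (Fin n) F) = Cfsg.unitaryTransvection n q v c := by
  rw [utv, coe_tvGL, tv, Cfsg.unitaryTransvection, hvec_hermForm]
  congr 1
  ext i j
  simp [vecMulVec_apply]
  ring

lemma utv_isometry_iff (v : Fin n → F) (hv0 : v ≠ 0) (hv : Cfsg.hermForm n F q v v = 0) (c : F) :
    (∀ x y, Cfsg.hermForm n F q ((utv hf v hv c : Matrix (Fin n) (Fin n) F) *ᵥ x)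
      ((utv hf v hv c : Matrix (Fin n) (Fin n) F) *ᵥ y) = Cfsg.hermForm n F q x y) ↔
      c + σ c = 0 := by
  refine ⟨fun h => ?_, fun hc => utv_isometry hf v hv hc⟩
  obtain ⟨x, hx⟩ := (hf.nondegenerate v hv0).1
  have h1 := h x x
  simp only [utv_mulVec, hf.add_left, hf.smul_left, herm_add_right hf, herm_smul_right hf, hv,
    map_mul, mul_zero, add_zero, zero_add] at h1
  rw [← hf.herm v x] at h1
  have hx' : Cfsg.hermForm n F q v x ≠ 0 := fun e => hx (herm_eq_zero_symm hf e)
  have h2 : (c + σ c) * (Cfsg.hermForm n F q x v * Cfsg.hermForm n F q v x) = 0 := by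
    linear_combination h1
  exact (mul_eq_zero.1 h2).resolve_right (mul_ne_zero hx hx')

/-- Every unitary transvection is a commutator of two elements of `SU`. -/
lemma exists_utv_eq_commutator [Fintype F] (hn : 3 ≤ n) (v : Fin n → F)
    (hv : Cfsg.hermForm n F q v v = 0) {c : F} (hc : c + σ c = 0) :
    ∃ a b : GL (Fin n) F, a ∈ Cfsg.GU n F q ⊓ Cfsg.Geo.specialLinear (Fin n) F ∧
      b ∈ Cfsg.GU n F q ⊓ Cfsg.Geo.specialLinear (Fin n) F ∧ utv hf v hv c = ⁅a, b⁆ := by
  obtain ⟨r, hr, hrr⟩ := exists_aniso hf (R := upFam hf ![v]) (by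
    have := card_le_finrank_upFam hf ![v]
    simp only [Fintype.card_fin] at this ⊢
    omega)
  obtain ⟨e, he, hee⟩ := exists_unit_of_aniso hf hr hrr
  have hev : Cfsg.hermForm n F q e v = 0 := ((mem_upFam hf).1 he) 0
  obtain ⟨s, hs⟩ := exists_trace_eq hf.ne_refl hf.involutive (map_one σ)
  have hσc : σ c = -c := eq_neg_of_add_eq_zero_right hc
  obtain ⟨l, hkey⟩ : ∃ l, σ l - l = c := ⟨-s * c, by
    rw [map_mul, map_neg, hσc]
    linear_combination c * hs⟩
  obtain ⟨E₁, hd₁, hi₁, hE₁⟩ := exists_eichler hf (w := v) (d := e) hv hev (s := s)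
    (by rw [hs, hee])
  obtain ⟨E₂, hd₂, hi₂, hE₂⟩ := exists_eichler hf (w := v) (d := l • e) hv
    (by rw [hf.smul_left, hev, mul_zero]) (s := s * (l * σ l))
    (by
      rw [hf.smul_left, herm_smul_right hf, hee, map_mul, map_mul, hf.involutive, mul_one]
      linear_combination (l * σ l) * hs)
  refine ⟨E₁, E₂, ⟨mem_GU_iff.2 hi₁, hd₁⟩, ⟨mem_GU_iff.2 hi₂, hd₂⟩, ?_⟩
  have hve : Cfsg.hermForm n F q v e = 0 := herm_eq_zero_symm hf hev
  have h12 : E₁ * E₂ = utv hf v hv c * (E₂ * E₁) := by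
    refine Units.ext (ext_mulVec fun x => ?_)
    simp only [Units.val_mul, ← mulVec_mulVec, hE₁, hE₂, utv_mulVec, hf.add_left, hf.smul_left,
      herm_sub_left hf, herm_smul_right hf, hev, hve, hv, hee, mul_zero, add_zero, sub_zero,
      mul_one]
    match_scalars
    all_goals first
      | ring1
      | linear_combination (Cfsg.hermForm n F q x v) * hkey
      | linear_combination -(Cfsg.hermForm n F q x v) * hkey
  rw [commutatorElement_def, mul_assoc (E₁ * E₂), ← _root_.mul_inv_rev, _root_.eq_mul_inv_iff_mul_eq]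
  exact h12.symm

end Cfsg.Lib.Classical
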