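import Mathlib
import Cfsg.Agent.Lib.Classical.UnitaryGen
import Cfsg.Agent.Lib.Classical.UnitarySympSubfield
import Cfsg.Agent.Lib.Classical.UnitarySubfieldRoots
import Cfsg.Agent.Lib.Classical.UnitaryTransvection
import Cfsg.Agent.Lib.Classical.OrthogonalInSL
import Cfsg.Agent.Lib.Classical.SubfieldMax

/-!
A unitary space with a rational symmetric structure: one transvection with rational centre together
with the rational isometries gives every transvection.
-/

set_option autoImplicit false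

namespace Cfsg.Lib.Classical.UOrth

open Matrix Module
open scoped MatrixGroups

variable {ι : Type} [Fintype ι] [DecidableEq ι] {F : Type*} [Field F] [Finite F] {F₀ : Subfield F}
  {σ : F ≃+* F} {f : (ι → F) → (ι → F) → F} (hf : Cfsg.Geo.IsUnitaryForm σ f)
  (hσ : ∀ a : F, a ∈ F₀ ↔ σ a = a) (hrat : ∀ u v : ι → F₀, f (co u) (co v) ∈ F₀)
  (h2 : (2 : F) ≠ 0) {M : Subgroup (GL ι F)}
  (hM : ∀ g : GL ι F, Matrix.GeneralLinearGroup.det g = 1 →
    (∀ x y, f ((g : Matrix ι ι F) *ᵥ x) ((g : Matrix ι ι F) *ᵥ y) = f x y) →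
    RatMat F₀ (g : Matrix ι ι F) → g ∈ M)
  (hn : 13 ≤ Fintype.card ι)

include hσ in
lemma sigma_co (a : F₀) : σ (a : F) = a := (hσ _).1 a.2

/-- The symmetric form on rational vectors. -/
noncomputable def B₀ : LinearMap.BilinForm F₀ (ι → F₀) :=
  LinearMap.mk₂ F₀ (fun u v => ⟨f (co u) (co v), hrat u v⟩)
    (fun u u' v => Subtype.ext (by simp [hf.add_left]))
    (fun a u v => Subtype.ext (by simp [hf.smul_left]))
    (fun u v v' => Subtype.ext (by simp [herm_add_right hf]))
    (fun a u v => Subtype.ext (by simp [herm_smul_right hf, sigma_co hσ]))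

@[simp] lemma coe_B₀ (u v : ι → F₀) : ((B₀ hf hσ hrat u v : F₀) : F) = f (co u) (co v) := rfl

include hf hσ hrat

lemma B₀_eq_zero {u v : ι → F₀} : B₀ hf hσ hrat u v = 0 ↔ f (co u) (co v) = 0 := by
  rw [← coe_B₀ hf hσ hrat]
  exact ⟨fun h => by rw [h]; rfl, fun h => Subtype.ext h⟩

lemma symm_co (u v : ι → F₀) : f (co u) (co v) = f (co v) (co u) := by
  have h := hf.herm (co u) (co v)
  rw [(hσ _).1 (hrat v u)] at h
  first
    | exact h
    | exact h.symm
    | (rw [h]; exact ((hσ _).1 (hrat v u)))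

lemma B₀_symm : (B₀ hf hσ hrat).IsSymm := ⟨fun u v => Subtype.ext (by
  rw [coe_B₀, coe_B₀]
  exact symm_co hf hσ hrat u v)⟩

omit hσ hrat in
lemma eq_zero_of_orth {w : ι → F} (h : ∀ v : ι → F₀, f w (co v) = 0) : w = 0 := by
  by_contra hw
  obtain ⟨y, hy⟩ := (hf.nondegenerate w hw).1
  refine hy (herm_eq_zero_symm hf ?_)
  have hR : ∀ (s : Finset ι) (c : ι → F) (v : ι → ι → F),
      f w (∑ i ∈ s, c i • v i) = ∑ i ∈ s, σ (c i) * f w (v i) := by
    intro s c v
    induction s using Finset.induction_on with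
    | empty => simp [herm_zero_right hf]
    | insert a s ha ih => rw [Finset.sum_insert ha, Finset.sum_insert ha, herm_add_right hf, herm_smul_right hf, ih]
  rw [pi_eq_sum_univ' y, hR]
  refine Finset.sum_eq_zero fun i _ => ?_
  have h1 := h (Pi.single i 1)
  rw [co_single, show ((1 : F₀) : F) = 1 from rfl] at h1
  rw [h1, mul_zero]

lemma B₀_nondeg : (B₀ hf hσ hrat).Nondegenerate := by
  have key : ∀ u, (∀ v, B₀ hf hσ hrat u v = 0) → u = 0 := fun u hu =>
    co_injective ((eq_zero_of_orth (F₀ := F₀) hf fun v => (B₀_eq_zero hf hσ hrat).1 (hu v)).trans co_zero.symm)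
  exact ⟨key, fun v hv => key v fun u => by
    rw [B₀_eq_zero, symm_co hf hσ hrat, ← B₀_eq_zero hf hσ hrat]; exact hv u⟩

include h2 in
omit hf hσ hrat in
lemma two₀ : (2 : F₀) ≠ 0 := fun h => h2 (by
  rw [← map_ofNat F₀.subtype 2, h, map_zero])

omit hf hσ hrat in
lemma two_mem : (2 : F) ∈ F₀ := by
  rw [← one_add_one_eq_two]; exact F₀.add_mem F₀.one_mem F₀.one_mem

omit hf hσ hrat in
@[simp] lemma coe_two₀ : ((2 : F₀) : F) = 2 := map_ofNat F₀.subtype 2

/-- Prescribed values against independent rational vectors. -/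
lemma exists_values₀ {k : ℕ} {r : Fin k → ι → F₀} (hr : LinearIndependent F₀ r) (a : Fin k → F₀) :
    ∃ z : ι → F₀, ∀ i, f (co z) (co (r i)) = a i := by
  obtain ⟨L, hL⟩ := LinearMap.exists_extend ((Finsupp.linearCombination F₀ a).comp hr.repr)
  obtain ⟨z, hz⟩ := exists_functional_vec (B₀_symm hf hσ hrat) (B₀_nondeg hf hσ hrat) L
  refine ⟨z, fun i => ?_⟩
  have h1 := LinearMap.congr_fun hL ⟨r i, Submodule.subset_span ⟨i, rfl⟩⟩
  simp only [LinearMap.comp_apply, Submodule.subtype_apply] at h1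
  rw [hr.repr_eq_single i _ rfl, Finsupp.linearCombination_single, one_smul] at h1
  rw [symm_co hf hσ hrat, ← coe_B₀ hf hσ hrat, hz, h1]

include h2 in
/-- Isotropic rational vectors with prescribed values against `e` and `w`, `e` isotropic. -/
lemma exists_iso_values₀ {e : ι → F₀} (he : f (co e) (co e) = 0) (he0 : e ≠ 0) :
    ∃ y : ι → F₀, f (co y) (co y) = 0 ∧ f (co y) (co e) = 1 := by
  have hli : LinearIndependent F₀ ![e] := by
    rw [Fintype.linearIndependent_iff]
    intro c hc i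
    fin_cases i
    simpa [he0] using hc
  obtain ⟨z, hz⟩ := exists_values₀ hf hσ hrat hli ![1]
  have hz1 : f (co z) (co e) = 1 := hz 0
  refine ⟨z + (-(⟨_, hrat z z⟩ : F₀) / 2) • e, ?_, ?_⟩
  · have h2' : ((2 : F₀) : F) = 2 := by simp
    rw [co_add, co_smul, hf.add_left, hf.smul_left, herm_add_right hf, herm_add_right hf,
      herm_smul_right hf, herm_smul_right hf, he, hz1, symm_co hf hσ hrat e z, hz1, sigma_co hσ]
    push_cast [coe_two₀]
    field_simp
    ring
  · rw [co_add, co_smul, hf.add_left, hf.smul_left, hz1, he, mul_zero, add_zero]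

omit hrat in
lemma exists_coords₀ {δ : F} (hδ : σ δ = -δ) (hδ0 : δ ≠ 0) (h2 : (2 : F) ≠ 0) (x : ι → F) :
    ∃ p r : ι → F₀, x = co p + δ • co r := by
  refine ⟨fun i => ⟨(x i + σ (x i)) / 2, (hσ _).2 ?_⟩,
    fun i => ⟨(x i - σ (x i)) / (2 * δ), (hσ _).2 ?_⟩, funext fun i => ?_⟩
  · rw [map_div₀, map_add, hf.involutive, map_ofNat, add_comm]
  · rw [map_div₀, map_sub, hf.involutive, map_mul, map_ofNat, hδ, mul_neg, div_neg, ← neg_div, neg_sub]
  · simp only [co, Pi.add_apply, Pi.smul_apply, smul_eq_mul]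
    field_simp
    ring

omit hrat in
lemma coords_inj {δ : F} (hδ : σ δ = -δ) (hδ0 : δ ≠ 0) (h2 : (2 : F) ≠ 0) {p r p' r' : ι → F₀}
    (h : co p + δ • co r = co p' + δ • co r') : p = p' ∧ r = r' := by
  have key : ∀ i, (p i : F) = p' i ∧ (r i : F) = r' i := fun i => by
    have h1 := congrFun h i
    simp only [co, Pi.add_apply, Pi.smul_apply, smul_eq_mul] at h1
    have h3 := congrArg σ h1
    simp only [map_add, map_mul, sigma_co hσ, hδ] at h3
    constructor
    · exact mul_left_cancel₀ h2 (by linear_combination h1 + h3)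
    · exact mul_left_cancel₀ (mul_ne_zero h2 hδ0) (by linear_combination h1 - h3)
  exact ⟨funext fun i => Subtype.ext (key i).1, funext fun i => Subtype.ext (key i).2⟩

include hM

/-- Rational Eichler elements lie in `M`. -/
lemma eichler_rat {w d : ι → F₀} (hw : f (co w) (co w) = 0) (hdw : f (co d) (co w) = 0) {s : F}
    (hs0 : s ∈ F₀) (hs : s + σ s = f (co d) (co d)) :
    ∃ E ∈ M, (∀ x y, f ((E : Matrix ι ι F) *ᵥ x) ((E : Matrix ι ι F) *ᵥ y) = f x y) ∧
      ∀ x, (E : Matrix ι ι F) *ᵥ x =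
        x + f x (co w) • co d - (f x (co d) + s * f x (co w)) • co w := by
  obtain ⟨E, hd, hi, hE⟩ := exists_eichler hf hw hdw hs
  refine ⟨E, hM E hd hi (HermSub.ratMat_of_maps fun v i => ?_), hi, hE⟩
  rw [hE]
  exact F₀.sub_mem (F₀.add_mem (v i).2 (F₀.mul_mem (hrat v w) (d i).2))
    (F₀.mul_mem (F₀.add_mem (hrat v d) (F₀.mul_mem hs0 (hrat v w))) (w i).2)

/-- `E` with centre `e` and direction `d` is in `M`, for some admissible parameter. -/
def InU (f : (ι → F) → (ι → F) → F) (σ : F ≃+* F) (M : Subgroup (GL ι F)) (e d : ι → F) : Prop :=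
  ∃ g ∈ M, ∃ s, s + σ s = f d d ∧
    ∀ x, (g : Matrix ι ι F) *ᵥ x = x + f x e • d - (f x d + s * f x e) • e

include h2 in
lemma inU_rat {e d : ι → F₀} (he : f (co e) (co e) = 0) (hde : f (co d) (co e) = 0) :
    InU f σ M (co e) (co d) := by
  have hs0 : f (co d) (co d) / 2 ∈ F₀ := F₀.div_mem (hrat d d) (two_mem (F₀ := F₀))
  haveI : NeZero (2 : F) := ⟨h2⟩
  have hs : f (co d) (co d) / 2 + σ (f (co d) (co d) / 2) = f (co d) (co d) := by
    rw [(hσ _).1 hs0, add_halves]
  obtain ⟨E, hEM, -, hE⟩ := eichler_rat hf hσ hrat hM he hde hs0 hs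
  exact ⟨E, hEM, _, hs, hE⟩

omit hM hσ hrat in
lemma InU.add {e d₁ d₂ : ι → F} (he : f e e = 0) (h1e : f d₁ e = 0) (h2e : f d₂ e = 0)
    (h1 : InU f σ M e d₁) (h2 : InU f σ M e d₂) : InU f σ M e (d₁ + d₂) := by
  obtain ⟨g₁, hg₁, s₁, hs₁, e₁⟩ := h1
  obtain ⟨g₂, hg₂, s₂, hs₂, e₂⟩ := h2
  refine ⟨g₁ * g₂, mul_mem hg₁ hg₂, s₁ + s₂ + f d₂ d₁, ?_, fun x => ?_⟩
  · simp only [map_add, hf.add_left, herm_add_right hf, ← hf.herm d₂ d₁]
    first
      | linear_combination hs₁ + hs₂ + hf.herm d₂ d₁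
      | linear_combination hs₁ + hs₂ - hf.herm d₂ d₁
      | linear_combination hs₁ + hs₂ + hf.herm d₁ d₂
      | linear_combination hs₁ + hs₂ - hf.herm d₁ d₂
  · simp only [Units.val_mul, ← mulVec_mulVec, e₂, e₁, herm_sub_left hf, hf.add_left, hf.smul_left,
      herm_add_right hf, he, h2e, herm_eq_zero_symm hf h1e, mul_zero, add_zero, sub_zero]
    module

omit hM hσ hrat in
lemma InU.neg {e d : ι → F} (he : f e e = 0) (hde : f d e = 0) (h : InU f σ M e d) :
    InU f σ M e (-d) := by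
  obtain ⟨g, hg, s, hs, hg'⟩ := h
  have hn : ∀ x, f x (-d) = - f x d := fun x => by
    rw [← neg_one_smul F d, herm_smul_right hf, map_neg, map_one, neg_one_mul]
  refine ⟨g⁻¹, inv_mem hg, σ s, ?_, fun x => ?_⟩
  · rw [hn, herm_neg_left hf, neg_neg, hf.involutive, add_comm, hs]
  · have key : (g : Matrix ι ι F) *ᵥ (x + f x e • (-d) - (f x (-d) + σ s * f x e) • e) = x := by
      simp only [hg', hn, herm_sub_left hf, hf.add_left, hf.smul_left, herm_neg_left hf, he, hde,
        herm_eq_zero_symm hf hde, mul_zero, add_zero, sub_zero, neg_zero]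
      match_scalars
      all_goals first
        | ring1
        | linear_combination (f x e) * hs
        | linear_combination -(f x e) * hs
    conv_lhs => rw [← key]
    rw [mulVec_mulVec, ← Units.val_mul, inv_mul_cancel, Units.val_one, one_mulVec]

omit hM hrat in
/-- Two directions give the transvection with their skew pairing. -/
lemma utv_of_inU {e d₁ d₂ : ι → F} (he : f e e = 0) (h1e : f d₁ e = 0) (h2e : f d₂ e = 0)
    (hgi : ∀ g ∈ M, ∀ x y, f ((g : Matrix ι ι F) *ᵥ x) ((g : Matrix ι ι F) *ᵥ y) = f x y)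
    (h1 : InU f σ M e d₁) (h2 : InU f σ M e d₂) :
    utv hf e he (f d₁ d₂ - f d₂ d₁) ∈ M := by
  obtain ⟨g₁, hg₁, s₁, hs₁, e₁⟩ := h1
  obtain ⟨g₂, hg₂, s₂, hs₂, e₂⟩ := h2
  have key : utv hf e he (f d₁ d₂ - f d₂ d₁) * (g₂ * g₁) = g₁ * g₂ := by
    refine Units.ext (ext_mulVec fun x => ?_)
    simp only [Units.val_mul, ← mulVec_mulVec, e₂, e₁, utv_mulVec, herm_sub_left hf, hf.add_left,
      hf.smul_left, he, h1e, h2e, herm_eq_zero_symm hf h1e, herm_eq_zero_symm hf h2e, mul_zero,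
      add_zero, sub_zero]
    module
  rw [eq_mul_inv_of_mul_eq key]
  exact mul_mem (mul_mem hg₁ hg₂) (inv_mem (mul_mem hg₂ hg₁))

variable (hgi : ∀ g ∈ M, ∀ x y, f ((g : Matrix ι ι F) *ᵥ x) ((g : Matrix ι ι F) *ᵥ y) = f x y)
include hgi h2

/-- An imaginary direction gives the transvection group. -/
theorem ucentre_of_imag {δ : F} (hδ : σ δ = -δ) (hδ0 : δ ≠ 0) {e r : ι → F₀}
    (he : f (co e) (co e) = 0) (he0 : e ≠ 0) (hre : f (co r) (co e) = 0)
    (hr : r ∉ Submodule.span F₀ {e}) (h : InU f σ M (co e) (δ • co r)) : UCentre hf M (co e) := by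
  intro he' c hc
  obtain ⟨t, ht⟩ : ∃ t : F₀, c = 2 * δ * t := by
    refine ⟨⟨c / (2 * δ), (hσ _).2 ?_⟩, (mul_div_cancel₀ _ (mul_ne_zero h2 hδ0)).symm⟩
    rw [map_div₀, map_mul, map_ofNat, hδ, mul_neg, eq_neg_of_add_eq_zero_right hc, neg_div_neg_eq]
  obtain ⟨z, hz⟩ := exists_values₀ hf hσ hrat (li_pair he0 hr) ![0, t]
  have hze : f (co z) (co e) = 0 := hz 0
  have hzr : f (co z) (co r) = t := hz 1
  have hre' : f (δ • co r) (co e) = 0 := by rw [hf.smul_left, hre, mul_zero]
  have := utv_of_inU hf hσ he hre' hze hgi h (inU_rat hf hσ hrat h2 hM he hze)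
  rwa [hf.smul_left, herm_smul_right hf, symm_co hf hσ hrat r z, hzr, hδ,
    show δ * (t : F) - -δ * t = c by rw [ht]; ring] at this

include hn

lemma exists_avoid {k : ℕ} (r : Fin k → ι → F₀) (hk : 2 * k + 3 ≤ 13) {l : ℕ} (s : Fin l → ι → F₀)
    (hl : l + k < 13) : ∃ p : ι → F₀, f (co p) (co p) = 0 ∧ (∀ i, f (co p) (co (r i)) = 0) ∧
      p ∉ Submodule.span F₀ (Set.range s) := by
  have h3 := finrank_range_le_card s (R := F₀)
  rw [Set.finrank, Fintype.card_fin] at h3
  obtain ⟨p, hp, hpr, hps⟩ := exists_sing_avoid (B₀_symm hf hσ hrat) (B₀_nondeg hf hσ hrat) (two₀ h2) r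
    (by omega) (Submodule.span F₀ (Set.range s)) (by omega)
  exact ⟨p, (B₀_eq_zero hf hσ hrat).1 hp, fun i => (B₀_eq_zero hf hσ hrat).1 (hpr i), hps⟩

lemma move_step {e d : ι → F₀} (hd : f (co d) (co d) = 0) (he : f (co e) (co e) = 0)
    (he0 : e ≠ 0) (hdn : d ∉ Submodule.span F₀ {e}) (hed : f (co e) (co d) = 0)
    (h : UCentre hf M (co e)) : UCentre hf M (co d) := by
  obtain ⟨z, hz⟩ := exists_values₀ hf hσ hrat (li_pair he0 hdn) ![1, 1]
  have hze : f (co z) (co e) = 1 := hz 0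
  have hzd : f (co z) (co d) = 1 := hz 1
  set w : ι → F₀ := z + (-(⟨_, hrat z z⟩ : F₀) / 2) • e with hwdef
  have hwe : f (co w) (co e) = 1 := by
    rw [hwdef, co_add, co_smul, hf.add_left, hf.smul_left, hze, he, mul_zero, add_zero]
  have hwd : f (co w) (co d) = 1 := by
    rw [hwdef, co_add, co_smul, hf.add_left, hf.smul_left, hzd, hed, mul_zero, add_zero]
  have hww : f (co w) (co w) = 0 := by
    rw [hwdef, co_add, co_smul, hf.add_left, hf.smul_left, herm_add_right hf, herm_add_right hf,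
      herm_smul_right hf, herm_smul_right hf, he, hze, symm_co hf hσ hrat e z, hze, sigma_co hσ]
    push_cast [coe_two₀]
    field_simp
    ring
  have hdw : f (co (d - e)) (co w) = 0 := by
    rw [co_sub, herm_sub_left hf, symm_co hf hσ hrat d, symm_co hf hσ hrat e, hwd, hwe, sub_self]
  obtain ⟨E, hEM, hEi, hE⟩ := eichler_rat hf hσ hrat hM hww hdw F₀.zero_mem (by
    rw [map_zero, add_zero, co_sub, herm_sub_left hf, herm_sub_right hf, herm_sub_right hf, hd, he,
      symm_co hf hσ hrat d e, hed]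
    simp)
  have h1 := h.map hf hEM hEi
  rwa [hE, symm_co hf hσ hrat e w, hwe, co_sub, herm_sub_right hf, he, hed, one_smul, sub_zero, zero_mul,
    add_zero, zero_smul, sub_zero, add_sub_cancel] at h1

/-- One rational centre gives all rational centres. -/
theorem ucentre_rat {e d : ι → F₀} (he : f (co e) (co e) = 0) (he0 : e ≠ 0) (hd : f (co d) (co d) = 0)
    (hd0 : d ≠ 0) (h : UCentre hf M (co e)) : UCentre hf M (co d) := by
  by_cases hde : d ∈ Submodule.span F₀ {e}
  · obtain ⟨a, rfl⟩ := Submodule.mem_span_singleton.1 hde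
    rw [co_smul]
    exact h.smul hf he _
  obtain ⟨p, hp, hpr, hps⟩ := exists_avoid hf hσ hrat h2 hM hn hgi ![e, d] (by omega) ![e, d] (by omega)
  have hpe : p ∉ Submodule.span F₀ {e} := fun h => hps (Submodule.span_mono (by rintro _ rfl; exact ⟨0, rfl⟩) h)
  have hp0 : p ≠ 0 := fun h => hpe (h ▸ zero_mem _)
  have hdp : d ∉ Submodule.span F₀ {p} := fun h => by
    obtain ⟨a, ha⟩ := Submodule.mem_span_singleton.1 h
    have ha0 : a ≠ 0 := fun h0 => hd0 (by rw [← ha, h0, zero_smul])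
    refine hps (Submodule.span_mono (by rintro _ rfl; exact ⟨1, rfl⟩) (Submodule.mem_span_singleton.2 ⟨a⁻¹, ?_⟩ :
      p ∈ Submodule.span F₀ {d}))
    rw [← ha, inv_smul_smul₀ ha0]
  have h1 := move_step hf hσ hrat h2 hM hn hgi hp he he0 hpe (by rw [symm_co hf hσ hrat]; exact hpr 0) h
  exact move_step hf hσ hrat h2 hM hn hgi hd hp hp0 hdp (hpr 1) h1

/-- All directions orthogonal to a rational point. -/
theorem inU_all {δ : F} (hδ : σ δ = -δ) (hδ0 : δ ≠ 0) {e : ι → F₀} (he : f (co e) (co e) = 0)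
    (he0 : e ≠ 0) (hall : ∀ d : ι → F₀, f (co d) (co d) = 0 → d ≠ 0 → UCentre hf M (co d))
    {x : ι → F} (hx : f x (co e) = 0) : InU f σ M (co e) x := by
  obtain ⟨p, r, rfl⟩ := exists_coords₀ hf hσ hδ hδ0 h2 x
  rw [hf.add_left, hf.smul_left] at hx
  have hpr : f (co p) (co e) = 0 ∧ f (co r) (co e) = 0 := by
    have h3 := congrArg σ hx
    rw [map_add, map_mul, hδ, map_zero, (hσ _).1 (hrat p e), (hσ _).1 (hrat r e)] at h3
    constructor
    · exact (mul_eq_zero.1 (show (2 : F) * f (co p) (co e) = 0 by linear_combination hx + h3)).resolve_left h2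
    · exact (mul_eq_zero.1 (show (2 * δ) * f (co r) (co e) = 0 by linear_combination hx - h3)).resolve_left
        (mul_ne_zero h2 hδ0)
  refine InU.add hf he hpr.1 (by rw [hf.smul_left, hpr.2, mul_zero])
    (inU_rat hf hσ hrat h2 hM he hpr.1) ?_
  -- isotropic imaginary directions
  have hiso : ∀ (w : ι → F₀), f (co w) (co e) = 0 → f (co w) (co w) = 0 → ∀ t : F₀,
      InU f σ M (co e) (δ • co (t • w)) := by
    intro w hwe hww t
    by_cases hwn : w ∈ Submodule.span F₀ {e}
    · obtain ⟨a, rfl⟩ := Submodule.mem_span_singleton.1 hwn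
      refine ⟨1, one_mem _, 2 * (δ * (t * a : F₀)), ?_, fun x => ?_⟩
      · simp only [co_smul, smul_smul, hf.smul_left, herm_smul_right hf, he, mul_zero, map_mul, map_ofNat, hδ, sigma_co hσ]
        ring
      · simp only [co_smul, smul_smul, herm_smul_right hf, map_mul, hδ, sigma_co hσ, Units.val_one,
          one_mulVec]
        push_cast
        module
    have hw0 : w ≠ 0 := fun h => hwn (h ▸ zero_mem _)
    obtain ⟨z, hz⟩ := exists_values₀ hf hσ hrat (li_pair he0 hwn) ![0, 1]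
    have hze : f (co z) (co e) = 0 := hz 0
    have hzw : f (co z) (co w) = 1 := hz 1
    haveI : NeZero (2 : F) := ⟨h2⟩
    obtain ⟨E, hEM, hEi, hE⟩ := eichler_rat hf hσ hrat hM he hze
      (F₀.div_mem (hrat z z) (two_mem (F₀ := F₀)))
      (by rw [(hσ _).1 (F₀.div_mem (hrat z z) (two_mem (F₀ := F₀))), add_halves])
    have hEw : (E : Matrix ι ι F) *ᵥ co w = co w - co e := by
      rw [hE, hwe, symm_co hf hσ hrat w z, hzw]; simp
    set c : F := -(δ * t) with hcdef
    have hc : c + σ c = 0 := by rw [hcdef, map_neg, map_mul, hδ, sigma_co hσ]; ring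
    have hc' : -c + σ (-c) = 0 := by rw [map_neg]; linear_combination -hc
    have hww' : f ((E : Matrix ι ι F) *ᵥ co w) ((E : Matrix ι ι F) *ᵥ co w) = 0 := by rw [hEi, hww]
    have hm : utv hf _ hww' c * utv hf (co w) hww (-c) ∈ M := by
      refine mul_mem ?_ (hall w hww hw0 hww (-c) hc')
      rw [← conj_utv hf E hEi (co w) hww c hww']
      exact mul_mem (mul_mem hEM (hall w hww hw0 hww c hc)) (inv_mem hEM)
    refine ⟨_, hm, -c, ?_, fun x => ?_⟩
    · rw [co_smul, smul_smul, hf.smul_left, herm_smul_right hf, hww, mul_zero, mul_zero]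
      exact hc'
    · simp only [Units.val_mul, ← mulVec_mulVec, utv_mulVec, hEw, co_smul, smul_smul, hcdef,
        herm_sub_right hf, hf.add_left, hf.smul_left, herm_smul_right hf, map_mul, hδ, sigma_co hσ,
        hww, hwe, mul_zero, add_zero, sub_zero]
      module
  have hspan : r ∈ Submodule.span F₀ {w : ι → F₀ | w ∈ famOrth (B₀ hf hσ hrat) ![e] ∧ B₀ hf hσ hrat w w = 0} := by
    have hnd := B₀_nondeg hf hσ hrat
    have hsy := B₀_symm hf hσ hrat
    rw [Cfsg.Lib.Classical.span_singular hsy hnd (two₀ h2) ?_]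
    · rw [mem_famOrth hsy]
      intro i; fin_cases i
      exact (B₀_eq_zero hf hσ hrat).2 hpr.2
    · have h1 := finrank_famOrth hsy hnd ![e]
      have h4 : (B₀ hf hσ hrat).orthogonal (famOrth (B₀ hf hσ hrat) ![e]) =
          Submodule.span F₀ (Set.range ![e]) := by
        rw [famOrth, LinearMap.BilinForm.orthogonal_orthogonal hnd hsy.isRefl]
      rw [h4]
      have h5 := finrank_range_le_card ![e] (R := F₀)
      rw [Set.finrank, Fintype.card_fin] at h5
      have h6 := Submodule.finrank_mono (inf_le_right :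
        famOrth (B₀ hf hσ hrat) ![e] ⊓ Submodule.span F₀ (Set.range ![e]) ≤ _)
      omega
  have main : ∀ r' ∈ Submodule.span F₀ {w : ι → F₀ | w ∈ famOrth (B₀ hf hσ hrat) ![e] ∧ B₀ hf hσ hrat w w = 0},
      ∀ t : F₀, f (co r') (co e) = 0 ∧ InU f σ M (co e) (δ • co (t • r')) := by
    intro r' hr'
    induction hr' using Submodule.span_induction with
    | mem w hw =>
      have hwe : f (co w) (co e) = 0 :=
        (B₀_eq_zero hf hσ hrat).1 ((mem_famOrth (B₀_symm hf hσ hrat)).1 hw.1 0)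
      exact fun t => ⟨hwe, hiso w hwe ((B₀_eq_zero hf hσ hrat).1 hw.2) t⟩
    | zero =>
      refine fun t => ⟨by simp [herm_zero_left hf], 1, one_mem _, 0, ?_, fun x => ?_⟩
      · simp [herm_zero_left hf]
      · simp [herm_zero_right hf]
    | add a b _ _ ha hb =>
      refine fun t => ⟨by rw [co_add, hf.add_left, (ha t).1, (hb t).1, add_zero], ?_⟩
      rw [smul_add, co_add, smul_add]
      exact InU.add hf he (by rw [co_smul, smul_smul, hf.smul_left, (ha t).1, mul_zero])
        (by rw [co_smul, smul_smul, hf.smul_left, (hb t).1, mul_zero]) (ha t).2 (hb t).2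
    | smul c a _ ha =>
      refine fun t => ⟨by rw [co_smul, hf.smul_left, (ha t).1, mul_zero], ?_⟩
      rw [smul_smul]
      exact (ha _).2
  simpa using (main r hspan 1).2

/-- One rational centre gives every transvection. -/
theorem uGen_top_le {δ : F} (hδ : σ δ = -δ) (hδ0 : δ ≠ 0) {e₀ : ι → F₀}
    (he₀ : f (co e₀) (co e₀) = 0) (he₀0 : e₀ ≠ 0) (h : UCentre hf M (co e₀)) :
    uGen hf (⊤ : Submodule F (ι → F)) ≤ M := by
  have hall : ∀ d : ι → F₀, f (co d) (co d) = 0 → d ≠ 0 → UCentre hf M (co d) := fun d hd hd0 =>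
    ucentre_rat hf hσ hrat h2 hM hn hgi he₀ he₀0 hd hd0 h
  refine uGen_le fun x _ hx c hc => ?_
  rcases eq_or_ne x 0 with rfl | hx0
  · rw [show utv hf (0 : ι → F) hx c = 1 from Units.ext (ext_mulVec fun y => by rw [utv_mulVec]; simp)]
    exact one_mem _
  obtain ⟨e, he, hxe⟩ : ∃ e : ι → F₀, f (co e) (co e) = 0 ∧ f x (co e) ≠ 0 := by
    by_contra! hcon
    refine hx0 (eq_zero_of_orth (F₀ := F₀) hf fun v => ?_)
    have hnd := B₀_nondeg hf hσ hrat
    have hsy := B₀_symm hf hσ hrat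
    have hv : v ∈ Submodule.span F₀ {w : ι → F₀ | w ∈ (⊤ : Submodule F₀ (ι → F₀)) ∧ B₀ hf hσ hrat w w = 0} := by
      rw [Cfsg.Lib.Classical.span_singular hsy hnd (two₀ h2) ?_]
      · exact Submodule.mem_top
      · rw [LinearMap.BilinForm.orthogonal_top_eq_bot hnd, inf_bot_eq, finrank_bot, finrank_top,
          Module.finrank_fintype_fun_eq_card]
        omega
    induction hv using Submodule.span_induction with
    | mem w hw => exact hcon w ((B₀_eq_zero hf hσ hrat).1 hw.2)
    | zero => simp [herm_zero_right hf]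
    | add a b _ _ ha hb => rw [co_add, herm_add_right hf, ha, hb, add_zero]
    | smul a b _ hb => rw [co_smul, herm_smul_right hf, hb, mul_zero]
  have he0 : e ≠ 0 := fun h => hxe (by simp [h, herm_zero_right hf])
  obtain ⟨y, hy, hye⟩ := exists_iso_values₀ hf hσ hrat h2 he he0
  set x' := (f x (co e))⁻¹ • x with hx'def
  have hx'e : f x' (co e) = 1 := by rw [hx'def, hf.smul_left, inv_mul_cancel₀ hxe]
  have hx' : f x' x' = 0 := by rw [hx'def, hf.smul_left, herm_smul_right hf, hx, mul_zero, mul_zero]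
  obtain ⟨g, hgM, s, hs, hg⟩ := inU_all hf hσ hrat h2 hM hn hgi hδ hδ0 he he0 hall (x := x' - co y)
    (by rw [herm_sub_left hf, hx'e, hye, sub_self])
  set k : F := -(f (co y) (x' - co y) + s) with hkdef
  have hgy : (g : Matrix ι ι F) *ᵥ co y = x' + k • co e := by
    rw [hg, hye, hkdef]
    module
  have hk : k + σ k = 0 := by
    have h1 := hgi g hgM (co y) (co y)
    rw [hgy, hy] at h1
    simp only [hf.add_left, hf.smul_left, herm_add_right hf, herm_smul_right hf, hx', hx'e,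
      herm_eq_one_symm hf hx'e, he] at h1
    linear_combination h1
  have hy0 : y ≠ 0 := fun h => one_ne_zero (α := F) (by rw [← hye, h, co_zero, herm_zero_left hf])
  have hu := hall e he he0 he (-k) (by rw [map_neg]; linear_combination -hk)
  have hm := mul_mem hu hgM
  have h1 := (hall y hy hy0).map hf hm (hgi _ hm)
  rw [Units.val_mul, ← mulVec_mulVec, hgy, utv_mulVec, hf.add_left x', hx'e, hf.smul_left k, he, mul_zero,
    add_zero, mul_one, add_assoc, ← add_smul, add_neg_cancel, zero_smul, add_zero] at h1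
  have h3 := h1.smul hf hx' (f x (co e))
  rw [hx'def, smul_inv_smul₀ hxe] at h3
  exact h3 hx c hc

end Cfsg.Lib.Classical.UOrth
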