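import Mathlib
import Cfsg.Agent.Lib.Classical.UnitaryOrthSubfieldRoots
import Cfsg.Agent.Lib.Classical.SubfieldMem

/-!
The orthogonal subfield subgroups of the unitary groups are maximal.
-/

set_option autoImplicit false

namespace Cfsg.Lib.Classical.UOrth

open Matrix Module
open Cfsg.Lib.Classical.SkewSub (cj cj_add cj_smul cj_co cj_cj)
open scoped MatrixGroups

variable {ι : Type} [Fintype ι] [DecidableEq ι] {F : Type*} [Field F] [Finite F] {F₀ : Subfield F}
  {σ : F ≃+* F} {f : (ι → F) → (ι → F) → F} (hf : Cfsg.Geo.IsUnitaryForm σ f)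
  (hσ : ∀ a : F, a ∈ F₀ ↔ σ a = a) (hrat : ∀ u v : ι → F₀, f (co u) (co v) ∈ F₀)
  (h2 : (2 : F) ≠ 0) {M : Subgroup (GL ι F)}
  (hM : ∀ g : GL ι F, Matrix.GeneralLinearGroup.det g = 1 →
    (∀ x y, f ((g : Matrix ι ι F) *ᵥ x) ((g : Matrix ι ι F) *ᵥ y) = f x y) →
    RatMat F₀ (g : Matrix ι ι F) → g ∈ M)
  (hn : 13 ≤ Fintype.card ι)
  (hgi : ∀ g ∈ M, ∀ x y, f ((g : Matrix ι ι F) *ᵥ x) ((g : Matrix ι ι F) *ᵥ y) = f x y)
  {δ : F} (hδ : σ δ = -δ) (hδ0 : δ ≠ 0)

include hf hσ hrat h2 hM hn hgi hδ hδ0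

/-- A plane root element is rational, or some rational point is a centre. -/
theorem plane_case {Y : GL ι F} (hY : Y ∈ M) {a b : ι → F}
    (hform : ∀ x, (Y : Matrix ι ι F) *ᵥ x = x + f x a • b - f x b • a) :
    (∀ u : ι → F₀, ∃ w : ι → F₀, (Y : Matrix ι ι F) *ᵥ co u = co w) ∨
      ∃ e₀ : ι → F₀, f (co e₀) (co e₀) = 0 ∧ e₀ ≠ 0 ∧ UCentre hf M (co e₀) := by
  refine or_iff_not_imp_right.2 fun hno => ?_
  obtain ⟨a1, a2, rfl⟩ := exists_coords₀ hf hσ hδ hδ0 h2 a
  obtain ⟨b1, b2, rfl⟩ := exists_coords₀ hf hσ hδ hδ0 h2 b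
  have hfix : ∀ e : ι → F₀, (∀ i, f (co e) (co (![a1, a2, b1, b2] i)) = 0) →
      (Y : Matrix ι ι F) *ᵥ co e = co e := by
    intro e he
    have h0 : f (co e) (co a1) = 0 := he 0
    have h1 : f (co e) (co a2) = 0 := he 1
    have h3 : f (co e) (co b1) = 0 := he 2
    have h4 : f (co e) (co b2) = 0 := he 3
    rw [hform]
    simp [herm_add_right hf, herm_smul_right hf, h0, h1, h3, h4]
  choose p r hpr using fun u : ι → F₀ => exists_coords₀ hf hσ hδ hδ0 h2 ((Y : Matrix ι ι F) *ᵥ co u)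
  -- the imaginary part lies on every orthogonal fixed rational point
  have hstep : ∀ e : ι → F₀, f (co e) (co e) = 0 → e ≠ 0 →
      (∀ i, f (co e) (co (![a1, a2, b1, b2] i)) = 0) → ∀ u : ι → F₀, f (co u) (co e) = 0 →
      r u ∈ Submodule.span F₀ {e} := by
    intro e he he0 hea u hue
    by_contra hr
    have hYe := hfix e hea
    have hYue : f ((Y : Matrix ι ι F) *ᵥ co u) (co e) = 0 := by
      conv_lhs => arg 2; rw [← hYe]
      rw [hgi Y hY, hue]
    have hpe : f (co (p u)) (co e) = 0 ∧ f (co (r u)) (co e) = 0 := by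
      have h1 := hYue
      rw [hpr u, hf.add_left, hf.smul_left] at h1
      have h3 := congrArg σ h1
      rw [map_add, map_mul, hδ, map_zero, (hσ _).1 (hrat (p u) e), (hσ _).1 (hrat (r u) e)] at h3
      constructor
      · exact (mul_eq_zero.1 (show (2 : F) * f (co (p u)) (co e) = 0 by linear_combination h1 + h3)).resolve_left h2
      · exact (mul_eq_zero.1 (show (2 * δ) * f (co (r u)) (co e) = 0 by linear_combination h1 - h3)).resolve_left
          (mul_ne_zero h2 hδ0)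
    obtain ⟨E, hE, s, hs, hEf⟩ := inU_rat hf hσ hrat h2 hM he hue
    have hY' : InU f σ M (co e) ((Y : Matrix ι ι F) *ᵥ co u) := by
      refine ⟨Y * E * Y⁻¹, mul_mem (mul_mem hY hE) (inv_mem hY), s, by rw [hgi Y hY, hs], fun x => ?_⟩
      have hxe : f ((Y⁻¹ : GL ι F).1 *ᵥ x) (co e) = f x (co e) := by
        conv_rhs => rw [← mulVec_inv_mulVec Y x, ← hYe, hgi Y hY]
      have hxu : f ((Y⁻¹ : GL ι F).1 *ᵥ x) (co u) = f x ((Y : Matrix ι ι F) *ᵥ co u) := by
        conv_rhs => rw [← mulVec_inv_mulVec Y x, hgi Y hY]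
      rw [Units.val_mul, Units.val_mul, ← mulVec_mulVec, ← mulVec_mulVec, hEf, mulVec_sub, mulVec_add,
        mulVec_smul, mulVec_smul, mulVec_inv_mulVec, hYe, hxe, hxu]
    have hneg : InU f σ M (co e) (-(co (p u))) :=
      InU.neg hf he hpe.1 (inU_rat hf hσ hrat h2 hM he hpe.1)
    have hsum := InU.add hf he hYue (by rw [herm_neg_left hf, hpe.1, neg_zero]) hY' hneg
    rw [hpr u, show co (p u) + δ • co (r u) + -co (p u) = δ • co (r u) by abel] at hsum
    exact hno ⟨e, he, he0, ucentre_of_imag hf hσ hrat h2 hM hgi hδ hδ0 he he0 hpe.2 hr hsum⟩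
  -- four fixed points
  obtain ⟨e0, q0, o0, s0⟩ := exists_avoid hf hσ hrat h2 hM hn hgi ![a1, a2, b1, b2] (by omega)
    (![] : Fin 0 → ι → F₀) (by omega)
  obtain ⟨e1, q1, o1, s1⟩ := exists_avoid hf hσ hrat h2 hM hn hgi ![a1, a2, b1, b2] (by omega) ![e0] (by omega)
  obtain ⟨e2, q2, o2, s2⟩ := exists_avoid hf hσ hrat h2 hM hn hgi ![a1, a2, b1, b2] (by omega) ![e0, e1] (by omega)
  obtain ⟨e3, q3, o3, s3⟩ := exists_avoid hf hσ hrat h2 hM hn hgi ![a1, a2, b1, b2] (by omega) ![e0, e1, e2] (by omega)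
  have n0 : e0 ≠ 0 := fun h => s0 (h ▸ zero_mem _)
  have n1 : e1 ≠ 0 := fun h => s1 (h ▸ zero_mem _)
  have n2 : e2 ≠ 0 := fun h => s2 (h ▸ zero_mem _)
  have n3 : e3 ≠ 0 := fun h => s3 (h ▸ zero_mem _)
  let L : (ι → F₀) →ₗ[F₀] (ι → F₀) :=
    { toFun := r
      map_add' := fun u v => (coords_inj hf hσ hδ hδ0 h2 (p := p (u + v)) (p' := p u + p v) (by
        rw [← hpr, co_add, mulVec_add, hpr, hpr, co_add, co_add, smul_add]; abel)).2
      map_smul' := fun c u => (coords_inj hf hσ hδ hδ0 h2 (p := p (c • u)) (p' := c • p u) (by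
        rw [← hpr, co_smul, mulVec_smul, hpr, RingHom.id_apply, co_smul, co_smul, smul_add, smul_comm])).2 }
  have hnd := B₀_nondeg hf hσ hrat
  have hsy := B₀_symm hf hσ hrat
  have hpair : ∀ e e' : ι → F₀, f (co e) (co e) = 0 → e ≠ 0 → f (co e') (co e') = 0 → e' ≠ 0 →
      (∀ i, f (co e) (co (![a1, a2, b1, b2] i)) = 0) → (∀ i, f (co e') (co (![a1, a2, b1, b2] i)) = 0) →
      e' ∉ Submodule.span F₀ {e} → famOrth (B₀ hf hσ hrat) ![e, e'] ≤ LinearMap.ker L := by
    intro e e' he he0 he' he0' ho ho' hne u hu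
    rw [mem_famOrth hsy] at hu
    obtain ⟨x, hx⟩ := Submodule.mem_span_singleton.1
      (hstep e he he0 ho u ((B₀_eq_zero hf hσ hrat).1 (hu 0)))
    obtain ⟨y, hy⟩ := Submodule.mem_span_singleton.1
      (hstep e' he' he0' ho' u ((B₀_eq_zero hf hσ hrat).1 (hu 1)))
    show r u = 0
    rcases eq_or_ne y 0 with rfl | hy0
    · rw [← hy, zero_smul]
    refine absurd (Submodule.mem_span_singleton.2 ⟨y⁻¹ * x, ?_⟩) hne
    rw [← smul_smul, hx, ← hy, inv_smul_smul₀ hy0]
  have hker : LinearMap.ker L = ⊤ := by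
    have horth : (B₀ hf hσ hrat).orthogonal (LinearMap.ker L) = ⊥ := by
      refine eq_bot_iff.2 fun v hv => ?_
      have h01 := LinearMap.BilinForm.orthogonal_le (B := B₀ hf hσ hrat)
        (hpair e0 e1 q0 n0 q1 n1 o0 o1 (fun h => s1 (Submodule.span_mono
          (by rintro _ rfl; exact ⟨0, rfl⟩) h))) hv
      have h23 := LinearMap.BilinForm.orthogonal_le (B := B₀ hf hσ hrat)
        (hpair e2 e3 q2 n2 q3 n3 o2 o3 (fun h => s3 (Submodule.span_mono
          (by rintro _ rfl; exact ⟨2, rfl⟩) h))) hv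
      rw [famOrth, LinearMap.BilinForm.orthogonal_orthogonal hnd hsy.isRefl] at h01 h23
      rw [Submodule.mem_span_range_iff_exists_fun] at h01 h23
      obtain ⟨c, hc⟩ := h01
      obtain ⟨d, hd⟩ := h23
      simp only [Fin.sum_univ_two, Matrix.cons_val_zero, Matrix.cons_val_one] at hc hd
      have hd3 : d 1 = 0 := by
        by_contra h
        refine s3 ((Submodule.mem_span_range_iff_exists_fun F₀).2
          ⟨![(d 1)⁻¹ * c 0, (d 1)⁻¹ * c 1, -((d 1)⁻¹ * d 0)], ?_⟩)
        simp only [Fin.sum_univ_three, Matrix.cons_val_zero, Matrix.cons_val_one, Matrix.cons_val_two,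
          Matrix.head_cons, Matrix.tail_cons, neg_smul]
        rw [← smul_smul, ← smul_smul, ← smul_smul, ← smul_add, hc, ← hd, smul_add, inv_smul_smul₀ h]
        abel
      rw [hd3, zero_smul, add_zero] at hd
      have hd2 : d 0 = 0 := by
        by_contra h
        refine s2 ((Submodule.mem_span_range_iff_exists_fun F₀).2
          ⟨![(d 0)⁻¹ * c 0, (d 0)⁻¹ * c 1], ?_⟩)
        simp only [Fin.sum_univ_two, Matrix.cons_val_zero, Matrix.cons_val_one]
        rw [← smul_smul, ← smul_smul, ← smul_add, hc, ← hd, inv_smul_smul₀ h]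
      rw [Submodule.mem_bot, ← hd, hd2, zero_smul]
    rw [← LinearMap.BilinForm.orthogonal_orthogonal hnd hsy.isRefl (LinearMap.ker L), horth,
      LinearMap.BilinForm.orthogonal_bot]
  intro u
  refine ⟨p u, ?_⟩
  have h0 : r u = 0 := (hker ▸ Submodule.mem_top : u ∈ LinearMap.ker L)
  rw [hpr u, h0, co_zero, smul_zero, add_zero]

/-- Every element is a multiple of a rational one, or some rational point is a centre. -/
theorem scalRat_or_centre {g : GL ι F} (hg : g ∈ M) :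
    ScalRat F₀ (g : Matrix ι ι F) ∨
      ∃ e₀ : ι → F₀, f (co e₀) (co e₀) = 0 ∧ e₀ ≠ 0 ∧ UCentre hf M (co e₀) := by
  refine or_iff_not_imp_right.2 fun hno => ?_
  have hfix : ∀ a : F, a ∈ F₀ ↔ σ a = a := hσ
  -- rational combinations of independent rational vectors
  have hcomb : ∀ {k : ℕ} (v : Fin k → ι → F₀), LinearIndependent F₀ v → ∀ c : Fin k → F,
      ∑ i, c i • ((g : Matrix ι ι F) *ᵥ co (v i)) = 0 → ∀ i, c i = 0 := by
    intro k v hv c hc i
    obtain ⟨z, hz⟩ := exists_values₀ hf hσ hrat hv (Pi.single i 1)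
    have hL := map_sum (leftLin hf ((g : Matrix ι ι F) *ᵥ co z)) (fun j => c j • ((g : Matrix ι ι F) *ᵥ co (v j)))
      Finset.univ
    rw [hc, map_zero] at hL
    have h3 : (0 : F) = ∑ j, c j * ((Pi.single i 1 : Fin k → F₀) j : F) := by
      refine hL.trans (Finset.sum_congr rfl fun j _ => ?_)
      show f (c j • ((g : Matrix ι ι F) *ᵥ co (v j))) ((g : Matrix ι ι F) *ᵥ co z) = _
      rw [hf.smul_left, hgi g hg, symm_co hf hσ hrat, hz]
    rw [Finset.sum_eq_single i (fun j _ hj => by simp [hj]) (by simp)] at h3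
    simpa using h3.symm
  have hplane : ∀ e d : ι → F₀, f (co e) (co e) = 0 → f (co d) (co d) = 0 → f (co e) (co d) = 0 →
      LinearIndependent F₀ ![e, d] →
      ∃ x y : F, cj σ ((g : Matrix ι ι F) *ᵥ co e) =
        x • ((g : Matrix ι ι F) *ᵥ co e) + y • ((g : Matrix ι ι F) *ᵥ co d) := by
    intro e d he hd hed hli
    set a := (g : Matrix ι ι F) *ᵥ co e with hadef
    set b := (g : Matrix ι ι F) *ᵥ co d with hbdef
    have hde : f (co d) (co e) = 0 := by rw [symm_co hf hσ hrat]; exact hed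
    obtain ⟨X, hXM, hXi, hX⟩ := eichler_rat hf hσ hrat hM he hde F₀.zero_mem (by rw [map_zero, add_zero, hd])
    have hform : ∀ x, ((g * X * g⁻¹ : GL ι F) : Matrix ι ι F) *ᵥ x = x + f x a • b - f x b • a := by
      intro x
      have hxe : f ((g⁻¹ : GL ι F).1 *ᵥ x) (co e) = f x a := by
        conv_rhs => rw [← mulVec_inv_mulVec g x, hadef, hgi g hg]
      have hxd : f ((g⁻¹ : GL ι F).1 *ᵥ x) (co d) = f x b := by
        conv_rhs => rw [← mulVec_inv_mulVec g x, hbdef, hgi g hg]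
      rw [Units.val_mul, Units.val_mul, ← mulVec_mulVec, ← mulVec_mulVec, hX, mulVec_sub, mulVec_add,
        mulVec_smul, mulVec_smul, mulVec_inv_mulVec, hxe, hxd, zero_mul, add_zero]
    obtain h | h := plane_case hf hσ hrat h2 hM hn hgi hδ hδ0 (mul_mem (mul_mem hg hXM) (inv_mem hg)) hform
    swap
    · exact absurd h hno
    have hliF : LinearIndependent F ![a, b] := by
      rw [Fintype.linearIndependent_iff]
      intro c hc
      refine hcomb ![e, d] hli c ?_
      rw [← hc]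
      simp [Fin.sum_univ_two, hadef, hbdef]
    obtain ⟨x, hx⟩ := exists_herm_values hf hliF ![0, 1]
    have hxa : f x a = 0 := hx 0
    have hxb : f x b = 1 := hx 1
    obtain ⟨x1, x2, rfl⟩ := exists_coords₀ hf hσ hδ hδ0 h2 x
    obtain ⟨w1, hw1⟩ := h x1
    obtain ⟨w2, hw2⟩ := h x2
    have k1 : co w1 - co x1 = f (co x1) a • b - f (co x1) b • a := by rw [← hw1, hform]; abel
    have k2 : co w2 - co x2 = f (co x2) a • b - f (co x2) b • a := by rw [← hw2, hform]; abel
    have h3 : -a = (co w1 - co x1) + δ • (co w2 - co x2) := by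
      have h4 := hform (co x1 + δ • co x2)
      rw [hxa, hxb, mulVec_add, mulVec_smul, hw1, hw2, zero_smul, one_smul] at h4
      rw [smul_sub]
      linear_combination (norm := module) -h4
    have h5 := congrArg (cj σ) h3
    rw [← co_sub, ← co_sub, ← neg_one_smul F a, cj_smul, cj_add, cj_smul, cj_co hfix, cj_co hfix, map_neg,
      map_one, hδ, co_sub, co_sub, k1, k2] at h5
    refine ⟨f (co x1) b - δ * f (co x2) b, -(f (co x1) a) + δ * f (co x2) a, ?_⟩
    linear_combination (norm := module) -h5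
  have hline : ∀ e : ι → F₀, f (co e) (co e) = 0 → e ≠ 0 →
      ∃ α : F, cj σ ((g : Matrix ι ι F) *ᵥ co e) = α • ((g : Matrix ι ι F) *ᵥ co e) := by
    intro e he he0
    obtain ⟨d, hd, hde, hds⟩ := exists_avoid hf hσ hrat h2 hM hn hgi ![e] (by omega) ![e] (by omega)
    obtain ⟨d', hd', hde', hds'⟩ := exists_avoid hf hσ hrat h2 hM hn hgi ![e, d] (by omega) ![e, d] (by omega)
    have hli : LinearIndependent F₀ ![e, d] := li_pair he0 fun h => hds
      (Submodule.span_mono (by rintro _ rfl; exact ⟨0, rfl⟩) h)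
    have hli' : LinearIndependent F₀ ![e, d'] := li_pair he0 fun h => hds'
      (Submodule.span_mono (by rintro _ rfl; exact ⟨0, rfl⟩) h)
    obtain ⟨x, y, h1⟩ := hplane e d he hd (by rw [symm_co hf hσ hrat]; exact hde 0) hli
    obtain ⟨x', y', h1'⟩ := hplane e d' he hd' (by rw [symm_co hf hσ hrat]; exact hde' 0) hli'
    have hli3 : LinearIndependent F₀ ![d', e, d] := linearIndependent_fin_cons.2 ⟨hli, hds'⟩
    have := hcomb ![d', e, d] hli3 ![-y', x - x', y] (by
      simp only [Fin.sum_univ_three, Matrix.cons_val_zero, Matrix.cons_val_one, Matrix.cons_val_two,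
        Matrix.head_cons, Matrix.tail_cons]
      linear_combination (norm := module) h1' - h1) 2
    exact ⟨x, by rw [h1, show y = 0 from this, zero_smul, add_zero]⟩
  have hpairα : ∀ e d : ι → F₀, f (co e) (co e) = 0 → f (co d) (co d) = 0 → f (co e) (co d) = 0 →
      LinearIndependent F₀ ![e, d] → ∀ α β : F,
      cj σ ((g : Matrix ι ι F) *ᵥ co e) = α • ((g : Matrix ι ι F) *ᵥ co e) →
      cj σ ((g : Matrix ι ι F) *ᵥ co d) = β • ((g : Matrix ι ι F) *ᵥ co d) → α = β := by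
    intro e d he hd hed hli α β ha hb
    have hne : e + d ≠ 0 := fun h => by
      have := (LinearIndependent.pair_iff.1 hli 1 1 (by simpa using h)).1
      exact one_ne_zero this
    obtain ⟨γ, hγ⟩ := hline (e + d) (by
      rw [co_add, hf.add_left, herm_add_right hf, herm_add_right hf, he, hd, hed,
        symm_co hf hσ hrat d e, hed]; ring) hne
    rw [co_add, mulVec_add, cj_add, ha, hb] at hγ
    have h := hcomb ![e, d] hli ![α - γ, β - γ] (by
      simp only [Fin.sum_univ_two, Matrix.cons_val_zero, Matrix.cons_val_one]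
      linear_combination (norm := module) hγ)
    have h0 : α - γ = 0 := h 0
    have h1 : β - γ = 0 := h 1
    exact (sub_eq_zero.1 h0).trans (sub_eq_zero.1 h1).symm
  -- one multiplier for all isotropic vectors
  obtain ⟨e₁, he₁, -, hes⟩ := exists_avoid hf hσ hrat h2 hM hn hgi (![] : Fin 0 → ι → F₀) (by omega)
    (![] : Fin 0 → ι → F₀) (by omega)
  have he₁0 : e₁ ≠ 0 := fun h => hes (h ▸ zero_mem _)
  obtain ⟨α, hα⟩ := hline e₁ he₁ he₁0
  have hsame : ∀ e : ι → F₀, f (co e) (co e) = 0 →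
      cj σ ((g : Matrix ι ι F) *ᵥ co e) = α • ((g : Matrix ι ι F) *ᵥ co e) := by
    intro e he
    rcases eq_or_ne e 0 with rfl | he0
    · funext i; simp [cj]
    obtain ⟨β, hβ⟩ := hline e he he0
    obtain ⟨d, hd, hde, hds⟩ := exists_avoid hf hσ hrat h2 hM hn hgi ![e₁, e] (by omega) ![e₁, e] (by omega)
    have hd0 : d ≠ 0 := fun h => hds (h ▸ zero_mem _)
    obtain ⟨γ, hγ⟩ := hline d hd hd0
    have l1 : LinearIndependent F₀ ![e₁, d] := li_pair he₁0 fun h => hds
      (Submodule.span_mono (by rintro _ rfl; exact ⟨0, rfl⟩) h)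
    have l2 : LinearIndependent F₀ ![e, d] := li_pair he0 fun h => hds
      (Submodule.span_mono (by rintro _ rfl; exact ⟨1, rfl⟩) h)
    rw [hpairα e₁ d he₁ hd (by rw [symm_co hf hσ hrat]; exact hde 0) l1 α γ hα hγ,
      ← hpairα e d he hd (by rw [symm_co hf hσ hrat]; exact hde 1) l2 β γ hβ hγ]
    exact hβ
  have hall : ∀ v : ι → F₀, cj σ ((g : Matrix ι ι F) *ᵥ co v) = α • ((g : Matrix ι ι F) *ᵥ co v) := by
    intro v
    have hnd := B₀_nondeg hf hσ hrat
    have hsy := B₀_symm hf hσ hrat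
    have hv : v ∈ Submodule.span F₀ {w : ι → F₀ | w ∈ (⊤ : Submodule F₀ (ι → F₀)) ∧ B₀ hf hσ hrat w w = 0} := by
      rw [Cfsg.Lib.Classical.span_singular hsy hnd (two₀ h2) ?_]
      · exact Submodule.mem_top
      · rw [LinearMap.BilinForm.orthogonal_top_eq_bot hnd, inf_bot_eq, finrank_bot, finrank_top,
          Module.finrank_fintype_fun_eq_card]
        omega
    induction hv using Submodule.span_induction with
    | mem w hw => exact hsame w ((B₀_eq_zero hf hσ hrat).1 hw.2)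
    | zero => funext i; simp [cj]
    | add a b _ _ ha hb => rw [co_add, mulVec_add, cj_add, ha, hb, smul_add]
    | smul a b _ hb => rw [co_smul, mulVec_smul, cj_smul, hb, sigma_co hσ, smul_comm]
  have hαα : σ α * α = 1 := by
    have h := congrArg (cj σ) hα
    rw [cj_cj hf.involutive, cj_smul, hα, smul_smul] at h
    have h' := hcomb ![e₁] (by rw [linearIndependent_unique_iff]; exact he₁0) ![σ α * α - 1] (by
      simp only [Fin.sum_univ_one, Matrix.cons_val_zero]
      linear_combination (norm := module) -h) 0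
    exact sub_eq_zero.1 h'
  obtain ⟨c, hc0, hc⟩ : ∃ c : F, c ≠ 0 ∧ σ c * α = c := by
    by_cases h : (1 : F) + α = 0
    · refine ⟨δ, hδ0, ?_⟩
      rw [hδ, show α = -1 by linear_combination h]; ring
    · exact ⟨1 + α, h, by rw [map_add, map_one]; linear_combination hαα⟩
  refine ⟨c, hc0, HermSub.ratMat_of_maps fun v i => (hσ _).2 ?_⟩
  have h := congrFun (show cj σ ((c • (g : Matrix ι ι F)) *ᵥ co v) = (c • (g : Matrix ι ι F)) *ᵥ co v by
    rw [smul_mulVec, cj_smul, hall, smul_smul, hc]) i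
  exact h

omit hM hgi

/-- Maximality for the standard rational structure. -/
theorem isMaximalIn_one (K : Subgroup (GL ι F))
    (hK : ∀ g : GL ι F, g ∈ K ↔ Matrix.GeneralLinearGroup.det g = 1 ∧
      ∀ x y, f ((g : Matrix ι ι F) *ᵥ x) ((g : Matrix ι ι F) *ᵥ y) = f x y) :
    Cfsg.Geo.IsMaximalIn K (Cfsg.Geo.subfieldSubgroup F₀ (1 : GL ι F) ⊓ K) := by
  have hiff : ∀ g : GL ι F, g ∈ Cfsg.Geo.subfieldSubgroup F₀ (1 : GL ι F) ↔
      ScalRat F₀ (g : Matrix ι ι F) := fun g => by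
    rw [mem_subfieldSubgroup_iff, inv_one, one_mul, mul_one]
  refine ⟨lt_of_le_of_ne inf_le_right fun heq => ?_, fun H hH hHK => ?_⟩
  · -- a transvection outside
    have hsy := B₀_symm hf hσ hrat
    have hnd := B₀_nondeg hf hσ hrat
    obtain ⟨e, he, -, hes⟩ := Cfsg.Lib.Classical.exists_sing_avoid hsy hnd (two₀ h2)
      (![] : Fin 0 → ι → F₀) (by omega) ⊥ (by rw [finrank_bot]; omega)
    have he0 : e ≠ 0 := fun h => hes (h ▸ zero_mem _)
    have hee := (B₀_eq_zero hf hσ hrat).1 he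
    obtain ⟨y, -, hye⟩ := exists_iso_values₀ hf hσ hrat h2 hee he0
    have hmem : utv hf (co e) hee δ ∈ K :=
      (hK _).2 ⟨utv_det hf _ hee δ, utv_isometry hf _ hee (by rw [hδ, add_neg_cancel])⟩
    rw [← heq] at hmem
    obtain ⟨c, hc, hcR⟩ := (hiff _).1 hmem.1
    have key : ∀ v : ι → F₀, ∀ i, c * ((utv hf (co e) hee δ : Matrix ι ι F) *ᵥ co v) i ∈ F₀ := fun v i => by
      rw [← smul_eq_mul, ← Pi.smul_apply, ← smul_mulVec]
      exact F₀.sum_mem fun j _ => F₀.mul_mem (hcR i j) (v j).2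
    obtain ⟨k, hk⟩ := Function.ne_iff.1 he0
    have hk' : (e k : F) ≠ 0 := fun h => hk (Subtype.ext h)
    have h1 := key e k
    rw [utv_mulVec, hee, mul_zero, zero_smul, add_zero] at h1
    have hcF : c ∈ F₀ := by
      have h2' := F₀.div_mem h1 (e k).2
      rwa [show c * co e k / (e k : F) = c from mul_div_cancel_right₀ _ hk'] at h2'
    have h3 := key y k
    rw [utv_mulVec, hye, mul_one] at h3
    have h4 : c * δ * (e k : F) ∈ F₀ := by
      have := F₀.sub_mem h3 (F₀.mul_mem hcF (y k).2)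
      simpa [co, mul_add, mul_assoc] using this
    have h5 := F₀.div_mem (F₀.div_mem h4 (e k).2) hcF
    rw [mul_div_cancel_right₀ _ hk', mul_div_cancel_left₀ _ hc] at h5
    have h6 := (hσ _).1 h5
    rw [hδ] at h6
    exact hδ0 ((mul_eq_zero.1 (show (2 : F) * δ = 0 by linear_combination -h6)).resolve_left h2)
  · have hM : ∀ g : GL ι F, Matrix.GeneralLinearGroup.det g = 1 →
        (∀ x y, f ((g : Matrix ι ι F) *ᵥ x) ((g : Matrix ι ι F) *ᵥ y) = f x y) →
        RatMat F₀ (g : Matrix ι ι F) → g ∈ H := fun g hd hi hr =>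
      hH ⟨(hiff g).2 ⟨1, one_ne_zero, by rw [one_smul]; exact hr⟩, (hK g).2 ⟨hd, hi⟩⟩
    have hgi : ∀ g ∈ H, ∀ x y, f ((g : Matrix ι ι F) *ᵥ x) ((g : Matrix ι ι F) *ᵥ y) = f x y :=
      fun g hg => ((hK g).1 (hHK hg)).2
    by_cases hS : ∀ g ∈ H, ScalRat F₀ (g : Matrix ι ι F)
    · exact Or.inl (le_antisymm (fun g hg => ⟨(hiff g).2 (hS g hg), hHK hg⟩) hH)
    push Not at hS
    obtain ⟨g, hg, hgn⟩ := hS
    obtain ⟨e₀, he₀, he₀0, hu⟩ := (scalRat_or_centre hf hσ hrat h2 hM hn hgi hδ hδ0 hg).resolve_left hgn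
    refine Or.inr (le_antisymm hHK fun k hk => uGen_top_le hf hσ hrat h2 hM hn hgi hδ hδ0 he₀ he₀0 hu
      (mem_uGen_top hf (fun h3 => absurd h3 (by omega)) ((hK k).1 hk).2 ((hK k).1 hk).1))

end Cfsg.Lib.Classical.UOrth
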