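import Mathlib
import Cfsg.Agent.Lib.Classical.UnitaryPairMax
import Cfsg.Agent.Lib.Classical.SymplecticCentre

/-!
Conclusion: an overgroup in `SU` of the stabiliser of a pair of complementary totally singular
subspaces with a further element contains every unitary transvection.
-/

set_option autoImplicit false

namespace Cfsg.Lib.Classical

open Matrix Module
open scoped MatrixGroups

variable {ι : Type} [Fintype ι] [DecidableEq ι] {F : Type*} [Field F] [Finite F] {σ : F ≃+* F}
  {f : (ι → F) → (ι → F) → F} {A A' : Submodule F (ι → F)} {m : ℕ} {M : Subgroup (GL ι F)}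

variable (P : IsUPol σ f A A' m)

include P

/-- An element of `SU` exchanging the two subspaces. -/
lemma exists_uswap : ∃ τ : GL ι F, Matrix.GeneralLinearGroup.det τ = 1 ∧
    (∀ x y, f ((τ : Matrix ι ι F) *ᵥ x) ((τ : Matrix ι ι F) *ᵥ y) = f x y) ∧
      (∀ x ∈ A, (τ : Matrix ι ι F) *ᵥ x ∈ A') ∧ ∀ x ∈ A', (τ : Matrix ι ι F) *ᵥ x ∈ A := by
  classical
  have hf := P.form
  let bA := Module.finBasis F A
  let a : Fin (finrank F A) → ι → F := fun i => (bA i : ι → F)
  have hli : LinearIndependent F a :=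
    bA.linearIndependent.map' A.subtype (Submodule.ker_subtype A)
  choose b hb hbv using fun j => P.exists_dual hli (fun i => (bA i).2) (Pi.single j 1)
  have hab : ∀ i j, f (a i) (b j) = if i = j then 1 else 0 := fun i j => by
    rw [hbv j i, Pi.single_apply]
  have hba : ∀ i j, f (b j) (a i) = if i = j then 1 else 0 := fun i j => by
    rw [hf.herm, hab]
    split_ifs <;> simp
  have haa : ∀ i j, f (a i) (a j) = 0 := fun i j => P.iso _ (bA i).2 _ (bA j).2
  have hbb : ∀ i j, f (b i) (b j) = 0 := fun i j => P.iso' _ (hb i) _ (hb j)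
  obtain ⟨δ, hδ0, hδ⟩ := exists_skew hf.ne_refl hf.involutive
  have hδs : δ + σ δ = 0 := by rw [hδ, add_neg_cancel]
  have hδi : -δ⁻¹ + σ (-δ⁻¹) = 0 := by rw [map_neg, map_inv₀, hδ, inv_neg, neg_neg, neg_add_cancel]
  have step : ∀ s : Finset (Fin (finrank F A)), ∃ τ ∈ uGen hf (⊤ : Submodule F (ι → F)),
      ∀ i, ((τ : Matrix ι ι F) *ᵥ a i = if i ∈ s then δ • b i else a i) ∧
        ((τ : Matrix ι ι F) *ᵥ b i = if i ∈ s then (-δ⁻¹) • a i else b i) := by
    intro s
    induction s using Finset.induction_on with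
    | empty => exact ⟨1, one_mem _, fun i => by simp⟩
    | @insert j s hj ih =>
      obtain ⟨τ, hτ, hτv⟩ := ih
      set w := utv hf (b j) (hbb j j) δ * utv hf (a j) (haa j j) (-δ⁻¹) *
        utv hf (b j) (hbb j j) δ with hw
      have hwM : w ∈ uGen hf (⊤ : Submodule F (ι → F)) :=
        mul_mem (mul_mem (utv_mem_uGen Submodule.mem_top _ hδs)
          (utv_mem_uGen Submodule.mem_top _ hδi)) (utv_mem_uGen Submodule.mem_top _ hδs)
      have hwa : (w : Matrix ι ι F) *ᵥ a j = δ • b j := by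
        simp only [hw, Units.val_mul, ← mulVec_mulVec, utv_mulVec, hf.add_left, hf.smul_left, haa,
          hbb, hab, hba, if_true, mul_zero, mul_one, add_zero, zero_add]
        rw [neg_mul, inv_mul_cancel₀ hδ0]
        match_scalars <;> (field_simp; try ring)
      have hwb : (w : Matrix ι ι F) *ᵥ b j = (-δ⁻¹) • a j := by
        simp only [hw, Units.val_mul, ← mulVec_mulVec, utv_mulVec, hf.add_left, hf.smul_left, haa,
          hbb, hab, hba, if_true, mul_zero, mul_one, add_zero, zero_add, zero_smul]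
        match_scalars <;> (field_simp; try ring)
      have hwf : ∀ x, f x (a j) = 0 → f x (b j) = 0 → (w : Matrix ι ι F) *ᵥ x = x := by
        intro x h1 h2
        simp only [hw, Units.val_mul, ← mulVec_mulVec, utv_mulVec, h1, h2, mul_zero, zero_smul,
          add_zero]
      refine ⟨w * τ, mul_mem hwM hτ, fun i => ?_⟩
      rw [Units.val_mul, ← mulVec_mulVec, ← mulVec_mulVec, (hτv i).1, (hτv i).2]
      by_cases hij : i = j
      · subst hij
        rw [if_neg hj, if_neg hj, if_pos (Finset.mem_insert_self _ _),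
          if_pos (Finset.mem_insert_self _ _)]
        exact ⟨hwa, hwb⟩
      · have e1 : (w : Matrix ι ι F) *ᵥ a i = a i :=
          hwf _ (haa i j) (by rw [hab, if_neg hij])
        have e2 : (w : Matrix ι ι F) *ᵥ b i = b i :=
          hwf _ (by rw [hba, if_neg (Ne.symm hij)]) (hbb i j)
        have hmem : i ∈ insert j s ↔ i ∈ s := by simp [hij]
        constructor
        · by_cases his : i ∈ s
          · rw [if_pos his, if_pos (hmem.2 his), mulVec_smul, e2]
          · rw [if_neg his, if_neg (fun h => his (hmem.1 h)), e1]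
        · by_cases his : i ∈ s
          · rw [if_pos his, if_pos (hmem.2 his), mulVec_smul, e1]
          · rw [if_neg his, if_neg (fun h => his (hmem.1 h)), e2]
  obtain ⟨τ, hτ, hτv⟩ := step Finset.univ
  have spA : ∀ (x : ι → F) (hx : x ∈ A), x = ∑ i, bA.repr ⟨x, hx⟩ i • a i := fun x hx => by
    have := congrArg (Subtype.val : A → ι → F) (bA.sum_repr ⟨x, hx⟩)
    rw [Submodule.coe_sum] at this
    simp only [Submodule.coe_smul] at this
    exact this.symm
  have spA' : ∀ y ∈ A', y = ∑ i, f y (a i) • b i := fun y hy => by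
    refine sub_eq_zero.1 (P.symm.eq_zero_of_orth'
      (A'.sub_mem hy (Submodule.sum_mem _ fun i _ => A'.smul_mem _ (hb i))) fun u hu => ?_)
    rw [spA u hu, herm_sum_right hf]
    refine Finset.sum_eq_zero fun j _ => ?_
    rw [herm_smul_right hf, herm_sub_left hf, herm_sum_left hf]
    simp [hf.smul_left, hba]
  refine ⟨τ, uGen_det hτ, uGen_isometry hτ, fun x hx => ?_, fun x hx => ?_⟩
  · rw [spA x hx, mulVec_sum]
    refine Submodule.sum_mem _ fun i _ => ?_
    rw [mulVec_smul, (hτv i).1, if_pos (Finset.mem_univ i)]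
    exact A'.smul_mem _ (A'.smul_mem _ (hb i))
  · rw [spA' x hx, mulVec_sum]
    refine Submodule.sum_mem _ fun i _ => ?_
    rw [mulVec_smul, (hτv i).2, if_pos (Finset.mem_univ i)]
    exact A.smul_mem _ (A.smul_mem _ (bA i).2)

omit P in
/-- A skew-Hermitian map has a nonzero zero in any space of dimension two. -/
lemma exists_sesq_zero (hne : σ ≠ RingEquiv.refl F) (hinv : ∀ a, σ (σ a) = a)
    (β : (ι → F) → (ι → F) → F) (W : Submodule F (ι → F))
    (hadd : ∀ x ∈ W, ∀ y ∈ W, ∀ z ∈ W, β (x + y) z = β x z + β y z)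
    (hsmul : ∀ (c : F), ∀ x ∈ W, ∀ z ∈ W, β (c • x) z = c * β x z)
    (hskew : ∀ x ∈ W, ∀ y ∈ W, β y x = -σ (β x y))
    (hW : 2 ≤ finrank F W) : ∃ p ∈ W, p ≠ 0 ∧ β p p = 0 := by
  by_contra! hcon
  obtain ⟨e, he, he0⟩ := W.exists_mem_ne_zero_of_ne_bot fun h => by
    rw [h, finrank_bot] at hW
    omega
  have hee := hcon e he he0
  obtain ⟨x, hx, hxn⟩ : ∃ x ∈ W, x ∉ Submodule.span F {e} := by
    by_contra! h
    have := Submodule.finrank_mono (show W ≤ Submodule.span F {e} from h)
    rw [finrank_span_singleton he0] at this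
    omega
  set t := -(β x e) / β e e with ht
  set y := x + t • e with hy
  have hyW : y ∈ W := W.add_mem hx (W.smul_mem _ he)
  have hye : β y e = 0 := by
    rw [hy, hadd x hx _ (W.smul_mem _ he) e he, hsmul t e he e he, ht, div_mul_cancel₀ _ hee,
      add_neg_cancel]
  have hy0 : y ≠ 0 := fun h => hxn (by
    rw [show x = -t • e by rw [neg_smul]; exact eq_neg_of_add_eq_zero_left h]
    exact Submodule.smul_mem _ _ (Submodule.mem_span_singleton_self e))
  have hyy := hcon y hyW hy0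
  have hey : β e y = 0 := by rw [hskew y hyW e he, hye, map_zero, neg_zero]
  have hse : σ (β e e) = -β e e := by
    have := hskew e he e he
    linear_combination this
  have hsy : σ (β y y) = -β y y := by
    have := hskew y hyW y hyW
    linear_combination this
  obtain ⟨z, hz⟩ := exists_norm_eq hne hinv (a := -(β y y) / β e e) (by
    rw [map_div₀, map_neg, hse, hsy, neg_div_neg_eq])
  have hright : ∀ c : F, ∀ p ∈ W, ∀ r ∈ W, β p (c • r) = σ c * β p r := fun c p hp r hr => by
    rw [hskew (c • r) (W.smul_mem c hr) p hp, hsmul c r hr p hp, map_mul, hskew p hp r hr,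
      map_neg, hinv]
    ring
  have haddr : ∀ p ∈ W, ∀ r ∈ W, ∀ s ∈ W, β p (r + s) = β p r + β p s := fun p hp r hr s hs => by
    rw [hskew (r + s) (W.add_mem hr hs) p hp, hadd r hr s hs p hp, map_add, hskew r hr p hp,
      hskew s hs p hp]
    ring
  refine hcon (z • e + y) (W.add_mem (W.smul_mem z he) hyW) (fun h => hxn ?_) ?_
  · rw [show x = (-z - t) • e by
      rw [hy] at h
      linear_combination (norm := module) h]
    exact Submodule.smul_mem _ _ (Submodule.mem_span_singleton_self e)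
  · have hzeW := W.smul_mem z he
    rw [hadd _ hzeW y hyW _ (W.add_mem hzeW hyW), haddr _ hzeW _ hzeW y hyW,
      haddr y hyW _ hzeW y hyW, hsmul z e he _ hzeW, hsmul z e he y hyW, hright z e he e he,
      hright z y hyW e he, hey, hye]
    have h1 : -(β y y) / β e e * β e e = -(β y y) := div_mul_cancel₀ _ hee
    linear_combination β e e * hz + h1

/-- A totally singular subspace of dimension `m` invariant under all root elements is one of the
pair. -/
lemma eq_or_eq_of_rootR_invariant (hm : 5 ≤ m) {L : Submodule F (ι → F)} (hL : finrank F L = m)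
    (hinv : ∀ p ∈ A, ∀ q ∈ A', f p q = 0 →
      ∀ x ∈ L, (rootR f p q : Matrix ι ι F) *ᵥ x ∈ L) : L = A ∨ L = A' := by
  have hf := P.form
  have key : ∀ {A A' : Submodule F (ι → F)}, IsUPol σ f A A' m →
      (∀ p ∈ A, ∀ q ∈ A', f p q = 0 → ∀ x ∈ L, (rootR f p q : Matrix ι ι F) *ᵥ x ∈ L) →
      ∀ a ∈ A, ∀ b ∈ A', a ≠ 0 → b ≠ 0 → a + b ∈ L → ∃ K : Submodule F (ι → F),
        K ≤ A ⊓ L ∧ m ≤ finrank F K + 1 := by
    intro A A' Q hi a ha b hb ha0 hb0 hab
    let K := A ⊓ upFam hf ![b]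
    have hK : m ≤ finrank F K + 1 := by
      have h1 := Submodule.finrank_sup_add_finrank_inf_eq A (upFam hf ![b])
      have h2 := (A ⊔ upFam hf ![b]).finrank_le
      have h3 := card_le_finrank_upFam hf ![b]
      rw [Module.finrank_fintype_fun_eq_card] at h2
      rw [Q.dim] at h1
      change m ≤ finrank F ↥(A ⊓ upFam hf ![b]) + 1
      omega
    refine ⟨K, le_inf inf_le_left ?_, hK⟩
    have step : ∀ p ∈ K, (∀ t : F, t • a ≠ p) → p ∈ L := by
      rintro p ⟨hpA, hpb⟩ hpn
      obtain ⟨q, hq, hqv⟩ := Q.exists_dual ((LinearIndependent.pair_iff' ha0).2 hpn)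
        (by intro i; fin_cases i <;> assumption) ![-1, 0]
      have haq : f a q = -1 := hqv 0
      have hpq : f p q = 0 := hqv 1
      have hbp : f b p = 0 := herm_eq_zero_symm hf ((mem_upFam hf).1 hpb 0)
      have := hi p hpA q hq hpq _ hab
      rw [rootR_mulVec hf (rootPair_of_mem Q hpA hq hpq), hf.add_left, hf.add_left,
        Q.iso a ha p hpA, hbp, haq, Q.iso' b hb q hq, add_zero, add_zero, zero_smul, add_zero,
        neg_one_smul, sub_neg_eq_add, L.add_mem_iff_right hab] at this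
      exact this
    intro p hp
    by_cases h : ∀ t : F, t • a ≠ p
    · exact step p hp h
    push Not at h
    obtain ⟨t, rfl⟩ := h
    obtain ⟨p₀, hp₀, hp₀n⟩ : ∃ p₀ ∈ K, p₀ ∉ Submodule.span F {a} := by
      by_contra! hcon
      have := Submodule.finrank_mono (show K ≤ Submodule.span F {a} from hcon)
      rw [finrank_span_singleton ha0] at this
      omega
    have h1 := step p₀ hp₀ fun s e => hp₀n (Submodule.mem_span_singleton.2 ⟨s, e⟩)
    have h2 := step (t • a + p₀) (K.add_mem hp hp₀) fun s e => hp₀n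
      (Submodule.mem_span_singleton.2 ⟨s - t, by rw [sub_smul, e, add_sub_cancel_left]⟩)
    exact (L.add_mem_iff_left h1).1 h2
  by_cases hmix : ∃ a ∈ A, ∃ b ∈ A', a ≠ 0 ∧ b ≠ 0 ∧ a + b ∈ L
  · exfalso
    obtain ⟨a, ha, b, hb, ha0, hb0, hab⟩ := hmix
    obtain ⟨K, hK, hKd⟩ := key P hinv a ha b hb ha0 hb0 hab
    obtain ⟨K', hK', hKd'⟩ := key P.symm (fun p hp q hq h x hx => by
      have h' : f q p = 0 := herm_eq_zero_symm hf h
      rw [rootR_swap hf (rootPair_of_mem P hq hp h')]
      exact hinv q hq _ (A'.neg_mem hp) (by rw [herm_neg_right hf, h', neg_zero]) x hx)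
      b hb a ha hb0 ha0 (by rwa [add_comm])
    have h1 := Submodule.finrank_sup_add_finrank_inf_eq K K'
    have h2 : K ⊓ K' = ⊥ := le_bot_iff.1 ((inf_le_inf (hK.trans inf_le_left)
      (hK'.trans inf_le_left)).trans P.compl.inf_eq_bot.le)
    rw [h2, finrank_bot] at h1
    have h3 := Submodule.finrank_mono (sup_le (hK.trans inf_le_right) (hK'.trans inf_le_right))
    omega
  push Not at hmix
  rcases le_or_le_of_subset_union (U := A) (U' := A') (P := L) (fun x hx => by
    obtain ⟨a, ha, b, hb, rfl⟩ := P.decomp x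
    by_cases hb0 : b = 0
    · left; rwa [hb0, add_zero]
    by_cases ha0 : a = 0
    · right; rwa [ha0, zero_add]
    exact absurd hx (hmix a ha b hb ha0 hb0)) with h | h
  · exact Or.inl (Submodule.eq_of_le_of_finrank_eq h (by rw [hL, P.dim]))
  · exact Or.inr (Submodule.eq_of_le_of_finrank_eq h (by rw [hL, P.dim']))

/-- Some root element with a singular point is moved out of `UPres` by `g`. -/
lemma exists_bad_rootR (hm : 7 ≤ m) (g : GL ι F)
    (hgi : ∀ x y, f ((g : Matrix ι ι F) *ᵥ x) ((g : Matrix ι ι F) *ᵥ y) = f x y)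
    (hgn : ¬ ((g ∈ UPres A A') ∨
      ((∀ x ∈ A, (g : Matrix ι ι F) *ᵥ x ∈ A') ∧ ∀ x ∈ A', (g : Matrix ι ι F) *ᵥ x ∈ A))) :
    ∃ p q, RootPair f p q ∧ p ≠ 0 ∧ ((p ∈ A ∧ q ∈ A') ∨ (p ∈ A' ∧ q ∈ A)) ∧
      (∃ a ∈ A, ∃ b ∈ A', f a b = 0 ∧ a + b = (g : Matrix ι ι F) *ᵥ p) ∧
      rootR f ((g : Matrix ι ι F) *ᵥ p) ((g : Matrix ι ι F) *ᵥ q) ∉ UPres A A' := by
  have hf := P.form
  by_contra hcon
  push Not at hcon
  set πA := A.projectionOnto A' P.compl
  set πA' := A'.projectionOnto A P.compl.symm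
  let β : (ι → F) → (ι → F) → F := fun x y =>
    f (πA ((g : Matrix ι ι F) *ᵥ x) : ι → F) (πA' ((g : Matrix ι ι F) *ᵥ y) : ι → F)
  have hproj : ∀ p a b, a ∈ A → b ∈ A' → a + b = (g : Matrix ι ι F) *ᵥ p →
      (πA ((g : Matrix ι ι F) *ᵥ p) : ι → F) = a ∧
        (πA' ((g : Matrix ι ι F) *ᵥ p) : ι → F) = b := by
    intro p a b ha hb hab
    constructor
    · rw [← hab, map_add, Submodule.projectionOnto_apply_of_mem_left P.compl ha,
        (Submodule.projectionOnto_apply_eq_zero_iff P.compl).2 hb, add_zero]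
    · rw [← hab, map_add, (Submodule.projectionOnto_apply_eq_zero_iff P.compl.symm).2 ha,
        Submodule.projectionOnto_apply_of_mem_left P.compl.symm hb, zero_add]
  have hβadd : ∀ x y z, β (x + y) z = β x z + β y z := fun x y z => by
    simp only [β, mulVec_add, map_add, Submodule.coe_add, hf.add_left]
  have hβsmul : ∀ (c : F) x z, β (c • x) z = c * β x z := fun c x z => by
    simp only [β, mulVec_smul, map_smul, Submodule.coe_smul, hf.smul_left]
  have hβskew : ∀ x y, f x y = 0 → β y x = -σ (β x y) := by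
    intro x y hxy
    obtain ⟨a, ha, b, hb, hab⟩ := P.decomp ((g : Matrix ι ι F) *ᵥ x)
    obtain ⟨a', ha', b', hb', hab'⟩ := P.decomp ((g : Matrix ι ι F) *ᵥ y)
    have h : f (a + b) (a' + b') = 0 := by rw [hab, hab', hgi, hxy]
    rw [hf.add_left, herm_add_right hf, herm_add_right hf, P.iso a ha a' ha',
      P.iso' b hb b' hb'] at h
    obtain ⟨e1, e2⟩ := hproj x a b ha hb hab
    obtain ⟨e3, e4⟩ := hproj y a' b' ha' hb' hab'
    simp only [β, e1, e2, e3, e4]
    rw [hf.herm a' b, ← map_neg]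
    congr 1
    linear_combination h
  have hβ : ∀ p a b, a ∈ A → b ∈ A' → a + b = (g : Matrix ι ι F) *ᵥ p → β p p = f a b :=
    fun p a b ha hb hab => by
      obtain ⟨e1, e2⟩ := hproj p a b ha hb hab
      simp only [β, e1, e2]
  -- the roots sent into `UPres`
  let G : (ι → F) → (ι → F) → Prop := fun p q =>
    rootR f ((g : Matrix ι ι F) *ᵥ p) ((g : Matrix ι ι F) *ᵥ q) ∈ UPres A A'
  have hzero : ∀ p, β p p = 0 → ∀ q, RootPair f p q →
      ((p ∈ A ∧ q ∈ A') ∨ (p ∈ A' ∧ q ∈ A)) → G p q := by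
    intro p hp q hpq hor
    by_cases hp0 : p = 0
    · change rootR f _ _ ∈ _
      have h0 : RootPair f (0 : ι → F) ((g : Matrix ι ι F) *ᵥ q) :=
        ⟨herm_zero_left hf 0, by rw [hgi, hpq.right], herm_zero_left hf _⟩
      rw [hp0, mulVec_zero, show rootR f (0 : ι → F) ((g : Matrix ι ι F) *ᵥ q) = 1 from
        Units.ext (ext_mulVec fun x => by
          rw [rootR_mulVec hf h0, herm_zero_right hf, Units.val_one, one_mulVec]
          simp)]
      exact one_mem _
    obtain ⟨a, ha, b, hb, hab⟩ := P.decomp ((g : Matrix ι ι F) *ᵥ p)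
    exact hcon p q hpq hp0 hor ⟨a, ha, b, hb, by rw [← hβ p a b ha hb hab, hp], hab⟩
  have hcomm : ∀ p q, RootPair f p q → G p q → G q p := fun p q h hG => by
    change rootR f _ _ ∈ _
    rw [rootR_swap hf (h.map hf hgi), ← rootR_inv hf (h.map hf hgi)]
    exact inv_mem hG
  have hadd : ∀ c d e, RootPair f c d → RootPair f c e → f d e = 0 → G c d → G c e →
      G c (d + e) := by
    intro c d e hd he hde h1 h1'
    change rootR f _ _ ∈ _
    have h3 := mul_mem h1 h1'
    rw [rootR_add hf (hd.map hf hgi) (he.map hf hgi) (by rw [hgi, hde]), ← mulVec_add] at h3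
    exact h3
  have hspan : ∀ {A A' : Submodule F (ι → F)}, IsUPol σ f A A' m →
      (∀ p ∈ A, ∀ q ∈ A', β p p = 0 → f p q = 0 → G p q) → ∀ q ∈ A',
      ∃ K : Submodule F (ι → F), K ≤ A ∧ m ≤ finrank F K + 2 ∧ ∀ k ∈ K, f k q = 0 ∧ G k q := by
    intro A A' Q hz q hq
    set S := {p | p ∈ A ⊓ upFam hf ![q] ∧ β p p = 0} with hS
    have hsub : Submodule.span F S ≤ A ⊓ upFam hf ![q] := Submodule.span_le.2 fun p hp => hp.1
    refine ⟨Submodule.span F S, hsub.trans inf_le_left, ?_,
      fun k hk => ⟨(mem_upFam hf).1 (hsub hk).2 0, ?_⟩⟩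
    · have h1 := Submodule.finrank_sup_add_finrank_inf_eq A (upFam hf ![q])
      have h3 := (A ⊔ upFam hf ![q]).finrank_le
      have h4 := card_le_finrank_upFam hf ![q]
      rw [Module.finrank_fintype_fun_eq_card] at h3
      rw [Q.dim] at h1
      by_contra hlt
      obtain ⟨U, hU⟩ := Submodule.exists_isCompl ((Submodule.span F S).comap (A ⊓ upFam hf ![q]).subtype)
      have hK : finrank F ((Submodule.span F S).comap (A ⊓ upFam hf ![q]).subtype) =
          finrank F (Submodule.span F S) :=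
        LinearEquiv.finrank_eq (Submodule.comapSubtypeEquivOfLe hsub)
      have hs := Submodule.finrank_add_eq_of_isCompl hU
      have hd : finrank F (U.map (A ⊓ upFam hf ![q]).subtype) = finrank F U :=
        (LinearEquiv.finrank_eq (Submodule.equivMapOfInjective _
          (A ⊓ upFam hf ![q]).injective_subtype U)).symm
      have hWA : ∀ x ∈ U.map (A ⊓ upFam hf ![q]).subtype, x ∈ A := by
        rintro _ ⟨u, -, rfl⟩
        exact u.2.1
      obtain ⟨p, hp, hp0, hpp⟩ := exists_sesq_zero (σ := σ) hf.ne_refl hf.involutive β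
        (U.map (A ⊓ upFam hf ![q]).subtype)
        (fun x _ y _ z _ => hβadd x y z) (fun c x _ z _ => hβsmul c x z)
        (fun x hx y hy => hβskew x y (Q.iso x (hWA x hx) y (hWA y hy))) (by omega)
      obtain ⟨u, hu, rfl⟩ := hp
      have h5 : u ∈ (Submodule.span F S).comap (A ⊓ upFam hf ![q]).subtype :=
        Submodule.subset_span ⟨u.2, hpp⟩
      exact hp0 (by rw [Submodule.disjoint_def.1 hU.disjoint u h5 hu, map_zero])
    · have : ∀ x ∈ Submodule.span F S, x ∈ A ⊓ upFam hf ![q] ∧ G x q := by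
        intro x hx
        induction hx using Submodule.closure_induction with
        | zero =>
          exact ⟨Submodule.zero_mem _, hz 0 A.zero_mem q hq
            (by simp [β, mulVec_zero, herm_zero_left hf]) (herm_zero_left hf q)⟩
        | add x y _ _ hx hy =>
          refine ⟨Submodule.add_mem _ hx.1 hy.1, ?_⟩
          have hxq : f x q = 0 := (mem_upFam hf).1 hx.1.2 0
          have hyq : f y q = 0 := (mem_upFam hf).1 hy.1.2 0
          have rx := rootPair_of_mem Q hx.1.1 hq hxq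
          have ry := rootPair_of_mem Q hy.1.1 hq hyq
          exact hcomm q (x + y) ⟨rx.right, Q.iso _ (A.add_mem hx.1.1 hy.1.1) _
              (A.add_mem hx.1.1 hy.1.1),
              herm_eq_zero_symm hf (by rw [hf.add_left, hxq, hyq, add_zero])⟩
            (hadd q x y ⟨rx.right, rx.left, rx.orth' hf⟩ ⟨ry.right, ry.left, ry.orth' hf⟩
              (Q.iso x hx.1.1 y hy.1.1) (hcomm x q rx hx.2) (hcomm y q ry hy.2))
        | smul_mem t x hx =>
          have hxq : f x q = 0 := (mem_upFam hf).1 hx.1.2 0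
          refine ⟨Submodule.smul_mem _ t hx.1, hz _ (A.smul_mem t hx.1.1) q hq ?_
            (by rw [hf.smul_left, hxq, mul_zero])⟩
          have hxx : β x x = 0 := hx.2
          have hxA : f x x = 0 := Q.iso x hx.1.1 x hx.1.1
          rw [hβsmul, hβskew (t • x) x (by rw [hf.smul_left, hxA, mul_zero]), hβsmul, hxx]
          simp
      exact (this k hk).2
  have all : ∀ p ∈ A, ∀ q ∈ A', f p q = 0 → G p q := by
    intro p hp φ hφ hpφ
    obtain ⟨K, hKA, hKd, hKG⟩ := hspan P
      (fun p hp q hq h h' => hzero p h q (rootPair_of_mem P hp hq h') (Or.inl ⟨hp, hq⟩)) φ hφ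
    obtain ⟨L, hLA, hLd, hLG⟩ := hspan P.symm
      (fun p hp q hq h h' => hzero p h q (rootPair_of_mem P.symm hp hq h') (Or.inr ⟨hp, hq⟩)) p hp
    obtain ⟨k, hk, ψ, hψ, hkψ⟩ : ∃ k ∈ K, ∃ ψ ∈ L, f k ψ = -1 := by
      by_contra! hno
      let bK := Module.finBasis F K
      let r : Fin (finrank F K) → ι → F := fun i => (bK i : ι → F)
      have hr : LinearIndependent F r :=
        bK.linearIndependent.map' K.subtype (Submodule.ker_subtype K)
      have hle : L ≤ A' ⊓ upFam hf r := fun ψ hψ => ⟨hLA hψ, (mem_upFam hf).2 fun i => by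
        by_contra h0
        have h1 : f (r i) ψ ≠ 0 := fun h => h0 (herm_eq_zero_symm hf h)
        exact hno ((-(f (r i) ψ)⁻¹) • r i) (K.smul_mem _ (bK i).2) ψ hψ (by
          rw [hf.smul_left, neg_mul, inv_mul_cancel₀ h1])⟩
      let Φ : A' →ₗ[F] (Fin (finrank F K) → F) :=
        (LinearMap.pi fun i => leftLin hf (r i)).comp A'.subtype
      have hsurj : LinearMap.range Φ = ⊤ := LinearMap.range_eq_top.2 fun v => by
        obtain ⟨θ, hθ, hθv⟩ := P.exists_dual hr (fun i => hKA (bK i).2) (fun i => σ (v i))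
        exact ⟨⟨θ, hθ⟩, funext fun i => by
          change f θ (r i) = v i
          rw [hf.herm, hθv, hf.involutive]⟩
      have h1 := LinearMap.finrank_range_add_finrank_ker Φ
      rw [hsurj, finrank_top, P.dim', Module.finrank_fintype_fun_eq_card, Fintype.card_fin] at h1
      have h3 : finrank F (LinearMap.ker Φ) = finrank F ↥(A' ⊓ upFam hf r) := by
        rw [LinearMap.ker_comp]
        exact LinearEquiv.finrank_eq
          ((Submodule.equivMapOfInjective A'.subtype A'.injective_subtype _).trans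
            (LinearEquiv.ofEq _ _ (Submodule.map_comap_subtype _ _)))
      have h4 := Submodule.finrank_mono hle
      omega
    obtain ⟨hψp, hψG⟩ := hLG ψ hψ
    obtain ⟨hkφ, hkG⟩ := hKG k hk
    have hpψ : f p ψ = 0 := herm_eq_zero_symm hf hψp
    have rψ := rootPair_of_mem P hp (hLA hψ) hpψ
    have rk := rootPair_of_mem P (hKA hk) hφ hkφ
    have rp := rootPair_of_mem P hp hφ hpφ
    have hh : rootR f ((g : Matrix ι ι F) *ᵥ p) ((g : Matrix ι ι F) *ᵥ ψ) ∈ UPres A A' :=
      hcomm ψ p ⟨rψ.right, rψ.left, hψp⟩ hψG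
    have h1 := mul_mem (mul_mem hh hkG) (inv_mem hh)
    rw [conj_rootR hf (rk.map hf hgi) _ (rootR_isometry hf (rψ.map hf hgi)),
      rootR_mulVec hf (rψ.map hf hgi), rootR_mulVec hf (rψ.map hf hgi), hgi, hgi, hgi, hgi,
      P.iso k (hKA hk) p hp, hkψ, herm_eq_zero_symm hf hpφ, P.iso' φ hφ ψ (hLA hψ), zero_smul,
      zero_smul, add_zero, add_zero, sub_zero, neg_one_smul, sub_neg_eq_add, ← mulVec_add] at h1
    have rkp : RootPair f (k + p) φ := rootPair_of_mem P (A.add_mem (hKA hk) hp) hφ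
      (by rw [hf.add_left, hkφ, hpφ, add_zero])
    have h3 : G φ (k + p) := hcomm (k + p) φ rkp h1
    change rootR f _ _ ∈ _ at h3
    rw [mulVec_add] at h3
    have rφk : RootPair f φ k := ⟨rk.right, rk.left, rk.orth' hf⟩
    have rφp : RootPair f φ p := ⟨rp.right, rp.left, rp.orth' hf⟩
    have h4 := rootR_add hf (rφk.map hf hgi) (rφp.map hf hgi)
      (by rw [hgi, P.iso k (hKA hk) p hp])
    rw [← h4] at h3
    exact hcomm φ p rφp ((Subgroup.mul_mem_cancel_left _ (hcomm k φ rk hkG)).1 h3)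
  let gl : (ι → F) →ₗ[F] (ι → F) := Matrix.mulVecLin (g : Matrix ι ι F)
  have hinj : Function.Injective gl := fun x y hxy => (mulVec_inj g).1 hxy
  have hsurj : Function.Surjective gl := LinearMap.injective_iff_surjective.1 hinj
  have hginv : ∀ {L : Submodule F (ι → F)}, (∀ h ∈ UPres A A', h ∈ Cfsg.Geo.subspaceStabilizer L) →
      finrank F L = m → L.comap gl = A ∨ L.comap gl = A' := by
    intro L hL hLd
    refine eq_or_eq_of_rootR_invariant P (by omega) ?_ fun p hp q hq hpq x hx => ?_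
    · rw [LinearEquiv.finrank_eq (Submodule.equivMapOfInjective gl hinj (L.comap gl)),
        Submodule.map_comap_eq_of_surjective hsurj, hLd]
    · change (g : Matrix ι ι F) *ᵥ ((rootR f p q : Matrix ι ι F) *ᵥ x) ∈ L
      have hr := rootPair_of_mem P hp hq hpq
      have h1 : (rootR f ((g : Matrix ι ι F) *ᵥ p) ((g : Matrix ι ι F) *ᵥ q) : Matrix ι ι F) *ᵥ
          ((g : Matrix ι ι F) *ᵥ x) ∈ L :=
        ((hL _ (all p hp q hq hpq)) ((g : Matrix ι ι F) *ᵥ x)).1 hx
      rw [rootR_mulVec hf (hr.map hf hgi), hgi, hgi, ← mulVec_smul, ← mulVec_smul,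
        ← mulVec_add, ← mulVec_sub] at h1
      rwa [rootR_mulVec hf hr]
  have hne : A.comap gl ≠ A'.comap gl := by
    intro e
    have h := congrArg (Submodule.map gl) e
    rw [Submodule.map_comap_eq_of_surjective hsurj, Submodule.map_comap_eq_of_surjective hsurj] at h
    have hA0 : A = ⊥ := by
      have := P.compl.inf_eq_bot
      rwa [← h, inf_idem] at this
    have hd := P.dim
    rw [hA0, finrank_bot] at hd
    omega
  apply hgn
  have maps : ∀ {L L' : Submodule F (ι → F)}, L.comap gl = L' →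
      ∀ x ∈ L', (g : Matrix ι ι F) *ᵥ x ∈ L := fun h x hx => by
    rw [← h] at hx; exact hx
  rcases hginv (fun h hh => hh.1) P.dim with h1 | h1 <;>
    rcases hginv (fun h hh => hh.2) P.dim' with h3 | h3
  · exact absurd (h1.trans h3.symm) hne
  · exact Or.inl ⟨map_eq_of_maps_to (maps h1), map_eq_of_maps_to (maps h3)⟩
  · exact Or.inr ⟨maps h3, maps h1⟩
  · exact absurd (h1.trans h3.symm) hne

/-- The main statement. -/
theorem uGen_top_le_of_gt_pair (hm : 7 ≤ m)
    (hM : ∀ h : GL ι F, Matrix.GeneralLinearGroup.det h = 1 →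
      (∀ x y, f ((h : Matrix ι ι F) *ᵥ x) ((h : Matrix ι ι F) *ᵥ y) = f x y) →
      ((h ∈ UPres A A') ∨
        ((∀ x ∈ A, (h : Matrix ι ι F) *ᵥ x ∈ A') ∧ ∀ x ∈ A', (h : Matrix ι ι F) *ᵥ x ∈ A)) →
      h ∈ M)
    (g : GL ι F) (hgi : ∀ x y, f ((g : Matrix ι ι F) *ᵥ x) ((g : Matrix ι ι F) *ᵥ y) = f x y)
    (hg : g ∈ M)
    (hgn : ¬ ((g ∈ UPres A A') ∨
      ((∀ x ∈ A, (g : Matrix ι ι F) *ᵥ x ∈ A') ∧ ∀ x ∈ A', (g : Matrix ι ι F) *ᵥ x ∈ A))) :
    uGen P.form (⊤ : Submodule F (ι → F)) ≤ M := by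
  have hf := P.form
  have hR : ∀ p ∈ A, ∀ q ∈ A', f p q = 0 → rootR f p q ∈ M := fun p hp q hq h =>
    hM _ (rootR_det hf (rootPair_of_mem P hp hq h)) (rootR_isometry hf (rootPair_of_mem P hp hq h))
      (Or.inl (rootR_mem_upres P hp hq h))
  obtain ⟨p, q, hr, hp0, hor, ⟨a, ha, b, hb, hab, hsum⟩, hbad⟩ := exists_bad_rootR P hm g hgi hgn
  have hs : rootR f ((g : Matrix ι ι F) *ᵥ p) ((g : Matrix ι ι F) *ᵥ q) ∈ M := by
    rw [← conj_rootR hf hr g hgi]
    refine mul_mem (mul_mem hg ?_) (inv_mem hg)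
    rcases hor with ⟨hp, hq⟩ | ⟨hp, hq⟩
    · exact hR p hp q hq hr.orth
    · exact hM_swap P hR p hp q hq hr.orth
  obtain ⟨τ, hτd, hτi, hτA, hτA'⟩ := exists_uswap P
  have hτM : τ ∈ M := hM τ hτd hτi (Or.inr ⟨hτA, hτA'⟩)
  have tmove : ∀ {A A' : Submodule F (ι → F)}, (∀ x ∈ A, (τ : Matrix ι ι F) *ᵥ x ∈ A') →
      HasUCentre P.form A M → HasUCentre P.form A' M := by
    rintro A A' hmap ⟨θ, hθ, hθ0, hθθ, c, hc, hcs, hT⟩
    refine ⟨_, hmap θ hθ, mulVec_ne_zero τ hθ0, by rw [hτi, hθθ], c, hc, hcs, ?_⟩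
    rw [← conj_utv hf τ hτi θ hθθ c]
    exact mul_mem (mul_mem hτM hT) (inv_mem hτM)
  have hc : HasUCentre P.form A' M ∨ HasUCentre P.form A M :=
    hasUCentre_of_root P hR hm (hr.map hf hgi) ha hb hab hsum (mulVec_ne_zero g hp0) hs hbad
  have hA' : ∀ x ∈ A', UCentre P.form M x := by
    refine ucentre_of_hasUCentre P hR (by omega) ?_
    rcases hc with h | h
    · exact h
    · exact tmove hτA h
  have hA : ∀ x ∈ A, UCentre P.form M x := by
    refine ucentre_of_hasUCentre P.symm (hM_swap P hR) (by omega) ?_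
    rcases hc with h | h
    · exact tmove hτA' h
    · exact h
  refine uGen_le fun v _ hv κ hκ => ?_
  obtain ⟨x, hx, y, hy, rfl⟩ := P.decomp v
  obtain ⟨δ, hδ0, hδ⟩ := exists_skew hf.ne_refl hf.involutive
  have pencil : ∀ a b : ι → F, f a a = 0 → UCentre P.form M a → ∀ hbb : f b b = 0,
      UCentre P.form M b → f a b ≠ 0 → f a b + σ (f a b) = 0 → UCentre P.form M (a + b) := by
    intro a b haa hXa hbb hXb hne hskew
    have hc : (f a b)⁻¹ + σ (f a b)⁻¹ = 0 := by
      rw [map_inv₀, eq_neg_of_add_eq_zero_right hskew, inv_neg, add_neg_cancel]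
    have := hXa.map hf (hXb hbb _ hc) (utv_isometry hf b hbb hc)
    rwa [utv_mulVec, inv_mul_cancel₀ hne, one_smul] at this
  have hxy : f x y + σ (f x y) = 0 := by
    rw [← hf.herm y x]
    have h := hv
    rw [hf.add_left, herm_add_right hf, herm_add_right hf, P.iso x hx x hx, P.iso' y hy y hy] at h
    linear_combination h
  by_cases hy0 : y = 0
  · subst hy0
    exact (show UCentre P.form M (x + 0) by rw [add_zero]; exact hA x hx) hv κ hκ
  by_cases hxy0 : f x y = 0
  · by_cases hx0 : x = 0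
    · subst hx0
      exact (show UCentre P.form M (0 + y) by rw [zero_add]; exact hA' y hy) hv κ hκ
    obtain ⟨b₀, hb₀, hb₀v⟩ := P.exists_dual (li_one hx0) (by intro i; fin_cases i; exact hx) ![δ]
    have hxb : f x b₀ = δ := hb₀v 0
    have h1 := pencil x b₀ (P.iso x hx x hx) (hA x hx) (P.iso' b₀ hb₀ b₀ hb₀) (hA' b₀ hb₀)
      (by rw [hxb]; exact hδ0) (by rw [hxb, hδ, add_neg_cancel])
    have h2v : f (x + b₀) (y - b₀) = -δ := by
      rw [hf.add_left, herm_sub_right hf, herm_sub_right hf, hxy0, hxb, P.iso' b₀ hb₀ y hy,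
        P.iso' b₀ hb₀ b₀ hb₀]
      ring
    have h3 := pencil (x + b₀) (y - b₀) (by
        rw [hf.add_left, herm_add_right hf, herm_add_right hf, P.iso x hx x hx, hxb, hf.herm b₀ x,
          hxb, P.iso' b₀ hb₀ b₀ hb₀, hδ]
        ring) h1
      (P.iso' _ (A'.sub_mem hy hb₀) _ (A'.sub_mem hy hb₀)) (hA' _ (A'.sub_mem hy hb₀))
      (by rw [h2v]; exact neg_ne_zero.2 hδ0) (by rw [h2v, map_neg, hδ]; ring)
    rw [show x + b₀ + (y - b₀) = x + y by abel] at h3
    exact h3 hv κ hκ
  · exact pencil x y (P.iso x hx x hx) (hA x hx) (P.iso' y hy y hy) (hA' y hy) hxy0 hxy hv κ hκ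

end Cfsg.Lib.Classical
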