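import Mathlib
import Cfsg.Agent.Lib.Classical.UnitarySubspaceMax

/-!
Unitary transvections: transitivity of the group they generate on isotropic vectors, conjugacy, pairs.
-/

set_option autoImplicit false

namespace Cfsg.Lib.Classical.UTransv

open Matrix Module
open scoped MatrixGroups

variable {ι : Type} [Fintype ι] [DecidableEq ι] {F : Type*} [Field F] {σ : F ≃+* F}
  {f : (ι → F) → (ι → F) → F} (hf : Cfsg.Geo.IsUnitaryForm σ f)

include hf

lemma step {v w : ι → F} (hv : f v v = 0) (hw : f w w = 0) {δ : F} (hδ : σ δ = -δ) (hδ0 : δ ≠ 0)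
    (h : f w v = δ) : ∃ g ∈ uGen hf (⊤ : Submodule F (ι → F)), (g : Matrix ι ι F) *ᵥ v = w :=
  exists_move_step hf Submodule.mem_top Submodule.mem_top hv hw hδ hδ0 (by rw [h, zero_add])

lemma smul_iso {v : ι → F} (hv : f v v = 0) (z : F) : f (z • v) (z • v) = 0 := by
  rw [hf.smul_left, herm_smul_right hf, hv, mul_zero, mul_zero]

/-- Any nonzero multiple of an isotropic vector is reached. -/
theorem move_scalar [Finite F] (hn : 3 ≤ Fintype.card ι) {v : ι → F} (hv0 : v ≠ 0) (hv : f v v = 0) {z : F}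
    (hz : z ≠ 0) : ∃ g ∈ uGen hf (⊤ : Submodule F (ι → F)), (g : Matrix ι ι F) *ᵥ v = z • v := by
  obtain ⟨δ, hδ0, hδ⟩ := exists_skew hf.ne_refl hf.involutive
  have hli : LinearIndependent F ![v] := by
    rw [Fintype.linearIndependent_iff]
    intro c hc i
    fin_cases i
    simpa [hv0] using hc
  obtain ⟨y₀, hy₀⟩ := exists_herm_values hf hli ![δ]
  have hy : f y₀ v = δ := hy₀ 0
  have hy' : f v y₀ = -δ := by rw [hf.herm, hy, hδ]
  obtain ⟨s, hs⟩ := exists_trace_eq hf.ne_refl hf.involutive (a := - f y₀ y₀) (by rw [map_neg, herm_self_fixed hf])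
  obtain ⟨x, hx, hxv⟩ : ∃ x, f x x = 0 ∧ f x v = δ := by
    refine ⟨y₀ + (-s / δ) • v, ?_, ?_⟩
    · simp only [hf.add_left, hf.smul_left, herm_add_right hf, herm_smul_right hf, hv, hy, hy', map_div₀, map_neg, hδ,
        mul_zero, add_zero]
      field_simp
      linear_combination hs
    · rw [hf.add_left, hf.smul_left, hv, hy, mul_zero, add_zero]
  have hvx : f v x = -δ := by rw [hf.herm, hxv, hδ]
  have hdim := card_le_finrank_upFam hf ![v, x]
  obtain ⟨e, heR, he0⟩ : ∃ e ∈ upFam hf ![v, x], e ≠ 0 :=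
    Submodule.exists_mem_ne_zero_of_ne_bot fun h => by rw [h, finrank_bot] at hdim; omega
  obtain ⟨r, hrR, hrr⟩ : ∃ r ∈ upFam hf ![v, x], f r r ≠ 0 := by
    by_contra! hall
    obtain ⟨w, hw⟩ := (hf.nondegenerate e he0).1
    rw [mem_upFam] at heR
    have hev : f e v = 0 := heR 0
    have hex : f e x = 0 := heR 1
    set r := w - (f w x / (-δ)) • v - (f w v / δ) • x with hr
    have hrR : r ∈ upFam hf ![v, x] := by
      rw [mem_upFam]
      intro i
      fin_cases i <;>
        simp [hr, herm_sub_left hf, hf.smul_left, hv, hx, hxv, hvx, hδ0] <;> field_simp <;> ring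
    have hre : f r e = f w e := by
      simp [hr, herm_sub_left hf, hf.smul_left, herm_eq_zero_symm hf hev, herm_eq_zero_symm hf hex]
    have := herm_isotropic_orth hf (x := r) (y := e) (fun c =>
      hall _ (Submodule.add_mem _ (Submodule.smul_mem _ c hrR) ((mem_upFam hf).2 heR)))
      (hall _ hrR) (hall _ ((mem_upFam hf).2 heR))
    rw [hre] at this
    exact hw this
  obtain ⟨e', he'R, hee⟩ := exists_unit_of_aniso hf hrR hrr
  rw [mem_upFam] at he'R
  have hev : f e' v = 0 := he'R 0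
  have hex : f e' x = 0 := he'R 1
  obtain ⟨l, hl⟩ := exists_norm_eq hf.ne_refl hf.involutive (a := -(δ * (z - σ z)))
    (by rw [map_neg, map_mul, map_sub, hf.involutive, hδ]; ring)
  set y := v + z • x + l • e' with hydef
  have hyy : f y y = 0 := by
    simp only [hydef, hf.add_left, hf.smul_left, herm_add_right hf, herm_smul_right hf, hv, hx, hxv, hvx, hev, hex,
      herm_eq_zero_symm hf hev, herm_eq_zero_symm hf hex, hee, mul_zero, add_zero, zero_add]
    linear_combination hl
  have hyx : f y x = -δ := by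
    simp [hydef, hf.add_left, hf.smul_left, hx, hvx, hex]
  have hzy : f (z • v) y = -(z * σ z * δ) := by
    simp only [hydef, hf.smul_left, herm_add_right hf, herm_smul_right hf, hv, hvx, herm_eq_zero_symm hf hev,
      mul_zero, add_zero, zero_add]
    ring
  obtain ⟨g1, h1, e1⟩ := step hf hv hx hδ hδ0 hxv
  obtain ⟨g2, h2, e2⟩ := step hf hx hyy (δ := -δ) (by rw [map_neg, hδ]) (neg_ne_zero.2 hδ0) hyx
  obtain ⟨g3, h3, e3⟩ := step hf hyy (smul_iso hf hv z) (δ := -(z * σ z * δ))
    (by rw [map_neg, map_mul, map_mul, hf.involutive, hδ]; ring)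
    (by simp [hz, hδ0]) hzy
  exact ⟨g3 * (g2 * g1), mul_mem h3 (mul_mem h2 h1), by
    rw [Units.val_mul, Units.val_mul, ← mulVec_mulVec, ← mulVec_mulVec, e1, e2, e3]⟩

/-- The transvection group is transitive on nonzero isotropic vectors. -/
theorem move_iso [Finite F] (hn : 3 ≤ Fintype.card ι) {v w : ι → F} (hv0 : v ≠ 0) (hv : f v v = 0)
    (hw0 : w ≠ 0) (hw : f w w = 0) : ∃ g ∈ uGen hf (⊤ : Submodule F (ι → F)), (g : Matrix ι ι F) *ᵥ v = w := by
  obtain ⟨δ, hδ0, hδ⟩ := exists_skew hf.ne_refl hf.involutive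
  by_cases hwv : f w v = 0
  swap
  · set t := δ / f w v with ht
    obtain ⟨g1, h1, e1⟩ := step hf hv (smul_iso hf hw t) hδ hδ0 (by rw [hf.smul_left, ht, div_mul_cancel₀ _ hwv])
    obtain ⟨g2, h2, e2⟩ := move_scalar hf hn (v := t • w)
      (smul_ne_zero (div_ne_zero hδ0 hwv) hw0) (smul_iso hf hw t) (z := t⁻¹) (inv_ne_zero (div_ne_zero hδ0 hwv))
    refine ⟨g2 * g1, mul_mem h2 h1, ?_⟩
    rw [Units.val_mul, ← mulVec_mulVec, e1, e2, smul_smul, inv_mul_cancel₀ (div_ne_zero hδ0 hwv), one_smul]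
  by_cases hli : LinearIndependent F ![v, w]
  · obtain ⟨y, hy⟩ := exists_herm_values hf hli ![1, 1]
    have hyv : f y v = 1 := hy 0
    have hyw : f y w = 1 := hy 1
    obtain ⟨a, ha⟩ := exists_trace_eq hf.ne_refl hf.involutive (a := - f y y) (by rw [map_neg, herm_self_fixed hf])
    set x := y + a • v with hxdef
    have hxx : f x x = 0 := by
      simp only [hxdef, hf.add_left, hf.smul_left, herm_add_right hf, herm_smul_right hf, hv, hyv,
        herm_eq_one_symm hf hyv, mul_zero, mul_one, add_zero]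
      linear_combination ha
    have hxv : f x v = 1 := by rw [hxdef, hf.add_left, hf.smul_left, hv, hyv, mul_zero, add_zero]
    have hxw : f x w = 1 := by
      rw [hxdef, hf.add_left, hf.smul_left, hyw, herm_eq_zero_symm hf hwv, mul_zero, add_zero]
    obtain ⟨g1, h1, e1⟩ := step hf hv (smul_iso hf hxx δ) hδ hδ0 (by rw [hf.smul_left, hxv, mul_one])
    obtain ⟨g2, h2, e2⟩ := step hf (smul_iso hf hxx δ) hw (δ := -δ) (by rw [map_neg, hδ]) (neg_ne_zero.2 hδ0)
      (by rw [herm_smul_right hf, herm_eq_one_symm hf hxw, mul_one, hδ])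
    exact ⟨g2 * g1, mul_mem h2 h1, by rw [Units.val_mul, ← mulVec_mulVec, e1, e2]⟩
  · obtain ⟨t, ht⟩ : ∃ t : F, t • v = w := by
      by_contra! hno
      exact hli ((LinearIndependent.pair_iff' hv0).2 hno)
    subst ht
    exact move_scalar hf hn hv0 hv fun h => hw0 (by rw [h, zero_smul])

/-- Two transvections are conjugate under the transvection group. -/
theorem exists_conj [Finite F] (hn : 3 ≤ Fintype.card ι) {v w : ι → F} (hv0 : v ≠ 0) (hv : f v v = 0)
    (hw0 : w ≠ 0) (hw : f w w = 0) {c c' : F} (hc : c + σ c = 0) (hc0 : c ≠ 0) (hc' : c' + σ c' = 0) (hc0' : c' ≠ 0) :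
    ∃ g ∈ uGen hf (⊤ : Submodule F (ι → F)), g * utv hf v hv c * g⁻¹ = utv hf w hw c' := by
  have hσc : σ c = -c := eq_neg_of_add_eq_zero_right hc
  have hσc' : σ c' = -c' := eq_neg_of_add_eq_zero_right hc'
  obtain ⟨z, hz⟩ := exists_norm_eq hf.ne_refl hf.involutive (a := c' / c) (by rw [map_div₀, hσc, hσc', neg_div_neg_eq])
  have hz0 : z ≠ 0 := fun h => by rw [h, zero_mul] at hz; exact div_ne_zero hc0' hc0 hz.symm
  obtain ⟨g, hg, e⟩ := move_iso hf hn hv0 hv (smul_ne_zero hz0 hw0) (smul_iso hf hw z)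
  refine ⟨g, hg, ?_⟩
  rw [conj_utv hf g (uGen_isometry hg) v hv c (by rw [e]; exact smul_iso hf hw z)]
  refine Units.ext (ext_mulVec fun x => ?_)
  rw [utv_mulVec, utv_mulVec, e, herm_smul_right hf, smul_smul]
  congr 2
  calc c * (σ z * f x w) * z = c * (z * σ z) * f x w := by ring
    _ = _ := by rw [hz, mul_div_cancel₀ _ hc0]

/-- An isometry of determinant one moving a line is a transvection. -/
theorem eq_utv {g : GL ι F}
    (hg : ∀ x y, f ((g : Matrix ι ι F) *ᵥ x) ((g : Matrix ι ι F) *ᵥ y) = f x y)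
    (hdet : (g : Matrix ι ι F).det = 1) (hr : ((g : Matrix ι ι F) - 1).rank = 1) :
    ∃ v, v ≠ 0 ∧ ∃ hv : f v v = 0, ∃ c, c + σ c = 0 ∧ c ≠ 0 ∧ g = utv hf v hv c := by
  set M := (g : Matrix ι ι F) - 1 with hM
  obtain ⟨⟨v, hvmem⟩, hv0, hspan⟩ := finrank_eq_one_iff'.mp
    (show Module.finrank F (LinearMap.range M.mulVecLin) = 1 from hr)
  have hv : v ≠ 0 := fun h => hv0 (Subtype.ext h)
  have hx : ∀ x, ∃ c : F, M *ᵥ x = c • v := fun x => by
    obtain ⟨c, hc⟩ := hspan ⟨M.mulVecLin x, ⟨x, rfl⟩⟩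
    exact ⟨c, (congrArg Subtype.val hc).symm⟩
  choose φ hφ using hx
  set ψ : ι → F := fun j => φ (Pi.single j 1) with hψ
  have hgψ : (g : Matrix ι ι F) = tv v ψ := by
    have h1 : M = vecMulVec v ψ := by
      ext i j
      have := congrFun (hφ (Pi.single j 1)) i
      rw [mulVec_single_one] at this
      simpa [vecMulVec_apply, hψ, mul_comm] using this
    rw [tv, ← h1, hM, add_sub_cancel]
  have hψv : ψ ⬝ᵥ v = 0 := by
    rw [hgψ, det_tv] at hdet
    linear_combination hdet
  have hgx : ∀ x, (g : Matrix ι ι F) *ᵥ x = x + (ψ ⬝ᵥ x) • v := fun x => by rw [hgψ, tv_mulVec]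
  have key : ∀ x y, (ψ ⬝ᵥ x) * f v y + σ (ψ ⬝ᵥ y) * f x v + (ψ ⬝ᵥ x) * σ (ψ ⬝ᵥ y) * f v v = 0 := fun x y => by
    have h := hg x y
    simp only [hgx, hf.add_left, hf.smul_left, herm_add_right hf, herm_smul_right hf] at h
    linear_combination h
  obtain ⟨y, hy⟩ : ∃ y, ψ ⬝ᵥ y ≠ 0 := by
    by_contra! h
    have hM0 : M = 0 := Matrix.ext_iff_mulVec.mpr fun z => by
      rw [hM, sub_mulVec, one_mulVec, hgx, h, zero_smul, add_zero, sub_self, zero_mulVec]
    rw [hM0, rank_zero] at hr
    exact zero_ne_one hr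
  have hvv : f v v = 0 := by
    have := key v y
    rw [hψv] at this
    simpa [hy] using this
  obtain ⟨z, hz⟩ := (hf.nondegenerate v hv).1
  have hz' : f v z ≠ 0 := fun e => hz (herm_eq_zero_symm hf e)
  refine ⟨v, hv, hvv, -(σ (ψ ⬝ᵥ z) / f v z), ?_⟩
  have hlin : ∀ x, ψ ⬝ᵥ x = -(σ (ψ ⬝ᵥ z) / f v z) * f x v := fun x => by
    have := key x z
    rw [hvv, mul_zero, add_zero] at this
    field_simp
    linear_combination this
  refine ⟨?_, ?_, Units.ext (ext_mulVec fun x => by rw [hgx, utv_mulVec, ← hlin])⟩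
  · set c := -(σ (ψ ⬝ᵥ z) / f v z)
    have h := key z z
    rw [hvv, mul_zero, add_zero, hlin z, map_mul, ← hf.herm v z] at h
    have h' : (c + σ c) * (f z v * f v z) = 0 := by linear_combination h
    exact (mul_eq_zero.1 h').resolve_right (mul_ne_zero (fun e => hz e) hz')
  · intro h
    exact hy (by rw [hlin y, h, zero_mul])

/-- A nontrivial transvection has rank one. -/
theorem rank_utv {v : ι → F} (hv0 : v ≠ 0) (hv : f v v = 0) {c : F} (hc : c ≠ 0) :
    ((utv hf v hv c : Matrix ι ι F) - 1).rank = 1 := by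
  set M := (utv hf v hv c : Matrix ι ι F) - 1 with hM
  have happly : ∀ x, M *ᵥ x = (c * f x v) • v := fun x => by
    rw [hM, sub_mulVec, one_mulVec, utv_mulVec, add_sub_cancel_left]
  have hrange : LinearMap.range M.mulVecLin = F ∙ v := by
    apply le_antisymm
    · rintro _ ⟨x, rfl⟩
      rw [mulVecLin_apply, happly]
      exact Submodule.smul_mem _ _ (Submodule.mem_span_singleton_self v)
    · rw [Submodule.span_singleton_le_iff_mem]
      obtain ⟨x, hx⟩ := (hf.nondegenerate v hv0).1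
      exact ⟨(c * f x v)⁻¹ • x, by
        rw [mulVecLin_apply, mulVec_smul, happly, smul_smul, inv_mul_cancel₀ (mul_ne_zero hc hx), one_smul]⟩
  show Module.finrank F (LinearMap.range M.mulVecLin) = 1
  rw [hrange, finrank_span_singleton hv0]

/-- Transvections with coefficient one over the field with four elements: products of order at most three. -/
theorem utv_pair (h2 : (2 : F) = 0) (hnorm : ∀ c : F, c ≠ 0 → c * σ c = 1) {u v : ι → F} (hu : f u u = 0)
    (hv : f v v = 0) :
    (utv hf u hu 1 * utv hf v hv 1) ^ 2 = 1 ∨ (utv hf u hu 1 * utv hf v hv 1) ^ 3 = 1 := by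
  have h11 : (1 : F) + σ 1 = 0 := by rw [map_one, one_add_one_eq_two, h2]
  have hsq : ∀ (w : ι → F) (hw : f w w = 0), utv hf w hw 1 * utv hf w hw 1 = 1 := fun w hw =>
    Units.ext (ext_mulVec fun x => by
      rw [Units.val_mul, Units.val_one, one_mulVec, ← mulVec_mulVec, utv_mulVec, utv_mulVec, hf.add_left,
        hf.smul_left, hw, mul_zero, add_zero, add_assoc, ← add_smul, ← two_mul, h2, zero_mul, zero_smul, add_zero])
  have hconj : ∀ (a b : ι → F) (ha : f a a = 0) (hb : f b b = 0)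
      (h : f (b + f b a • a) (b + f b a • a) = 0),
      utv hf a ha 1 * utv hf b hb 1 * utv hf a ha 1 = utv hf (b + f b a • a) h 1 := fun a b ha hb h => by
    have he : (utv hf a ha 1 : Matrix ι ι F) *ᵥ b = b + f b a • a := by rw [utv_mulVec, one_mul]
    conv_lhs => arg 2; rw [← inv_eq_of_mul_eq_one_right (hsq a ha)]
    rw [conj_utv hf _ (utv_isometry hf a ha h11) b hb 1 (by rw [he]; exact h)]
    congr 1
  have hiso : ∀ (a b : ι → F) (ha : f a a = 0) (hb : f b b = 0), f (b + f b a • a) (b + f b a • a) = 0 :=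
    fun a b ha hb => by
      simp only [hf.add_left, hf.smul_left, herm_add_right hf, herm_smul_right hf, ha, hb]
      rw [← hf.herm a b]
      linear_combination (f b a * f a b) * h2
  by_cases h : f v u = 0
  · left
    have h1 : utv hf u hu 1 * utv hf v hv 1 * utv hf u hu 1 = utv hf v hv 1 := by
      rw [hconj u v hu hv (hiso u v hu hv)]
      exact Units.ext (ext_mulVec fun x => by rw [utv_mulVec, utv_mulVec, h, zero_smul, add_zero])
    rw [pow_two, ← mul_assoc, h1, hsq]
  · right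
    have h4 : (utv hf u hu 1 * utv hf v hv 1) ^ 3 =
        (utv hf u hu 1 * utv hf v hv 1 * utv hf u hu 1) * (utv hf v hv 1 * utv hf u hu 1 * utv hf v hv 1) := by
      simp only [pow_succ, pow_zero, one_mul, mul_assoc]
    rw [h4, hconj u v hu hv (hiso u v hu hv), hconj v u hv hu (hiso v u hv hu)]
    have hn := hnorm _ h
    have he : u + f u v • v = σ (f v u) • (v + f v u • u) := by
      rw [smul_add, smul_smul, mul_comm (σ (f v u)) (f v u), hn, one_smul, ← hf.herm u v, add_comm]
    have : utv hf (u + f u v • v) (hiso v u hv hu) 1 = utv hf (v + f v u • u) (hiso u v hu hv) 1 := by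
      refine Units.ext (ext_mulVec fun x => ?_)
      rw [utv_mulVec, utv_mulVec, he, herm_smul_right hf, hf.involutive, smul_smul]
      congr 2
      linear_combination (f x (v + f v u • u)) * hn
    rw [this, hsq]

end Cfsg.Lib.Classical.UTransv
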