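import Mathlib
import Cfsg.Prelude.Def_Classical
import Cfsg.Agent.Lib.Classical.UnitaryStd
import Cfsg.Agent.Lib.Classical.UnitaryTransvClass

/-! Transvections inside `SU n F q`. -/

set_option autoImplicit false

namespace Cfsg.Lib.Classical.UTransv

open Matrix
open scoped MatrixGroups

variable {F : Type*} [Field F] {n q : ℕ}

/-- `SU` inside the general linear group. -/
noncomputable def suToGL : ↥(Cfsg.SU n F q) →* GL (Fin n) F :=
  (Matrix.SpecialLinearGroup.toGL).comp (Cfsg.SU n F q).subtype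

lemma coe_suToGL (g : ↥(Cfsg.SU n F q)) :
    (suToGL g : Matrix (Fin n) (Fin n) F) = ((g : Matrix.SpecialLinearGroup (Fin n) F) : Matrix (Fin n) (Fin n) F) :=
  rfl

lemma suToGL_injective : Function.Injective (suToGL (F := F) (n := n) (q := q)) := fun a b h => by
  apply Subtype.ext
  apply Subtype.ext
  rw [← coe_suToGL, ← coe_suToGL, h]

variable {σ : F ≃+* F} (hf : Cfsg.Geo.IsUnitaryForm σ (Cfsg.hermForm n F q))
include hf

lemma exists_eq_suToGL {g : GL (Fin n) F} (hg : g ∈ uGen hf (⊤ : Submodule F (Fin n → F))) :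
    ∃ s : ↥(Cfsg.SU n F q), suToGL s = g :=
  ⟨⟨⟨(g : Matrix (Fin n) (Fin n) F), by
    have := congrArg Units.val (uGen_det hg)
    rwa [Matrix.GeneralLinearGroup.val_det_apply, Units.val_one] at this⟩, fun u v => uGen_isometry hg u v⟩,
    Units.ext rfl⟩

lemma eq_utv_su {g : ↥(Cfsg.SU n F q)}
    (hr : ((suToGL g : Matrix (Fin n) (Fin n) F) - 1).rank = 1) :
    ∃ v, v ≠ 0 ∧ ∃ hv : Cfsg.hermForm n F q v v = 0, ∃ c, c + σ c = 0 ∧ c ≠ 0 ∧ suToGL g = utv hf v hv c :=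
  eq_utv hf (fun x y => g.2 x y) g.1.2 hr

theorem isConj_su [Finite F] (hn : 3 ≤ n) {s t : ↥(Cfsg.SU n F q)}
    (hs : ((suToGL s : Matrix (Fin n) (Fin n) F) - 1).rank = 1)
    (ht : ((suToGL t : Matrix (Fin n) (Fin n) F) - 1).rank = 1) : IsConj s t := by
  obtain ⟨v, hv0, hv, c, hc, hc0, he⟩ := eq_utv_su hf hs
  obtain ⟨w, hw0, hw, c', hc', hc0', he'⟩ := eq_utv_su hf ht
  obtain ⟨g, hg, e⟩ := exists_conj hf (by simpa using hn) hv0 hv hw0 hw hc hc0 hc' hc0'
  obtain ⟨k, rfl⟩ := exists_eq_suToGL hf hg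
  exact isConj_iff.mpr ⟨k, suToGL_injective (by rw [map_mul, map_mul, map_inv, he, he', e])⟩

end Cfsg.Lib.Classical.UTransv
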