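import Mathlib
import Cfsg.Agent.Lib.Classical.UnitaryGen
import Cfsg.Agent.Lib.Classical.UnitaryStd
import Cfsg.Agent.Lib.Classical.UnitaryTransvection
import Cfsg.Agent.Lib.Classical.UnitaryTransvSU
import Cfsg.Agent.Lib.Classical.UnitaryCentre

/-!
Primitivity on isotropic points, perfectness and simplicity for the unitary groups.
-/

set_option autoImplicit false

namespace Cfsg.Lib.Classical.SUSimple

open Matrix UTransv UnitaryCentre
open scoped MatrixGroups LinearAlgebra.Projectivization commutatorElement Pointwise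

variable {F : Type*} [Field F] {n q : ℕ}

lemma form_smul_self (a : F) (v : Fin n → F) :
    Cfsg.hermForm n F q (a • v) (a • v) = a * a ^ q * Cfsg.hermForm n F q v v := by
  simp only [Cfsg.hermForm, Finset.mul_sum, Pi.smul_apply, smul_eq_mul, mul_pow]
  exact Finset.sum_congr rfl fun i _ => by ring

/-- The points of the projective space which are isotropic. -/
def IsoPt (n : ℕ) (F : Type*) [Field F] (q : ℕ) : Type _ :=
  {p : ℙ F (Fin n → F) // Cfsg.hermForm n F q p.rep p.rep = 0}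

lemma rep_iso_of {v : Fin n → F} (hv : v ≠ 0) (h : Cfsg.hermForm n F q v v = 0) :
    Cfsg.hermForm n F q (Projectivization.mk F v hv).rep (Projectivization.mk F v hv).rep = 0 := by
  obtain ⟨a, ha⟩ := Projectivization.exists_smul_eq_mk_rep F v hv
  rw [← ha, Units.smul_def, form_smul_self, h, mul_zero]

/-- An element of `SU` applied to a vector. -/
noncomputable def ap (g : ↥(Cfsg.SU n F q)) (v : Fin n → F) : Fin n → F :=
  (suToGL g : Matrix (Fin n) (Fin n) F) *ᵥ v

lemma ap_iso (g : ↥(Cfsg.SU n F q)) (x y : Fin n → F) :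
    Cfsg.hermForm n F q (ap g x) (ap g y) = Cfsg.hermForm n F q x y := g.2 x y

lemma ap_mul (g h : ↥(Cfsg.SU n F q)) (v : Fin n → F) : ap (g * h) v = ap g (ap h v) := by
  simp [ap, mulVec_mulVec]

lemma ap_one (v : Fin n → F) : ap (1 : ↥(Cfsg.SU n F q)) v = v := by
  simp [ap]

lemma ap_ne_zero (g : ↥(Cfsg.SU n F q)) {v : Fin n → F} (hv : v ≠ 0) : ap g v ≠ 0 := by
  intro h
  have := congrArg (ap g⁻¹) h
  rw [← ap_mul, inv_mul_cancel, ap_one] at this
  exact hv (this.trans (mulVec_zero _))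

lemma ap_smul (g : ↥(Cfsg.SU n F q)) (a : F) (v : Fin n → F) : ap g (a • v) = a • ap g v :=
  mulVec_smul _ _ _

noncomputable instance : MulAction ↥(Cfsg.SU n F q) (IsoPt n F q) where
  smul g p := ⟨Projectivization.mk F (ap g p.1.rep) (ap_ne_zero g p.1.rep_nonzero),
    rep_iso_of _ (by rw [ap_iso]; exact p.2)⟩
  one_smul p := Subtype.ext (by
    change Projectivization.mk F (ap 1 p.1.rep) _ = p.1
    simp only [ap_one, Projectivization.mk_rep])
  mul_smul g h p := Subtype.ext (by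
    change Projectivization.mk F (ap (g * h) p.1.rep) _ =
      Projectivization.mk F (ap g (Projectivization.mk F (ap h p.1.rep) _).rep) _
    obtain ⟨a, ha⟩ := Projectivization.exists_smul_eq_mk_rep F (ap h p.1.rep) (ap_ne_zero h p.1.rep_nonzero)
    refine (Projectivization.mk_eq_mk_iff' F _ _ _ _).2 ⟨(a⁻¹ : Fˣ), ?_⟩
    rw [← ha, Units.smul_def, ap_smul, smul_smul, Units.inv_mul, one_smul, ap_mul])

/-- The isotropic point of an isotropic vector. -/
noncomputable def pt (v : Fin n → F) (hv : v ≠ 0) (h : Cfsg.hermForm n F q v v = 0) : IsoPt n F q :=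
  ⟨Projectivization.mk F v hv, rep_iso_of hv h⟩

lemma smul_pt (g : ↥(Cfsg.SU n F q)) {v w : Fin n → F} (hv : v ≠ 0) (hv' : Cfsg.hermForm n F q v v = 0)
    (hw : w ≠ 0) (hw' : Cfsg.hermForm n F q w w = 0) (a : F) (h : ap g v = a • w) :
    g • pt v hv hv' = pt w hw hw' := by
  refine Subtype.ext ?_
  change Projectivization.mk F (ap g (Projectivization.mk F v hv).rep) _ = Projectivization.mk F w hw
  obtain ⟨b, hb⟩ := Projectivization.exists_smul_eq_mk_rep F v hv
  refine (Projectivization.mk_eq_mk_iff' F _ _ _ _).2 ⟨(b : F) * a, ?_⟩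
  rw [← hb, Units.smul_def, ap_smul, h, smul_smul]

lemma pt_eq {v w : Fin n → F} (hv : v ≠ 0) (hv' : Cfsg.hermForm n F q v v = 0)
    (hw : w ≠ 0) (hw' : Cfsg.hermForm n F q w w = 0) (a : F) (h : a • w = v) :
    pt v hv hv' = pt w hw hw' :=
  Subtype.ext ((Projectivization.mk_eq_mk_iff' F _ _ _ _).2 ⟨a, h⟩)

lemma pt_rep (p : IsoPt n F q) : pt p.1.rep p.1.rep_nonzero p.2 = p :=
  Subtype.ext (Projectivization.mk_rep _)

lemma exists_pt (p : IsoPt n F q) : ∃ v hv hv', p = pt v hv hv' := ⟨_, _, _, (pt_rep p).symm⟩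

variable {σ : F ≃+* F} (hf : Cfsg.Geo.IsUnitaryForm σ (Cfsg.hermForm n F q))
include hf

/-- An Eichler element fixing `u` moves `v` to a vector on the line of `v'`. -/
lemma exists_move_opp {u v v' : Fin n → F} (hu : Cfsg.hermForm n F q u u = 0)
    (hv : Cfsg.hermForm n F q v v = 0) (hv' : Cfsg.hermForm n F q v' v' = 0)
    (h : Cfsg.hermForm n F q v u = 1) (h' : Cfsg.hermForm n F q v' u = 1) :
    ∃ g : ↥(Cfsg.SU n F q), ap g u = u ∧ ap g v = v' := by
  have hd : Cfsg.hermForm n F q (v' - v) u = 0 := by rw [herm_sub_left hf, h, h', sub_self]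
  obtain ⟨E, hdet, hiso, hE⟩ := exists_eichler hf (w := u) (d := v' - v) hu hd
    (s := - Cfsg.hermForm n F q v v') (by
      rw [map_neg, ← hf.herm v' v]
      simp only [herm_sub_left hf, herm_sub_right hf, hv, hv']
      ring)
  let g : ↥(Cfsg.SU n F q) := ⟨⟨(E : Matrix (Fin n) (Fin n) F), by
    have := congrArg Units.val hdet
    rwa [Matrix.GeneralLinearGroup.val_det_apply, Units.val_one] at this⟩, fun x y => hiso x y⟩
  refine ⟨g, ?_, ?_⟩
  · show (E : Matrix (Fin n) (Fin n) F) *ᵥ u = u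
    rw [hE, hu, herm_eq_zero_symm hf hd]
    simp
  · show (E : Matrix (Fin n) (Fin n) F) *ᵥ v = v'
    rw [hE, h, herm_sub_right hf, hv]
    match_scalars <;> ring

/-- An isotropic vector with prescribed values on two orthogonal independent isotropic vectors. -/
lemma exists_iso_values [Fintype F] {p r : Fin n → F} (hr : Cfsg.hermForm n F q r r = 0)
    (hpr : Cfsg.hermForm n F q r p = 0) (hli : LinearIndependent F ![p, r]) (a : F) :
    ∃ w, Cfsg.hermForm n F q w w = 0 ∧ Cfsg.hermForm n F q w p = a ∧ Cfsg.hermForm n F q w r = 1 := by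
  obtain ⟨y, hy⟩ := exists_herm_values hf hli ![a, 1]
  have hyp : Cfsg.hermForm n F q y p = a := hy 0
  have hyr : Cfsg.hermForm n F q y r = 1 := hy 1
  obtain ⟨t, ht⟩ := exists_trace_eq hf.ne_refl hf.involutive (a := - Cfsg.hermForm n F q y y)
    (by rw [map_neg, herm_self_fixed hf])
  refine ⟨y + t • r, ?_, ?_, ?_⟩
  · simp only [hf.add_left, hf.smul_left, herm_add_right hf, herm_smul_right hf, hr, hyr,
      herm_eq_one_symm hf hyr, mul_zero, mul_one, add_zero]
    linear_combination ht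
  · rw [hf.add_left, hf.smul_left, hyp, hpr, mul_zero, add_zero]
  · rw [hf.add_left, hf.smul_left, hyr, hr, mul_zero, add_zero]

/-- A nonzero isotropic vector with a partner. -/
lemma exists_skew_partner [Fintype F] {v : Fin n → F} (hv0 : v ≠ 0) (hv : Cfsg.hermForm n F q v v = 0) :
    ∃ δ z, δ ≠ 0 ∧ σ δ = -δ ∧ Cfsg.hermForm n F q z z = 0 ∧ Cfsg.hermForm n F q z v = δ := by
  obtain ⟨δ, hδ0, hδ⟩ := exists_skew hf.ne_refl hf.involutive
  have hli : LinearIndependent F ![v] := by
    rw [Fintype.linearIndependent_iff]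
    intro c hc i
    fin_cases i
    simpa [hv0] using hc
  obtain ⟨y, hy⟩ := exists_herm_values hf hli ![1]
  have hy1 : Cfsg.hermForm n F q y v = 1 := hy 0
  obtain ⟨t, ht⟩ := exists_trace_eq hf.ne_refl hf.involutive (a := - Cfsg.hermForm n F q y y)
    (by rw [map_neg, herm_self_fixed hf])
  refine ⟨δ, δ • (y + t • v), hδ0, hδ, ?_, ?_⟩
  · refine smul_iso hf ?_ δ
    simp only [hf.add_left, hf.smul_left, herm_add_right hf, herm_smul_right hf, hv, hy1,
      herm_eq_one_symm hf hy1, mul_zero, mul_one, add_zero]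
    linear_combination ht
  · rw [hf.smul_left, hf.add_left, hf.smul_left, hy1, hv, mul_zero, add_zero, mul_one]

theorem exists_map [Fintype F] (hn : 3 ≤ n) {v w : Fin n → F} (hv0 : v ≠ 0)
    (hv : Cfsg.hermForm n F q v v = 0) (hw0 : w ≠ 0) (hw : Cfsg.hermForm n F q w w = 0) :
    ∃ g : ↥(Cfsg.SU n F q), ap g v = w := by
  obtain ⟨k, hk, e⟩ := move_iso hf (by simpa using hn) hv0 hv hw0 hw
  obtain ⟨g, rfl⟩ := exists_eq_suToGL hf hk
  exact ⟨g, e⟩

theorem isPreprimitive [Fintype F] (hn : 3 ≤ n) :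
    MulAction.IsPreprimitive ↥(Cfsg.SU n F q) (IsoPt n F q) := by
  have : MulAction.IsPretransitive ↥(Cfsg.SU n F q) (IsoPt n F q) := ⟨fun a b => by
    obtain ⟨u, hu, hu', rfl⟩ := exists_pt a
    obtain ⟨v, hv, hv', rfl⟩ := exists_pt b
    obtain ⟨g, hg⟩ := exists_map hf hn hu hu' hv hv'
    exact ⟨g, smul_pt g hu hu' hv hv' 1 (by rw [hg, one_smul])⟩⟩
  refine ⟨fun {B} hB => ?_⟩
  by_cases hs : B.Subsingleton
  · exact Or.inl hs
  obtain ⟨a₀, ha₀, b₀, hb₀, hne⟩ := Set.not_subsingleton_iff.1 hs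
  refine Or.inr (Set.eq_univ_of_forall fun c₀ => ?_)
  obtain ⟨p, hp, hp', rfl⟩ := exists_pt a₀
  obtain ⟨r, hr, hr', rfl⟩ := exists_pt b₀
  have hinv : ∀ (g : ↥(Cfsg.SU n F q)) (a b : IsoPt n F q), a ∈ B → g • a = a → b ∈ B → g • b ∈ B := by
    intro g a b ha hga hb
    have := hB.smul_eq_of_mem ha (hga.symm ▸ ha)
    rw [← this]
    exact Set.smul_mem_smul_set hb
  -- everything not orthogonal to a vector of `B` with an opposite vector in `B`
  have hopp : ∀ (u : Fin n → F) (hu : u ≠ 0) (hu' : Cfsg.hermForm n F q u u = 0) (v : Fin n → F) (hv : v ≠ 0)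
      (hv' : Cfsg.hermForm n F q v v = 0) (w : Fin n → F) (hw : w ≠ 0) (hw' : Cfsg.hermForm n F q w w = 0),
      pt u hu hu' ∈ B → pt v hv hv' ∈ B → Cfsg.hermForm n F q v u ≠ 0 → Cfsg.hermForm n F q w u ≠ 0 →
      pt w hw hw' ∈ B := by
    intro u hu hu' v hv hv' w hw hw' huB hvB hvu hwu
    obtain ⟨g, hgu, hgv⟩ := exists_move_opp hf (u := u) (v := (Cfsg.hermForm n F q v u)⁻¹ • v)
      (v' := (Cfsg.hermForm n F q w u)⁻¹ • w) hu' (smul_iso hf hv' _) (smul_iso hf hw' _)
      (by rw [hf.smul_left, inv_mul_cancel₀ hvu]) (by rw [hf.smul_left, inv_mul_cancel₀ hwu])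
    have h1 := hinv g _ (pt v hv hv') huB (smul_pt g hu hu' hu hu' 1 (by rw [hgu, one_smul])) hvB
    rwa [smul_pt g hv hv' hw hw' (Cfsg.hermForm n F q v u * (Cfsg.hermForm n F q w u)⁻¹) (by
      rw [← smul_smul, ← hgv, ← ap_smul, smul_inv_smul₀ hvu])] at h1
  -- an opposite pair gives everything
  have hall : ∀ (u : Fin n → F) (hu : u ≠ 0) (hu' : Cfsg.hermForm n F q u u = 0) (v : Fin n → F) (hv : v ≠ 0)
      (hv' : Cfsg.hermForm n F q v v = 0), pt u hu hu' ∈ B → pt v hv hv' ∈ B →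
      Cfsg.hermForm n F q v u ≠ 0 → c₀ ∈ B := by
    intro u hu hu' v hv hv' huB hvB hvu
    obtain ⟨z, hz, hz', rfl⟩ := exists_pt c₀
    by_cases hzu : Cfsg.hermForm n F q z u = 0
    swap
    · exact hopp u hu hu' v hv hv' z hz hz' huB hvB hvu hzu
    by_cases hli : LinearIndependent F ![u, z]
    · obtain ⟨w, hw', hwu, hwz⟩ := exists_iso_values hf hz' hzu hli 1
      have hw : w ≠ 0 := fun h => by rw [h, herm_zero_left hf] at hwu; exact zero_ne_one hwu
      have hwB := hopp u hu hu' v hv hv' w hw hw' huB hvB hvu (by rw [hwu]; exact one_ne_zero)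
      exact hopp w hw hw' u hu hu' z hz hz' hwB huB
        (by rw [herm_eq_one_symm hf hwu]; exact one_ne_zero)
        (by rw [herm_eq_one_symm hf hwz]; exact one_ne_zero)
    · obtain ⟨t, ht⟩ : ∃ t : F, t • u = z := by
        by_contra! hno
        exact hli ((LinearIndependent.pair_iff' hu).2 hno)
      rwa [pt_eq hz hz' hu hu' t ht]
  by_cases hrp : Cfsg.hermForm n F q r p = 0
  swap
  · exact hall p hp hp' r hr hr' ha₀ hb₀ hrp
  have hli : LinearIndependent F ![p, r] := (LinearIndependent.pair_iff' hp).2 fun t ht =>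
    hne (pt_eq hr hr' hp hp' t ht).symm
  obtain ⟨w, hw', hwp, hwr⟩ := exists_iso_values hf hr' hrp hli 0
  obtain ⟨δ, hδ0, hδ⟩ := exists_skew hf.ne_refl hf.involutive
  obtain ⟨g, hg⟩ := exists_eq_suToGL hf (g := utv hf w hw' δ)
    (utv_mem_uGen Submodule.mem_top hw' (by rw [hδ, add_neg_cancel]))
  have hgx : ∀ x, ap g x = x + (δ * Cfsg.hermForm n F q x w) • w := fun x => by
    rw [ap, hg, utv_mulVec]
  have hgp : ap g p = p := by rw [hgx, herm_eq_zero_symm hf hwp]; simp
  have hr1 : ap g r = r + δ • w := by rw [hgx, herm_eq_one_symm hf hwr, mul_one]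
  have h1 := hinv g _ (pt r hr hr') ha₀ (smul_pt g hp hp' hp hp' 1 (by rw [hgp, one_smul])) hb₀
  have hne1 : ap g r ≠ 0 := ap_ne_zero g hr
  rw [smul_pt g hr hr' hne1 (by rw [ap_iso, hr']) 1 (one_smul _ _).symm] at h1
  exact hall r hr hr' _ hne1 _ hb₀ h1 (by
    rw [hr1, hf.add_left, hf.smul_left, hr', hwr, zero_add, mul_one]
    exact hδ0)

/-- A transvection inside `SU`. -/
noncomputable def T (v : Fin n → F) (hv : Cfsg.hermForm n F q v v = 0) (c : F) (hc : c + σ c = 0) :
    ↥(Cfsg.SU n F q) :=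
  ⟨⟨(utv hf v hv c : Matrix (Fin n) (Fin n) F), by
    have := congrArg Units.val (utv_det hf v hv c)
    rwa [Matrix.GeneralLinearGroup.val_det_apply, Units.val_one] at this⟩,
    fun x y => utv_isometry hf v hv hc x y⟩

lemma suToGL_T (v : Fin n → F) (hv : Cfsg.hermForm n F q v v = 0) (c : F) (hc : c + σ c = 0) :
    suToGL (T hf v hv c hc) = utv hf v hv c := Units.ext rfl

lemma ap_T (v : Fin n → F) (hv : Cfsg.hermForm n F q v v = 0) (c : F) (hc : c + σ c = 0) (x : Fin n → F) :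
    ap (T hf v hv c hc) x = x + (c * Cfsg.hermForm n F q x v) • v := by
  rw [ap, suToGL_T, utv_mulVec]

lemma ext_ap {g h : ↥(Cfsg.SU n F q)} (hx : ∀ x, ap g x = ap h x) : g = h :=
  suToGL_injective (Units.ext (Matrix.ext_of_mulVec_single fun i => hx _))

lemma T_add (v : Fin n → F) (hv : Cfsg.hermForm n F q v v = 0) (c d : F) (hc : c + σ c = 0) (hd : d + σ d = 0) :
    T hf v hv c hc * T hf v hv d hd = T hf v hv (c + d) (by rw [map_add]; linear_combination hc + hd) :=
  ext_ap hf fun x => by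
    simp only [ap_mul, ap_T, hf.add_left, hf.smul_left, hv]
    module

lemma T_congr {v w : Fin n → F} (hv : Cfsg.hermForm n F q v v = 0) (hw : Cfsg.hermForm n F q w w = 0) {a c d : F}
    (hc : c + σ c = 0) (hd : d + σ d = 0) (h : v = a • w) (he : d = c * (a * σ a)) :
    T hf v hv c hc = T hf w hw d hd :=
  ext_ap hf fun x => by
    subst h he
    simp only [ap_T, herm_smul_right hf]
    module

lemma conj_T (g : ↥(Cfsg.SU n F q)) (v : Fin n → F) (hv : Cfsg.hermForm n F q v v = 0) (c : F) (hc : c + σ c = 0) :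
    g * T hf v hv c hc * g⁻¹ = T hf (ap g v) (by rw [ap_iso, hv]) c hc :=
  suToGL_injective (by
    rw [map_mul, map_mul, map_inv, suToGL_T, suToGL_T]
    exact conj_utv hf (suToGL g) (fun x y => g.2 x y) v hv c _)

theorem eq_top_of_T_mem [Fintype F] (h3 : n = 3 → ∃ c : F, c ≠ 0 ∧ c * σ c ≠ 1) (H : Subgroup ↥(Cfsg.SU n F q))
    (h : ∀ (v : Fin n → F), v ≠ 0 → ∀ hv c hc, T hf v hv c hc ∈ H) : H = ⊤ := by
  refine eq_top_iff.2 fun g _ => ?_
  have hm := mem_uGen_top hf (g := suToGL g) (fun e => h3 (by simpa using e)) (fun x y => g.2 x y)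
    (Units.ext g.1.2)
  obtain ⟨k, hk, hkg⟩ := uGen_le (H := H.map suToGL) (fun v _ hv c hc => by
    rcases eq_or_ne v 0 with rfl | hv0
    · exact ⟨1, H.one_mem, by
        rw [map_one]; refine Units.ext (ext_mulVec fun x => ?_)
        rw [utv_mulVec]; simp⟩
    · exact ⟨_, h v hv0 hv c hc, suToGL_T hf v hv c hc⟩) hm
  rwa [← suToGL_injective hkg]

theorem commutator_eq_top [Fintype F] (hn : 3 ≤ n) (h3 : n = 3 → ∃ c : F, c ≠ 0 ∧ c * σ c ≠ 1) :
    commutator ↥(Cfsg.SU n F q) = ⊤ := by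
  refine eq_top_of_T_mem hf h3 _ fun v _ hv c hc => ?_
  obtain ⟨a, b, ⟨ha1, ha2⟩, ⟨hb1, hb2⟩, he⟩ := exists_utv_eq_commutator hf hn v hv hc
  have lift : ∀ a : GL (Fin n) F, a ∈ Cfsg.GU n F q → a ∈ Cfsg.Geo.specialLinear (Fin n) F →
      ∃ s : ↥(Cfsg.SU n F q), suToGL s = a := fun a h1 h2 =>
    ⟨⟨⟨(a : Matrix (Fin n) (Fin n) F), by
      have := congrArg Units.val (show Matrix.GeneralLinearGroup.det a = 1 from h2)
      rwa [Matrix.GeneralLinearGroup.val_det_apply, Units.val_one] at this⟩, fun x y => h1 x y⟩,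
      Units.ext rfl⟩
  obtain ⟨a', rfl⟩ := lift a ha1 ha2
  obtain ⟨b', rfl⟩ := lift b hb1 hb2
  have : T hf v hv c hc = ⁅a', b'⁆ := suToGL_injective (by rw [suToGL_T, he, map_commutatorElement])
  rw [this, commutator_def]
  exact Subgroup.commutator_mem_commutator (Subgroup.mem_top _) (Subgroup.mem_top _)

theorem center_or_top [Fintype F] (hn : 3 ≤ n) (h3 : n = 3 → ∃ c : F, c ≠ 0 ∧ c * σ c ≠ 1)
    (N : Subgroup ↥(Cfsg.SU n F q)) [N.Normal] : N = ⊤ ∨ N ≤ Subgroup.center ↥(Cfsg.SU n F q) := by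
  have := isPreprimitive hf hn
  let S : MulAction.IwasawaStructure ↥(Cfsg.SU n F q) (IsoPt n F q) :=
    { T := fun p =>
        { carrier := {g | ∃ c hc, g = T hf p.1.rep p.2 c hc}
          one_mem' := ⟨0, by simp, ext_ap hf fun x => by simp [ap_one, ap_T]⟩
          mul_mem' := by
            rintro _ _ ⟨c, hc, rfl⟩ ⟨d, hd, rfl⟩
            exact ⟨c + d, _, T_add hf _ _ c d hc hd⟩
          inv_mem' := by
            rintro _ ⟨c, hc, rfl⟩
            refine ⟨-c, by rw [map_neg]; linear_combination -hc, inv_eq_of_mul_eq_one_right ?_⟩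
            rw [T_add]
            exact ext_ap hf fun x => by simp [ap_one, ap_T] }
      is_comm := fun p => ⟨⟨by
        rintro ⟨_, c, hc, rfl⟩ ⟨_, d, hd, rfl⟩
        refine Subtype.ext ?_
        change T hf _ _ c hc * T hf _ _ d hd = T hf _ _ d hd * T hf _ _ c hc
        rw [T_add, T_add]
        simp only [add_comm c d]⟩⟩
      is_conj := fun g p => by
        obtain ⟨a, ha⟩ := Projectivization.exists_smul_eq_mk_rep F (ap g p.1.rep) (ap_ne_zero g p.1.rep_nonzero)
        rw [Units.smul_def] at ha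
        have hrep : (a : F) • ap g p.1.rep = (g • p).1.rep := ha
        have hskew : ∀ c t : F, c + σ c = 0 → c * (t * σ t) + σ (c * (t * σ t)) = 0 := fun c t hc => by
          rw [map_mul, map_mul, hf.involutive]; linear_combination (t * σ t) * hc
        ext x
        constructor
        · rintro ⟨c, hc, rfl⟩
          refine ⟨T hf p.1.rep p.2 _ (hskew c a hc), ⟨_, _, rfl⟩, ?_⟩
          change g * T hf p.1.rep p.2 _ _ * g⁻¹ = T hf (g • p).1.rep (g • p).2 c hc
          rw [conj_T]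
          exact (T_congr hf _ _ hc _ hrep.symm rfl).symm
        · rintro ⟨_, ⟨c, hc, rfl⟩, rfl⟩
          refine ⟨_, hskew c (a : F)⁻¹ hc, ?_⟩
          change g * T hf p.1.rep p.2 c hc * g⁻¹ = _
          rw [conj_T]
          exact T_congr hf _ _ hc _ (by rw [← hrep, inv_smul_smul₀ a.ne_zero]) rfl
      is_generator := eq_top_of_T_mem hf h3 _ fun v hv0 hv c hc => by
        refine Subgroup.mem_iSup_of_mem (pt v hv0 hv) ?_
        obtain ⟨a, ha⟩ := Projectivization.exists_smul_eq_mk_rep F v hv0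
        rw [Units.smul_def] at ha
        have hv2 : v = (a : F)⁻¹ • (pt v hv0 hv).1.rep := by
          show v = (a : F)⁻¹ • (Projectivization.mk F v hv0).rep
          rw [← ha, inv_smul_smul₀ a.ne_zero]
        refine ⟨c * ((a : F)⁻¹ * σ (a : F)⁻¹), ?_, T_congr hf hv _ hc ?_ hv2 rfl⟩
        all_goals
          rw [map_mul, map_mul, hf.involutive]; linear_combination ((a : F)⁻¹ * σ (a : F)⁻¹) * hc }
  by_cases hfix : MulAction.fixedPoints N (IsoPt n F q) = Set.univ
  · refine Or.inr fun m hm => Subgroup.mem_center_iff.2 fun g => ?_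
    have hscal : ∀ v : Fin n → F, v ≠ 0 → Cfsg.hermForm n F q v v = 0 → ∃ a : F, ap m v = a • v := by
      intro v hv0 hv
      have h : m • pt v hv0 hv = pt v hv0 hv := Set.eq_univ_iff_forall.1 hfix _ ⟨m, hm⟩
      have h2 : Projectivization.mk F (ap m (Projectivization.mk F v hv0).rep) _ =
        Projectivization.mk F v hv0 := congrArg Subtype.val h
      obtain ⟨a, ha⟩ := (Projectivization.mk_eq_mk_iff' F _ _ _ _).1 h2
      obtain ⟨b, hb⟩ := Projectivization.exists_smul_eq_mk_rep F v hv0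
      rw [← hb, Units.smul_def, ap_smul] at ha
      exact ⟨(b : F)⁻¹ * a, by rw [← smul_smul, ha, inv_smul_smul₀ b.ne_zero]⟩
    have hcomm : Subgroup.centralizer ({m} : Set ↥(Cfsg.SU n F q)) = ⊤ := by
      refine eq_top_of_T_mem hf h3 _ fun v hv0 hv c hc => ?_
      rw [Subgroup.mem_centralizer_iff]
      rintro m' (hm' : m' = m)
      rw [hm']
      obtain ⟨δ, z, hδ0, hδ, hz, hzv⟩ := exists_skew_partner hf hv0 hv
      have hvz : Cfsg.hermForm n F q v z = -δ := by rw [hf.herm, hzv, hδ]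
      have hz0 : z ≠ 0 := fun h => hδ0 (by rw [← hzv, h, herm_zero_left hf])
      have hs : Cfsg.hermForm n F q (v + z) (v + z) = 0 := by
        simp only [hf.add_left, herm_add_right hf, hv, hz, hvz, hzv]; ring
      have hs0 : v + z ≠ 0 := fun h => hδ0 (by
        have := congrArg (fun x => Cfsg.hermForm n F q x v) h
        simpa [hf.add_left, hv, hzv, herm_zero_left hf] using this)
      obtain ⟨a, ha⟩ := hscal v hv0 hv
      obtain ⟨b, hb⟩ := hscal z hz0 hz
      obtain ⟨e, he⟩ := hscal _ hs0 hs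
      have hadd : ap m (v + z) = ap m v + ap m z := mulVec_add _ _ _
      rw [hadd, ha, hb] at he
      have h1 := congrArg (fun x => Cfsg.hermForm n F q x v) he
      have h2 := congrArg (fun x => Cfsg.hermForm n F q x z) he
      simp only [hf.add_left, hf.smul_left, hv, hz, hvz, hzv, mul_zero, zero_add, add_zero, mul_neg,
        neg_inj] at h1 h2
      have hbe : b = e := mul_right_cancel₀ hδ0 h1
      have hae : a = e := mul_right_cancel₀ hδ0 h2
      have h4 := ap_iso m z v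
      rw [ha, hb, hf.smul_left, herm_smul_right hf, hzv, hbe, hae] at h4
      have h5 := conj_T hf m v hv c hc
      rw [T_congr hf _ hv hc hc ha (by
        rw [hae]; exact mul_left_cancel₀ hδ0 (by linear_combination (-c) * h4))] at h5
      rw [mul_inv_eq_iff_eq_mul] at h5
      exact h5
    have hg : g ∈ Subgroup.centralizer ({m} : Set ↥(Cfsg.SU n F q)) := hcomm ▸ Subgroup.mem_top g
    exact (Subgroup.mem_centralizer_iff.1 hg m rfl).symm
  · exact Or.inl (top_le_iff.1 (commutator_eq_top hf hn h3 ▸ S.commutator_le N hfix))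

theorem center_ne_top [Fintype F] (hF : Fintype.card F = q ^ 2) (hσ : ∀ a, σ a = a ^ q) (hn : 3 ≤ n) :
    Subgroup.center ↥(Cfsg.SU n F q) ≠ ⊤ := by
  intro htop
  obtain ⟨l, hl⟩ := exists_norm_eq hf.ne_refl hf.involutive (a := (-1 : F)) (by rw [map_neg, map_one])
  let i₀ : Fin n := ⟨0, by omega⟩
  let i₁ : Fin n := ⟨1, by omega⟩
  have h01 : i₁ ≠ i₀ := by simp [i₀, i₁, Fin.ext_iff]
  let v : Fin n → F := Pi.single i₀ 1 + Pi.single i₁ l
  have hv0 : v ≠ 0 := fun h => by
    simpa [v, Pi.single_apply, h01.symm] using congrFun h i₀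
  have hv : Cfsg.hermForm n F q v v = 0 := by
    have hq0 : q ≠ 0 := by
      rintro rfl
      have := Fintype.one_lt_card (α := F)
      simp [hF] at this
    have es : ∀ (i : Fin n) (a : F) (w : Fin n → F), Cfsg.hermForm n F q (Pi.single i a) w = a * w i ^ q :=
      fun i a w => by
        rw [Cfsg.hermForm, Finset.sum_eq_single i (fun j _ hj => by simp [hj]) (by simp)]
        simp
    have e0 : ∀ i, Cfsg.hermForm n F q (Pi.single i 1) (Pi.single i 1) = 1 := fun i => by
      simp [es]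
    have e1 : Cfsg.hermForm n F q (Pi.single i₀ 1) (Pi.single i₁ l) = 0 := by
      simp [es, Pi.single_eq_of_ne h01.symm, zero_pow hq0]
    have e2 : Cfsg.hermForm n F q (Pi.single i₁ l) (Pi.single i₁ l) = l * σ l := by
      simp [es, hσ]
    simp only [v, hf.add_left, herm_add_right hf, e0, e1, e2, herm_eq_zero_symm hf e1, hl]
    ring
  obtain ⟨δ, z, hδ0, hδ, hz, hzv⟩ := exists_skew_partner hf hv0 hv
  have hc : δ + σ δ = 0 := by rw [hδ, add_neg_cancel]
  obtain ⟨r, hr⟩ := scalar_of_commute hF (by omega) (M := (suToGL (T hf v hv δ hc) : Matrix (Fin n) (Fin n) F))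
    fun A => by
      have hm : T hf v hv δ hc ∈ Subgroup.center _ := htop ▸ Subgroup.mem_top _
      have := congrArg (fun s => (suToGL s : Matrix (Fin n) (Fin n) F)) (Subgroup.mem_center_iff.1 hm A)
      simp only [map_mul, Units.val_mul] at this
      rw [coe_suToGL A] at this
      exact this
  have hx : ∀ x, x + (δ * Cfsg.hermForm n F q x v) • v = r • x := fun x => by
    rw [← ap_T hf v hv δ hc x, ap, hr, Matrix.scalar_apply, ← Matrix.smul_one_eq_diagonal, smul_mulVec, one_mulVec]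
  have h1 := congrFun (hx v) i₀
  have h2 := congrArg (fun x => Cfsg.hermForm n F q x z) (hx z)
  simp [hv, v, Pi.single_apply, h01.symm] at h1
  simp [hf.add_left, hf.smul_left, hzv, hz, ← h1, hδ0] at h2
  rw [hf.herm v z, hzv, hδ] at h2
  exact hδ0 (neg_eq_zero.1 h2)

theorem isSimpleGroup [Fintype F] (hF : Fintype.card F = q ^ 2) (hσ : ∀ a, σ a = a ^ q) (hn : 3 ≤ n)
    (h3 : n = 3 → ∃ c : F, c ≠ 0 ∧ c * σ c ≠ 1) : IsSimpleGroup (Cfsg.PSU n F q) := by
  have hne : Nontrivial (Cfsg.PSU n F q) := QuotientGroup.nontrivial_iff.2 (center_ne_top hf hF hσ hn)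
  refine ⟨fun H hH => ?_⟩
  have hN : (H.comap (QuotientGroup.mk' (Subgroup.center ↥(Cfsg.SU n F q)))).Normal := hH.comap _
  have hs := QuotientGroup.mk'_surjective (Subgroup.center ↥(Cfsg.SU n F q))
  rcases center_or_top hf hn h3 (H.comap (QuotientGroup.mk' (Subgroup.center ↥(Cfsg.SU n F q)))) with h | h
  · exact Or.inr (by rw [← Subgroup.map_comap_eq_self_of_surjective hs H, h, Subgroup.map_top_of_surjective _ hs])
  · refine Or.inl ?_
    rw [← Subgroup.map_comap_eq_self_of_surjective hs H, eq_bot_iff]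
    refine (Subgroup.map_mono h).trans ?_
    rintro _ ⟨x, hx, rfl⟩
    exact (QuotientGroup.eq_one_iff x).2 hx

end Cfsg.Lib.Classical.SUSimple
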