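import Mathlib
import Cfsg.Agent.Lib.Classical.UnitarySubfieldRoots

/-!
Overgroups of a rational special unitary group: without irrational short root maps every element is
rational up to a scalar.
-/

set_option autoImplicit false

namespace Cfsg.Lib.Classical.HermSub

open Matrix Module Cfsg.Lib.Classical Cfsg.Lib.Classical.SkewSub
open scoped MatrixGroups

variable {ι : Type} [Fintype ι] [DecidableEq ι] {F : Type*} [Field F] [Finite F] {σ : F ≃+* F}
  {F₀ : Subfield F} {h : (ι → F) → (ι → F) → F} (R : IsRatHerm σ F₀ h) {M : Subgroup (GL ι F)}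
  (hM : ∀ g : GL ι F, RatMat F₀ (g : Matrix ι ι F) → Matrix.GeneralLinearGroup.det g = 1 →
    (∀ x y, h ((g : Matrix ι ι F) *ᵥ x) ((g : Matrix ι ι F) *ᵥ y) = h x y) → g ∈ M)
  (hn : 9 ≤ Fintype.card ι)

include R

/-- Independent rational vectors stay independent. -/
lemma li_co {k : ℕ} {r : Fin k → ι → F₀} (hr : LinearIndependent F₀ r) :
    LinearIndependent F (fun i => co (r i)) := by
  classical
  rw [Fintype.linearIndependent_iff]
  intro a ha j
  obtain ⟨z, hz⟩ := R.exists_values hr (Pi.single j 1)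
  have h1 := congrArg (fun v => h (co z) v) ha
  simp only [herm_sum_right R.form, herm_smul_right R.form, hz, herm_zero_right R.form] at h1
  rw [Finset.sum_eq_single j (fun b _ hb => by simp [hb]) (by simp)] at h1
  simpa using h1

/-- A rational involution from an orthogonal family. -/
lemma exists_invol_family {k : ℕ} (a : Fin k → ι → F₀) (ha : LinearIndependent F₀ a)
    (horth : ∀ i j, i ≠ j → h (co (a i)) (co (a j)) = 0) (c : Fin k → F) (hc : ∀ i, c i ∈ F₀)
    (hc0 : ∀ i, c i ≠ 0)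
    (hsq : ∀ i, 2 * c i + c i * c i * h (co (a i)) (co (a i)) = 0)
    (hiso : ∀ i, c i + σ (c i) + c i * σ (c i) * h (co (a i)) (co (a i)) = 0)
    (hdet : ∏ i, (1 + c i * h (co (a i)) (co (a i))) = 1) :
    ∃ s : GL ι F, RatMat F₀ (s : Matrix ι ι F) ∧ s * s = 1 ∧
      Matrix.GeneralLinearGroup.det s = 1 ∧
      (∀ x y, h ((s : Matrix ι ι F) *ᵥ x) ((s : Matrix ι ι F) *ᵥ y) = h x y) ∧
      ((s : Matrix ι ι F) - 1).rank = k := by
  classical
  set A : Matrix ι (Fin k) F := Matrix.of fun x i => c i * co (a i) x with hA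
  set B : Matrix (Fin k) ι F := Matrix.of fun i x => hvec h (co (a i)) x with hB
  have hB' : ∀ p i, (B *ᵥ p) i = h p (co (a i)) := fun p i => by
    rw [mulVec, show (fun x => B i x) = hvec h (co (a i)) from rfl, hvec_dot R.form]
  have hA' : ∀ u : Fin k → F, A *ᵥ u = ∑ i, (u i * c i) • co (a i) := fun u => by
    funext x
    simp [hA, mulVec, dotProduct, Finset.sum_apply]
    exact Finset.sum_congr rfl fun i _ => by ring
  set S := 1 + A * B with hS
  have hSp : ∀ p, S *ᵥ p = p + ∑ i, (h p (co (a i)) * c i) • co (a i) := fun p => by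
    rw [hS, add_mulVec, one_mulVec, ← mulVec_mulVec, hA']
    simp only [hB']
  have hpick : ∀ (u : Fin k → F) j,
      h (∑ i, u i • co (a i)) (co (a j)) = u j * h (co (a j)) (co (a j)) := fun u j => by
    rw [herm_sum_left R.form, Finset.sum_eq_single j (fun b _ hb => by
      rw [R.form.smul_left, horth b j hb, mul_zero]) (by simp), R.form.smul_left]
  have hSa : ∀ p j, h (S *ᵥ p) (co (a j)) =
      h p (co (a j)) * (1 + c j * h (co (a j)) (co (a j))) := fun p j => by
    rw [hSp, R.form.add_left, hpick]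
    ring
  have hSS : S * S = 1 := by
    refine ext_mulVec fun p => ?_
    rw [← mulVec_mulVec, hSp (S *ᵥ p), one_mulVec]
    simp only [hSa]
    rw [hSp, add_assoc, ← Finset.sum_add_distrib, Finset.sum_eq_zero, add_zero]
    intro i _
    rw [← add_smul, show h p (co (a i)) * c i +
      h p (co (a i)) * (1 + c i * h (co (a i)) (co (a i))) * c i =
      h p (co (a i)) * (2 * c i + c i * c i * h (co (a i)) (co (a i))) by ring, hsq, mul_zero,
      zero_smul]
  let s : GL ι F := ⟨S, S, hSS, hSS⟩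
  refine ⟨s, ratMat_of_maps fun v j => ?_, Units.ext hSS, Units.ext ?_, fun x y => ?_, ?_⟩
  · change (S *ᵥ co v) j ∈ F₀
    rw [hSp, Pi.add_apply, Finset.sum_apply]
    exact F₀.add_mem (v j).2 (F₀.sum_mem fun i _ =>
      F₀.mul_mem (F₀.mul_mem (R.rat v (a i)) (hc i)) (a i j).2)
  · rw [Matrix.GeneralLinearGroup.val_det_apply, Units.val_one]
    change (1 + A * B).det = 1
    rw [det_one_add_mul_comm]
    have e : 1 + B * A = diagonal fun i => 1 + c i * h (co (a i)) (co (a i)) := by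
      ext i j
      have hBA : (B * A) i j = c j * h (co (a j)) (co (a i)) := by
        rw [mul_apply, ← hvec_dot R.form (co (a i)) (co (a j)), dotProduct, Finset.mul_sum]
        exact Finset.sum_congr rfl fun x _ => by simp [hA, hB]; ring
      rw [Matrix.add_apply, hBA]
      rcases eq_or_ne i j with rfl | hij
      · simp
      · simp [hij, horth j i (Ne.symm hij)]
    rw [e, det_diagonal, hdet]
  · change h (S *ᵥ x) (S *ᵥ y) = h x y
    conv_lhs => rw [hSp y, herm_add_right R.form, herm_sum_right R.form]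
    simp only [herm_smul_right R.form, hSa, map_mul]
    rw [hSp, R.form.add_left, herm_sum_left R.form, add_assoc, ← Finset.sum_add_distrib,
      Finset.sum_eq_zero, add_zero]
    intro i _
    rw [R.form.smul_left, ← R.form.herm (co (a i)) y]
    linear_combination (h x (co (a i)) * h (co (a i)) y) * hiso i
  · change (S - 1).rank = k
    rw [hS, add_sub_cancel_left]
    refine le_antisymm ((rank_mul_le_left _ _).trans ((rank_le_card_width _).trans (by simp))) ?_
    have hle : Submodule.span F (Set.range fun i => co (a i)) ≤ LinearMap.range (A * B).mulVecLin := by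
      rw [Submodule.span_le]
      rintro _ ⟨j, rfl⟩
      obtain ⟨z, hz⟩ := R.exists_values ha (Pi.single j 1)
      refine ⟨(c j)⁻¹ • co z, ?_⟩
      rw [mulVecLin_apply, ← mulVec_mulVec, hA']
      simp only [hB', R.form.smul_left, hz]
      rw [Finset.sum_eq_single j (fun b _ hb => by simp [hb]) (by simp)]
      simp [hc0 j]
    have h4 := Submodule.finrank_mono hle
    rw [finrank_span_eq_card (li_co R ha), Fintype.card_fin] at h4
    exact h4

include hM hn

/-- Two rational involutions with different invariants. -/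
lemma exists_two_invol_herm :
    ∃ s s₀ : GL ι F, RatMat F₀ (s : Matrix ι ι F) ∧ RatMat F₀ (s₀ : Matrix ι ι F) ∧
      s ∈ M ∧ s₀ ∈ M ∧ s * s = 1 ∧ s₀ * s₀ = 1 ∧
      (s : Matrix ι ι F) ≠ 1 ∧ (s : Matrix ι ι F) ≠ -1 ∧
      (s₀ : Matrix ι ι F) ≠ 1 ∧ (s₀ : Matrix ι ι F) ≠ -1 ∧
      ((s : Matrix ι ι F) - 1).rank ≤ 4 ∧ ((s₀ : Matrix ι ι F) - 1).rank ≤ 4 ∧
      ((s : Matrix ι ι F) - 1).rank ≠ ((s₀ : Matrix ι ι F) - 1).rank := by
  classical
  suffices H : ∃ k l : ℕ, k ≠ l ∧ 0 < k ∧ 0 < l ∧ k ≤ 4 ∧ l ≤ 4 ∧ ∀ m ∈ ({k, l} : Set ℕ),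
      ∃ s : GL ι F, RatMat F₀ (s : Matrix ι ι F) ∧ s * s = 1 ∧
        Matrix.GeneralLinearGroup.det s = 1 ∧
        (∀ x y, h ((s : Matrix ι ι F) *ᵥ x) ((s : Matrix ι ι F) *ᵥ y) = h x y) ∧
        ((s : Matrix ι ι F) - 1).rank = m by
    obtain ⟨k, l, hkl, hk0, hl0, hk4, hl4, hm⟩ := H
    obtain ⟨s, sR, ss, sd, si, sr⟩ := hm k (by simp)
    obtain ⟨t, tR, tt, td, ti, tr⟩ := hm l (by simp)
    have ne : ∀ (u : GL ι F) (m : ℕ), ((u : Matrix ι ι F) - 1).rank = m → 0 < m → m ≤ 4 →
        (u : Matrix ι ι F) ≠ 1 ∧ (u : Matrix ι ι F) ≠ -1 := by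
      intro u m hu hm0 hm4
      refine ⟨fun e => ?_, fun e => ?_⟩
      · rw [e, sub_self, rank_zero] at hu; omega
      · rw [e] at hu
        by_cases h2 : (2 : F) = 0
        · rw [show (-1 : Matrix ι ι F) - 1 = (-2 : F) • 1 by rw [neg_smul, two_smul]; abel, h2,
            neg_zero, zero_smul, rank_zero] at hu
          omega
        · have := le_rank_neg_sub_one h2 (1 : Matrix ι ι F)
          rw [sub_self, rank_zero, hu] at this
          omega
    exact ⟨s, t, sR, tR, hM s sR sd si, hM t tR td ti, ss, tt, (ne s k sr hk0 hk4).1,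
      (ne s k sr hk0 hk4).2, (ne t l tr hl0 hl4).1, (ne t l tr hl0 hl4).2, by omega, by omega,
      by omega⟩
  by_cases h2 : (2 : F) = 0
  · obtain ⟨u₁, h11, -, h1s⟩ :=
      R.exists_iso_avoid (Fin.elim0 : Fin 0 → ι → F₀) ![0] (by omega) (by omega)
    have hu₁ : u₁ ≠ 0 := fun e => h1s (by rw [e]; exact Submodule.zero_mem _)
    obtain ⟨u₂, h22, h21, h2s⟩ := R.exists_iso_avoid ![u₁] ![u₁] (by omega) (by omega)
    have hu₂ : u₂ ∉ Submodule.span F₀ {u₁} := fun hc' => h2s (Submodule.span_mono (by simp) hc')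
    have e21 : h (co u₂) (co u₁) = 0 := h21 0
    obtain ⟨δ, hδ₀, hδ0, hδ⟩ := exists_skew₀ R
    refine ⟨1, 2, by norm_num, one_pos, two_pos, by norm_num, by norm_num, ?_⟩
    rintro m (rfl | rfl)
    · exact exists_invol_family R ![u₁] (LinearIndependent.of_subsingleton (0 : Fin 1) hu₁)
        (fun i j hij => absurd (Subsingleton.elim i j) hij) (fun _ => δ) (fun _ => hδ₀)
        (fun _ => hδ0) (fun i => by fin_cases i; simp [h11, h2])
        (fun i => by fin_cases i; simp [h11, hδ]) (by simp [h11])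
    · exact exists_invol_family R ![u₁, u₂] (li_pair hu₁ hu₂)
        (fun i j hij => by
          fin_cases i <;> fin_cases j <;> simp_all [herm_eq_zero_symm R.form e21])
        (fun _ => δ) (fun _ => hδ₀) (fun _ => hδ0)
        (fun i => by fin_cases i <;> simp [h11, h22, h2])
        (fun i => by fin_cases i <;> simp [h11, h22, hδ]) (by simp [h11, h22, Fin.prod_univ_two])
  · have step : ∀ {k : ℕ} (r : Fin k → ι → F₀), k ≤ 3 →
        ∃ a : ι → F₀, h (co a) (co a) ≠ 0 ∧ ∀ i, h (co a) (co (r i)) = 0 := by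
      intro k r hk
      have hd := card_le_finrank_upFam R.sub_form r
      obtain ⟨a, har, haa⟩ := exists_aniso R.sub_form (R := upFam R.sub_form r) (by omega)
      rw [mem_upFam] at har
      exact ⟨a, fun e => haa (Subtype.ext e), fun i => congrArg Subtype.val (har i)⟩
    obtain ⟨a₁, n1, -⟩ := step (Fin.elim0 : Fin 0 → ι → F₀) (by omega)
    obtain ⟨a₂, n2, o2⟩ := step ![a₁] (by omega)
    obtain ⟨a₃, n3, o3⟩ := step ![a₁, a₂] (by omega)
    obtain ⟨a₄, n4, o4⟩ := step ![a₁, a₂, a₃] (by omega)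
    have fam : ∀ {k : ℕ} (a : Fin k → ι → F₀), Even k → (∀ i, h (co (a i)) (co (a i)) ≠ 0) →
        (∀ i j, i ≠ j → h (co (a i)) (co (a j)) = 0) →
        ∃ s : GL ι F, RatMat F₀ (s : Matrix ι ι F) ∧ s * s = 1 ∧
          Matrix.GeneralLinearGroup.det s = 1 ∧
          (∀ x y, h ((s : Matrix ι ι F) *ᵥ x) ((s : Matrix ι ι F) *ᵥ y) = h x y) ∧
          ((s : Matrix ι ι F) - 1).rank = k := by
      intro k a hk hne ho
      refine exists_invol_family R a (Fintype.linearIndependent_iff.2 fun g hg j => ?_) ho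
        (fun i => -2 / h (co (a i)) (co (a i)))
        (fun i => F₀.div_mem (F₀.neg_mem (by
          rw [← one_add_one_eq_two]; exact F₀.add_mem F₀.one_mem F₀.one_mem)) (R.rat _ _))
        (fun i => div_ne_zero (neg_ne_zero.2 h2) (hne i))
        (fun i => by have := hne i; field_simp; ring)
        (fun i => by
          have := hne i
          rw [map_div₀, map_neg, map_ofNat, herm_self_fixed R.form]
          field_simp
          ring) ?_
      · have h1 := congrArg (fun x => R.sub x (a j)) hg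
        simp only [herm_sum_left R.sub_form, R.sub_form.smul_left, herm_zero_left R.sub_form] at h1
        rw [Finset.sum_eq_single j (fun b _ hb => by
          rw [show R.sub (a b) (a j) = 0 from Subtype.ext (ho b j hb), mul_zero]) (by simp)] at h1
        exact (mul_eq_zero.1 h1).resolve_right fun e => hne j (congrArg Subtype.val e)
      · rw [Finset.prod_eq_pow_card (b := (-1 : F))]
        · simp [hk.neg_one_pow]
        · intro i _
          rw [div_mul_cancel₀ _ (hne i)]
          ring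
    have o21 : h (co a₂) (co a₁) = 0 := o2 0
    have o31 : h (co a₃) (co a₁) = 0 := o3 0
    have o32 : h (co a₃) (co a₂) = 0 := o3 1
    have o41 : h (co a₄) (co a₁) = 0 := o4 0
    have o42 : h (co a₄) (co a₂) = 0 := o4 1
    have o43 : h (co a₄) (co a₃) = 0 := o4 2
    refine ⟨2, 4, by norm_num, two_pos, by norm_num, by norm_num, le_rfl, ?_⟩
    rintro m (rfl | rfl)
    · refine fam ![a₁, a₂] even_two (fun i => by fin_cases i <;> assumption) fun i j hij => ?_
      fin_cases i <;> fin_cases j <;> simp_all [herm_eq_zero_symm R.form o21]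
    · refine fam ![a₁, a₂, a₃, a₄] ⟨2, rfl⟩ (fun i => by fin_cases i <;> assumption) fun i j hij => ?_
      fin_cases i <;> fin_cases j <;> simp_all [herm_eq_zero_symm R.form o21,
        herm_eq_zero_symm R.form o31, herm_eq_zero_symm R.form o32, herm_eq_zero_symm R.form o41,
        herm_eq_zero_symm R.form o42, herm_eq_zero_symm R.form o43]

variable (hS : ∀ c, ShortH σ h F₀ M c → c ∈ F₀)
  (hMi : ∀ g ∈ M, ∀ x y, h ((g : Matrix ι ι F) *ᵥ x) ((g : Matrix ι ι F) *ᵥ y) = h x y)

include hS hMi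

/-- An element of the radical of a rational point has a rational vector part. -/
lemma rat_of_radical {v : ι → F₀} {x : ι → F} {γ : F} (hv : v ≠ 0)
    (hvv : h (co v) (co v) = 0) (hxv : h x (co v) = 0)
    (hq : Acts M fun p => p + h p (co v) • x + (γ * h p (co v) - h p x) • co v)
    {y : ι → F₀} (hyv : h (co y) (co v) = 0) : h x (co y) ∈ F₀ := by
  have isoCase : ∀ b : ι → F₀, h (co b) (co b) = 0 → h (co b) (co v) = 0 → h x (co b) ∈ F₀ := by
    intro b hbb hbv
    by_cases hb : b ∈ Submodule.span F₀ {v}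
    · obtain ⟨a, rfl⟩ := Submodule.mem_span_singleton.1 hb
      rw [co_smul, herm_smul_right R.form, hxv, mul_zero]
      exact F₀.zero_mem
    obtain ⟨δ, hδ₀, hδ0, hδ⟩ := exists_skew₀ R
    have hδs : δ + σ δ = 0 := by rw [hδ, add_neg_cancel]
    have hvb : h (co v) (co b) = 0 := herm_eq_zero_symm R.form hbv
    set c₁ := h x (co b) with hc₁
    set c := δ * c₁ with hc
    set g := utv R.form (co b) hbb δ
    have hgM : g ∈ M := ratT_mem R hM hbb hδ₀ hδs
    have hgv : (g : Matrix ι ι F) *ᵥ co v = co v := by rw [utv_mulVec, hvb]; simp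
    have hgx : (g : Matrix ι ι F) *ᵥ x = x + c • co b := by rw [utv_mulVec]
    have hgi := utv_isometry R.form (co b) hbb hδs
    set E : (ι → F) → ι → F := fun p =>
      p + (c * h p (co v)) • co b - (σ c * h p (co b) - σ c * c₁ * h p (co v)) • co v
    have hE : Acts M E := by
      refine (hq.conj hgM (ψ := fun p => p + h p (co v) • (x + c • co b) +
        (γ * h p (co v) - h p (x + c • co b)) • co v) fun p => ?_).cancel hq fun p => ?_
      · rw [mulVec_add, mulVec_add, mulVec_smul, mulVec_smul, hgv, ← hgx]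
        nth_rw 1 [← hgi p (co v), ← hgi p x, hgv]
        nth_rw 1 [← hgi p (co v), hgv]
      · simp only [E, R.form.add_left, R.form.smul_left, herm_add_right R.form,
          herm_smul_right R.form, hxv, hvb, hvv, ← hc₁]
        module
    obtain ⟨hb0, -⟩ := not_mem_span_symm hv hb
    obtain ⟨a, haa, ha⟩ := R.exists_iso_values' (li_pair hv hb) (by omega) ![0, 1]
    have hva : h (co v) (co a) = 0 := herm_eq_zero_symm R.form (ha 0)
    have hba : h (co b) (co a) = 1 := herm_eq_one_symm R.form (ha 1)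
    obtain ⟨z, hzz, hz, hzs⟩ := R.exists_iso_avoid ![v, b, a] ![v, b] (by omega) (by omega)
    have hzv : h (co z) (co v) = 0 := hz 0
    have hzb : h (co z) (co b) = 0 := hz 1
    have hza : h (co z) (co a) = 0 := hz 2
    have hvz : h (co v) (co z) = 0 := herm_eq_zero_symm R.form hzv
    have hbz : h (co b) (co z) = 0 := herm_eq_zero_symm R.form hzb
    obtain ⟨g', hg'M, hg'⟩ := ratQ_mem R hM (u := a) (v := z)
      ⟨haa, hzz, herm_eq_zero_symm R.form hza⟩ F₀.one_mem
    have hg'v : (g' : Matrix ι ι F) *ᵥ co v = co v := by rw [hg', qhH, hva, hvz]; simp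
    have hg'b : (g' : Matrix ι ι F) *ᵥ co b = co b + co z := by
      rw [hg', qhH, hba, hbz]
      simp
    have hg'i := hMi g' hg'M
    have h3 := hS _ (shortH_of_one R hM hn (c := c) hv
      (fun hc' => hzs (Submodule.span_mono (by simp) hc')) ⟨hvv, hzz, hvz⟩
      ((hE.conj hg'M (ψ := fun p => p + (c * h p (co v)) • (co b + co z) -
        (σ c * h p (co b + co z) - σ c * c₁ * h p (co v)) • co v) fun p => by
          simp only [E]
          rw [mulVec_sub, mulVec_add, mulVec_smul, mulVec_smul, hg'b, hg'v]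
          nth_rw 1 [← hg'i p (co v), ← hg'i p (co b), hg'v, hg'b]
          nth_rw 1 [← hg'i p (co v), hg'v]).cancel hE fun p => by
          simp only [E, qhH, herm_add_right R.form, herm_sub_left R.form, R.form.add_left,
            R.form.smul_left, hvv, hbv, hbz, hvz]
          module))
    have h4 := F₀.mul_mem (F₀.inv_mem hδ₀) h3
    rwa [inv_mul_cancel_left₀ hδ0] at h4
  obtain ⟨a, b, t, haa, hav, hbb, hbv, rfl⟩ := R.exists_decomp (by omega) hv hvv hyv
  rw [co_add, co_smul, herm_add_right R.form, herm_smul_right R.form]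
  exact F₀.add_mem (isoCase a haa hav) (F₀.mul_mem (R.stable _ t.2) (isoCase b hbb hbv))

/-- A transvection in `M` orthogonal to a rational point has rational centre. -/
lemma exists_rat_of_point {w : ι → F} (hww : h w w = 0) {δ : F} (hδ₀ : δ ∈ F₀) (hδ0 : δ ≠ 0)
    (hδ : σ δ = -δ) {e : ι → F₀} (he : e ≠ 0) (hee : h (co e) (co e) = 0)
    (hwe : h w (co e) = 0) (hq : Acts M fun p => p + (δ * h p w) • w) :
    ∃ ρ : F, ρ ≠ 0 ∧ ∃ r₀ : ι → F₀, co r₀ = ρ • w := by
  by_cases hex : ∃ u : ι → F₀, h (co u) (co u) = 0 ∧ h (co u) (co e) = 0 ∧ h w (co u) ≠ 0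
  swap
  · push Not at hex
    obtain ⟨μ, rfl⟩ := R.eq_smul_of_iso_orth (by omega) he hee
      fun x hx hxe => herm_eq_zero_symm R.form (hex x hx hxe)
    rcases eq_or_ne μ 0 with rfl | hμ
    · exact ⟨1, one_ne_zero, 0, by simp⟩
    · exact ⟨μ⁻¹, inv_ne_zero hμ, e, by rw [smul_smul, inv_mul_cancel₀ hμ, one_smul]⟩
  obtain ⟨u, huu, hue, hwu⟩ := hex
  set b := h w (co u) with hb
  set x := (-(δ * σ b)) • w with hx
  have rad : ∀ e' : ι → F₀, h (co e') (co e') = 0 → h (co u) (co e') = 0 → h w (co e') = 0 →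
      Acts M fun p => p + h p (co e') • x + (δ * σ b * b * h p (co e') - h p x) • co e' := by
    intro e' he'e he'u hwe'
    obtain ⟨g, hgM, hg⟩ := ratQ_mem R hM (u := e') (v := u)
      ⟨he'e, huu, herm_eq_zero_symm R.form he'u⟩ F₀.one_mem
    have hgw : (g : Matrix ι ι F) *ᵥ w = w - b • co e' := by
      rw [hg, qhH, hwe', ← hb]
      simp
    refine (hq.conj hgM (ψ := fun p => p + (δ * h p (w - b • co e')) • (w - b • co e'))
      fun p => ?_).cancel hq fun p => ?_
    · rw [mulVec_add, mulVec_smul, hgw]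
      nth_rw 1 [← hMi g hgM p w]
      rw [hgw]
    · simp only [hx, R.form.add_left, R.form.smul_left, herm_sub_right R.form,
        herm_smul_right R.form, map_neg, map_mul, R.form.involutive, hδ, hww, hwe']
      module
  have conv : ∀ z : F, -(δ * σ b) * z ∈ F₀ → σ b * z ∈ F₀ := by
    intro z hz
    have h2 := F₀.mul_mem (F₀.inv_mem (F₀.neg_mem hδ₀)) hz
    rwa [show (-δ)⁻¹ * (-(δ * σ b) * z) = (-δ)⁻¹ * (-δ) * (σ b * z) by ring,
      inv_mul_cancel₀ (neg_ne_zero.2 hδ0), one_mul] at h2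
  have key : ∀ z : ι → F₀, h (co z) (co e) = 0 → σ b * h w (co z) ∈ F₀ := by
    intro z hz
    have h1 := rat_of_radical R hM hn hS hMi he hee (by rw [hx, R.form.smul_left, hwe, mul_zero])
      (rad e hee hue hwe) hz
    rw [hx, R.form.smul_left] at h1
    exact conv _ h1
  have hσb : σ b ≠ 0 := (map_ne_zero σ).2 hwu
  obtain ⟨e', he'e', hee', hue', hwe', he'⟩ : ∃ e' : ι → F₀, h (co e') (co e') = 0 ∧
      h (co e') (co e) = 0 ∧ h (co u) (co e') = 0 ∧
      h w (co e') = 0 ∧ e' ∉ Submodule.span F₀ {e} := by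
    obtain ⟨x₁, i1, h1, h1s⟩ := R.exists_iso_avoid ![e, u] ![e] (by omega) (by omega)
    obtain ⟨x₂, i2, h2, h2s⟩ := R.exists_iso_avoid ![e, u, x₁] ![e, x₁] (by omega) (by omega)
    have hx1 : x₁ ∉ Submodule.span F₀ {e} := fun hc => h1s (Submodule.span_mono (by simp) hc)
    have e1 : h (co x₁) (co e) = 0 := h1 0
    have e2 : h (co x₂) (co e) = 0 := h2 0
    have e3 : h (co u) (co x₁) = 0 := herm_eq_zero_symm R.form (h1 1)
    have e4 : h (co u) (co x₂) = 0 := herm_eq_zero_symm R.form (h2 1)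
    have e5 : h (co x₂) (co x₁) = 0 := h2 2
    by_cases hw1 : h w (co x₁) = 0
    · exact ⟨x₁, i1, e1, e3, hw1, hx1⟩
    have hq' : h w (co x₂) / h w (co x₁) ∈ F₀ := by
      have := F₀.div_mem (key x₂ e2) (key x₁ e1)
      rwa [mul_div_mul_left _ _ hσb] at this
    have hqσ : σ (h w (co x₂) / h w (co x₁)) ∈ F₀ := R.stable _ hq'
    refine ⟨x₂ - (⟨_, hqσ⟩ : F₀) • x₁, ?_, ?_, ?_, ?_, fun hc => h2s ?_⟩
    · simp [herm_sub_left R.form, herm_sub_right R.form, R.form.smul_left, herm_smul_right R.form,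
        i1, i2, e5, herm_eq_zero_symm R.form e5]
    · simp [herm_sub_left R.form, R.form.smul_left, e1, e2]
    · simp [herm_sub_right R.form, herm_smul_right R.form, e3, e4]
    · rw [co_sub, co_smul, herm_sub_right R.form, herm_smul_right R.form]
      simp [R.form.involutive, div_mul_cancel₀ _ hw1]
    · have h3 := Submodule.add_mem _ (Submodule.span_mono
        (show ({e} : Set (ι → F₀)) ⊆ Set.range ![e, x₁] by simp) hc)
          (Submodule.smul_mem _ (⟨_, hqσ⟩ : F₀)
            (Submodule.subset_span (Set.mem_range_self (f := ![e, x₁]) 1)))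
      simpa using h3
  obtain ⟨he'0, -⟩ := not_mem_span_symm he he'
  obtain ⟨y, hy⟩ := R.exists_values (li_pair he he') ![1, 0]
  have hy1 : h (co y) (co e) = 1 := hy 0
  have hy2 : h (co y) (co e') = 0 := hy 1
  have hyw : σ b * h w (co y) ∈ F₀ := by
    have h1 := rat_of_radical R hM hn hS hMi he'0 he'e'
      (by rw [hx, R.form.smul_left, hwe', mul_zero]) (rad e' he'e' hue' hwe') hy2
    rw [hx, R.form.smul_left] at h1
    exact conv _ h1
  have all : ∀ z : ι → F₀, σ b * h w (co z) ∈ F₀ := by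
    intro z
    have h1 := key (z - R.sub z e • y)
      (by simp [herm_sub_left R.form, R.form.smul_left, hy1])
    have h3 := F₀.add_mem h1 (F₀.mul_mem (R.stable _ (R.rat z e)) hyw)
    convert h3 using 1
    simp only [co_sub, co_smul, IsRatHerm.coe_sub, herm_sub_right R.form, herm_smul_right R.form]
    ring
  obtain ⟨r₀, hr₀⟩ := R.exists_rat (w := σ b • w) fun z => by
    have := R.stable _ (all z)
    rwa [map_mul, R.form.involutive, ← R.form.herm, show b * h (co z) w =
      σ (σ b) * h (co z) w by rw [R.form.involutive], ← herm_smul_right R.form] at this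
  exact ⟨σ b, hσb, r₀, hr₀⟩

/-- An element intertwining two rational involutions is rational up to a scalar. -/
lemma scalRat_of_intertwine (hMd : ∀ g ∈ M, Matrix.GeneralLinearGroup.det g = 1)
    (hn' : 13 ≤ Fintype.card ι) {Z : GL ι F} {Z' : Matrix ι ι F} (hZM : Z ∈ M)
    (hZ : RatMat F₀ (Z : Matrix ι ι F)) (hZ' : RatMat F₀ Z') (hZg : Z * Z = 1)
    (h1 : (Z : Matrix ι ι F) ≠ 1) (hk : ((Z : Matrix ι ι F) - 1).rank ≤ 2 * 4)
    {y : GL ι F} (hy : y ∈ M)
    (hyZ : (y : Matrix ι ι F) * (Z : Matrix ι ι F) = Z' * (y : Matrix ι ι F)) :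
    ScalRat F₀ (y : Matrix ι ι F) := by
  classical
  have hZZ : (Z : Matrix ι ι F) * (Z : Matrix ι ι F) = 1 := by
    rw [← Units.val_mul, hZg, Units.val_one]
  set Zm := (Z : Matrix ι ι F) with hZm
  have hZi := hMi Z hZM
  have hyi := hMi y hy
  have hN : (y : Matrix ι ι F) * (Zm - 1) = (Z' - 1) * (y : Matrix ι ι F) := by
    rw [mul_sub, sub_mul, hyZ, mul_one, one_mul]
  -- fixed isotropic vector
  let Z₀ : Matrix ι ι F₀ := fun i j => ⟨(Zm - 1) i j, F₀.sub_mem (hZ i j) (ratMat_one i j)⟩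
  let Z₁ : Matrix ι ι F₀ := fun i j => ⟨(Z' - 1) i j, F₀.sub_mem (hZ' i j) (ratMat_one i j)⟩
  have hco₀ : ∀ v, co (Z₀ *ᵥ v) = (Zm - 1) *ᵥ co v := fun v => coe_mulVec_rat Z₀ v
  have hco₁ : ∀ v, co (Z₁ *ᵥ v) = (Z' - 1) *ᵥ co v := fun v => coe_mulVec_rat Z₁ v
  obtain ⟨v₀, hv₀K, hv₀0, hv₀v₀⟩ : ∃ v₀ ∈ LinearMap.ker Z₀.mulVecLin, v₀ ≠ 0 ∧
      R.sub v₀ v₀ = 0 := by
    refine exists_iso_of_two_le R.sub_form ?_
    have h2 := LinearMap.finrank_range_add_finrank_ker Z₀.mulVecLin
    rw [Module.finrank_fintype_fun_eq_card] at h2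
    have h3 : finrank F₀ (LinearMap.range Z₀.mulVecLin) ≤ (Zm - 1).rank := by
      let bs := Module.finBasis F₀ (LinearMap.range Z₀.mulVecLin)
      have hli : LinearIndependent F (fun i => co ((bs i : ι → F₀))) :=
        li_co R (bs.linearIndependent.map' (LinearMap.range Z₀.mulVecLin).subtype
        (Submodule.ker_subtype _))
      have hle : Submodule.span F (Set.range fun i => co ((bs i : ι → F₀))) ≤
          LinearMap.range (Zm - 1).mulVecLin := by
        rw [Submodule.span_le]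
        rintro _ ⟨i, rfl⟩
        obtain ⟨p, hp⟩ := (bs i).2
        exact ⟨co p, by rw [mulVecLin_apply, ← hco₀, ← mulVecLin_apply, hp]⟩
      have h4 := Submodule.finrank_mono hle
      rwa [finrank_span_eq_card hli, Fintype.card_fin] at h4
    omega
  have hv₀f : Zm *ᵥ co v₀ = co v₀ := by
    have h2 := hco₀ v₀
    rw [← mulVecLin_apply, LinearMap.mem_ker.1 hv₀K, co_zero, sub_mulVec, one_mulVec] at h2
    exact (sub_eq_zero.1 h2.symm)
  -- isotropic rational vector moved by `Z'`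
  obtain ⟨e, he, hee, hewo⟩ : ∃ e : ι → F₀, e ≠ 0 ∧ h (co e) (co e) = 0 ∧
      h ((y : Matrix ι ι F) *ᵥ co v₀) (co e) = 0 := by
    suffices H : ∃ e ∈ LinearMap.range Z₁.mulVecLin, e ≠ 0 ∧ h (co e) (co e) = 0 by
      obtain ⟨e, ⟨p, rfl⟩, he0, hee⟩ := H
      refine ⟨_, he0, hee, ?_⟩
      obtain ⟨x', hx'⟩ : ∃ x', (y : Matrix ι ι F) *ᵥ x' = co p := ⟨_, mulVec_inv_mulVec y _⟩
      rw [mulVecLin_apply, hco₁, ← hx', mulVec_mulVec, ← hN, ← mulVec_mulVec, hyi, sub_mulVec,
        one_mulVec, herm_sub_right R.form]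
      conv_lhs => arg 1; rw [← hv₀f, hZi]
      rw [sub_self]
    by_cases h2 : 2 ≤ finrank F₀ (LinearMap.range Z₁.mulVecLin)
    · obtain ⟨e, he, he0, hee⟩ := exists_iso_of_two_le R.sub_form h2
      exact ⟨e, he, he0, congrArg Subtype.val hee⟩
    obtain ⟨e, he, he0⟩ := Submodule.exists_mem_ne_zero_of_ne_bot
      (p := LinearMap.range Z₁.mulVecLin) (fun e => h1 (by
        have h0 : Z' - 1 = 0 := by
          refine ext_mulVec fun p => ?_
          rw [pi_eq_sum_univ' p, mulVec_sum, mulVec_sum]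
          refine Finset.sum_congr rfl fun k _ => ?_
          have h3 : Z₁ *ᵥ Pi.single k 1 ∈ LinearMap.range Z₁.mulVecLin := ⟨_, rfl⟩
          rw [e, Submodule.mem_bot] at h3
          have h4 := hco₁ (Pi.single k 1)
          rw [h3, co_zero, co_single, OneMemClass.coe_one] at h4
          rw [mulVec_smul, ← h4, smul_zero, zero_mulVec]
        rw [h0, zero_mul] at hN
        have h3 : Zm - 1 = 0 := by
          have := congrArg (fun X => ((y⁻¹ : GL ι F) : Matrix ι ι F) * X) hN
          simpa [← mul_assoc] using this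
        exact sub_eq_zero.1 h3))
    refine ⟨e, he, he0, ?_⟩
    have hspan : ∀ x ∈ LinearMap.range Z₁.mulVecLin, ∃ t : F₀, t • e = x := by
      intro x hx
      have h3 : finrank F₀ (Submodule.span F₀ {e}) = 1 := finrank_span_singleton he0
      have h4 : Submodule.span F₀ {e} = LinearMap.range Z₁.mulVecLin :=
        Submodule.eq_of_le_of_finrank_le (by simpa using he) (by omega)
      exact Submodule.mem_span_singleton.1 (h4.symm ▸ hx)
    choose t ht using fun j : ι => hspan (Z₁ *ᵥ Pi.single j 1) ⟨_, rfl⟩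
    have hform : Z' = tv (co e) fun j => (t j : F) := by
      ext i j
      have h3 := congrFun (hco₁ (Pi.single j 1)) i
      rw [← ht j, co_single, OneMemClass.coe_one, mulVec_single_one, co_smul, Pi.smul_apply,
        smul_eq_mul] at h3
      have h4 : (Z' - 1 : Matrix ι ι F) i j = (t j : F) * co e i := h3.symm
      rw [Matrix.sub_apply, sub_eq_iff_eq_add] at h4
      rw [h4, tv, Matrix.add_apply, vecMulVec_apply]
      ring
    set φ : ι → F := fun j => (t j : F)
    have hd : (Zm).det = 1 := by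
      have h3 := congrArg (fun u : Fˣ => (u : F)) (hMd Z hZM)
      simpa [Matrix.GeneralLinearGroup.val_det_apply] using h3
    have hφ : φ ⬝ᵥ co e = 0 := by
      have h3 := congrArg Matrix.det hyZ
      rw [det_mul, det_mul, hd, mul_one, hform, det_tv] at h3
      have hy0 : (y : Matrix ι ι F).det ≠ 0 := by
        rw [← Matrix.GeneralLinearGroup.val_det_apply]; exact Units.ne_zero _
      have h4 : (y : Matrix ι ι F).det * (φ ⬝ᵥ co e) = 0 := by linear_combination -h3
      exact (mul_eq_zero.1 h4).resolve_left hy0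
    have h2' : (2 : F) = 0 := by
      by_contra h2'
      refine h1 ?_
      have hZ'Z' : Z' * Z' = 1 := by
        have h3 : Z' * Z' * (y : Matrix ι ι F) = 1 * (y : Matrix ι ι F) := by
          rw [mul_assoc, ← hyZ, ← mul_assoc, ← hyZ, mul_assoc, hZZ, mul_one, one_mul]
        have := congrArg (fun X => X * ((y⁻¹ : GL ι F) : Matrix ι ι F)) h3
        simpa [mul_assoc] using this
      have h3 : (2 : F) • (vecMulVec (co e) φ) = 0 := by
        refine ext_mulVec fun p => ?_
        have h4 : Z' *ᵥ (Z' *ᵥ p) = p := by rw [mulVec_mulVec, hZ'Z', one_mulVec]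
        rw [hform, tv_mulVec, tv_mulVec, dotProduct_add, dotProduct_smul, hφ, smul_zero, add_zero,
          add_assoc, add_eq_left] at h4
        rw [zero_mulVec, smul_mulVec, vecMulVec_mulVec, op_smul_eq_smul, two_smul, h4]
      have h5 : Z' = 1 := by
        rw [hform, tv, (smul_eq_zero.1 h3).resolve_left h2', add_zero]
      have h6 := congrArg (fun X => ((y⁻¹ : GL ι F) : Matrix ι ι F) * X) hyZ
      rw [h5, one_mul] at h6
      simpa [← mul_assoc] using h6
    obtain ⟨p, hp⟩ := he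
    obtain ⟨q, hq⟩ : ∃ q, (y : Matrix ι ι F) *ᵥ q = co p := ⟨_, mulVec_inv_mulVec y _⟩
    have h3 : co e = (y : Matrix ι ι F) *ᵥ ((Zm - 1) *ᵥ q) := by
      rw [← hp, mulVecLin_apply, hco₁, ← hq, mulVec_mulVec, ← hN, ← mulVec_mulVec]
    have h4 : h (Zm *ᵥ q) q = h q (Zm *ᵥ q) := by
      rw [← hZi, mulVec_mulVec, hZZ, one_mulVec]
    rw [h3, hyi, sub_mulVec, one_mulVec, herm_sub_left R.form, herm_sub_right R.form,
      herm_sub_right R.form, hZi, h4]
    linear_combination (h q q - h q (Zm *ᵥ q)) * h2'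
  obtain ⟨δ, hδ₀, hδ0, hδ⟩ := exists_skew₀ R
  have hδs : δ + σ δ = 0 := by rw [hδ, add_neg_cancel]
  have conjT : ∀ v : ι → F₀, h (co v) (co v) = 0 →
      Acts M fun p => p + (δ * h p ((y : Matrix ι ι F) *ᵥ co v)) • ((y : Matrix ι ι F) *ᵥ co v) := by
    intro v hv
    refine Acts.conj hy ⟨_, ratT_mem R hM hv hδ₀ hδs, fun p => rfl⟩ fun p => ?_
    rw [hyi, utv_mulVec, mulVec_add, mulVec_smul]
  have hv₀v₀' : h (co v₀) (co v₀) = 0 := congrArg Subtype.val hv₀v₀
  have chain : ∀ {a x : ι → F₀} {ρ : F} {r₀ : ι → F₀}, a ≠ 0 → h (co a) (co a) = 0 →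
      h (co x) (co x) = 0 → h (co x) (co a) = 0 → ρ ≠ 0 →
      co r₀ = ρ • ((y : Matrix ι ι F) *ᵥ co a) →
      ∃ ρ' : F, ρ' ≠ 0 ∧ ∃ r' : ι → F₀, co r' = ρ' • ((y : Matrix ι ι F) *ᵥ co x) := by
    intro a x ρ r₀ ha haa hxx hxa hρ hr₀
    refine exists_rat_of_point R hM hn hS hMi (by rw [hyi, hxx]) hδ₀ hδ0 hδ (e := r₀)
      (fun e' => smul_ne_zero hρ (mulVec_ne_zero y (co_ne_zero ha)) (by rw [← hr₀, e', co_zero]))
      ?_ ?_ (conjT x hxx)
    · rw [hr₀, R.form.smul_left, herm_smul_right R.form, hyi, haa, mul_zero, mul_zero]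
    · rw [hr₀, herm_smul_right R.form, hyi, hxa, mul_zero]
  obtain ⟨ρ₀, hρ₀, r₀, hr₀⟩ := exists_rat_of_point R hM hn hS hMi
    (w := (y : Matrix ι ι F) *ᵥ co v₀) (by rw [hyi, hv₀v₀']) hδ₀ hδ0 hδ he hee hewo
    (conjT v₀ hv₀v₀')
  have line : ∀ x : ι → F₀, h (co x) (co x) = 0 → ∃ ρ : F, ρ ≠ 0 ∧
      ∃ r : ι → F₀, co r = ρ • ((y : Matrix ι ι F) *ᵥ co x) := by
    intro x hx
    obtain ⟨v₁, h11, hv₁, hv₁s⟩ := R.exists_iso_avoid ![v₀, x] ![0] (by omega) (by omega)
    have hv₁0 : v₁ ≠ 0 := fun e => hv₁s (by rw [e]; exact Submodule.zero_mem _)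
    obtain ⟨ρ, hρ, r₁, hr₁⟩ := chain hv₀0 hv₀v₀' h11 (hv₁ 0) hρ₀ hr₀
    exact chain hv₁0 h11 hx (herm_eq_zero_symm R.form (hv₁ 1)) hρ hr₁
  -- one scalar
  have same : ∀ {a b : ι → F₀}, a ≠ 0 → b ∉ Submodule.span F₀ {a} →
      h (co a) (co a) = 0 → h (co b) (co b) = 0 → h (co a) (co b) = 0 → ∀ {s : F}, s ≠ 0 →
      (∃ r : ι → F₀, co r = s • ((y : Matrix ι ι F) *ᵥ co a)) →
      ∃ r : ι → F₀, co r = s • ((y : Matrix ι ι F) *ᵥ co b) := by
    intro a b ha hb haa hbb hab s hs ⟨r₁, hr₁⟩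
    obtain ⟨ρ, hρ, r₂, hr₂⟩ := line b hbb
    obtain ⟨τ, hτ, r₃, hr₃⟩ := line (a + b) (by
      rw [co_add, R.form.add_left, herm_add_right R.form, herm_add_right R.form, haa, hbb, hab,
        herm_eq_zero_symm R.form hab]
      ring)
    have hy1 : (y : Matrix ι ι F) *ᵥ co a = s⁻¹ • co r₁ := by
      rw [hr₁, smul_smul, inv_mul_cancel₀ hs, one_smul]
    have hy2 : (y : Matrix ι ι F) *ᵥ co b = ρ⁻¹ • co r₂ := by
      rw [hr₂, smul_smul, inv_mul_cancel₀ hρ, one_smul]
    have hne : r₁ ≠ 0 := fun e =>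
      smul_ne_zero hs (mulVec_ne_zero y (co_ne_zero ha)) (by rw [← hr₁, e, co_zero])
    have hind : r₂ ∉ Submodule.span F₀ {r₁} := by
      intro hc
      obtain ⟨t, ht⟩ := Submodule.mem_span_singleton.1 hc
      have h3 : (y : Matrix ι ι F) *ᵥ (ρ • co b) =
          (y : Matrix ι ι F) *ᵥ (((t : F) * s) • co a) := by
        rw [mulVec_smul, mulVec_smul, ← hr₂, ← ht, co_smul, hr₁, smul_smul]
      have h4 := (mulVec_inj y).1 h3
      obtain ⟨k, hk⟩ := Function.ne_iff.1 ha
      have hq' : (t : F) * s / ρ ∈ F₀ := by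
        have h5 := congrFun h4 k
        simp only [Pi.smul_apply, co, smul_eq_mul] at h5
        have hak : (a k : F) ≠ 0 := fun e => hk (Subtype.ext e)
        rw [show (t : F) * s / ρ = (b k : F) / a k by
          field_simp
          linear_combination -h5]
        exact F₀.div_mem (b k).2 (a k).2
      refine hb (Submodule.mem_span_singleton.2 ⟨⟨_, hq'⟩, co_injective ?_⟩)
      rw [co_smul]
      funext i
      have h5 := congrFun h4 i
      simp only [Pi.smul_apply, co, smul_eq_mul] at h5 ⊢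
      field_simp
      linear_combination -h5
    obtain ⟨z, hz⟩ := R.exists_values (li_pair hne hind) ![1, 0]
    obtain ⟨z', hz'⟩ := R.exists_values (li_pair hne hind) ![0, 1]
    have hz1 : h (co z) (co r₁) = 1 := hz 0
    have hz2 : h (co z) (co r₂) = 0 := hz 1
    have hz1' : h (co z') (co r₁) = 0 := hz' 0
    have hz2' : h (co z') (co r₂) = 1 := hz' 1
    rw [co_add, mulVec_add, hy1, hy2] at hr₃
    have hc1 : τ * s⁻¹ ∈ F₀ := by
      have h3 := R.stable _ (R.rat z r₃)
      rw [hr₃] at h3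
      simpa [herm_add_right R.form, herm_smul_right R.form, R.form.involutive, hz1, hz2] using h3
    have hc2 : τ * ρ⁻¹ ∈ F₀ := by
      have h3 := R.stable _ (R.rat z' r₃)
      rw [hr₃] at h3
      simpa [herm_add_right R.form, herm_smul_right R.form, R.form.involutive, hz1', hz2'] using h3
    have hsρ : s * ρ⁻¹ ∈ F₀ := by
      have h3 := F₀.div_mem hc2 hc1
      rwa [mul_div_mul_left _ _ hτ, div_inv_eq_mul, mul_comm] at h3
    exact ⟨(⟨_, hsρ⟩ : F₀) • r₂, by rw [co_smul, hy2, smul_smul]⟩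
  obtain ⟨s, hs, hs₀⟩ := line v₀ hv₀v₀'
  have allIso : ∀ x : ι → F₀, h (co x) (co x) = 0 →
      ∃ r : ι → F₀, co r = s • ((y : Matrix ι ι F) *ᵥ co x) := by
    intro x hx
    by_cases hxv : x ∈ Submodule.span F₀ {v₀}
    · obtain ⟨t, rfl⟩ := Submodule.mem_span_singleton.1 hxv
      obtain ⟨r, hr⟩ := hs₀
      exact ⟨t • r, by rw [co_smul, co_smul, hr, mulVec_smul, smul_comm]⟩
    obtain ⟨hx0, -⟩ := not_mem_span_symm hv₀0 hxv
    obtain ⟨m, hmm, hm, hms⟩ := R.exists_iso_avoid ![v₀, x] ![v₀, x] (by omega) (by omega)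
    have hmv : m ∉ Submodule.span F₀ {v₀} := fun hc => hms (Submodule.span_mono (by simp) hc)
    have hmx : m ∉ Submodule.span F₀ {x} := fun hc => hms (Submodule.span_mono (by simp) hc)
    obtain ⟨hm0, hxm⟩ := not_mem_span_symm hx0 hmx
    exact same hm0 hxm hmm hx (hm 1) hs
      (same hv₀0 hmv hv₀v₀' hmm (herm_eq_zero_symm R.form (hm 0)) hs hs₀)
  have allRat : ∀ p : ι → F₀, ∃ r : ι → F₀, co r = s • ((y : Matrix ι ι F) *ᵥ co p) := by
    intro p
    rcases eq_or_ne p 0 with rfl | hp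
    · exact ⟨0, by simp⟩
    obtain ⟨f, hff, hf⟩ := R.exists_iso_values' (r := ![p])
      (LinearIndependent.of_subsingleton (0 : Fin 1) hp) (by omega) ![1]
    have hfp : h (co f) (co p) = 1 := hf 0
    obtain ⟨t, ht⟩ := exists_trace_eq R.sub_form.ne_refl R.sub_form.involutive (a := -R.sub p p)
      (by rw [map_neg, herm_self_fixed R.sub_form])
    have ht' : (t : F) + σ t = -h (co p) (co p) := congrArg Subtype.val ht
    obtain ⟨r₁, hr₁⟩ := allIso (p + t • f) (by
      rw [co_add, co_smul]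
      simp only [R.form.add_left, R.form.smul_left, herm_add_right R.form, herm_smul_right R.form,
        hff, hfp, herm_eq_one_symm R.form hfp, mul_zero, add_zero, mul_one]
      linear_combination ht')
    obtain ⟨r₂, hr₂⟩ := allIso f hff
    refine ⟨r₁ - t • r₂, ?_⟩
    rw [co_sub, co_smul, hr₁, hr₂, co_add, co_smul, mulVec_add, mulVec_smul]
    module
  refine ⟨s, hs, ratMat_of_maps fun v i => ?_⟩
  obtain ⟨r, hr⟩ := allRat v
  rw [smul_mulVec, ← hr]
  exact (r i).2

/-- Without irrational short root maps all of `M` is rational up to scalars. -/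
theorem forall_scalRat (hMd : ∀ g ∈ M, Matrix.GeneralLinearGroup.det g = 1)
    (hn' : 13 ≤ Fintype.card ι) : ∀ g ∈ M, ScalRat F₀ (g : Matrix ι ι F) := by
  obtain ⟨s, s₀, hsR, hs₀R, hsM, hs₀M, hss, hs₀s, hs1, hs1', hs₀1, hs₀1', hsr, hs₀r, hcl⟩ :=
    exists_two_invol_herm R hM hn
  exact forall_scalRat_of_intertwine (k := 4) (fun {Z} {Z'} hZ hZR hZ'R hZZ h1 _ hk {y} hy hyZ =>
    scalRat_of_intertwine R hM hn hS hMi hMd hn' hZ hZR hZ'R hZZ h1 hk hy hyZ)
    (by omega) hsR hs₀R hsM hs₀M hss hs₀s hs1 hs1' hs₀1 hs₀1' hsr hs₀r hcl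

end Cfsg.Lib.Classical.HermSub
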