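import Mathlib
import Cfsg.Agent.Lib.Classical.SymmForm
import Cfsg.Agent.Lib.Classical.Discriminant

/-!
The Witt type of an even dimensional symmetric form in odd characteristic via the discriminant, and
tensor products.
-/

set_option autoImplicit false

namespace Cfsg.Lib.Classical.WittType

open Module SymmForm

variable {F V : Type*} [Field F] [AddCommGroup V] [Module F V]

lemma nondeg_of_fam {ι : Type*} [Fintype ι] (b : Basis ι F V) {B : LinearMap.BilinForm F V}
    (hS : LinearMap.IsSymm B) {d : ι → F} (h : IsFam B b d) (hd : ∀ i, d i ≠ 0) : B.Nondegenerate := by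
  have key : ∀ x, (∀ y, B x y = 0) → x = 0 := by
    intro x hx
    rw [← b.sum_repr x]
    refine Finset.sum_eq_zero fun i _ => ?_
    have h1 := hx (b i)
    rw [← b.sum_repr x, map_sum, LinearMap.sum_apply,
      Finset.sum_eq_single i (fun j _ hj => by simp [h.1 j i hj]) (by simp)] at h1
    simp only [map_smul, LinearMap.smul_apply, h.2 i, smul_eq_mul, mul_eq_zero, hd i, or_false] at h1
    rw [h1, zero_smul]
  refine ⟨key, fun y hy => key y fun x => ?_⟩
  rw [show B y x = B x y by simpa using hS.eq y x]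
  exact hy x

lemma det_fam {ι : Type*} [Fintype ι] [DecidableEq ι] (b : Basis ι F V) {B : LinearMap.BilinForm F V}
    {d : ι → F} (h : IsFam B b d) : (LinearMap.BilinForm.toMatrix b B).det = ∏ i, d i := by
  rw [show LinearMap.BilinForm.toMatrix b B = Matrix.diagonal d from Matrix.ext fun i j => by
    rw [LinearMap.BilinForm.toMatrix_apply]
    rcases eq_or_ne i j with rfl | hij
    · simp [h.2 i]
    · simp [h.1 i j hij, hij], Matrix.det_diagonal]

/-- The square class of the Gram determinant does not depend on the basis. -/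
lemma det_change {ι : Type*} [Fintype ι] [DecidableEq ι] (b c : Basis ι F V) (B : LinearMap.BilinForm F V) :
    ∃ s : F, s ≠ 0 ∧ (LinearMap.BilinForm.toMatrix c B).det = s ^ 2 * (LinearMap.BilinForm.toMatrix b B).det := by
  have e3 := congrArg Matrix.det (LinearMap.BilinForm.toMatrix_mul_basis_toMatrix (b := b) c B)
  rw [Matrix.det_mul, Matrix.det_mul, Matrix.det_transpose] at e3
  refine ⟨(b.toMatrix ⇑c).det, fun h0 => ?_, by rw [← e3]; ring⟩
  have := congrArg Matrix.det (b.toMatrix_mul_toMatrix_flip c)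
  rw [Matrix.det_mul, Matrix.det_one, h0, zero_mul] at this
  exact zero_ne_one this

variable [FiniteDimensional F V]

/-- A totally isotropic half dimensional subspace forces a square discriminant. -/
theorem isSquare_of_ti {m : ℕ} (b : Basis (Fin (2 * m)) F V) {B : LinearMap.BilinForm F V}
    (hS : LinearMap.IsSymm B) {d : Fin (2 * m) → F} (h : IsFam B b d) {X : Submodule F V}
    (hX : finrank F X = m) (h0 : ∀ x ∈ X, ∀ y ∈ X, B x y = 0) : IsSquare ((-1) ^ m * ∏ i, d i) := by
  classical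
  obtain ⟨Y, hY⟩ := X.exists_isCompl
  have hfr : finrank F V = 2 * m := by rw [finrank_eq_card_basis b, Fintype.card_fin]
  have hYm : finrank F Y = m := by
    have := Submodule.finrank_add_eq_of_isCompl hY; omega
  let bX := Module.finBasisOfFinrankEq F X hX
  let bY := Module.finBasisOfFinrankEq F Y hYm
  let c : Basis (Fin m ⊕ Fin m) F V := (bX.prod bY).map (Submodule.prodEquivOfIsCompl X Y hY)
  let e : Fin m ⊕ Fin m ≃ Fin (2 * m) := finSumFinEquiv.trans (finCongr (by omega))
  obtain ⟨s, hs0, hs⟩ := det_change b (c.reindex e) B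
  have h1 : (LinearMap.BilinForm.toMatrix (c.reindex e) B).det = (LinearMap.BilinForm.toMatrix c B).det := by
    rw [show LinearMap.BilinForm.toMatrix (c.reindex e) B = (LinearMap.BilinForm.toMatrix c B).submatrix e.symm e.symm from
      Matrix.ext fun i j => by simp [LinearMap.BilinForm.toMatrix_apply], Matrix.det_submatrix_equiv_self]
  set G := LinearMap.BilinForm.toMatrix c B with hG
  have h11 : G.toBlocks₁₁ = 0 := Matrix.ext fun i j => by
    simp only [G, Matrix.toBlocks₁₁, Matrix.of_apply, LinearMap.BilinForm.toMatrix_apply, Matrix.zero_apply]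
    exact h0 _ (by simp [c]) _ (by simp [c])
  have h21 : G.toBlocks₂₁ = G.toBlocks₁₂.transpose := Matrix.ext fun i j => by
    simp only [G, Matrix.toBlocks₂₁, Matrix.toBlocks₁₂, Matrix.transpose_apply, Matrix.of_apply,
      LinearMap.BilinForm.toMatrix_apply]
    simpa using hS.eq (c (Sum.inr i)) (c (Sum.inl j))
  have hGb : G = Matrix.fromBlocks 0 G.toBlocks₁₂ G.toBlocks₁₂.transpose G.toBlocks₂₂ := by
    conv_lhs => rw [← G.fromBlocks_toBlocks, h11, h21]
  have hdet : G.det * (-1) ^ m = G.toBlocks₁₂.det ^ 2 := by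
    have h2 := congrArg Matrix.det (show Matrix.fromBlocks 0 G.toBlocks₁₂ G.toBlocks₁₂.transpose G.toBlocks₂₂ *
        Matrix.fromBlocks (0 : Matrix (Fin m) (Fin m) F) 1 1 0 =
        Matrix.fromBlocks G.toBlocks₁₂ 0 G.toBlocks₂₂ G.toBlocks₁₂.transpose by
      simp [Matrix.fromBlocks_multiply])
    rw [Matrix.det_mul, Discriminant.det_hyp, Matrix.det_fromBlocks_zero₁₂, Matrix.det_transpose, ← hGb] at h2
    rw [h2, sq]
  rw [det_fam b h] at hs
  refine ⟨G.toBlocks₁₂.det / s, ?_⟩
  rw [h1] at hs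
  field_simp
  linear_combination hdet - (-1 : F) ^ m * hs

/-- A square discriminant gives a totally isotropic half dimensional subspace. -/
theorem exists_ti [Finite F] (h2 : (2 : F) ≠ 0) {m : ℕ} (hm : 1 ≤ m) (b : Basis (Fin (2 * m)) F V)
    {B : LinearMap.BilinForm F V} (hS : LinearMap.IsSymm B) {d : Fin (2 * m) → F} (h : IsFam B b d)
    (hd : ∀ i, d i ≠ 0) (hsq : IsSquare ((-1) ^ m * ∏ i, d i)) :
    ∃ X : Submodule F V, finrank F X = m ∧ ∀ x ∈ X, ∀ y ∈ X, B x y = 0 := by
  classical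
  have : Fintype F := Fintype.ofFinite F
  obtain ⟨α, hα⟩ := FiniteField.exists_nonsquare (char_ne_two h2)
  have hfr : finrank F V = 2 * m - 1 + 1 := by rw [finrank_eq_card_basis b, Fintype.card_fin]; omega
  obtain ⟨w, e, he, hw⟩ := normal_form h2 B hS (nondeg_of_fam b hS h hd) hfr hα
  have he0 : e ≠ 0 := by
    rcases he with rfl | rfl
    · exact one_ne_zero
    · exact fun h => hα (h ▸ IsSquare.zero)
  have hprod : ∏ i, (if i = Fin.last (2 * m - 1) then e else 1) = e := by simp
  have hsq' : IsSquare ((-1) ^ m * e) := by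
    let w' := w.reindex (finCongr (by omega : 2 * m - 1 + 1 = 2 * m))
    obtain ⟨s, hs0, hs⟩ := det_change b w' B
    have h1 : (LinearMap.BilinForm.toMatrix w' B).det = e := by
      rw [← hprod, ← det_fam w hw, show LinearMap.BilinForm.toMatrix w' B =
        (LinearMap.BilinForm.toMatrix w B).submatrix (finCongr (by omega)) (finCongr (by omega)) from
        Matrix.ext fun i j => by simp [LinearMap.BilinForm.toMatrix_apply, w'], Matrix.det_submatrix_equiv_self]
    rw [h1, det_fam b h] at hs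
    obtain ⟨t, ht⟩ := hsq
    exact ⟨s * t, by rw [hs]; linear_combination s ^ 2 * ht⟩
  -- vectors and values indexed by natural numbers
  let W : ℕ → V := fun k => if hk : k < 2 * m - 1 + 1 then w ⟨k, hk⟩ else 0
  let D : ℕ → F := fun k => if k = 2 * m - 1 then e else 1
  have hW : ∀ k l, k < 2 * m → B (W k) (W l) = if k = l then D k else 0 := by
    intro k l hk
    have hk' : k < 2 * m - 1 + 1 := by omega
    simp only [W, dif_pos hk']
    rcases eq_or_ne k l with rfl | hkl
    · rw [dif_pos hk', if_pos rfl, hw.2]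
      simp [D, Fin.ext_iff]
    · rw [if_neg hkl]
      split_ifs with hl
      · exact hw.1 _ _ (by simp [Fin.ext_iff, hkl])
      · simp
  obtain ⟨a, a', ha⟩ := exists_sq_add_sq h2 (-1 : F)
  -- the last pair
  set r := m / 2 with hr
  obtain ⟨s, hs⟩ : ∃ s : F, Odd m → s ^ 2 * e = -1 := by
    by_cases ho : Odd m
    · obtain ⟨t, ht⟩ := hsq'
      rw [ho.neg_one_pow] at ht
      have ht0 : t ≠ 0 := fun h => he0 (by rw [h, mul_zero, neg_one_mul, neg_eq_zero] at ht; exact ht)
      exact ⟨t⁻¹, fun _ => by field_simp; linear_combination -ht⟩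
    · exact ⟨0, fun h => absurd h ho⟩
  obtain ⟨u, hu⟩ : ∃ u : F, Even m → u ^ 2 * e = 1 := by
    by_cases hev : Even m
    · obtain ⟨t, ht⟩ := hsq'
      rw [hev.neg_one_pow, one_mul] at ht
      have ht0 : t ≠ 0 := fun h => he0 (by rw [ht, h, mul_zero])
      exact ⟨t⁻¹, fun _ => by field_simp; linear_combination ht⟩
    · exact ⟨1, fun h => absurd h hev⟩
  -- scaling of the last vector of a quadruple
  let Z : ℕ → V := fun k => (if k = 2 * m - 1 ∧ Even m then u else 1) • W k
  have hZ : ∀ k l, k < 2 * m → B (Z k) (Z l) =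
      if k = l then (if k = 2 * m - 1 ∧ Odd m then e else 1) else 0 := by
    intro k l hk
    simp only [Z, map_smul, LinearMap.smul_apply, smul_eq_mul, hW k l hk, D]
    rcases eq_or_ne k l with rfl | hkl
    · rcases Nat.even_or_odd m with hev | ho
      · simp only [hev, and_true, Nat.not_odd_iff_even.2 hev, and_false, if_false, if_true]
        split_ifs with h1
        · linear_combination hu hev
        · ring
      · simp [ho, Nat.not_even_iff_odd.2 ho]
    · simp [hkl]
  let x : Fin m → V := fun i =>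
    if (i : ℕ) = 2 * r then Z (4 * r) + s • Z (4 * r + 1)
    else Z (4 * ((i : ℕ) / 2) + (i : ℕ) % 2) +
      (if (i : ℕ) % 2 = 0 then a else a') • Z (4 * ((i : ℕ) / 2) + 2) +
      (if (i : ℕ) % 2 = 0 then a' else -a) • Z (4 * ((i : ℕ) / 2) + 3)
  let p : Fin m → ℕ := fun i => 4 * ((i : ℕ) / 2) + (i : ℕ) % 2
  have hcases : ∀ i : Fin m, ((i : ℕ) = 2 * r ∧ Odd m) ∨ ((i : ℕ) ≠ 2 * r ∧ 4 * ((i : ℕ) / 2) + 3 < 2 * m) := by
    intro i
    have hi := i.2
    rw [Nat.odd_iff]
    omega
  have hxp : ∀ i j : Fin m, B (x i) (Z (p j)) = if i = j then 1 else 0 := by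
    intro i j
    have hj := hcases j
    rcases hcases i with ⟨hi, ho⟩ | ⟨hi, hi'⟩
    · have ho' := Nat.odd_iff.1 ho
      simp only [x, if_pos hi, map_add, map_smul, LinearMap.add_apply, LinearMap.smul_apply,
        hZ _ _ (show 4 * r < 2 * m by omega), hZ _ _ (show 4 * r + 1 < 2 * m by omega), smul_eq_mul]
      rcases eq_or_ne i j with rfl | hij
      · rw [if_pos (show 4 * r = p i by simp only [p]; omega), if_neg (show ¬ (4 * r + 1 = p i) by simp only [p]; omega),
          if_neg (show ¬ (4 * r = 2 * m - 1 ∧ Odd m) by omega), if_pos rfl, mul_zero, add_zero]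
      · have hne : (i : ℕ) ≠ j := fun h => hij (Fin.ext h)
        rw [if_neg (show ¬ (4 * r = p j) by simp only [p]; omega), if_neg (show ¬ (4 * r + 1 = p j) by simp only [p]; omega),
          if_neg hij, mul_zero, add_zero]
    · simp only [x, if_neg hi, map_add, map_smul, LinearMap.add_apply, LinearMap.smul_apply,
        hZ _ _ (show 4 * ((i : ℕ) / 2) + (i : ℕ) % 2 < 2 * m by omega),
        hZ _ _ (show 4 * ((i : ℕ) / 2) + 2 < 2 * m by omega), hZ _ _ hi', smul_eq_mul]
      rw [if_neg (show ¬ (4 * ((i : ℕ) / 2) + (i : ℕ) % 2 = 2 * m - 1 ∧ Odd m) by omega),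
        if_neg (show ¬ (4 * ((i : ℕ) / 2) + 2 = p j) by simp only [p]; omega),
        if_neg (show ¬ (4 * ((i : ℕ) / 2) + 3 = p j) by simp only [p]; omega)]
      rcases eq_or_ne i j with rfl | hij
      · rw [if_pos rfl, if_pos rfl, mul_zero, mul_zero, add_zero, add_zero]
      · have hne : (i : ℕ) ≠ j := fun h => hij (Fin.ext h)
        rw [if_neg (show ¬ (4 * ((i : ℕ) / 2) + (i : ℕ) % 2 = p j) by simp only [p]; omega), if_neg hij,
          mul_zero, mul_zero, add_zero, add_zero]
  have hxx : ∀ i j : Fin m, B (x i) (x j) = 0 := by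
    intro i j
    rcases hcases i with ⟨hi, ho⟩ | ⟨hi, hi'⟩ <;> rcases hcases j with ⟨hj, ho'⟩ | ⟨hj, hj'⟩
    · have := Nat.odd_iff.1 ho
      simp only [x, if_pos hi, if_pos hj, map_add, map_smul, LinearMap.add_apply, LinearMap.smul_apply,
        hZ _ _ (show 4 * r < 2 * m by omega), hZ _ _ (show 4 * r + 1 < 2 * m by omega), smul_eq_mul]
      simp [show ¬ (4 * r = 2 * m - 1) by omega, show ¬ (2 * m - 1 = 4 * r) by omega, show 4 * r + 1 = 2 * m - 1 by omega, ho]
      linear_combination hs ho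
    · have := Nat.odd_iff.1 ho
      simp only [x, if_pos hi, if_neg hj, map_add, map_smul, LinearMap.add_apply, LinearMap.smul_apply,
        hZ _ _ (show 4 * r < 2 * m by omega), hZ _ _ (show 4 * r + 1 < 2 * m by omega), smul_eq_mul]
      simp only [if_neg (show ¬ (4 * r = 4 * ((j : ℕ) / 2) + (j : ℕ) % 2) by omega),
        if_neg (show ¬ (4 * r + 1 = 4 * ((j : ℕ) / 2) + (j : ℕ) % 2) by omega),
        if_neg (show ¬ (4 * r = 4 * ((j : ℕ) / 2) + 2) by omega),
        if_neg (show ¬ (4 * r + 1 = 4 * ((j : ℕ) / 2) + 2) by omega),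
        if_neg (show ¬ (4 * r = 4 * ((j : ℕ) / 2) + 3) by omega),
        if_neg (show ¬ (4 * r + 1 = 4 * ((j : ℕ) / 2) + 3) by omega), mul_zero, add_zero]
    · have := Nat.odd_iff.1 ho'
      simp only [x, if_neg hi, if_pos hj, map_add, map_smul, LinearMap.add_apply, LinearMap.smul_apply,
        hZ _ _ (show 4 * ((i : ℕ) / 2) + (i : ℕ) % 2 < 2 * m by omega),
        hZ _ _ (show 4 * ((i : ℕ) / 2) + 2 < 2 * m by omega), hZ _ _ hi', smul_eq_mul]
      simp only [if_neg (show ¬ (4 * ((i : ℕ) / 2) + (i : ℕ) % 2 = 4 * r) by omega),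
        if_neg (show ¬ (4 * ((i : ℕ) / 2) + (i : ℕ) % 2 = 4 * r + 1) by omega),
        if_neg (show ¬ (4 * ((i : ℕ) / 2) + 2 = 4 * r) by omega),
        if_neg (show ¬ (4 * ((i : ℕ) / 2) + 2 = 4 * r + 1) by omega),
        if_neg (show ¬ (4 * ((i : ℕ) / 2) + 3 = 4 * r) by omega),
        if_neg (show ¬ (4 * ((i : ℕ) / 2) + 3 = 4 * r + 1) by omega), mul_zero, add_zero]
    · simp only [x, if_neg hi, if_neg hj, map_add, map_smul, LinearMap.add_apply, LinearMap.smul_apply,
        hZ _ _ (show 4 * ((i : ℕ) / 2) + (i : ℕ) % 2 < 2 * m by omega),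
        hZ _ _ (show 4 * ((i : ℕ) / 2) + 2 < 2 * m by omega), hZ _ _ hi', smul_eq_mul]
      have hno : ∀ k, 4 * ((i : ℕ) / 2) + k < 2 * m → k ≤ 3 →
          ¬ (4 * ((i : ℕ) / 2) + k = 2 * m - 1 ∧ Odd m) := by
        intro k hk hk3 ⟨h1, h3⟩
        rw [Nat.odd_iff] at h3; omega
      simp only [if_neg (hno ((i : ℕ) % 2) (by omega) (by omega)), if_neg (hno 2 (by omega) (by omega)), if_neg (hno 3 hi' le_rfl)]
      by_cases hq : (i : ℕ) / 2 = (j : ℕ) / 2
      · rw [← hq]
        rcases Nat.mod_two_eq_zero_or_one i with hi2 | hi2 <;> rcases Nat.mod_two_eq_zero_or_one j with hj2 | hj2 <;>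
          simp [hi2, hj2] <;> first | linear_combination ha | linear_combination -ha | ring1
      · simp only [if_neg (show ¬ (4 * ((i : ℕ) / 2) + (i : ℕ) % 2 = 4 * ((j : ℕ) / 2) + (j : ℕ) % 2) by omega),
          if_neg (show ¬ (4 * ((i : ℕ) / 2) + (i : ℕ) % 2 = 4 * ((j : ℕ) / 2) + 2) by omega),
          if_neg (show ¬ (4 * ((i : ℕ) / 2) + (i : ℕ) % 2 = 4 * ((j : ℕ) / 2) + 3) by omega),
          if_neg (show ¬ (4 * ((i : ℕ) / 2) + 2 = 4 * ((j : ℕ) / 2) + (j : ℕ) % 2) by omega),
          if_neg (show ¬ (4 * ((i : ℕ) / 2) + 2 = 4 * ((j : ℕ) / 2) + 2) by omega),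
          if_neg (show ¬ (4 * ((i : ℕ) / 2) + 2 = 4 * ((j : ℕ) / 2) + 3) by omega),
          if_neg (show ¬ (4 * ((i : ℕ) / 2) + 3 = 4 * ((j : ℕ) / 2) + (j : ℕ) % 2) by omega),
          if_neg (show ¬ (4 * ((i : ℕ) / 2) + 3 = 4 * ((j : ℕ) / 2) + 2) by omega),
          if_neg (show ¬ (4 * ((i : ℕ) / 2) + 3 = 4 * ((j : ℕ) / 2) + 3) by omega), mul_zero, add_zero]
  have hli : LinearIndependent F x := by
    rw [Fintype.linearIndependent_iff]
    intro c hc j
    have h1 := congrArg (fun z => B z (Z (p j))) hc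
    simp only [map_sum, LinearMap.sum_apply, map_smul, LinearMap.smul_apply, hxp, map_zero,
      LinearMap.zero_apply, smul_eq_mul, mul_ite, mul_one, mul_zero, Finset.sum_ite_eq', Finset.mem_univ,
      if_true] at h1
    exact h1
  refine ⟨Submodule.span F (Set.range x), (finrank_span_eq_card hli).trans (Fintype.card_fin m), ?_⟩
  intro y hy z hz
  rw [Submodule.mem_span_range_iff_exists_fun] at hy hz
  obtain ⟨c, rfl⟩ := hy
  obtain ⟨c', rfl⟩ := hz
  simp [hxx]

/-- The tensor product of two orthogonal bases. -/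
lemma tensor_fam {W : Type*} [AddCommGroup W] [Module F W] {a c : ℕ} (b₁ : Basis (Fin a) F V)
    (b₂ : Basis (Fin c) F W) {B₁ : LinearMap.BilinForm F V} {B₂ : LinearMap.BilinForm F W} {d₁ : Fin a → F}
    {d₂ : Fin c → F} (h₁ : IsFam B₁ b₁ d₁) (h₂ : IsFam B₂ b₂ d₂) :
    IsFam (B₁.tmul B₂) (b₁.tensorProduct b₂) (fun p => d₁ p.1 * d₂ p.2) := by
  refine ⟨fun i j hij => ?_, fun i => ?_⟩
  · rw [Basis.tensorProduct_apply', Basis.tensorProduct_apply']
    have : i.1 ≠ j.1 ∨ i.2 ≠ j.2 := by
      by_contra hc; push Not at hc; exact hij (Prod.ext hc.1 hc.2)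
    rcases this with h | h
    · simp [h₁.1 _ _ h]
    · simp [h₂.1 _ _ h]
  · rw [Basis.tensorProduct_apply']
    simp [h₁.2, h₂.2, mul_comm]

lemma prod_tensor {a c : ℕ} (d₁ : Fin a → F) (d₂ : Fin c → F) :
    ∏ p : Fin a × Fin c, d₁ p.1 * d₂ p.2 = (∏ i, d₁ i) ^ c * (∏ j, d₂ j) ^ a := by
  rw [Finset.prod_mul_distrib, Fintype.prod_prod_type, Fintype.prod_prod_type_right, Finset.prod_comm]
  simp [Finset.prod_pow]

end Cfsg.Lib.Classical.WittType
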